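import Cfsg.Statements.S2562
import Cfsg.Agent.Lib.OrthBasis
import Cfsg.Agent.Lib.OrthWitt

set_option autoImplicit false
open Cfsg

namespace Cfsg.Agent.S2562

open Cfsg.Agent.Lib.OrthE Cfsg.Agent.Lib.OrthOmega Cfsg.Agent.Lib.OrthStd2 Cfsg.Agent.Lib.OrthWitt Cfsg.Agent.Lib.OrthClass

/-- Witt indices over the field of two elements, m ≥ 1: for the plus-type form Σ xᵢyᵢ in dimension 2m some m-dimensional subspace is totally singular and no totally singular subspace has larger dimension; for the minus-type form Σ xᵢyᵢ + (z₁² + z₁z₂ + z₂²) in dimension 2m the maximal dimension of a totally singular subspace is m − 1. -/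
theorem result (m : ℕ) (hm : 1 ≤ m) :
    (∃ U : Submodule (ZMod 2) (Fin m ⊕ Fin m → ZMod 2), (∀ u ∈ U, Cfsg.quadFormPlus m (ZMod 2) u = 0) ∧ Module.finrank (ZMod 2) ↥U = m) ∧
    (∀ U : Submodule (ZMod 2) (Fin m ⊕ Fin m → ZMod 2), (∀ u ∈ U, Cfsg.quadFormPlus m (ZMod 2) u = 0) → Module.finrank (ZMod 2) ↥U ≤ m) ∧
    (∃ U : Submodule (ZMod 2) ((Fin (m - 1) ⊕ Fin (m - 1)) ⊕ Fin 2 → ZMod 2), (∀ u ∈ U, Cfsg.quadFormMinus (m - 1) (ZMod 2) 1 1 u = 0) ∧ Module.finrank (ZMod 2) ↥U = m - 1) ∧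
    (∀ U : Submodule (ZMod 2) ((Fin (m - 1) ⊕ Fin (m - 1)) ⊕ Fin 2 → ZMod 2), (∀ u ∈ U, Cfsg.quadFormMinus (m - 1) (ZMod 2) 1 1 u = 0) → Module.finrank (ZMod 2) ↥U ≤ m - 1) := by
  obtain ⟨k, rfl⟩ : ∃ k, m = k + 1 := ⟨m - 1, by omega⟩
  simp only [Nat.add_sub_cancel]
  have hP := quadFormPlus_nondeg (F := ZMod 2) (m := k + 1)
  have hab : ∀ z₁ z₂ : ZMod 2, z₁ ^ 2 + 1 * z₁ * z₂ + 1 * z₂ ^ 2 = 0 → z₁ = 0 ∧ z₂ = 0 := by decide
  have hM := quadFormMinus_nondeg (F := ZMod 2) (m := k) (a := 1) (b := 1) hab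
  let φ : Fin k ⊕ Fin 2 → (Fin k ⊕ Fin k) ⊕ Fin 2 := Sum.elim (fun i => Sum.inl (Sum.inr i)) Sum.inr
  have hφ : Function.Injective φ := by
    rintro (i | i) (j | j) h <;> simp [φ] at h <;> simp [h]
  let T : Submodule (ZMod 2) ((Fin k ⊕ Fin k) ⊕ Fin 2 → ZMod 2) := LinearMap.ker (LinearMap.funLeft (ZMod 2) (ZMod 2) φ)
  have hmemT : ∀ v, v ∈ T ↔ (∀ i, v (Sum.inl (Sum.inr i)) = 0) ∧ (∀ j, v (Sum.inr j) = 0) := by
    intro v
    simp only [T, LinearMap.mem_ker]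
    constructor
    · intro h
      exact ⟨fun i => congrFun h (Sum.inl i), fun j => congrFun h (Sum.inr j)⟩
    · rintro ⟨h1, h2⟩
      ext (i | i)
      · exact h1 i
      · exact h2 i
  have hfT : Module.finrank (ZMod 2) T = k := by
    have h := LinearMap.finrank_range_add_finrank_ker (LinearMap.funLeft (ZMod 2) (ZMod 2) φ)
    have hs : LinearMap.range (LinearMap.funLeft (ZMod 2) (ZMod 2) φ) = ⊤ :=
      LinearMap.range_eq_top.2 (LinearMap.funLeft_surjective_of_injective _ _ _ hφ)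
    rw [hs, finrank_top] at h
    simp only [Module.finrank_fintype_fun_eq_card, Fintype.card_fin, Fintype.card_sum] at h
    simp only [T]
    omega
  have htsT : ∀ u ∈ T, Cfsg.quadFormMinus k (ZMod 2) 1 1 u = 0 := by
    intro u hu
    obtain ⟨h1, h2⟩ := (hmemT u).1 hu
    simp [Cfsg.quadFormMinus, h1, h2]
  refine ⟨⟨U0 (ZMod 2) (k + 1), ts_U0, finrank_U0⟩, ?_, ⟨T, htsT, hfT⟩, ?_⟩
  · intro U hU
    have hle : U ≤ perp hP U := fun x hx => (mem_perp hP).2 fun w hw => Cfsg.Agent.Lib.OrthWitt.B_of_sing hP hU hw hx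
    have h1 := Submodule.finrank_mono hle
    have h2 := finrank_perp hP U
    simp only [Fintype.card_sum, Fintype.card_fin] at h2
    omega
  · intro U hU
    have := Cfsg.Agent.Lib.OrthWitt.ts_le hM hU htsT (by
      intro v hv hQv
      rw [hmemT]
      have hS := Cfsg.Agent.Lib.OrthOrder3.hypSys_minus (F := ZMod 2) (k := k) (a := 1) (b := 1)
      have h1 : ∀ i, v (Sum.inl (Sum.inr i)) = 0 := by
        intro i
        have hei : (Pi.single (Sum.inl (Sum.inr i)) 1 : (Fin k ⊕ Fin k) ⊕ Fin 2 → ZMod 2) = Cfsg.Agent.Lib.OrthOrder3.fM i := rfl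
        have h3 := (mem_perp hM).1 hv (Cfsg.Agent.Lib.OrthOrder3.eM i) ((hmemT _).2 ⟨by
          intro j
          simp [Cfsg.Agent.Lib.OrthOrder3.eM], by
          intro j
          simp [Cfsg.Agent.Lib.OrthOrder3.eM]⟩)
        rw [polar_minus] at h3
        simpa [Cfsg.Agent.Lib.OrthOrder3.eM, Pi.single_apply, Finset.sum_ite_eq] using h3
      have h3 : Cfsg.quadFormMinus k (ZMod 2) 1 1 v = v (Sum.inr 0) ^ 2 + 1 * v (Sum.inr 0) * v (Sum.inr 1) + 1 * v (Sum.inr 1) ^ 2 := by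
        simp [Cfsg.quadFormMinus, h1]
      rw [h3] at hQv
      obtain ⟨h4, h5⟩ := hab _ _ hQv
      refine ⟨h1, fun j => ?_⟩
      fin_cases j
      · exact h4
      · exact h5)
    rw [hfT] at this
    exact this

end Cfsg.Agent.S2562
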