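import Cfsg.Statements.S5638


set_option autoImplicit false
open Cfsg

namespace Cfsg.Agent.S5638


open Matrix Kronecker

/-- The elements semi-commuting with an element of order dividing three. -/
def semiNorm {G : Type*} [Group G] (W : G) (hW : W * W * W = 1) : Subgroup G where
  carrier := {g | g * W = W * g ∨ g * W = W * W * g}
  mul_mem' := by
    intro a b ha hb
    have hW' : ∀ x, W * (W * (W * x)) = x := fun x => by
      rw [← mul_assoc, ← mul_assoc, hW, one_mul]
    rcases ha with ha | ha <;> rcases hb with hb | hb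
    · left
      rw [mul_assoc, hb, ← mul_assoc, ha, mul_assoc]
    · right
      have ha' : ∀ x, a * (W * x) = W * (a * x) := fun x => by rw [← mul_assoc, ha, mul_assoc]
      rw [mul_assoc, hb, mul_assoc, ha', ha']
      simp only [mul_assoc]
    · right
      have ha' : ∀ x, a * (W * x) = W * (W * (a * x)) := fun x => by
        rw [← mul_assoc, ha]
        simp only [mul_assoc]
      rw [mul_assoc, hb, ha']
      simp only [mul_assoc]
    · left
      have ha' : ∀ x, a * (W * x) = W * (W * (a * x)) := fun x => by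
        rw [← mul_assoc, ha]
        simp only [mul_assoc]
      rw [mul_assoc, hb, mul_assoc, ha', ha', hW']
  one_mem' := Or.inl (by simp)
  inv_mem' := by
    intro a ha
    have hW' : ∀ x, W * (W * (W * x)) = x := fun x => by
      rw [← mul_assoc, ← mul_assoc, hW, one_mul]
    rcases ha with ha | ha
    · left
      rw [inv_mul_eq_iff_eq_mul, ← mul_assoc, ha, mul_assoc, mul_inv_cancel, mul_one]
    · right
      rw [inv_mul_eq_iff_eq_mul]
      have ha' : ∀ x, a * (W * x) = W * (W * (a * x)) := fun x => by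
        rw [← mul_assoc, ha]
        simp only [mul_assoc]
      rw [mul_assoc, ha', ha', mul_inv_cancel, mul_one, ← mul_assoc W W, ← mul_assoc (W * W), hW, one_mul]

theorem mem_semiNorm {G : Type*} [Group G] (W : G) (hW : W * W * W = 1) (g : G) :
    g ∈ semiNorm W hW ↔ g * W = W * g ∨ g * W = W * W * g := Iff.rfl

variable {F : Type*} [Field F] [Fintype F]

theorem f2_cases (hF : Fintype.card F = 2) (x : F) : x = 0 ∨ x = 1 := by
  classical
  by_contra hc
  push Not at hc
  have h3 : ({0, 1, x} : Finset F).card = 3 := by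
    rw [Finset.card_insert_of_notMem, Finset.card_insert_of_notMem, Finset.card_singleton]
    · simpa using hc.2.symm
    · simp only [Finset.mem_insert, Finset.mem_singleton, not_or]
      exact ⟨zero_ne_one, hc.1.symm⟩
  have := Finset.card_le_univ ({0, 1, x} : Finset F)
  omega

theorem f2_two (hF : Fintype.card F = 2) : (1 : F) + 1 = 0 := by
  rcases f2_cases hF ((1 : F) + 1) with h | h
  · exact h
  · exact absurd (by simpa using h) (one_ne_zero (α := F))

/-- `J`, an element of order three -/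
def JM (F : Type*) [Field F] : Matrix (Fin 2) (Fin 2) F := !![0, 1; 1, 1]

theorem JM_cube (hF : Fintype.card F = 2) : JM F * JM F * JM F = 1 := by
  have h2 := f2_two hF
  ext i j
  fin_cases i <;> fin_cases j <;> simp [JM, Matrix.mul_apply, Fin.sum_univ_two, h2]

theorem JM_semi (hF : Fintype.card F = 2) (a : GL (Fin 2) F) :
    (a : Matrix (Fin 2) (Fin 2) F) * JM F = JM F * a ∨ (a : Matrix (Fin 2) (Fin 2) F) * JM F = JM F * JM F * a := by
  have h2 := f2_two hF
  have hd : (a : Matrix (Fin 2) (Fin 2) F).det ≠ 0 := by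
    have := (Matrix.isUnit_iff_isUnit_det _).1 a.isUnit
    exact this.ne_zero
  rw [Matrix.det_fin_two] at hd
  generalize (a : Matrix (Fin 2) (Fin 2) F) = A at *
  have e1 : A * JM F = !![A 0 1, A 0 0 + A 0 1; A 1 1, A 1 0 + A 1 1] := by
    ext i j
    fin_cases i <;> fin_cases j <;> simp [JM, Matrix.mul_apply, Fin.sum_univ_two]
  have e2 : JM F * A = !![A 1 0, A 1 1; A 0 0 + A 1 0, A 0 1 + A 1 1] := by
    ext i j
    fin_cases i <;> fin_cases j <;> simp [JM, Matrix.mul_apply, Fin.sum_univ_two]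
  have e3 : JM F * JM F * A = !![A 0 0 + A 1 0, A 0 1 + A 1 1; A 0 0, A 0 1] := by
    ext i j
    fin_cases i <;> fin_cases j <;> simp [JM, Matrix.mul_apply, Fin.sum_univ_two, h2, add_mul, add_comm] <;> (try simp [← add_assoc, h2])
  rw [e1, e2, e3]
  generalize A 0 0 = p at *
  generalize A 0 1 = q at *
  generalize A 1 0 = r at *
  generalize A 1 1 = s at *
  rcases f2_cases hF p with rfl | rfl <;> rcases f2_cases hF q with rfl | rfl <;>
    rcases f2_cases hF r with rfl | rfl <;> rcases f2_cases hF s with rfl | rfl <;>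
    simp [h2] at hd ⊢

section
variable {n₂ : ℕ}

/-- `J ⊗ 1` as a unit -/
noncomputable def yU (hF : Fintype.card F = 2) : GL (Fin 2 × Fin n₂) F where
  val := JM F ⊗ₖ (1 : Matrix (Fin n₂) (Fin n₂) F)
  inv := (JM F * JM F) ⊗ₖ (1 : Matrix (Fin n₂) (Fin n₂) F)
  val_inv := by
    rw [← Matrix.mul_kronecker_mul, ← mul_assoc, JM_cube hF, mul_one, Matrix.one_kronecker_one]
  inv_val := by
    rw [← Matrix.mul_kronecker_mul, JM_cube hF, mul_one, Matrix.one_kronecker_one]

theorem yU_val (hF : Fintype.card F = 2) : ((yU hF : GL (Fin 2 × Fin n₂) F) : Matrix (Fin 2 × Fin n₂) (Fin 2 × Fin n₂) F) = JM F ⊗ₖ (1 : Matrix (Fin n₂) (Fin n₂) F) := rfl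

theorem yU_cube (hF : Fintype.card F = 2) : (yU hF : GL (Fin 2 × Fin n₂) F) * yU hF * yU hF = 1 := by
  apply Units.ext
  rw [Units.val_mul, Units.val_mul, yU_val, ← Matrix.mul_kronecker_mul, ← Matrix.mul_kronecker_mul, JM_cube hF, mul_one, mul_one, Matrix.one_kronecker_one]
  rfl

theorem kron_le (hF : Fintype.card F = 2) :
    Geo.kroneckerSubgroup 2 n₂ F ≤ semiNorm (yU hF) (yU_cube hF) := by
  rintro g ⟨a, b, hg⟩
  rcases JM_semi hF a with h | h
  · left
    apply Units.ext
    rw [Units.val_mul, Units.val_mul, yU_val, hg, ← Matrix.mul_kronecker_mul, ← Matrix.mul_kronecker_mul, h, mul_one, one_mul]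
  · right
    apply Units.ext
    rw [Units.val_mul, Units.val_mul, Units.val_mul, yU_val, hg, ← Matrix.mul_kronecker_mul, ← Matrix.mul_kronecker_mul, ← Matrix.mul_kronecker_mul, h]
    simp only [mul_one, one_mul]

/-- involutive unit from a square-zero matrix -/
noncomputable def invU {ι : Type} [Fintype ι] [DecidableEq ι] (hF : Fintype.card F = 2) (N : Matrix ι ι F) (hN : N * N = 0) : GL ι F where
  val := 1 + N
  inv := 1 + N
  val_inv := by
    have h2 : N + N = 0 := by
      ext i j
      have : (N + N) i j = (1 + 1) * N i j := by simp [add_mul]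
      rw [this, f2_two hF, zero_mul]
      rfl
    rw [add_mul, mul_add, mul_add, hN]
    simp only [mul_one, one_mul, add_zero]
    rw [add_assoc, h2, add_zero]
  inv_val := by
    have h2 : N + N = 0 := by
      ext i j
      have : (N + N) i j = (1 + 1) * N i j := by simp [add_mul]
      rw [this, f2_two hF, zero_mul]
      rfl
    rw [add_mul, mul_add, mul_add, hN]
    simp only [mul_one, one_mul, add_zero]
    rw [add_assoc, h2, add_zero]

theorem kron_lt (hF : Fintype.card F = 2) {i₀ i₁ : Fin n₂} (hi : i₀ ≠ i₁) :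
    Geo.kroneckerSubgroup 2 n₂ F < semiNorm (yU hF) (yU_cube hF) := by
  classical
  have h2 := f2_two hF
  refine lt_of_le_of_ne (kron_le hF) ?_
  intro heq
  have hE : (Matrix.single i₀ i₁ (1 : F)) * (Matrix.single i₀ i₁ (1 : F)) = 0 := by
    exact Matrix.single_mul_single_of_ne _ _ _ _ hi.symm _
  let N : Matrix (Fin 2 × Fin n₂) (Fin 2 × Fin n₂) F := JM F ⊗ₖ (Matrix.single i₀ i₁ (1 : F))
  have hN : N * N = 0 := by
    simp only [N]
    rw [← Matrix.mul_kronecker_mul, hE, Matrix.kronecker_zero]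
  let x := invU hF N hN
  have hx : x ∈ semiNorm (yU hF) (yU_cube hF) := by
    left
    apply Units.ext
    rw [Units.val_mul, Units.val_mul, yU_val]
    show (1 + N) * _ = _ * (1 + N)
    rw [add_mul, mul_add, one_mul, mul_one]
    congr 1
    simp only [N]
    rw [← Matrix.mul_kronecker_mul, ← Matrix.mul_kronecker_mul, mul_one, one_mul]
  rw [← heq] at hx
  obtain ⟨a, b, hab⟩ := hx
  have hval : ∀ i j k l, (1 + N) (i, k) (j, l) = (a : Matrix (Fin 2) (Fin 2) F) i j * (b : Matrix (Fin n₂) (Fin n₂) F) k l := by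
    intro i j k l
    have hab' : (1 + N) = (a : Matrix (Fin 2) (Fin 2) F) ⊗ₖ (b : Matrix (Fin n₂) (Fin n₂) F) := hab
    have := congrFun (congrFun hab' (i, k)) (j, l)
    simpa using this
  have h1 := hval 0 0 i₀ i₀
  have h3 := hval 0 1 i₀ i₀
  have h4 := hval 0 1 i₀ i₁
  simp [N, Matrix.one_apply, Matrix.single, hi, hi.symm, JM] at h1 h3 h4
  rcases h3 with h3 | h3
  · rw [h3] at h4
    simp at h4
  · rw [h3] at h1
    simp at h1

theorem semi_lt_top (hF : Fintype.card F = 2) {i₀ i₁ : Fin n₂} (hi : i₀ ≠ i₁) :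
    semiNorm (yU hF : GL (Fin 2 × Fin n₂) F) (yU_cube hF) < ⊤ := by
  classical
  have h2 := f2_two hF
  refine lt_top_iff_ne_top.2 ?_
  intro heq
  let p : Fin 2 × Fin n₂ := (0, i₀)
  let r : Fin 2 × Fin n₂ := (0, i₁)
  have hpr : p ≠ r := by
    intro h
    exact hi (congrArg Prod.snd h)
  let N : Matrix (Fin 2 × Fin n₂) (Fin 2 × Fin n₂) F := Matrix.single p r (1 : F)
  have hN : N * N = 0 := by
    exact Matrix.single_mul_single_of_ne _ _ _ _ hpr.symm _
  let x := invU hF N hN
  have hx : x ∈ semiNorm (yU hF : GL (Fin 2 × Fin n₂) F) (yU_cube hF) := by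
    rw [heq]
    trivial
  rcases hx with hx | hx
  · have h := congrArg Units.val hx
    rw [Units.val_mul, Units.val_mul, yU_val] at h
    have h' : (1 + N) * (JM F ⊗ₖ (1 : Matrix (Fin n₂) (Fin n₂) F)) = (JM F ⊗ₖ (1 : Matrix (Fin n₂) (Fin n₂) F)) * (1 + N) := h
    rw [add_mul, mul_add, one_mul, mul_one] at h'
    have h3 := add_left_cancel h'
    have h4 := congrFun (congrFun h3 p) (1, i₁)
    have e1 : (N * (JM F ⊗ₖ (1 : Matrix (Fin n₂) (Fin n₂) F))) p (1, i₁) = 1 := by
      rw [Matrix.mul_apply, Finset.sum_eq_single r]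
      · simp [N, r, JM, p]
      · intro c _ hc
        simp [N, Matrix.single, hc.symm]
      · simp
    have e2 : ((JM F ⊗ₖ (1 : Matrix (Fin n₂) (Fin n₂) F)) * N) p (1, i₁) = 0 := by
      rw [Matrix.mul_apply]
      apply Finset.sum_eq_zero
      intro c _
      have : N c (1, i₁) = 0 := by
        simp [N, Matrix.single, r]
      rw [this, mul_zero]
    rw [e1, e2] at h4
    exact one_ne_zero h4
  · have h := congrArg Units.val hx
    rw [Units.val_mul, Units.val_mul, Units.val_mul, yU_val, ← Matrix.mul_kronecker_mul, mul_one] at h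
    have h' : (1 + N) * (JM F ⊗ₖ (1 : Matrix (Fin n₂) (Fin n₂) F)) = ((JM F * JM F) ⊗ₖ (1 : Matrix (Fin n₂) (Fin n₂) F)) * (1 + N) := h
    rw [add_mul, mul_add, one_mul, mul_one] at h'
    have h4 := congrFun (congrFun h' (1, i₀)) (1, i₀)
    have e1 : (N * (JM F ⊗ₖ (1 : Matrix (Fin n₂) (Fin n₂) F))) (1, i₀) (1, i₀) = 0 := by
      rw [Matrix.mul_apply]
      apply Finset.sum_eq_zero
      intro c _
      have : N (1, i₀) c = 0 := by
        simp [N, Matrix.single, p]
      rw [this, zero_mul]
    have e2 : (((JM F * JM F) ⊗ₖ (1 : Matrix (Fin n₂) (Fin n₂) F)) * N) (1, i₀) (1, i₀) = 0 := by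
      rw [Matrix.mul_apply]
      apply Finset.sum_eq_zero
      intro c _
      have : N c (1, i₀) = 0 := by
        simp [N, Matrix.single, r, hi]
      rw [this, mul_zero]
    simp only [Matrix.add_apply, e1, e2, add_zero] at h4
    simp [JM, Matrix.mul_apply, Fin.sum_univ_two, h2] at h4

end


/-- Over the field with 2 elements, for n = 2 n₂ ≥ 13, the stabiliser in SL_n of a tensor decomposition with factors of dimensions 2 and n₂ (the conjugate by any P of the Kronecker-product subgroup transported along any bijection Fin n ≃ Fin 2 × Fin n₂, intersected with SL_n) is not a maximal subgroup: some subgroup lies strictly between it and SL_n. -/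
theorem result {F : Type*} [Field F] [Fintype F] (n : ℕ) (hn : 13 ≤ n) (hq : Fintype.card F = 2) (n₂ : ℕ) (e : Fin n ≃ Fin 2 × Fin n₂) (P : Matrix.GeneralLinearGroup (Fin n) F) : ∃ K : Subgroup (Matrix.GeneralLinearGroup (Fin n) F), Cfsg.Geo.tensorProductSubgroup 2 n₂ e P ⊓ Cfsg.Geo.specialLinear (Fin n) F < K ∧ K < Cfsg.Geo.specialLinear (Fin n) F := by
  classical
  have hnn : n = 2 * n₂ := by
    have := Fintype.card_congr e
    simpa [Fintype.card_fin, Fintype.card_prod] using this
  have h1 : 0 < n₂ := by omega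
  have h2 : 1 < n₂ := by omega
  let i₀ : Fin n₂ := ⟨0, h1⟩
  let i₁ : Fin n₂ := ⟨1, h2⟩
  have hi : i₀ ≠ i₁ := by
    intro h
    have := congrArg Fin.val h
    simp [i₀, i₁] at this
  have hSL : Cfsg.Geo.specialLinear (Fin n) F = ⊤ := by
    rw [eq_top_iff]
    intro g _
    rw [Cfsg.Geo.specialLinear, MonoidHom.mem_ker]
    apply Units.ext
    show ((g : Matrix (Fin n) (Fin n) F)).det = 1
    have hd : ((g : Matrix (Fin n) (Fin n) F)).det ≠ 0 := ((Matrix.isUnit_iff_isUnit_det _).1 g.isUnit).ne_zero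
    rcases f2_cases hq ((g : Matrix (Fin n) (Fin n) F).det) with h | h
    · exact absurd h hd
    · exact h
  rw [hSL, inf_top_eq]
  let ρ : GL (Fin 2 × Fin n₂) F →* GL (Fin n) F := ((MulAut.conj P).toMonoidHom).comp ((Cfsg.Geo.glReindex e.symm).toMonoidHom)
  have hρi : Function.Injective ρ := ((MulAut.conj P).injective).comp ((Cfsg.Geo.glReindex e.symm).injective)
  have hρs : Function.Surjective ρ := ((MulAut.conj P).surjective).comp ((Cfsg.Geo.glReindex e.symm).surjective)
  have hT : Cfsg.Geo.tensorProductSubgroup 2 n₂ e P = (Cfsg.Geo.kroneckerSubgroup 2 n₂ F).map ρ := by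
    unfold Cfsg.Geo.tensorProductSubgroup
    rw [Subgroup.map_map]
  rw [hT]
  refine ⟨(semiNorm (yU hq) (yU_cube hq)).map ρ, ?_, ?_⟩
  · exact (Subgroup.map_lt_map_iff_of_injective hρi).2 (kron_lt hq hi)
  · have := (Subgroup.map_lt_map_iff_of_injective hρi).2 (semi_lt_top hq hi)
    rwa [Subgroup.map_top_of_surjective _ hρs] at this

end Cfsg.Agent.S5638
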