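import Cfsg.Statements.S5705
import Mathlib
import Cfsg.Agent.Lib.TensForm
import Cfsg.Agent.S5638
import Cfsg.Agent.Lib.Frame3
import Cfsg.Agent.Lib.OrthInv2

set_option autoImplicit false
open Cfsg

namespace Cfsg.Agent.S5705


open Matrix Kronecker Cfsg.Geo Cfsg.Agent.Lib.TensForm Cfsg.Agent.S5638 Cfsg.Agent.Lib.OrthE Cfsg.Agent.Lib.Frame3
open scoped MatrixGroups

section siegel
variable {ι : Type} [Fintype ι] [DecidableEq ι] {F : Type*} [Field F] [Fintype F] {Q : (ι → F) → F}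

local notation "B" => QuadraticMap.polar Q

theorem exists_siegel (hF : Fintype.card F = 2) (hQ : IsNondegenerateQuadraticForm Q) (hn : 1 ≤ Fintype.card ι)
    (h : Fintype.card F ≠ 2 ∨ Fintype.card ι ≠ 4)
    {u v x₁ x₂ : ι → F} (hu : Q u = 0) (hv : Q v = 0) (huv : B u v = 0) (h11 : B x₁ u = 1) (h12 : B x₁ v = 0)
    (h21 : B x₂ u = 0) (h22 : B x₂ v = 1) :
    ∃ T : GL ι F, T ∈ omegaGL Q ∧ ∀ x, (T : Matrix ι ι F) *ᵥ x = x + B x u • v + B x v • u := by
  classical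
  have h2 := f2_two hF
  have h2' : (2 : F) = 0 := by rw [← h2]; norm_num
  let L : (ι → F) →ₗ[F] (ι → F) := LinearMap.id + (bLin hQ u).smulRight v + (bLin hQ v).smulRight u
  have hL : ∀ x, L x = x + B x u • v + B x v • u := fun x => rfl
  have hBu : B u u = 0 := by rw [B_self hQ, hu, mul_zero]
  have hBv : B v v = 0 := by rw [B_self hQ, hv, mul_zero]
  have hvu : B v u = 0 := by rw [B_comm hQ]; exact huv
  have hLL : ∀ x, L (L x) = x := by
    intro x
    rw [hL (L x), hL x]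
    simp only [B_add_left hQ, B_smul_left hQ, hBu, hBv, huv, hvu, mul_zero, add_zero]
    ext i
    simp only [Pi.add_apply, Pi.smul_apply, smul_eq_mul]
    linear_combination (B x u * v i + B x v * u i) * h2'
  have hcomp : L ∘ₗ L = LinearMap.id := LinearMap.ext hLL
  let T : GL ι F := ⟨LinearMap.toMatrix' L, LinearMap.toMatrix' L,
    by rw [← LinearMap.toMatrix'_comp, hcomp, LinearMap.toMatrix'_id],
    by rw [← LinearMap.toMatrix'_comp, hcomp, LinearMap.toMatrix'_id]⟩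
  have hT : ∀ x, (T : Matrix ι ι F) *ᵥ x = L x := fun x => LinearMap.toMatrix'_mulVec L x
  have hO : T ∈ isometryGroup F Q := by
    rw [mem_O_iff]
    intro x
    rw [hT, hL, add_assoc, Q_add hQ, Q_add hQ, Q_smul hQ, Q_smul hQ, hu, hv, B_smul_left hQ, B_smul_right hQ, hvu, B_add_right hQ,
      B_smul_right hQ, B_smul_right hQ]
    linear_combination (B x u * B x v) * h2'
  have hz : ∀ x : ι → F, B x 0 = 0 := fun x => by
    have := B_smul_right hQ 0 x 0
    simpa using this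
  have hM : ∀ x, ((T : Matrix ι ι F) - 1) *ᵥ x = B x u • v + B x v • u := by
    intro x
    rw [sub_mulVec, one_mulVec, hT, hL]
    abel
  have hr : LinearMap.range ((T : Matrix ι ι F) - 1).mulVecLin = Submodule.span F (Set.range ![v, u]) := by
    apply le_antisymm
    · rintro _ ⟨x, rfl⟩
      rw [mulVecLin_apply, hM]
      exact Submodule.add_mem _ (Submodule.smul_mem _ _ (Submodule.subset_span ⟨0, rfl⟩))
        (Submodule.smul_mem _ _ (Submodule.subset_span ⟨1, rfl⟩))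
    · rw [Submodule.span_le]
      rintro _ ⟨i, rfl⟩
      fin_cases i
      · exact ⟨x₁, by rw [mulVecLin_apply, hM, h11, h12]; simp⟩
      · exact ⟨x₂, by rw [mulVecLin_apply, hM, h21, h22]; simp⟩
  have hind : LinearIndependent F ![v, u] := by
    rw [LinearIndependent.pair_iff]
    intro s t hst
    have e1 := congrArg (fun w => B x₁ w) hst
    have e2 := congrArg (fun w => B x₂ w) hst
    simp only [B_add_right hQ, B_smul_right hQ, hz, h11, h12, h21, h22, mul_zero, mul_one, zero_add, add_zero] at e1 e2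
    exact ⟨e2, e1⟩
  have hmem : (⟨T, hO⟩ : ↥(isometryGroup F Q)) ∈ Omega F Q := by
    haveI : CharP F 2 := by
      have hp := Fact.mk Nat.prime_two
      exact CharTwo.of_one_ne_zero_of_two_eq_zero one_ne_zero h2'
    rw [Cfsg.Agent.Lib.OrthInv2.mem_omega_iff hQ hn h]
    change Even (Module.finrank F (LinearMap.range ((T : Matrix ι ι F) - 1).mulVecLin))
    rw [hr, finrank_span_eq_card hind]
    simp
  exact ⟨T, ⟨_, hmem, rfl⟩, fun x => by rw [hT, hL]⟩

end siegel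


/-- Let F be the field with 2 elements, n = 2 n₂ ≥ 13 even, Q a non-degenerate quadratic form on F^n of plus type and Ω the commutator subgroup of its isometry group. Suppose that, through P and e, the polar form of Q is similar to the tensor product of non-degenerate symplectic forms f₁ on F^2 and f₂ on F^(n₂), and Q vanishes on the images of all pure tensors. Then the elements of Ω in the stabiliser of this tensor decomposition form a subgroup that is not maximal: some subgroup lies strictly between it and Ω. -/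
theorem result {F : Type*} [Field F] [Fintype F] {n : ℕ} (hn : 13 ≤ n) (heven : Even n) (Q : (Fin n → F) → F) (hQ : Cfsg.Geo.IsNondegenerateQuadraticForm Q) (hplus : Cfsg.Geo.IsPlusTypeOn Q ⊤) (hq : Fintype.card F = 2) (n₂ : ℕ) (h2 : 2 < n₂) (e : (Fin n) ≃ Fin 2 × Fin n₂) (P : Matrix.GeneralLinearGroup (Fin n) F) (f₁ : (Fin 2 → F) → (Fin 2 → F) → F) (f₂ : (Fin n₂ → F) → (Fin n₂ → F) → F) (hf₁ : Cfsg.Geo.IsSymplecticForm f₁) (hf₂ : Cfsg.Geo.IsSymplecticForm f₂) (hT : Cfsg.Geo.IsTensorFormStructure id (QuadraticMap.polar Q) f₁ f₂ e P) (hpure : (∀ (x₁ : Fin 2 → F) (x₂ : Fin n₂ → F), Q (Matrix.mulVec (P : Matrix (Fin n) (Fin n) F) ((fun a : Fin 2 × Fin n₂ => x₁ a.1 * x₂ a.2) ∘ e)) = 0)) : ∃ K : Subgroup (Matrix.GeneralLinearGroup (Fin n) F), Cfsg.Geo.tensorProductSubgroup 2 n₂ e P ⊓ Cfsg.Geo.omegaGL Q < K ∧ K < Cfsg.Geo.omegaGL Q := by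
  classical
  have h2F := f2_two hq
  have h2' : (2 : F) = 0 := by rw [← h2F]; norm_num
  have hnn : n = 2 * n₂ := by
    have := Fintype.card_congr e
    simpa [Fintype.card_fin, Fintype.card_prod] using this
  have hneg : ∀ x : F, -x = x := fun x => by linear_combination (-x) * h2'
  have hone : ∀ x : F, x ≠ 0 → x = 1 := fun x hx => (f2_cases hq x).resolve_left hx
  obtain ⟨c, hc, hH⟩ := hT
  have hc1 : c = 1 := hone c hc
  subst hc1
  have TF : ∀ (a a' : Fin 2 → F) (r r' : Fin n₂ → F),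
      QuadraticMap.polar Q (Jl e P a r) (Jl e P a' r') = f₁ a a' * f₂ r r' := by
    intro a a' r r'
    have h1 := hH (tens a r) (tens a' r')
    rw [gram_tens (σ := id) (fun a b => rfl), ← form_eq (σ := id) f₁ hf₁.bilinear.add_left hf₁.bilinear.smul_left hf₁.bilinear.add_right hf₁.bilinear.smul_right,
      ← form_eq (σ := id) f₂ hf₂.bilinear.add_left hf₂.bilinear.smul_left hf₂.bilinear.add_right hf₂.bilinear.smul_right, one_mul] at h1
    exact h1
  have hQJ : ∀ (a : Fin 2 → F) (r : Fin n₂ → F), Q (Jl e P a r) = 0 := fun a r => hpure a r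
  -- the factor f₁
  let e₀ : Fin 2 → F := ![1, 0]
  let e₁ : Fin 2 → F := ![0, 1]
  have hdec : ∀ a : Fin 2 → F, a = a 0 • e₀ + a 1 • e₁ := by
    intro a
    ext i
    fin_cases i <;> simp [e₀, e₁]
  have hf00 : f₁ e₀ e₀ = 0 := hf₁.alternating _
  have hf11 : f₁ e₁ e₁ = 0 := hf₁.alternating _
  have he₀ : e₀ ≠ 0 := by
    intro h
    have := congrFun h 0
    simp [e₀] at this
  have hf10 : f₁ e₁ e₀ = 1 := by
    apply hone
    intro h0
    obtain ⟨⟨x, hx⟩, -⟩ := hf₁.nondegenerate e₀ he₀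
    apply hx
    rw [hdec x, hf₁.bilinear.add_left, hf₁.bilinear.smul_left, hf₁.bilinear.smul_left, hf00, h0]
    ring
  have hf01 : f₁ e₀ e₁ = 1 := by rw [hf₁.skew, hf10, hneg]
  have hf₁form : ∀ a a', f₁ a a' = a 0 * a' 1 + a 1 * a' 0 := by
    intro a a'
    conv_lhs => rw [hdec a, hdec a']
    simp only [hf₁.bilinear.add_left, hf₁.bilinear.add_right, hf₁.bilinear.smul_left, hf₁.bilinear.smul_right, hf00, hf01, hf10, hf11]
    ring
  have hJM : ∀ a : Fin 2 → F, (JM F *ᵥ a) 0 = a 1 ∧ (JM F *ᵥ a) 1 = a 0 + a 1 := by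
    intro a
    simp [JM, Matrix.mulVec, dotProduct, Fin.sum_univ_two]
  have hJe0 : JM F *ᵥ e₀ = e₁ := by
    ext i
    fin_cases i
    · simpa [e₀, e₁] using (hJM e₀).1
    · simpa [e₀, e₁] using (hJM e₀).2
  have hJe1 : JM F *ᵥ e₁ = e₀ + e₁ := by
    ext i
    fin_cases i
    · simpa [e₀, e₁] using (hJM e₁).1
    · simpa [e₀, e₁] using (hJM e₁).2
  have hf₁J : ∀ a a', f₁ (JM F *ᵥ a) (JM F *ᵥ a') = f₁ a a' := by
    intro a a'
    rw [hf₁form, hf₁form, (hJM a).1, (hJM a).2, (hJM a').1, (hJM a').2]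
    linear_combination (a 1 * a' 1) * h2'
  -- the vectors in the factor f₂
  have hn₂ : 3 ≤ n₂ := by omega
  let p : Fin n₂ → F := Pi.single ⟨0, by omega⟩ 1
  have hp : p ≠ 0 := by
    intro h
    have := congrFun h ⟨0, by omega⟩
    simp [p] at this
  obtain ⟨⟨r₁', hr₁'⟩, -⟩ := hf₂.nondegenerate p hp
  have hr₁p : f₂ r₁' p = 1 := hone _ hr₁'
  let L₂ : (Fin n₂ → F) →ₗ[F] F × F :=
    LinearMap.prod
      { toFun := fun x => f₂ x p, map_add' := fun x y => hf₂.bilinear.add_left x y p, map_smul' := fun c x => hf₂.bilinear.smul_left c x p }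
      { toFun := fun x => f₂ x r₁', map_add' := fun x y => hf₂.bilinear.add_left x y r₁', map_smul' := fun c x => hf₂.bilinear.smul_left c x r₁' }
  have hker : LinearMap.ker L₂ ≠ ⊥ := by
    apply LinearMap.ker_ne_bot_of_finrank_lt
    rw [Module.finrank_prod, Module.finrank_self, Module.finrank_fintype_fun_eq_card, Fintype.card_fin]
    omega
  obtain ⟨p', hp'k, hp'⟩ := (Submodule.ne_bot_iff _).1 hker
  have hp'p : f₂ p' p = 0 := congrArg Prod.fst (LinearMap.mem_ker.1 hp'k)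
  have hp'r : f₂ p' r₁' = 0 := congrArg Prod.snd (LinearMap.mem_ker.1 hp'k)
  have hpp' : f₂ p p' = 0 := by rw [hf₂.skew, hp'p, neg_zero]
  have hr₁p' : f₂ r₁' p' = 0 := by rw [hf₂.skew, hp'r, neg_zero]
  obtain ⟨⟨r₂', hr₂'⟩, -⟩ := hf₂.nondegenerate p' hp'
  have hr₂'p' : f₂ r₂' p' = 1 := hone _ hr₂'
  let r₂ : Fin n₂ → F := r₂' + f₂ r₂' p • r₁'
  have hr₂p : f₂ r₂ p = 0 := by
    simp only [r₂, hf₂.bilinear.add_left, hf₂.bilinear.smul_left, hr₁p]
    linear_combination (f₂ r₂' p) * h2'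
  have hr₂p' : f₂ r₂ p' = 1 := by
    simp only [r₂, hf₂.bilinear.add_left, hf₂.bilinear.smul_left, hr₁p', hr₂'p']
    ring
  have hpp : f₂ p p = 0 := hf₂.alternating _
  have hp'p' : f₂ p' p' = 0 := hf₂.alternating _
  -- the element `y`
  let ρ : GL (Fin 2 × Fin n₂) F →* GL (Fin n) F := ((MulAut.conj P).toMonoidHom).comp ((glReindex e.symm).toMonoidHom)
  have hρ : ∀ (g₀ : GL (Fin 2 × Fin n₂) F) x, ((ρ g₀ : GL (Fin n) F) : Matrix (Fin n) (Fin n) F) *ᵥ iota e P x = iota e P ((g₀ : Matrix (Fin 2 × Fin n₂) (Fin 2 × Fin n₂) F) *ᵥ x) :=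
    fun g₀ x => rho_iota e P g₀ x
  have hT₀ : tensorProductSubgroup 2 n₂ e P = (kroneckerSubgroup 2 n₂ F).map ρ := by
    unfold tensorProductSubgroup
    rw [Subgroup.map_map]
  let y : GL (Fin n) F := ρ (yU hq)
  have hy : y * y * y = 1 := by
    simp only [y]
    rw [← map_mul, ← map_mul, yU_cube hq, map_one]
  have hyJ : ∀ (a : Fin 2 → F) (r : Fin n₂ → F), (y : Matrix (Fin n) (Fin n) F) *ᵥ Jl e P a r = Jl e P (JM F *ᵥ a) r := by
    intro a r
    rw [Jl_apply, hρ, yU_val, kron_tens, one_mulVec]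
    rfl
  have hJM2 : JM F * JM F = 1 + JM F := by
    ext i j
    fin_cases i <;> fin_cases j <;> simp [JM, Matrix.mul_apply, Fin.sum_univ_two, Matrix.one_apply, h2F]
  have hyy : ∀ z, (y : Matrix (Fin n) (Fin n) F) *ᵥ ((y : Matrix (Fin n) (Fin n) F) *ᵥ z) = z + (y : Matrix (Fin n) (Fin n) F) *ᵥ z := by
    intro z
    obtain ⟨x, rfl⟩ := iota_surj e P z
    have e1 : ∀ x, (y : Matrix (Fin n) (Fin n) F) *ᵥ iota e P x = iota e P ((JM F ⊗ₖ (1 : Matrix (Fin n₂) (Fin n₂) F)) *ᵥ x) := by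
      intro x
      rw [hρ, yU_val]
    rw [e1, e1, mulVec_mulVec, ← Matrix.mul_kronecker_mul, hJM2, mul_one, Matrix.add_kronecker, Matrix.one_kronecker_one, Matrix.add_mulVec, one_mulVec, map_add]
  have hyB : ∀ x z, QuadraticMap.polar Q ((y : Matrix (Fin n) (Fin n) F) *ᵥ x) ((y : Matrix (Fin n) (Fin n) F) *ᵥ z) = QuadraticMap.polar Q x z := by
    intro x z
    let φ : (Fin n → F) →ₗ[F] F := (bLin hQ ((y : Matrix (Fin n) (Fin n) F) *ᵥ z)).comp (Matrix.mulVecLin (y : Matrix (Fin n) (Fin n) F))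
    let ψ : (Fin n → F) →ₗ[F] F := bLin hQ z
    have := pure_ext e P (φ := φ) (ψ := ψ) ?_ x
    · exact this
    · intro a r
      change QuadraticMap.polar Q ((y : Matrix (Fin n) (Fin n) F) *ᵥ Jl e P a r) ((y : Matrix (Fin n) (Fin n) F) *ᵥ z) = QuadraticMap.polar Q (Jl e P a r) z
      rw [hyJ]
      let φ' : (Fin n → F) →ₗ[F] F := (bLin hQ (Jl e P (JM F *ᵥ a) r)).comp (Matrix.mulVecLin (y : Matrix (Fin n) (Fin n) F))
      let ψ' : (Fin n → F) →ₗ[F] F := bLin hQ (Jl e P a r)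
      have h5 := pure_ext e P (φ := φ') (ψ := ψ') ?_ z
      · rw [B_comm hQ, B_comm hQ (Jl e P a r) z]
        exact h5
      · intro a' r'
        change QuadraticMap.polar Q ((y : Matrix (Fin n) (Fin n) F) *ᵥ Jl e P a' r') (Jl e P (JM F *ᵥ a) r) = QuadraticMap.polar Q (Jl e P a' r') (Jl e P a r)
        rw [hyJ, TF, TF, hf₁J]
  have hyyy : ∀ z, (y : Matrix (Fin n) (Fin n) F) *ᵥ ((y : Matrix (Fin n) (Fin n) F) *ᵥ ((y : Matrix (Fin n) (Fin n) F) *ᵥ z)) = z := by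
    intro z
    have : ((y * y * y : GL (Fin n) F) : Matrix (Fin n) (Fin n) F) *ᵥ z = z := by
      rw [hy]
      simp
    rw [Units.val_mul, Units.val_mul, ← mulVec_mulVec, ← mulVec_mulVec] at this
    exact this
  have hn1 : 1 ≤ Fintype.card (Fin n) := by simp; omega
  have hn4 : Fintype.card F ≠ 2 ∨ Fintype.card (Fin n) ≠ 4 := Or.inr (by simp; omega)
  -- the first witness
  let u : Fin n → F := Jl e P e₀ p + Jl e P e₁ p'
  let u' : Fin n → F := Jl e P e₁ p + (Jl e P e₀ p' + Jl e P e₁ p')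
  have hyu : (y : Matrix (Fin n) (Fin n) F) *ᵥ u = u' := by
    simp only [u, u']
    rw [Matrix.mulVec_add, hyJ, hyJ, hJe0, hJe1]
    congr 1
    rw [Jl_apply, tens_add_left, map_add]
    rfl
  have hQu : Q u = 0 := by
    simp only [u]
    rw [Q_add hQ, hQJ, hQJ, TF, hf01, hpp']
    ring
  have hQu' : Q u' = 0 := by
    simp only [u', Q_add hQ, hQJ, B_add_right hQ, TF, hf00, hf01, hf10, hf11, hpp, hpp', hp'p, hp'p']
    ring
  have huu' : QuadraticMap.polar Q u u' = 0 := by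
    simp only [u, u', B_add_left hQ, B_add_right hQ, TF, hf00, hf01, hf10, hf11, hpp, hpp', hp'p, hp'p']
    ring
  have hx1 : ∀ w : Fin 2 → F, ∀ r : Fin n₂ → F, QuadraticMap.polar Q (Jl e P w r) u = f₁ w e₀ * f₂ r p + f₁ w e₁ * f₂ r p' := by
    intro w r
    simp only [u, B_add_right hQ, TF]
  have hx2 : ∀ w : Fin 2 → F, ∀ r : Fin n₂ → F, QuadraticMap.polar Q (Jl e P w r) u' = f₁ w e₁ * f₂ r p + (f₁ w e₀ * f₂ r p' + f₁ w e₁ * f₂ r p') := by
    intro w r
    simp only [u', B_add_right hQ, TF]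
  obtain ⟨T, hTΩ, hTv⟩ := exists_siegel hq hQ hn1 hn4 (x₁ := Jl e P e₁ r₁') (x₂ := Jl e P e₁ r₂) hQu hQu' huu'
    (by rw [hx1, hf10, hf11, hr₁p]; ring) (by rw [hx2, hf10, hf11, hr₁p']; ring)
    (by rw [hx1, hf10, hf11, hr₂p]; ring) (by rw [hx2, hf10, hf11, hr₂p']; ring)
  have hTcomm : T * y = y * T := by
    apply gl_ext
    intro x
    rw [mul_mulVec, mul_mulVec, hTv, hTv, Matrix.mulVec_add, Matrix.mulVec_add, Matrix.mulVec_smul, Matrix.mulVec_smul]
    have e1 : (y : Matrix (Fin n) (Fin n) F) *ᵥ u' = u + u' := by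
      rw [← hyu, hyy]
    have e2 : QuadraticMap.polar Q ((y : Matrix (Fin n) (Fin n) F) *ᵥ x) u' = QuadraticMap.polar Q x u := by
      rw [← hyu, hyB]
    have e3 : QuadraticMap.polar Q ((y : Matrix (Fin n) (Fin n) F) *ᵥ x) u = QuadraticMap.polar Q x u + QuadraticMap.polar Q x u' := by
      conv_lhs => rw [← hyyy u]
      rw [hyB, hyy, B_add_right hQ, hyu]
    rw [e1, hyu, e2, e3]
    have e4 : ∀ (a b : F) (w₁ w₂ w₃ : Fin n → F), w₁ + (a + b) • w₃ + a • w₂ = w₁ + a • (w₂ + w₃) + b • w₃ := by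
      intro a b w₁ w₂ w₃
      rw [add_smul, smul_add]
      abel
    exact e4 _ _ _ _ _
  have hTnot : T ∉ tensorProductSubgroup 2 n₂ e P := by
    intro hmem
    obtain ⟨A, B', hAB⟩ := tensor_act e P T hmem
    have hg : ∀ a r, (T : Matrix (Fin n) (Fin n) F) *ᵥ Jl e P a r = Jl e P ((A : Matrix (Fin 2) (Fin 2) F) *ᵥ a) ((B' : Matrix (Fin n₂) (Fin n₂) F) *ᵥ r) := hAB
    have h1 := hTv (Jl e P e₁ p)
    rw [hx1, hx2, hg, hf10, hf11, hpp, hpp'] at h1
    simp only [mul_zero, add_zero, zero_smul] at h1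
    have h1' := iota_inj e P h1
    obtain ⟨l, hl⟩ := tens_prop' h1'.symm hp
    have hl0 : l ≠ 0 := by
      rintro rfl
      have : e₁ 1 = 0 := by rw [hl]; simp
      simp [e₁] at this
    have hAe : (A : Matrix (Fin 2) (Fin 2) F) *ᵥ e₁ = l⁻¹ • e₁ := by
      rw [eq_inv_smul_iff₀ hl0]
      exact hl.symm
    have h3 := hTv (Jl e P e₁ r₁')
    rw [hg, hAe, hx1, hx2, hf10, hf11, hr₁p, hr₁p', Jl_apply, tens_smul_swap, ← Jl_apply] at h3
    simp only [mul_zero, mul_one, add_zero, zero_add, one_smul, zero_smul] at h3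
    have h4 := congrArg (fun w => QuadraticMap.polar Q w (Jl e P e₁ r₂)) h3
    simp only [u', B_add_left hQ, TF, hf11, hf01, zero_mul, zero_add] at h4
    rw [hf₂.skew p' r₂, hr₂p', hneg] at h4
    have h5 : (1 : F) = 0 := by linear_combination -h4
    exact one_ne_zero h5
  -- the second witness
  have hx1' : ∀ w : Fin 2 → F, ∀ r : Fin n₂ → F, QuadraticMap.polar Q (Jl e P w r) (Jl e P e₀ p) = f₁ w e₀ * f₂ r p := fun w r => TF _ _ _ _
  have hx2' : ∀ w : Fin 2 → F, ∀ r : Fin n₂ → F, QuadraticMap.polar Q (Jl e P w r) (Jl e P e₀ p') = f₁ w e₀ * f₂ r p' := fun w r => TF _ _ _ _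
  obtain ⟨T', hT'Ω, hT'v⟩ := exists_siegel hq hQ hn1 hn4 (u := Jl e P e₀ p) (v := Jl e P e₀ p') (x₁ := Jl e P e₁ r₁') (x₂ := Jl e P e₁ r₂)
    (hQJ _ _) (hQJ _ _) (by rw [TF, hf00, zero_mul])
    (by rw [hx1', hf10, hr₁p, one_mul]) (by rw [hx2', hf10, hr₁p', one_mul])
    (by rw [hx1', hf10, hr₂p, one_mul]) (by rw [hx2', hf10, hr₂p', one_mul])
  have hT'not : T' ∉ semiNorm y hy := by
    intro hmem
    have hyx : (y : Matrix (Fin n) (Fin n) F) *ᵥ Jl e P e₁ r₁' = Jl e P e₀ r₁' + Jl e P e₁ r₁' := by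
      rw [hyJ, hJe1, Jl_apply, tens_add_left, map_add]
      rfl
    have h5 : (T' : Matrix (Fin n) (Fin n) F) *ᵥ Jl e P e₁ r₁' = Jl e P e₁ r₁' + Jl e P e₀ p' := by
      rw [hT'v, hx1', hx2', hf10, hr₁p, hr₁p']
      simp
    have h6 : (T' : Matrix (Fin n) (Fin n) F) *ᵥ ((y : Matrix (Fin n) (Fin n) F) *ᵥ Jl e P e₁ r₁') = (y : Matrix (Fin n) (Fin n) F) *ᵥ Jl e P e₁ r₁' + Jl e P e₀ p' := by
      rw [hT'v, hyx, B_add_left hQ, B_add_left hQ, hx1', hx1', hx2', hx2', hf00, hf10, hr₁p, hr₁p']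
      simp
    have hyv : (y : Matrix (Fin n) (Fin n) F) *ᵥ Jl e P e₀ p' = Jl e P e₁ p' := by
      rw [hyJ, hJe0]
    rcases hmem with h | h
    · have h7 := congrArg (fun g : GL (Fin n) F => (g : Matrix (Fin n) (Fin n) F) *ᵥ Jl e P e₁ r₁') h
      simp only [mul_mulVec] at h7
      rw [h6, h5, Matrix.mulVec_add, hyv] at h7
      have h8 := add_left_cancel h7
      have h9 := congrArg (fun w => QuadraticMap.polar Q w (Jl e P e₁ r₂)) h8
      simp only [TF, hf01, hf11, zero_mul, one_mul] at h9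
      rw [hf₂.skew p' r₂, hr₂p', hneg] at h9
      exact one_ne_zero h9
    · have h7 := congrArg (fun g : GL (Fin n) F => (g : Matrix (Fin n) (Fin n) F) *ᵥ Jl e P e₁ r₁') h
      simp only [mul_mulVec] at h7
      rw [h6, h5, Matrix.mulVec_add, Matrix.mulVec_add, hyy, hyy, hyv] at h7
      have h9 := congrArg (fun w => QuadraticMap.polar Q w (Jl e P e₀ p)) h7
      simp only [B_add_left hQ, hyx, TF, hf00, hf10, hf01, hf11, hr₁p, hp'p, zero_mul, one_mul, mul_one, zero_add, add_zero] at h9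
      have h10 : (1 : F) = 0 := by linear_combination -h9
      exact one_ne_zero h10
  refine ⟨semiNorm y hy ⊓ omegaGL Q, ?_, ?_⟩
  · rw [SetLike.lt_iff_le_and_exists]
    refine ⟨?_, T, ⟨Or.inl hTcomm, hTΩ⟩, fun h => hTnot h.1⟩
    rintro g ⟨hgt, hgO⟩
    refine ⟨?_, hgO⟩
    rw [hT₀] at hgt
    obtain ⟨g₀, hg₀, rfl⟩ := hgt
    rcases kron_le hq hg₀ with h | h
    · left
      show ρ g₀ * ρ (yU hq) = ρ (yU hq) * ρ g₀
      rw [← map_mul, ← map_mul, h]
    · right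
      show ρ g₀ * ρ (yU hq) = ρ (yU hq) * ρ (yU hq) * ρ g₀
      rw [← map_mul, ← map_mul, ← map_mul, h]
  · rw [SetLike.lt_iff_le_and_exists]
    exact ⟨inf_le_right, T', hT'Ω, fun h => hT'not h.1⟩

end Cfsg.Agent.S5705
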