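import Cfsg.Statements.S0029
import Cfsg.Agent.Lib.H1Cop2

set_option autoImplicit false
open Cfsg

namespace Cfsg.Agent.S0029

/-- An action that is trivial on the Frattini quotient and coprime on the Frattini subgroup is trivial: if A normalises K, the orders of A and of the Frattini subgroup of K are coprime, and every commutator of an element of A with an element of K lies in the Frattini subgroup of K, then A centralises K. -/
theorem result {G : Type*} [Group G] [Finite G] (A K : Subgroup G)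
    (hAK : A ≤ Subgroup.normalizer (K : Set G))
    (hcop : (Nat.card A).Coprime (Nat.card (frattini K)))
    (htriv : ∀ a ∈ A, ∀ k ∈ K, a * k * a⁻¹ * k⁻¹ ∈ (frattini K).map K.subtype) :
    A ≤ Subgroup.centralizer (K : Set G) := by
  classical
  set Φ : Subgroup G := (frattini K).map K.subtype with hΦ
  have hAΦ : A ≤ Subgroup.normalizer (Φ : Set G) :=
    hAK.trans (Cfsg.Agent.Lib.H1Cop2.normalizer_le_normalizer_map_of_characteristic (frattini K))
  have hcardΦ : Nat.card Φ = Nat.card (frattini K) :=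
    Subgroup.card_map_of_injective K.subtype_injective
  have hcopΦ : (Nat.card A).Coprime (Nat.card Φ) := by rw [hcardΦ]; exact hcop
  have hnil : Group.IsNilpotent (frattini K) := frattini_nilpotent
  have hsolvΦ : Group.IsSolvable Φ := Cfsg.Agent.Lib.H1SZ.isSolvable_of_map K.subtype _ inferInstance
  have hinf : A ⊓ Φ = ⊥ := Subgroup.inf_eq_bot_of_coprime hcopΦ
  have hKΦ : K ≤ Subgroup.normalizer (Φ : Set G) := by
    rw [Subgroup.le_normalizer_iff]
    rintro k hk _ ⟨x, hx, rfl⟩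
    have h1 : (⟨k, hk⟩ : K) * x * (⟨k, hk⟩ : K)⁻¹ ∈ frattini K :=
      (inferInstance : (frattini K).Normal).conj_mem x hx _
    exact ⟨_, h1, by simp⟩
  -- each element of `K` is `φ c` with `c` centralising `A`
  have key : ∀ k ∈ K, ∃ n ∈ Φ, n * k ∈ Subgroup.centralizer (A : Set G) := by
    intro k hk
    obtain ⟨n, hn, hn'⟩ := Cfsg.Agent.Lib.H1Cop.coset_fixed hAΦ hcopΦ (Or.inr hsolvΦ)
      (fun a ha => htriv a ha k hk)
    refine ⟨n, hn, ?_⟩
    have hΦK : Φ ≤ K := Subgroup.map_subtype_le _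
    set c := n * k with hc
    have hcK : c ∈ K := K.mul_mem (hΦK hn) hk
    rw [Subgroup.mem_centralizer_iff]
    intro a ha
    have h1 : c * a * c⁻¹ * a⁻¹ ∈ A :=
      A.mul_mem ((Subgroup.le_normalizer_iff.mp le_rfl) c hn' a ha) (A.inv_mem ha)
    have h2 : a * c⁻¹ * a⁻¹ * c⁻¹⁻¹ ∈ Φ := htriv a ha _ (K.inv_mem hcK)
    have h3 : c * a * c⁻¹ * a⁻¹ ∈ Φ := by
      have e : c * a * c⁻¹ * a⁻¹ = c * (a * c⁻¹ * a⁻¹ * c⁻¹⁻¹) * c⁻¹ := by group
      rw [e]
      exact (Subgroup.le_normalizer_iff.mp hKΦ) c hcK _ h2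
    have h4 : c * a * c⁻¹ * a⁻¹ ∈ A ⊓ Φ := Subgroup.mem_inf.mpr ⟨h1, h3⟩
    rw [hinf, Subgroup.mem_bot] at h4
    have h5 : c * a * c⁻¹ = a := by rwa [mul_inv_eq_one] at h4
    have h6 : c * a = a * c := by rwa [mul_inv_eq_iff_eq_mul] at h5
    exact h6.symm
  -- the centraliser in `K` supplements the Frattini subgroup
  let D : Subgroup K := (Subgroup.centralizer (A : Set G)).subgroupOf K
  have hD : D ⊔ frattini K = ⊤ := by
    rw [eq_top_iff]
    rintro ⟨k, hk⟩ -
    obtain ⟨n, hn, hn'⟩ := key k hk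
    obtain ⟨y, hy, hyn⟩ := hn
    have hyK : (y : G) = n := hyn
    have h1 : (⟨k, hk⟩ : K) = y⁻¹ * ⟨n * k, K.mul_mem (hyn ▸ y.2) hk⟩ := by
      ext
      simp [hyK]
    rw [h1, sup_comm]
    exact Subgroup.mul_mem_sup (Subgroup.inv_mem _ hy) (Subgroup.mem_subgroupOf.mpr hn')
  have hDtop := frattini_nongenerating hD
  intro a ha
  rw [Subgroup.mem_centralizer_iff]
  intro k hk
  have h1 : (⟨k, hk⟩ : K) ∈ D := by rw [hDtop]; trivial
  have h2 := Subgroup.mem_subgroupOf.mp h1
  exact (Subgroup.mem_centralizer_iff.mp h2 a ha).symm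

end Cfsg.Agent.S0029
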