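import Cfsg.Statements.S2429
import Cfsg.Agent.Lib.H1Torus2

set_option autoImplicit false
open Cfsg

namespace Cfsg.Agent.S2429

/-- Let F be a finite field with q elements, q odd. Then SL₂ over F contains a cyclic subgroup T′ of order q + 1 (a non-split torus) with the following properties: T′ is its own centraliser, and indeed the centraliser of each element of T′ other than 1 and −1 is exactly T′; every element of SL₂ having no eigenvector in F² is conjugate to an element of T′; the normaliser of T′ has order 2(q + 1) and exactly (q + 7)/2 conjugacy classes; and every element of that normaliser outside T′ has square −1. -/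
theorem result {F : Type*} [Field F] [Fintype F] (hodd : Odd (Fintype.card F)) :
    ∃ T' : Subgroup (Matrix.SpecialLinearGroup (Fin 2) F), IsCyclic T' ∧ Nat.card T' = Fintype.card F + 1 ∧
      Subgroup.centralizer ((T' : Set (Matrix.SpecialLinearGroup (Fin 2) F))) = T' ∧
      (∀ g : Matrix.SpecialLinearGroup (Fin 2) F, g ∈ T' → (g : Matrix (Fin 2) (Fin 2) F) ≠ 1 → (g : Matrix (Fin 2) (Fin 2) F) ≠ -1 → Subgroup.centralizer ({g} : Set (Matrix.SpecialLinearGroup (Fin 2) F)) = T') ∧
      (∀ g : Matrix.SpecialLinearGroup (Fin 2) F, (∀ (c : F) (v : Fin 2 → F), v ≠ 0 → (g : Matrix (Fin 2) (Fin 2) F).mulVec v ≠ c • v) → ∃ h : Matrix.SpecialLinearGroup (Fin 2) F, h * g * h⁻¹ ∈ T') ∧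
      Nat.card (Subgroup.normalizer (T' : Set (Matrix.SpecialLinearGroup (Fin 2) F))) = 2 * (Fintype.card F + 1) ∧
      Nat.card (ConjClasses (Subgroup.normalizer (T' : Set (Matrix.SpecialLinearGroup (Fin 2) F)))) = (Fintype.card F + 7) / 2 ∧
      ∀ g : Matrix.SpecialLinearGroup (Fin 2) F, g ∈ Subgroup.normalizer (T' : Set (Matrix.SpecialLinearGroup (Fin 2) F)) → g ∉ T' → ((g * g) : Matrix (Fin 2) (Fin 2) F) = -1 := by
  classical
  open Cfsg.Agent.Lib.H1Torus Cfsg.Agent.Lib.H1GL2 Cfsg.Agent.Lib.H1SL2 Cfsg.Agent.Lib.H1PSL2 in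
  obtain ⟨τ, hord, htr, hgen0⟩ := ns_data (F := F)
  obtain ⟨hx, hns⟩ := ns_gen_props τ hord
  have hgen : ∀ t ∈ Tz τ, ∃ k : ℕ, t = τ ^ k := fun t ht => hgen0 t hns (mem_Tz.mp ht)
  obtain ⟨k, hk⟩ := hodd
  have hq : 1 < Fintype.card F := Fintype.one_lt_card
  have hord2 : orderOf τ = 2 * (k + 1) := by rw [hord, hk]; ring
  have hcT : ∀ c, c ∈ Subgroup.centralizer ((Tz τ : Subgroup (Matrix.SpecialLinearGroup (Fin 2) F)) : Set (Matrix.SpecialLinearGroup (Fin 2) F)) ↔ c ∈ Tz τ := by
    intro c
    constructor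
    · intro hc
      apply mem_Tz.mpr
      exact ((Subgroup.mem_centralizer_iff.mp hc) τ (self_mem_Tz τ)).symm
    · intro ht
      rw [Subgroup.mem_centralizer_iff]
      intro h hh
      exact comm_Tz hgen hh ht
  refine ⟨Tz τ, isCyclic_Tz hgen, by rw [card_Tz hgen, hord], ?_, ?_, ?_, ?_, ?_, ?_⟩
  · ext c
    exact hcT c
  · intro g hg h1 h2
    apply Tz_eq hx hg
    · rintro rfl
      exact h1 (by simp)
    · rintro rfl
      apply h2
      apply m2_ext <;> simp [mone]
  · intro g hg
    have hnr := no_root_of_no_eigen g hg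
    have h4 : tr g ^ 2 ≠ 4 := by
      intro h
      rcases (Cfsg.Agent.Lib.H1PSL2P.sq_eq_four_iff _).mp h with h2 | h2
      · apply hnr 1
        rw [h2]
        ring
      · apply hnr (-1)
        rw [h2]
        ring
    obtain ⟨j, hj⟩ := htr _ hnr
    have hc : IsConj g (τ ^ j) := conj_of_trace _ _ hj.symm h4
    obtain ⟨h, hh⟩ := isConj_iff.mp hc
    refine ⟨h, ?_⟩
    rw [hh]
    exact (Tz τ).pow_mem (self_mem_Tz τ) j
  · rw [card_normalizer hx, card_Tz hgen, hord]
  · have := card_classes_normalizer hx τ (k + 1) (by omega) (self_mem_Tz τ) hgen hord2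
    rw [this, hk]
    omega
  · intro g hg hgT
    have h1 := sq_outside hx hg hgT
    have h2 := congrArg Subtype.val h1
    rw [Matrix.SpecialLinearGroup.coe_mul] at h2
    rw [h2]
    apply m2_ext <;> simp [mone]

end Cfsg.Agent.S2429
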