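import Cfsg.Statements.S0392
import Cfsg.Agent.Lib.LeechBasic
-- import your own Cfsg.Agent.* helpers here

set_option autoImplicit false
open Cfsg

namespace Cfsg.Agent.S0392

/-- Sum of squares of every lattice vector is divisible by 16 (even lattice at scale 1/8). -/
theorem result (x : Cfsg.GolayPt → ℤ) (hx : x ∈ Cfsg.leechLattice) : (16 : ℤ) ∣ Cfsg.sqNorm x := by
  rw [LeechBasic.mem_lattice] at hx
  obtain ⟨m, A, hA, h4, hs⟩ := LeechBasic.dec hx
  have hk : ∃ k : ℤ, (A.card : ℤ) = 4 * k := by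
    have := LeechBasic.cd_card hA
    exact ⟨(A.card / 4 : ℕ), by omega⟩
  obtain ⟨k, hk⟩ := hk
  set I := LeechBasic.ind A with hI
  set u : GolayPt → ℤ := fun i => (x i - (m + 2 * I i)) / 4 with hu
  have hx' : ∀ i, x i = m + 2 * I i + 4 * u i := by
    intro i
    have := h4 i
    unfold Int.ModEq at this
    simp only [hu]
    omega
  have hI2 : ∀ i, I i ^ 2 = I i := by
    intro i
    simp only [hI, LeechBasic.ind]
    split_ifs <;> norm_num
  have hIs : ∑ i, I i = 4 * k := by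
    rw [← hk]
    simp only [hI, LeechBasic.ind]
    rw [Finset.sum_boole]
    simp
  have hc : ∑ _i : GolayPt, (1 : ℤ) = 24 := by decide
  have hU : ∑ i, x i = 24 * m + 8 * k + 4 * ∑ i, u i := by
    have h1 : ∀ i, x i = m * 1 + 2 * I i + 4 * u i := by
      intro i; rw [hx' i]; ring
    simp only [h1, Finset.sum_add_distrib, ← Finset.mul_sum, hc, hIs]
    ring
  rw [hU] at hs
  unfold Int.ModEq at hs
  obtain ⟨n, hn⟩ : ∃ n, ∑ i, u i = m + 2 * n := ⟨((∑ i, u i) - m) / 2, by omega⟩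
  refine ⟨2 * m ^ 2 + m * k + k + m * n + ∑ i, I i * u i + ∑ i, u i ^ 2, ?_⟩
  have h2 : ∀ i, x i ^ 2 = m ^ 2 * 1 + 4 * m * I i + 4 * I i + 8 * m * u i + 16 * (I i * u i) + 16 * u i ^ 2 := by
    intro i
    rw [hx' i]
    linear_combination 4 * hI2 i
  unfold sqNorm
  simp only [h2, Finset.sum_add_distrib, ← Finset.mul_sum, hc, hIs, hn]
  ring

end Cfsg.Agent.S0392
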