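import Cfsg.Statements.S0391
import Cfsg.Agent.Lib.LeechBasic
import Cfsg.Agent.S0392
-- import your own Cfsg.Agent.* helpers here

set_option autoImplicit false
open Cfsg

namespace Cfsg.Agent.S0391

/-- Nonzero lattice vectors have sum of squares ≥ 32 (no vectors of customary norm 2). -/
theorem result (x : Cfsg.GolayPt → ℤ) (hx : x ∈ Cfsg.leechLattice) (h0 : x ≠ 0) : 32 ≤ Cfsg.sqNorm x := by
  have h16 := Cfsg.Agent.S0392.result x hx
  rw [LeechBasic.mem_lattice] at hx
  obtain ⟨m, h2, hs, hk⟩ := hx
  have hnn : ∀ i, 0 ≤ x i ^ 2 := fun i => sq_nonneg _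
  by_contra hlt
  have hlt' : sqNorm x < 32 := not_le.1 hlt
  by_cases hm : m % 2 = 0
  · -- even entries
    have hev : ∀ i, x i % 2 = 0 := by
      intro i
      have := h2 i
      unfold Int.ModEq at this
      omega
    have hA := hk 2
    set A := Finset.univ.filter fun i => x i ≡ 2 [ZMOD 4] with hAdef
    by_cases hA0 : A = ∅
    · have h4 : ∀ i, x i % 4 = 0 := by
        intro i
        have h1 : i ∉ A := by simp [hA0]
        simp only [hAdef, Finset.mem_filter, Finset.mem_univ, true_and] at h1
        have := hev i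
        unfold Int.ModEq at h1
        omega
      obtain ⟨j, hj⟩ : ∃ j, x j ≠ 0 := by
        by_contra hcon
        push Not at hcon
        exact h0 (funext hcon)
      have hj4 : 16 ≤ x j ^ 2 := by
        have h5 := h4 j
        have h6 : 4 ≤ |x j| := by
          rcases abs_cases (x j) with ⟨h7, h8⟩ | ⟨h7, h8⟩ <;> omega
        have := sq_abs (x j)
        nlinarith
      have hQ := Finset.add_sum_erase (Finset.univ : Finset GolayPt) (fun i => x i ^ 2) (Finset.mem_univ j)
      have hrest : 0 ≤ ∑ i ∈ Finset.univ.erase j, x i ^ 2 := Finset.sum_nonneg (fun i _ => hnn i)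
      have hQ' : sqNorm x = x j ^ 2 + ∑ i ∈ Finset.univ.erase j, x i ^ 2 := hQ.symm
      obtain ⟨c, hc⟩ := h16
      have hQ16 : sqNorm x = 16 := by omega
      have hrest0 : ∑ i ∈ Finset.univ.erase j, x i ^ 2 = 0 := by omega
      have hother : ∀ i, i ≠ j → x i = 0 := by
        intro i hij
        have := (Finset.sum_eq_zero_iff_of_nonneg (fun i _ => hnn i)).1 hrest0 i (Finset.mem_erase.2 ⟨hij, Finset.mem_univ i⟩)
        exact pow_eq_zero_iff (by norm_num) |>.1 this
      have hsum : ∑ i, x i = x j := by
        rw [Finset.sum_eq_single j]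
        · intro i _ hij
          exact hother i hij
        · simp
      have hj2 : x j ^ 2 = 16 := by omega
      have hj3 : x j = 4 ∨ x j = -4 := by
        have : (x j - 4) * (x j + 4) = 0 := by linear_combination hj2
        rcases mul_eq_zero.1 this with h | h
        · left; linarith
        · right; linarith
      rw [hsum] at hs
      unfold Int.ModEq at hs
      rcases hj3 with h | h <;> rw [h] at hs <;> omega
    · -- a nonempty code word
      have hcard : 8 ≤ A.card := by
        have hw := LeechBasic.cd_card hA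
        obtain ⟨u, hu, hu2⟩ := hA
        have := Cfsg.Agent.S0359.result u hu
        have h3 : A.card = hammingNorm u := by
          rw [← hu2]
          rfl
        have h5 : A.card ≠ 0 := fun h => hA0 (Finset.card_eq_zero.1 h)
        omega
      have hle : ∑ i ∈ A, x i ^ 2 ≤ sqNorm x :=
        Finset.sum_le_sum_of_subset_of_nonneg (Finset.subset_univ _) (fun i _ _ => hnn i)
      have hge : A.card • (4 : ℤ) ≤ ∑ i ∈ A, x i ^ 2 := by
        apply Finset.card_nsmul_le_sum
        intro i hi
        simp only [hAdef, Finset.mem_filter, Finset.mem_univ, true_and] at hi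
        unfold Int.ModEq at hi
        have h6 : 2 ≤ |x i| := by
          rcases abs_cases (x i) with ⟨h7, h8⟩ | ⟨h7, h8⟩ <;> omega
        have := sq_abs (x i)
        nlinarith
      simp only [nsmul_eq_mul] at hge
      have : (8 : ℤ) ≤ A.card := by exact_mod_cast hcard
      omega
  · have hodd : ∀ i, 1 ≤ x i ^ 2 := by
      intro i
      have := h2 i
      unfold Int.ModEq at this
      have h6 : 1 ≤ |x i| := by
        rcases abs_cases (x i) with ⟨h7, h8⟩ | ⟨h7, h8⟩ <;> omega
      have := sq_abs (x i)
      nlinarith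
    have h24 : (24 : ℤ) ≤ sqNorm x := by
      have h1 : ∑ _i : GolayPt, (1 : ℤ) ≤ ∑ i, x i ^ 2 := Finset.sum_le_sum (fun i _ => hodd i)
      have h3 : ∑ _i : GolayPt, (1 : ℤ) = 24 := by decide
      rw [h3] at h1
      exact h1
    obtain ⟨c, hc⟩ := h16
    omega

end Cfsg.Agent.S0391
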