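import Cfsg.Statements.S0251
import Cfsg.Agent.Lib.SL2Gen

set_option autoImplicit false
open Cfsg

namespace Cfsg.Agent.S0251

open scoped LinearAlgebra.Projectivization
open Cfsg.Agent.Lib.SL2Gen

theorem int_units_of_cube (u : ℤˣ) (h : u ^ 3 = 1) : u = 1 := by
  have h2 := Int.units_sq u
  have : u ^ 3 = u ^ 2 * u := by group
  rw [this, h2, one_mul] at h
  exact h

/-- PSL_2(3) is isomorphic to A_4. -/
theorem result {F : Type*} [Field F] [Fintype F] (hF : Fintype.card F = 3) : Nonempty (Matrix.ProjectiveSpecialLinearGroup (Fin 2) F ≃* alternatingGroup (Fin 4)) := by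
  classical
  have hfr : Module.finrank F (Fin 2 → F) = 2 := by simp
  have hP : Nat.card (ℙ F (Fin 2 → F)) = 4 := by
    rw [Projectivization.card_of_finrank_two F (Fin 2 → F) hfr, Nat.card_eq_fintype_card, hF]
  haveI : Finite (ℙ F (Fin 2 → F)) := Nat.finite_of_card_ne_zero (by omega)
  letI := Fintype.ofFinite (ℙ F (Fin 2 → F))
  have hP' : Fintype.card (ℙ F (Fin 2 → F)) = Fintype.card (Fin 4) := by
    rw [← Nat.card_eq_fintype_card, hP]; simp
  let e : ℙ F (Fin 2 → F) ≃ Fin 4 := Fintype.equivOfCardEq hP'
  let φ : Matrix.ProjectiveSpecialLinearGroup (Fin 2) F →* Equiv.Perm (Fin 4) :=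
    (e.permCongrHom.toMonoidHom).comp Projectivization.PSLAction.toPermHom
  have hinj : Function.Injective φ :=
    e.permCongrHom.injective.comp Matrix.ProjectiveSpecialLinearGroup.toPermHom_injective
  -- the characteristic is three
  have h3 : (3 : F) = 0 := by
    have := FiniteField.cast_card_eq_zero F
    rw [hF] at this
    exact_mod_cast this
  -- sign is trivial
  let ψ : Matrix.SpecialLinearGroup (Fin 2) F →* ℤˣ :=
    (Equiv.Perm.sign.comp φ).comp (QuotientGroup.mk' _)
  have hψ : ψ = 1 := by
    have hU : ∀ b : F, ψ (us b) = 1 := by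
      intro b
      apply int_units_of_cube
      rw [← map_pow]
      have : us b ^ 3 = 1 := by
        rw [pow_succ, pow_two, us_add, us_add]
        have : b + b + b = 3 * b := by ring
        rw [this, h3, zero_mul, us_zero]
      rw [this, map_one]
    have hL : ∀ b : F, ψ (ls b) = 1 := by
      intro b
      apply int_units_of_cube
      rw [← map_pow]
      have : ls b ^ 3 = 1 := by
        rw [pow_succ, pow_two, ls_add, ls_add]
        have : b + b + b = 3 * b := by ring
        rw [this, h3, zero_mul, ls_zero]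
      rw [this, map_one]
    have hle : (⊤ : Subgroup (Matrix.SpecialLinearGroup (Fin 2) F)) ≤ ψ.ker := by
      rw [← closure_us_ls, Subgroup.closure_le]
      rintro x (⟨b, rfl⟩ | ⟨b, rfl⟩)
      · exact hU b
      · exact hL b
    ext x
    have : x ∈ ψ.ker := hle trivial
    rw [MonoidHom.mem_ker] at this
    rw [this]; rfl
  have hmem : ∀ x, φ x ∈ alternatingGroup (Fin 4) := by
    intro x
    obtain ⟨y, rfl⟩ := QuotientGroup.mk'_surjective _ x
    rw [Equiv.Perm.mem_alternatingGroup]
    have := congrArg (fun f => f y) hψ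
    exact this
  let φ' : Matrix.ProjectiveSpecialLinearGroup (Fin 2) F →* alternatingGroup (Fin 4) :=
    φ.codRestrict _ hmem
  have hinj' : Function.Injective φ' := by
    intro a b h
    exact hinj (congrArg Subtype.val h)
  have hcard : Nat.card (Matrix.ProjectiveSpecialLinearGroup (Fin 2) F) = Nat.card (alternatingGroup (Fin 4)) := by
    have h1 := Cfsg.Agent.Lib.ClassicalBasic.card_SL_eq_center_mul_PSL (F := F) 2
    rw [Cfsg.Agent.Lib.ClassicalBasic.card_center_SL 2 (by norm_num), card_SL2, hF] at h1
    have h1' : Nat.card (Matrix.ProjectiveSpecialLinearGroup (Fin 2) F) = 12 := by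
      have h5 : Nat.gcd 2 (3 - 1) = 2 := by norm_num
      rw [h5, show 3 * (3 - 1) * (3 + 1) = 24 by norm_num] at h1
      omega
    have h2 : Nat.card (alternatingGroup (Fin 4)) = 12 := by
      rw [Nat.card_eq_fintype_card]; decide
    rw [h1', h2]
  exact ⟨MulEquiv.ofBijective φ' ((Nat.bijective_iff_injective_and_card φ').2 ⟨hinj', hcard⟩)⟩

end Cfsg.Agent.S0251
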