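import Cfsg.Statements.S1226
import Mathlib
import Cfsg.Agent.Lib.SylowTools
import Cfsg.Prelude.Def_Involutions
import Cfsg.Agent.Lib.PNilp

set_option autoImplicit false
open Cfsg

namespace Cfsg.Agent.S1226

open Cfsg.Agent.Lib.SylowTools Cfsg.Agent.Lib.InvolSylow

/-- Let G be a finite group with a Sylow 2-subgroup T that is neither cyclic nor normal, such that the centralizer of every involution is an elementary abelian 2-group. Then N_G(T) is a strongly embedded subgroup of G. -/
theorem result {G : Type*} [Group G] [Finite G] (T : Sylow 2 G) (hnc : ¬ IsCyclic (T : Subgroup G)) (hnn : ¬ (T : Subgroup G).Normal) (hC : ∀ t : G, orderOf t = 2 → IsMulCommutative (Subgroup.centralizer ({t} : Set G)) ∧ ∀ c ∈ Subgroup.centralizer ({t} : Set G), c ^ 2 = 1) : Cfsg.IsStronglyEmbedded (Subgroup.normalizer ((T : Subgroup G) : Set G)) := by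
  haveI : Fact (Nat.Prime 2) := ⟨Nat.prime_two⟩
  have hTbot : Nontrivial (T : Subgroup G) := by
    by_contra hc
    rw [not_nontrivial_iff_subsingleton] at hc
    exact hnc inferInstance
  have hT2 : IsPGroup 2 (T : Subgroup G) := T.2
  haveI : Nontrivial (Subgroup.center (T : Subgroup G)) := hT2.center_nontrivial
  have hZ2 : IsPGroup 2 (Subgroup.center (T : Subgroup G)) := IsPGroup.to_subgroup hT2 _
  have hdvd : 2 ∣ Nat.card (Subgroup.center (T : Subgroup G)) := by
    obtain ⟨k, hk⟩ := IsPGroup.iff_card.mp hZ2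
    have h1 : 1 < Nat.card (Subgroup.center (T : Subgroup G)) := Finite.one_lt_card
    rw [hk] at h1 ⊢
    rcases k with _ | k
    · simp at h1
    · exact dvd_pow_self 2 (by omega)
  obtain ⟨z, hz⟩ := exists_prime_orderOf_dvd_card' 2 hdvd
  have hzG : orderOf ((z : ↥(T : Subgroup G)) : G) = 2 := by
    rw [Subgroup.orderOf_coe, Subgroup.orderOf_coe]
    exact hz
  have hTC : (T : Subgroup G) ≤ Subgroup.centralizer ({((z : ↥(T : Subgroup G)) : G)} : Set G) := by
    intro x hx
    rw [Subgroup.mem_centralizer_iff]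
    intro y hy
    rw [Set.mem_singleton_iff] at hy
    rw [hy]
    have h1 := (Subgroup.mem_center_iff.mp z.2) ⟨x, hx⟩
    exact (congrArg Subtype.val h1).symm
  have hCcomm := hC _ hzG
  have hTcomm : ∀ a ∈ (T : Subgroup G), ∀ b ∈ (T : Subgroup G), a * b = b * a := by
    intro a ha b hb
    have h1 := hCcomm.1.is_comm.comm ⟨a, hTC ha⟩ ⟨b, hTC hb⟩
    exact congrArg Subtype.val h1
  have key : ∀ t ∈ (T : Subgroup G), orderOf t = 2 →
      Subgroup.centralizer ({t} : Set G) = (T : Subgroup G) := by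
    intro t ht ht2
    have h1 : (T : Subgroup G) ≤ Subgroup.centralizer ({t} : Set G) := by
      intro x hx
      rw [Subgroup.mem_centralizer_iff]
      intro y hy
      rw [Set.mem_singleton_iff] at hy
      rw [hy]
      exact hTcomm t ht x hx
    have h2 : IsPGroup 2 (Subgroup.centralizer ({t} : Set G)) := by
      rintro ⟨c, hc⟩
      refine ⟨1, ?_⟩
      apply Subtype.ext
      simpa using (hC t ht2).2 c hc
    exact T.is_maximal' h2 h1
  have hinv : ∀ i : G, orderOf i = 2 → i ∈ Subgroup.normalizer ((T : Subgroup G) : Set G) →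
      i ∈ (T : Subgroup G) := by
    intro i hi hiN
    have h2 : IsPGroup 2 (Subgroup.zpowers i) := by
      rw [IsPGroup.iff_card]
      exact ⟨1, by rw [Nat.card_zpowers, hi, pow_one]⟩
    have h3 := h2.inf_normalizer_sylow T
    have h4 : i ∈ Subgroup.zpowers i ⊓ Subgroup.normalizer ((T : Subgroup G) : Set G) :=
      ⟨Subgroup.mem_zpowers _, hiN⟩
    exact (h3.le h4).2
  refine ⟨?_, ?_, ?_⟩
  · intro h
    apply hnn
    rw [← Subgroup.normalizer_eq_top_iff]
    exact h
  · have h1 : (2 : ℕ) ∣ Nat.card (Subgroup.normalizer ((T : Subgroup G) : Set G)) := by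
      have h2 : Nat.card (T : Subgroup G) ∣ Nat.card (Subgroup.normalizer ((T : Subgroup G) : Set G)) :=
        Subgroup.card_dvd_of_le Subgroup.le_normalizer
      have h3 : 2 ∣ Nat.card (T : Subgroup G) := by
        have h4 : orderOf (z : ↥(T : Subgroup G)) = 2 := by
          rw [Subgroup.orderOf_coe]; exact hz
        have h5 := orderOf_dvd_natCard (z : ↥(T : Subgroup G))
        rwa [h4] at h5
      exact h3.trans h2
    exact even_iff_two_dvd.mpr h1
  · intro g hg
    rw [← Nat.not_even_iff_odd, even_iff_two_dvd]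
    intro hdiv
    obtain ⟨i₀, hi⟩ := exists_prime_orderOf_dvd_card' 2 hdiv
    obtain ⟨i, hi₀⟩ : ∃ i : G, i = i₀.1 := ⟨_, rfl⟩
    have hiG : orderOf i = 2 := by
      rw [hi₀, Subgroup.orderOf_coe]; exact hi
    have hi1 : i ∈ Subgroup.normalizer ((T : Subgroup G) : Set G) := hi₀ ▸ i₀.2.1
    have hi2 := mem_conj_iff.mp (hi₀ ▸ i₀.2.2)
    have hiT := hinv _ hiG hi1
    have hjord : orderOf (g⁻¹ * i * g) = 2 := by
      have := Cfsg.Agent.Lib.PNilp.orderOf_conj' g⁻¹ i
      rw [inv_inv] at this
      rw [this]; exact hiG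
    have hjT := hinv _ hjord hi2
    have e1 := key _ hiT hiG
    have e2 := key _ hjT hjord
    apply hg
    rw [conj_mem_normalizer_iff]
    apply Subgroup.eq_of_le_of_card_ge
    · rw [map_conj_le_iff]
      intro x hx
      -- `x ∈ T = C(g⁻¹ i g)` so `g x g⁻¹ ∈ C(i) = T`
      rw [← e2] at hx
      rw [← e1, Subgroup.mem_centralizer_iff]
      intro y hy
      rw [Set.mem_singleton_iff] at hy
      rw [hy]
      rw [Subgroup.mem_centralizer_iff] at hx
      have h5 := hx (g⁻¹ * i * g) (by simp)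
      have h6 : g * (g⁻¹ * i * g * x) * g⁻¹ = g * (x * (g⁻¹ * i * g)) * g⁻¹ := by
        rw [h5]
      have e3 : g * (g⁻¹ * i * g * x) * g⁻¹ = i * (g * x * g⁻¹) := by group
      have e4 : g * (x * (g⁻¹ * i * g)) * g⁻¹ = (g * x * g⁻¹) * i := by group
      rw [e3, e4] at h6
      exact h6
    · rw [card_map_conj]

end Cfsg.Agent.S1226
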