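import Cfsg.Statements.S0833


set_option autoImplicit false
open Cfsg

namespace Cfsg.Agent.S0833


open TensorProduct LinearMap

section
variable {F U W : Type*} [Field F] [AddCommGroup U] [Module F U] [AddCommGroup W] [Module F W]

theorem tm_apply (B₁ : LinearMap.BilinForm F U) (B₂ : LinearMap.BilinForm F W) (u u' : U) (w w' : W) :
    (B₁.tmul B₂) (u ⊗ₜ[F] w) (u' ⊗ₜ[F] w') = B₂ w w' • B₁ u u' :=
  LinearMap.BilinForm.tensorDistrib_tmul _ _ _ _ _ _ _ _

theorem tm_symm (B₁ : LinearMap.BilinForm F U) (B₂ : LinearMap.BilinForm F W)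
    (h : ∀ (a c : U) (b d : W), B₂ b d • B₁ a c = B₂ d b • B₁ c a) (x y : U ⊗[F] W) :
    (B₁.tmul B₂) x y = (B₁.tmul B₂) y x := by
  induction x using TensorProduct.induction_on with
  | zero => simp
  | tmul a b =>
    induction y using TensorProduct.induction_on with
    | zero => simp
    | tmul c d => rw [tm_apply, tm_apply, h]
    | add y1 y2 hy1 hy2 => simp only [map_add, LinearMap.add_apply, hy1, hy2]
  | add x1 x2 h1 h2 => simp only [map_add, LinearMap.add_apply, h1, h2]

theorem tm_sepR [FiniteDimensional F U] [FiniteDimensional F W]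
    (B₁ : LinearMap.BilinForm F U) (B₂ : LinearMap.BilinForm F W)
    (h₁ : B₁.Nondegenerate) (h₂ : B₂.Nondegenerate) (x : U ⊗[F] W)
    (hx : ∀ y, (B₁.tmul B₂) y x = 0) : x = 0 := by
  classical
  let b := Module.finBasis F U
  let c := Module.finBasis F W
  let b' := B₁.dualBasis h₁ b
  let c' := B₂.dualBasis h₂ c
  let β := b.tensorProduct c
  have key : ∀ p, (B₁.tmul B₂) (b' p.1 ⊗ₜ[F] c' p.2) = β.coord p := by
    intro p
    apply β.ext
    rintro ⟨k, l⟩
    rw [Module.Basis.tensorProduct_apply, tm_apply, Module.Basis.coord_apply,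
      ← Module.Basis.tensorProduct_apply, Module.Basis.repr_self, Finsupp.single_apply]
    rw [LinearMap.BilinForm.apply_dualBasis_left, LinearMap.BilinForm.apply_dualBasis_left]
    obtain ⟨i, j⟩ := p
    by_cases h1 : k = i
    · by_cases h2 : l = j
      · simp [h1, h2]
      · simp [h2]
    · simp [h1]
  apply β.repr.injective
  ext p
  have := hx (b' p.1 ⊗ₜ[F] c' p.2)
  rw [key p, Module.Basis.coord_apply] at this
  simpa using this

/-- A non-degenerate alternating form has a Lagrangian. -/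
theorem exists_iso [FiniteDimensional F U] (B : LinearMap.BilinForm F U)
    (h : B.Nondegenerate) (hA : B.IsAlt) (k : ℕ) (hU : Module.finrank F U = 2 * k) (j : ℕ) (hj : j ≤ k) :
    ∃ L : Submodule F U, Module.finrank F L = j ∧ ∀ x ∈ L, ∀ y ∈ L, B x y = 0 := by
  induction j with
  | zero => exact ⟨⊥, by simp, fun x hx y _ => by
      rw [Submodule.mem_bot] at hx
      simp [hx]⟩
  | succ j ih =>
    obtain ⟨L, hL, hiso⟩ := ih (by omega)
    have hfr := LinearMap.BilinForm.finrank_orthogonal h L
    have hle : L ≤ B.orthogonal L := by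
      intro x hx y hy
      exact hiso y hy x hx
    have hlt : L < B.orthogonal L := by
      refine lt_of_le_of_ne hle ?_
      intro he
      rw [← he] at hfr
      omega
    obtain ⟨v, hv, hvL⟩ := SetLike.exists_of_lt hlt
    refine ⟨L ⊔ Submodule.span F {v}, ?_, ?_⟩
    · have hdis : Disjoint L (Submodule.span F {v}) := by
        rw [Submodule.disjoint_def]
        intro x hx hx2
        obtain ⟨c, rfl⟩ := Submodule.mem_span_singleton.1 hx2
        by_cases hc : c = 0
        · simp [hc]
        · exfalso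
          apply hvL
          have := L.smul_mem c⁻¹ hx
          rwa [smul_smul, inv_mul_cancel₀ hc, one_smul] at this
      have hv0 : v ≠ 0 := fun h0 => hvL (h0 ▸ L.zero_mem)
      have h1 := Submodule.finrank_add_finrank_le_of_disjoint hdis
      have h2 := Submodule.finrank_sup_add_finrank_inf_eq L (Submodule.span F {v})
      rw [hdis.eq_bot, finrank_bot, add_zero, finrank_span_singleton hv0, hL] at h2
      exact h2
    · have hskew : ∀ a b, B a b = - B b a := fun a b => hA.neg_eq b a |>.symm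
      intro x hx y hy
      obtain ⟨l, hl, s, hs, rfl⟩ := Submodule.mem_sup.1 hx
      obtain ⟨l', hl', s', hs', rfl⟩ := Submodule.mem_sup.1 hy
      obtain ⟨c, rfl⟩ := Submodule.mem_span_singleton.1 hs
      obtain ⟨d, rfl⟩ := Submodule.mem_span_singleton.1 hs'
      have h1 : B l l' = 0 := hiso l hl l' hl'
      have h2 : B l v = 0 := hv l hl
      have h3 : B v l' = 0 := by rw [hskew, hv l' hl', neg_zero]
      have h4 : B v v = 0 := hA v
      simp [h1, h2, h3, h4]

/-- Isotropy of a tensor: `L ⊗ W` inside `U ⊗ W`. -/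
theorem tm_iso [FiniteDimensional F U] [FiniteDimensional F W] (B₁ : LinearMap.BilinForm F U) (B₂ : LinearMap.BilinForm F W)
    (L : Submodule F U) (hL : ∀ x ∈ L, ∀ y ∈ L, B₁ x y = 0) :
    ∃ X : Submodule F (U ⊗[F] W), Module.finrank F X = Module.finrank F L * Module.finrank F W ∧
      ∀ x ∈ X, ∀ y ∈ X, (B₁.tmul B₂) x y = 0 := by
  let f : (L ⊗[F] W) →ₗ[F] (U ⊗[F] W) := LinearMap.rTensor W L.subtype
  have hf : Function.Injective f := Module.Flat.rTensor_preserves_injective_linearMap L.subtype L.injective_subtype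
  refine ⟨LinearMap.range f, ?_, ?_⟩
  · rw [LinearMap.finrank_range_of_inj hf, Module.finrank_tensorProduct]
  · rintro _ ⟨x, rfl⟩ _ ⟨y, rfl⟩
    induction x using TensorProduct.induction_on with
    | zero => simp
    | tmul a b =>
      induction y using TensorProduct.induction_on with
      | zero => simp
      | tmul c d =>
        simp only [f, LinearMap.rTensor_tmul, Submodule.subtype_apply]
        rw [tm_apply, hL _ a.2 _ c.2, smul_zero]
      | add y1 y2 hy1 hy2 => simp only [map_add, hy1, hy2, add_zero]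
    | add x1 x2 h1 h2 => simp only [map_add, LinearMap.add_apply, h1, h2, add_zero]

end


/-- If B₁, B₂ are non-degenerate alternating forms on U (dim 2k) and W (dim 2l), then B₁ ⊗ B₂ on U ⊗ W is symmetric, non-degenerate, and vanishes identically on some subspace of dimension 2kl (half of dim U ⊗ W). -/
theorem result {F U W : Type*} [Field F] [Fintype F] [AddCommGroup U] [Module F U] [FiniteDimensional F U] [AddCommGroup W] [Module F W] [FiniteDimensional F W] (B₁ : LinearMap.BilinForm F U) (B₂ : LinearMap.BilinForm F W) (h₁ : B₁.Nondegenerate) (h₂ : B₂.Nondegenerate) (hA₁ : B₁.IsAlt) (hA₂ : B₂.IsAlt) (k l : ℕ) (hU : Module.finrank F U = 2 * k) (hW : Module.finrank F W = 2 * l) : (B₁.tmul B₂).IsSymm ∧ (B₁.tmul B₂).Nondegenerate ∧ (∃ X : Submodule F (TensorProduct F U W), Module.finrank F X = 2 * k * l ∧ ∀ x ∈ X, ∀ y ∈ X, (B₁.tmul B₂) x y = 0) := by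
  have hskew₁ : ∀ a b, B₁ a b = - B₁ b a := fun a b => hA₁.neg_eq b a |>.symm
  have hskew₂ : ∀ a b, B₂ a b = - B₂ b a := fun a b => hA₂.neg_eq b a |>.symm
  have hsym := tm_symm B₁ B₂ (fun a c b d => by
    rw [hskew₁ a c, hskew₂ b d]
    simp)
  refine ⟨⟨fun x y => hsym x y⟩, ⟨?_, ?_⟩, ?_⟩
  · intro x hx
    exact tm_sepR B₁ B₂ h₁ h₂ x (fun y => by rw [hsym]; exact hx y)
  · intro x hx
    exact tm_sepR B₁ B₂ h₁ h₂ x hx
  · obtain ⟨L, hL, hiso⟩ := exists_iso B₁ h₁ hA₁ k hU k le_rfl
    obtain ⟨X, hX, hX2⟩ := tm_iso (W := W) B₁ B₂ L hiso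
    refine ⟨X, ?_, hX2⟩
    rw [hX, hL, hW]
    ring

end Cfsg.Agent.S0833
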