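import Cfsg.Statements.S0001
import Cfsg.Agent.Lib.H1SZ

set_option autoImplicit false
open Pointwise
open Cfsg

namespace Cfsg.Agent.S0001

/-- Conjugacy half of the Schur–Zassenhaus Theorem, under a solvability assumption on the normal Hall subgroup or on its quotient. -/
theorem result {G : Type*} [Group G] [Finite G] (N : Subgroup G) [N.Normal]
    (hN : (Nat.card N).Coprime N.index) (hsolv : Group.IsSolvable N ∨ Group.IsSolvable (G ⧸ N))
    (H K : Subgroup G) (hH : Subgroup.IsComplement' N H) (hK : Subgroup.IsComplement' N K) :
    ∃ g : G, MulAut.conj g • H = K := by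
  have hcard : Nat.card N * Nat.card H = Nat.card G := hH.card_mul_card
  have hidx : N.index = Nat.card H := hH.symm.index_eq_card
  have hidxK : N.index = Nat.card K := hK.symm.index_eq_card
  have hs : Group.IsSolvable N ∨ Group.IsSolvable H := by
    rcases hsolv with h | h
    · exact Or.inl h
    · right
      haveI := h
      refine solvable_of_solvable_injective (f := (QuotientGroup.mk' N).comp H.subtype) ?_
      rw [injective_iff_map_eq_one]
      intro x hx
      have hxN : (x : G) ∈ N := (QuotientGroup.eq_one_iff _).mp hx
      have h2 : (x : G) ∈ N ⊓ H := Subgroup.mem_inf.mpr ⟨hxN, x.2⟩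
      rw [disjoint_iff.mp hH.disjoint, Subgroup.mem_bot] at h2
      exact Subtype.ext h2
  exact Cfsg.Agent.Lib.H1SZ.sz_conj N H K hs (hidx ▸ hN) hcard (hidxK.symm.trans hidx)

end Cfsg.Agent.S0001
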