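import Cfsg.Statements.S0007
import Mathlib.GroupTheory.Sylow
import Mathlib.Tactic

set_option autoImplicit false
open Cfsg

namespace Cfsg.Agent.S0007

/-- Subgroups of coprime index: the intersection has index equal to the product of the indices, and every element is a product of an element of the first subgroup and an element of the second. -/
theorem result {G : Type*} [Group G] [Finite G] (H K : Subgroup G)
    (h : H.index.Coprime K.index) :
    (H ⊓ K).index = H.index * K.index ∧ ∀ g : G, ∃ x ∈ H, ∃ y ∈ K, g = x * y := by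
  have h1 : H.index ∣ (H ⊓ K).index := Subgroup.index_dvd_of_le inf_le_left
  have h2 : K.index ∣ (H ⊓ K).index := Subgroup.index_dvd_of_le inf_le_right
  have h3 : H.index * K.index ∣ (H ⊓ K).index := h.mul_dvd_of_dvd_of_dvd h1 h2
  have h4 : (H ⊓ K).index ≤ H.index * K.index := Subgroup.index_inf_le
  have h0 : (H ⊓ K).index ≠ 0 := Subgroup.index_ne_zero_of_finite
  have h5 : (H ⊓ K).index = H.index * K.index :=
    le_antisymm h4 (Nat.le_of_dvd (Nat.pos_of_ne_zero h0) h3)
  refine ⟨h5, ?_⟩
  have h6 : K.relIndex H = K.index := by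
    have e1 : (H ⊓ K).index = K.relIndex H * H.index := by
      have := Subgroup.relIndex_mul_index (H := H ⊓ K) (K := H) inf_le_left
      rw [Subgroup.inf_relIndex_left] at this
      exact this.symm
    have hHpos : 0 < H.index := Nat.pos_of_ne_zero Subgroup.index_ne_zero_of_finite
    rw [e1, mul_comm H.index K.index] at h5
    exact Nat.eq_of_mul_eq_mul_right hHpos h5
  have hstab : MulAction.stabilizer H ((1 : G) : G ⧸ K) = K.subgroupOf H := by
    ext x
    have e : x • ((1 : G) : G ⧸ K) = (((x : G) * 1 : G) : G ⧸ K) := rfl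
    rw [MulAction.mem_stabilizer_iff, e, mul_one, Subgroup.mem_subgroupOf]
    rw [QuotientGroup.eq, mul_one, inv_mem_iff]
  have horb : (MulAction.orbit H ((1 : G) : G ⧸ K)) = Set.univ := by
    apply Set.eq_of_subset_of_ncard_le (Set.subset_univ _)
    rw [← MulAction.index_stabilizer, hstab, Set.ncard_univ, ← Subgroup.index_eq_card]
    exact h6.ge
  intro g
  have hg : (g : G ⧸ K) ∈ MulAction.orbit H ((1 : G) : G ⧸ K) := by rw [horb]; trivial
  obtain ⟨x, hx⟩ := hg
  refine ⟨x, x.2, (x : G)⁻¹ * g, ?_, by group⟩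
  refine QuotientGroup.eq.mp ?_
  have e : x • ((1 : G) : G ⧸ K) = (((x : G) * 1 : G) : G ⧸ K) := rfl
  have hx' : x • ((1 : G) : G ⧸ K) = (g : G ⧸ K) := hx
  rw [e, mul_one] at hx'
  exact hx'
end Cfsg.Agent.S0007
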