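import Cfsg.Statements.S0011
import Cfsg.Agent.Lib.H1Core

set_option autoImplicit false
open Cfsg

namespace Cfsg.Agent.S0011

/-- If the Frattini quotient of a finite group is nilpotent then the group is nilpotent. -/
theorem result {G : Type*} [Group G] [Finite G]
    (h : Group.IsNilpotent (G ⧸ frattini G)) : Group.IsNilpotent G := by
  have hq := (Group.isNilpotent_of_finite_tfae (G := G)).out 0 3
  rw [hq]
  intro p _ P
  have hsurj : Function.Surjective (QuotientGroup.mk' (frattini G)) :=
    QuotientGroup.mk'_surjective _
  have hQ : ((P.mapSurjective hsurj : Sylow p (G ⧸ frattini G)) : Subgroup (G ⧸ frattini G)).Normal :=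
    inferInstance
  have hN : ((P : Subgroup G).map (QuotientGroup.mk' (frattini G))).comap
      (QuotientGroup.mk' (frattini G)) = (P : Subgroup G) ⊔ frattini G := by
    rw [Subgroup.comap_map_eq, QuotientGroup.ker_mk']
  have hNn : ((P : Subgroup G) ⊔ frattini G).Normal := by
    rw [← hN]
    rw [Sylow.coe_mapSurjective] at hQ
    exact hQ.comap _
  have h1 := P.normalizer_sup_eq_top' (N := (P : Subgroup G) ⊔ frattini G) le_sup_left
  have h2 : (Subgroup.normalizer ((P : Subgroup G) : Set G)) ⊔ frattini G = ⊤ := by
    apply top_le_iff.mp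
    rw [← h1]
    exact sup_le le_sup_left (sup_le (Subgroup.le_normalizer.trans le_sup_left) le_sup_right)
  exact Subgroup.normalizer_eq_top_iff.mp (frattini_nongenerating h2)

end Cfsg.Agent.S0011
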