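import Cfsg.Statements.S0012
import Cfsg.Agent.Lib.H1Frat

set_option autoImplicit false
open Cfsg

namespace Cfsg.Agent.S0012

/-- In a finite p-group every commutator and every p-th power lies in the Frattini subgroup, so the Frattini quotient is elementary abelian. -/
theorem result {G : Type*} [Group G] [Finite G] (p : ℕ) [Fact p.Prime]
    (hG : IsPGroup p G) : commutator G ≤ frattini G ∧ ∀ x : G, x ^ p ∈ frattini G := by
  haveI : Group.IsNilpotent G := hG.isNilpotent
  constructor
  · rw [Cfsg.Agent.Lib.H1Frat.le_frattini_iff]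
    intro M hM
    exact (Cfsg.Agent.Lib.H1Frat.coatom_index_prime_of_nilpotent hM).2.2
  · intro x
    rw [Cfsg.Agent.Lib.H1Frat.mem_frattini]
    intro M hM
    obtain ⟨hn, hp, -⟩ := Cfsg.Agent.Lib.H1Frat.coatom_index_prime_of_nilpotent hM
    -- the index is a power of `p`, and prime, hence equal to `p`
    obtain ⟨k, hk⟩ := hG.index M
    have hpp : Nat.Prime p := Fact.out
    have hidx : M.index = p := by
      rw [hk] at hp ⊢
      have hk1 : k = 1 := by
        by_contra hne
        exact (Nat.Prime.not_prime_pow' hne) hp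
      rw [hk1, pow_one]
    have h1 : ((x ^ p : G) : G ⧸ M) = 1 := by
      rw [QuotientGroup.mk_pow, ← hidx, Subgroup.index_eq_card]
      exact pow_card_eq_one'
    exact (QuotientGroup.eq_one_iff _).mp h1

end Cfsg.Agent.S0012
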