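import Cfsg.Statements.S0013
import Cfsg.Agent.Lib.H1Frat

set_option autoImplicit false
open Cfsg

namespace Cfsg.Agent.S0013

/-- In a finite p-group the Frattini subgroup is the smallest normal subgroup with elementary abelian quotient: it lies below any normal subgroup containing all commutators and all p-th powers. -/
theorem result {G : Type*} [Group G] [Finite G] (p : ℕ) [Fact p.Prime]
    (hG : IsPGroup p G) (N : Subgroup G) [N.Normal] (hcomm : commutator G ≤ N) (hpow : ∀ x : G, x ^ p ∈ N) :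
    frattini G ≤ N := by
  classical
  intro x hx
  by_contra hxN
  have hpp : Nat.Prime p := Fact.out
  obtain ⟨M, hM, hMax⟩ := Set.Finite.exists_le_maximal (s := {M : Subgroup G | N ≤ M ∧ x ∉ M})
    (Set.toFinite _) (a := N) ⟨le_rfl, hxN⟩
  have hMs : N ≤ M ∧ x ∉ M := hMax.1
  have hMmax : ∀ K : Subgroup G, M ≤ K → N ≤ K ∧ x ∉ K → K ≤ M := fun K h1 h2 => hMax.2 h2 h1
  have hNM : N ≤ M := hM
  have hMn : M.Normal := by
    constructor
    intro m hm g
    have h1 : g * m * g⁻¹ * m⁻¹ ∈ N := hcomm (Subgroup.commutator_mem_commutator (Subgroup.mem_top g) (Subgroup.mem_top m))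
    have h2 : g * m * g⁻¹ = (g * m * g⁻¹ * m⁻¹) * m := by group
    rw [h2]
    exact M.mul_mem (hNM h1) hm
  have hcoat : IsCoatom M := by
    refine ⟨fun h => hMs.2 (h ▸ Subgroup.mem_top x), ?_⟩
    intro K hK
    -- `x ∈ K` by maximality
    have hxK : x ∈ K := by
      by_contra hxK
      exact absurd (hMmax K hK.le ⟨hNM.trans hK.le, hxK⟩) (not_le_of_gt hK)
    rw [Subgroup.eq_top_iff']
    intro y
    by_contra hyK
    have hyM : y ∉ M := fun h => hyK (hK.le h)
    have hlt : M ≤ M ⊔ Subgroup.zpowers y := le_sup_left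
    have hxK' : x ∈ M ⊔ Subgroup.zpowers y := by
      by_contra hn
      have := hMmax _ hlt ⟨hNM.trans hlt, hn⟩
      exact hyM (this (Subgroup.mem_sup_right (Subgroup.mem_zpowers y)))
    have hxK'' : x ∈ ((M ⊔ Subgroup.zpowers y : Subgroup G) : Set G) := hxK'
    rw [Subgroup.normal_mul] at hxK''
    obtain ⟨m, hm, z, hz, rfl⟩ := Set.mem_mul.mp hxK''
    obtain ⟨i, rfl⟩ := Subgroup.mem_zpowers_iff.mp hz
    -- if `p ∣ i`, then `y ^ i ∈ N`
    have hpowN : ∀ j : ℤ, (y ^ p) ^ j ∈ N := fun j => N.zpow_mem (hpow y) j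
    have hndvd : IsCoprime (p : ℤ) i := by
      rw [(Nat.prime_iff_prime_int.mp hpp).irreducible.coprime_iff_not_dvd]
      rintro ⟨c, rfl⟩
      apply hMs.2
      have e : y ^ ((p : ℤ) * c) = (y ^ p) ^ c := by rw [zpow_mul, zpow_natCast]
      rw [e]
      exact M.mul_mem hm (hNM (hpowN c))
    obtain ⟨a, b, hab⟩ := hndvd
    have hyK' : y ∈ K := by
      have e : y = (y ^ i) ^ b * (y ^ p) ^ a := by
        rw [← zpow_natCast, ← zpow_mul, ← zpow_mul, ← zpow_add]
        have : i * b + (p : ℤ) * a = 1 := by linarith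
        rw [this, zpow_one]
      rw [e]
      have h1 : y ^ i ∈ K := by
        have h2 : y ^ i = m⁻¹ * (m * y ^ i) := by group
        rw [h2]
        exact K.mul_mem (K.inv_mem (hK.le hm)) hxK
      exact K.mul_mem (K.zpow_mem h1 b) (K.zpow_mem (hNM.trans hK.le (hpow y)) a)
    exact hyK hyK'
  exact hMs.2 ((Cfsg.Agent.Lib.H1Frat.mem_frattini.mp hx) M hcoat)

end Cfsg.Agent.S0013
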