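import Cfsg.Statements.S0014
import Cfsg.Agent.Lib.H1Fit

set_option autoImplicit false
open Cfsg

namespace Cfsg.Agent.S0014

open Cfsg.Agent.Lib.H1Frat Cfsg.Agent.Lib.H1SZ

theorem aux1 {G : Type*} [Group G] [Finite G] (p : ℕ) [Fact p.Prime] (hG : IsPGroup p G) :
    (∀ a : G, a ^ p ∈ frattini G) ∧ (∀ a b : G, a * b * a⁻¹ * b⁻¹ ∈ frattini G) := by
  haveI : Group.IsNilpotent G := hG.isNilpotent
  have hc : ∀ M : Subgroup G, IsCoatom M → M.Normal ∧ M.index = p ∧ commutator G ≤ M := by
    intro M hM
    obtain ⟨h1, h2, h3⟩ := coatom_index_prime_of_nilpotent hM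
    refine ⟨h1, ?_, h3⟩
    obtain ⟨k, hk⟩ := IsPGroup.iff_card.mp hG
    have h4 : M.index ∣ p ^ k := by
      rw [← hk]
      exact M.index_dvd_card
    exact (Nat.prime_dvd_prime_iff_eq h2 Fact.out).mp (h2.dvd_of_dvd_pow h4)
  constructor
  · intro a
    rw [mem_frattini]
    intro M hM
    obtain ⟨h1, h2, -⟩ := hc M hM
    rw [← h2]
    exact Subgroup.pow_index_mem M a
  · intro a b
    rw [mem_frattini]
    intro M hM
    obtain ⟨-, -, h3⟩ := hc M hM
    apply h3
    rw [commutator_def]
    have := Subgroup.commutator_mem_commutator (Subgroup.mem_top a) (Subgroup.mem_top b)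
    exact this

theorem aux2 {G : Type*} [Group G] [Finite G] (p : ℕ) [Fact p.Prime] (hG : IsPGroup p G)
    (H : Subgroup G) (hH : frattini G ≤ H) (t : G) (ht : t ∉ H) :
    Nat.card (H ⊔ Subgroup.closure {t} : Subgroup G) = p * Nat.card H := by
  classical
  obtain ⟨h1, h2⟩ := aux1 p hG
  haveI hn : H.Normal := by
    constructor
    intro n hn g
    have h3 := H.mul_mem (hH (h2 g n)) hn
    simpa using h3
  set K : Subgroup G := H ⊔ Subgroup.closure {t} with hK
  have hHK : H ≤ K := le_sup_left
  have h3 := card_map_mk_mul_of_le H K hHK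
  have h4 : K.map (QuotientGroup.mk' H) = Subgroup.zpowers (QuotientGroup.mk' H t) := by
    rw [hK, Subgroup.map_sup, Subgroup.zpowers_eq_closure, MonoidHom.map_closure]
    have h5 : H.map (QuotientGroup.mk' H) = ⊥ := by
      rw [eq_bot_iff]
      rintro _ ⟨h, hh, rfl⟩
      exact Subgroup.mem_bot.mpr ((QuotientGroup.eq_one_iff _).mpr hh)
    rw [h5, bot_sup_eq, Set.image_singleton]
  have h6 : orderOf (QuotientGroup.mk' H t) = p := by
    apply orderOf_eq_prime
    · rw [← map_pow]
      exact (QuotientGroup.eq_one_iff _).mpr (hH (h1 t))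
    · intro h
      exact ht ((QuotientGroup.eq_one_iff _).mp h)
  rw [h4, Nat.card_zpowers, h6] at h3
  exact h3.symm

theorem aux3 {G : Type*} [Group G] [Finite G] (p : ℕ) [Fact p.Prime] (hG : IsPGroup p G)
    (T : Finset G) : ∃ T' : Finset G, T' ⊆ T ∧
      Subgroup.closure (T' : Set G) ⊔ frattini G = Subgroup.closure (T : Set G) ⊔ frattini G ∧
      Nat.card (Subgroup.closure (T' : Set G) ⊔ frattini G : Subgroup G) =
        p ^ T'.card * Nat.card (frattini G) := by
  classical
  induction T using Finset.induction_on with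
  | empty =>
    refine ⟨∅, subset_rfl, rfl, ?_⟩
    simp
  | insert t T _ ih =>
    obtain ⟨T', h1, h2, h3⟩ := ih
    have hins : ∀ S : Finset G, Subgroup.closure ((insert t S : Finset G) : Set G) ⊔ frattini G =
        (Subgroup.closure (S : Set G) ⊔ frattini G) ⊔ Subgroup.closure {t} := by
      intro S
      rw [Finset.coe_insert, Set.insert_eq, Subgroup.closure_union]
      simp only [sup_assoc, sup_comm, sup_left_comm]
    by_cases ht : t ∈ Subgroup.closure (T' : Set G) ⊔ frattini G
    · refine ⟨T', h1.trans (Finset.subset_insert _ _), ?_, h3⟩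
      rw [hins, ← h2]
      symm
      apply sup_eq_left.mpr
      rw [Subgroup.closure_le]
      simpa using ht
    · refine ⟨insert t T', Finset.insert_subset_insert _ h1, ?_, ?_⟩
      · rw [hins, hins, h2]
      · have htT : t ∉ T' := fun h => ht (le_sup_left (a := Subgroup.closure (T' : Set G))
          (Subgroup.subset_closure h))
        rw [hins, aux2 p hG _ le_sup_right t ht, h3, Finset.card_insert_of_notMem htT]
        ring
/-- Burnside's basis Theorem: in a finite p-group whose Frattini quotient has order p ^ n, every generating set contains n elements that already generate, and no set with fewer than n elements generates. -/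
theorem result {G : Type*} [Group G] [Finite G] (p n : ℕ) [Fact p.Prime]
    (hG : IsPGroup p G) (hn : (frattini G).index = p ^ n) :
    (∀ S : Finset G, Subgroup.closure (S : Set G) = ⊤ → ∃ T : Finset G, T ⊆ S ∧ T.card = n ∧ Subgroup.closure (T : Set G) = ⊤) ∧
    (∀ T : Finset G, Subgroup.closure (T : Set G) = ⊤ → n ≤ T.card) := by

  classical
  have hΦ : Nat.card (frattini G) ≠ 0 := Nat.card_pos.ne'
  have hmain : ∀ T : Finset G, Subgroup.closure (T : Set G) = ⊤ →
      ∃ T' : Finset G, T' ⊆ T ∧ T'.card = n ∧ Subgroup.closure (T' : Set G) = ⊤ := by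
    intro T hT
    obtain ⟨T', h1, h2, h3⟩ := aux3 p hG T
    rw [hT, top_sup_eq] at h2
    refine ⟨T', h1, ?_, frattini_nongenerating h2⟩
    rw [h2, Subgroup.card_top] at h3
    have h4 := (frattini G).index_mul_card
    rw [hn] at h4
    have h5 : p ^ n = p ^ T'.card := by
      apply Nat.eq_of_mul_eq_mul_right (Nat.card_pos (α := frattini G))
      rw [h4, h3]
    have hp : 1 < p := (Fact.out : p.Prime).one_lt
    exact (Nat.pow_right_injective hp h5).symm
  refine ⟨hmain, ?_⟩
  intro T hT
  obtain ⟨T', h1, h2, -⟩ := hmain T hT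
  rw [← h2]
  exact Finset.card_le_card h1

end Cfsg.Agent.S0014
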