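import Cfsg.Statements.S0015
import Cfsg.Agent.Lib.H1Frat

set_option autoImplicit false
open Cfsg

namespace Cfsg.Agent.S0015

/-- In a finite nilpotent group, an abelian normal subgroup that is maximal among abelian normal subgroups equals its own centralizer. -/
theorem result {G : Type*} [Group G] [Finite G] [Group.IsNilpotent G]
    (N : Subgroup G) [N.Normal] [IsMulCommutative N]
    (hmax : ∀ M : Subgroup G, M.Normal → IsMulCommutative M → N ≤ M → M = N) :
    Subgroup.centralizer (N : Set G) = N := by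
  classical
  have hNC : N ≤ Subgroup.centralizer (N : Set G) := by
    intro x hx
    rw [Subgroup.mem_centralizer_iff]
    intro y hy
    exact setLike_mul_comm hy hx
  apply le_antisymm _ hNC
  by_contra hnot
  -- work in `G ⧸ N`
  let C := Subgroup.centralizer (N : Set G)
  let q := QuotientGroup.mk' N
  have hmapne : C.map q ≠ ⊥ := by
    intro h
    apply hnot
    rw [Subgroup.map_eq_bot_iff, QuotientGroup.ker_mk'] at h
    exact h
  haveI hmapn : (C.map q).Normal :=
    Subgroup.Normal.map inferInstance q (QuotientGroup.mk'_surjective N)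
  have h := Cfsg.Agent.Lib.H1Frat.normal_inf_center_ne_bot (C.map q) hmapne
  obtain ⟨⟨z, hz⟩, hzne'⟩ := Subgroup.ne_bot_iff_exists_ne_one.mp h
  have hzne : z ≠ 1 := fun h => hzne' (Subtype.ext h)
  obtain ⟨hz1, hzc⟩ := Subgroup.mem_inf.mp hz
  obtain ⟨x, hxC, rfl⟩ := hz1
  have hxN : x ∉ N := by
    intro hx
    apply hzne
    exact (QuotientGroup.eq_one_iff x).mpr hx
  let M : Subgroup G := (Subgroup.zpowers (q x)).comap q
  have hMn : M.Normal := by
    apply Subgroup.Normal.comap _ q
    constructor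
    intro n hn g
    obtain ⟨i, rfl⟩ := Subgroup.mem_zpowers_iff.mp hn
    have hc : ∀ y : G ⧸ N, q x * y = y * q x := fun y =>
      (Subgroup.mem_center_iff.mp hzc y).symm
    have : g * (q x) ^ i * g⁻¹ = (q x) ^ i := by
      have h2 : Commute g ((q x) ^ i) := Commute.zpow_right (hc g).symm i
      rw [h2.eq]
      group
    rw [this]
    exact Subgroup.mem_zpowers_iff.mpr ⟨i, rfl⟩
  have hMform : ∀ y ∈ M, ∃ i : ℤ, ∃ n ∈ N, y = x ^ i * n := by
    intro y hy
    obtain ⟨i, hi⟩ := Subgroup.mem_zpowers_iff.mp (Subgroup.mem_comap.mp hy)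
    refine ⟨i, (x ^ i)⁻¹ * y, ?_, by group⟩
    have : q ((x ^ i)⁻¹ * y) = 1 := by
      rw [map_mul, map_inv, map_zpow, ← hi]
      simp
    exact (QuotientGroup.eq_one_iff _).mp this
  have hxc : ∀ (i : ℤ) (n : G), n ∈ N → x ^ i * n = n * x ^ i := by
    intro i n hn
    have h1 : Commute x n := (Subgroup.mem_centralizer_iff.mp hxC n hn).symm
    exact (h1.zpow_left i).eq
  have hMcomm : IsMulCommutative M := by
    apply IsMulCommutative.of_setLike_mul_comm
    intro a ha b hb
    obtain ⟨i, n, hn, rfl⟩ := hMform a ha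
    obtain ⟨j, m, hm, rfl⟩ := hMform b hb
    have h1 : n * m = m * n := setLike_mul_comm hn hm
    calc x ^ i * n * (x ^ j * m) = x ^ i * (n * x ^ j) * m := by group
      _ = x ^ i * (x ^ j * n) * m := by rw [hxc j n hn]
      _ = x ^ (i + j) * (n * m) := by rw [zpow_add]; group
      _ = x ^ (j + i) * (m * n) := by rw [h1, add_comm]
      _ = x ^ j * (x ^ i * m) * n := by rw [zpow_add]; group
      _ = x ^ j * (m * x ^ i) * n := by rw [hxc i m hm]
      _ = x ^ j * m * (x ^ i * n) := by group
  have hNM : N ≤ M := by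
    intro n hn
    have : q n = 1 := (QuotientGroup.eq_one_iff n).mpr hn
    simp [M, Subgroup.mem_comap, this, Subgroup.one_mem]
  have hxM : x ∈ M := Subgroup.mem_comap.mpr (Subgroup.mem_zpowers _)
  have := hmax M hMn hMcomm hNM
  rw [this] at hxM
  exact hxN hxM

end Cfsg.Agent.S0015
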