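import Cfsg.Statements.S0019
import Cfsg.Agent.Lib.H1Frob

set_option autoImplicit false
open Cfsg

namespace Cfsg.Agent.S0019

universe u

theorem normalClosure_le {G : Type*} [Group G] [Finite G] (H₁ H : Subgroup G)
    (hG : ∀ g : G, ∃ x ∈ H₁, ∃ y ∈ H, g = x * y) (q : ℕ) [Fact q.Prime] (hq : ¬ q ∣ H.index)
    (N : Subgroup G) (hN1 : ∀ x ∈ H₁, ∀ n ∈ N, x * n * x⁻¹ ∈ N) (hNp : IsPGroup q N) :
    Subgroup.normalClosure (N : Set G) ≤ H := by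
  classical
  obtain ⟨ω, hω⟩ := hNp.nonempty_fixed_point_of_prime_not_dvd_card (G ⧸ H) hq
  induction ω using QuotientGroup.induction_on with
  | H g =>
  have hNH : ∀ n ∈ N, g⁻¹ * n * g ∈ H := by
    intro n hn
    exact (Cfsg.Agent.Lib.H1Frob.mem_stabilizer_mk (⟨n, hn⟩ : N) g).mp (hω ⟨n, hn⟩)
  have hNH2 : N ≤ H := by
    intro n hn
    obtain ⟨x, hx, y, hy, hxy⟩ := hG g
    have h1 := hNH _ (hN1 x hx n hn)
    have e : n = y * (g⁻¹ * (x * n * x⁻¹) * g) * y⁻¹ := by rw [hxy]; group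
    rw [e]
    exact H.mul_mem (H.mul_mem hy h1) (H.inv_mem hy)
  apply Subgroup.closure_le _ |>.mpr
  intro z hz
  obtain ⟨n, hn, hc⟩ := Group.mem_conjugatesOfSet_iff.mp hz
  obtain ⟨c, rfl⟩ := isConj_iff.mp hc
  obtain ⟨x, hx, y, hy, hxy⟩ := hG c⁻¹
  have e : c * n * c⁻¹ = y⁻¹ * (x⁻¹ * n * x⁻¹⁻¹) * y := by
    have : c = (x * y)⁻¹ := by rw [← hxy, inv_inv]
    rw [this]; group
  rw [e]
  exact H.mul_mem (H.mul_mem (H.inv_mem hy) (hNH2 (hN1 _ (H₁.inv_mem hx) n hn))) hy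

theorem aux (n : ℕ) : ∀ (G : Type u) [Group G] [Finite G] (H₁ H₂ H₃ : Subgroup G)
    (_ : Group.IsSolvable H₁) (_ : Group.IsSolvable H₂) (_ : Group.IsSolvable H₃)
    (_ : ∀ g : G, ∃ x ∈ H₁, ∃ y ∈ H₂, g = x * y) (_ : ∀ g : G, ∃ x ∈ H₁, ∃ y ∈ H₃, g = x * y)
    (_ : H₂.index.Coprime H₃.index), Nat.card G = n → Group.IsSolvable G := by
  induction n using Nat.strong_induction_on with
  | _ n ih =>
  intro G _ _ H₁ H₂ H₃ h₁ h₂ h₃ h12 h13 hcop hn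
  classical
  by_cases hH₁ : H₁ = ⊥
  · have : H₂ = ⊤ := by
      rw [eq_top_iff]
      intro g _
      obtain ⟨x, hx, y, hy, rfl⟩ := h12 g
      rw [hH₁, Subgroup.mem_bot] at hx
      rw [hx, one_mul]
      exact hy
    rw [this] at h₂
    exact solvable_of_surjective (f := (⊤ : Subgroup G).subtype) (fun g => ⟨⟨g, trivial⟩, rfl⟩)
  haveI : Nontrivial H₁ := (Subgroup.nontrivial_iff_ne_bot H₁).mpr hH₁
  obtain ⟨q, hq, A, hAn, hAne, hAp⟩ := Cfsg.Agent.Lib.H1SZ.exists_normal_pSubgroup (X := H₁)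
  set N : Subgroup G := A.map H₁.subtype with hN
  have hNp : IsPGroup q N := hAp.map _
  have hNne : N ≠ ⊥ := by
    intro h
    apply hAne
    rw [hN, Subgroup.map_eq_bot_iff_of_injective _ H₁.subtype_injective] at h
    exact h
  have hN1 : ∀ x ∈ H₁, ∀ n ∈ N, x * n * x⁻¹ ∈ N := by
    rintro x hx _ ⟨a, ha, rfl⟩
    exact ⟨⟨x, hx⟩ * a * ⟨x, hx⟩⁻¹, hAn.conj_mem a ha _, by simp⟩
  set M := Subgroup.normalClosure (N : Set G) with hM
  haveI hMn : M.Normal := Subgroup.normalClosure_normal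
  have hNM : N ≤ M := Subgroup.le_normalClosure
  have hMne : M ≠ ⊥ := fun h => hNne (le_bot_iff.mp (h ▸ hNM))
  have hMsolv : Group.IsSolvable M := by
    by_cases hq2 : q ∣ H₂.index
    · have hq3 : ¬ q ∣ H₃.index := fun h3 => (Fact.out : q.Prime).one_lt.ne' (Nat.eq_one_of_dvd_coprimes hcop hq2 h3)
      have hle := normalClosure_le H₁ H₃ h13 q hq3 N hN1 hNp
      exact Cfsg.Agent.Lib.H1SZ.isSolvable_of_le hle h₃
    · have hle := normalClosure_le H₁ H₂ h12 q hq2 N hN1 hNp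
      exact Cfsg.Agent.Lib.H1SZ.isSolvable_of_le hle h₂
  let f := QuotientGroup.mk' M
  have hcard : Nat.card (G ⧸ M) < n := by
    have h1 := Cfsg.Agent.Lib.H1SZ.card_quotient_mul M
    have h2 : 2 ≤ Nat.card M := Cfsg.Agent.Lib.H1Frob.two_le_card hMne
    have h3 : 0 < Nat.card (G ⧸ M) := Nat.card_pos
    rw [← hn, ← h1]
    nlinarith
  have hprod : ∀ H : Subgroup G, (∀ g : G, ∃ x ∈ H₁, ∃ y ∈ H, g = x * y) →
      ∀ g : G ⧸ M, ∃ x ∈ H₁.map f, ∃ y ∈ H.map f, g = x * y := by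
    intro H hH g
    obtain ⟨g, rfl⟩ := QuotientGroup.mk'_surjective M g
    obtain ⟨x, hx, y, hy, rfl⟩ := hH g
    exact ⟨f x, ⟨x, hx, rfl⟩, f y, ⟨y, hy, rfl⟩, map_mul _ _ _⟩
  have hGM : Group.IsSolvable (G ⧸ M) := by
    refine ih _ hcard (G ⧸ M) (H₁.map f) (H₂.map f) (H₃.map f)
      (Cfsg.Agent.Lib.H1SZ.isSolvable_of_map _ _ h₁) (Cfsg.Agent.Lib.H1SZ.isSolvable_of_map _ _ h₂)
      (Cfsg.Agent.Lib.H1SZ.isSolvable_of_map _ _ h₃) (hprod _ h12) (hprod _ h13) ?_ rfl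
    exact Nat.Coprime.coprime_dvd_left (Subgroup.index_map_dvd _ (QuotientGroup.mk'_surjective M))
      (Nat.Coprime.coprime_dvd_right (Subgroup.index_map_dvd _ (QuotientGroup.mk'_surjective M)) hcop)
  refine solvable_of_ker_le_range M.subtype f ?_
  rw [QuotientGroup.ker_mk', Subgroup.range_subtype]
/-- A finite group that factorises as H₁H₂ and as H₁H₃ with all three subgroups solvable and the indices of H₂ and H₃ coprime is solvable. -/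
theorem result {G : Type*} [Group G] [Finite G] (H₁ H₂ H₃ : Subgroup G)
    (h₁ : Group.IsSolvable H₁) (h₂ : Group.IsSolvable H₂) (h₃ : Group.IsSolvable H₃)
    (h12 : ∀ g : G, ∃ x ∈ H₁, ∃ y ∈ H₂, g = x * y) (h13 : ∀ g : G, ∃ x ∈ H₁, ∃ y ∈ H₃, g = x * y)
    (hcop : H₂.index.Coprime H₃.index) : Group.IsSolvable G := by

  exact aux _ G H₁ H₂ H₃ h₁ h₂ h₃ h12 h13 hcop rfl

end Cfsg.Agent.S0019
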