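import Cfsg.Statements.S0023
import Cfsg.Agent.Lib.H1Cop

set_option autoImplicit false
open Cfsg

namespace Cfsg.Agent.S0023

/-- Under coprime action there is an invariant Sylow subgroup: with A normalising K, coprime orders and A or K solvable, some Sylow p-subgroup of K is normalised by A. -/
theorem result {G : Type*} [Group G] [Finite G] (A K : Subgroup G) (hAK : A ≤ Subgroup.normalizer (K : Set G))
    (hcop : (Nat.card A).Coprime (Nat.card K)) (hsolv : Group.IsSolvable A ∨ Group.IsSolvable K)
    (p : ℕ) [Fact p.Prime] :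
    ∃ P : Sylow p K, A ≤ Subgroup.normalizer ((P : Subgroup K).map K.subtype : Set G) := by
  obtain ⟨R, hR, hRA⟩ := Cfsg.Agent.Lib.H1Cop.exists_invariant_sylow hAK hcop hsolv p
  obtain ⟨P, -, hP⟩ := hR.exists_sylow
  exact ⟨P, by rw [hP]; exact hRA⟩

end Cfsg.Agent.S0023
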