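import Cfsg.Statements.S0030
import Cfsg.Agent.Lib.H1Cop2

set_option autoImplicit false
open Cfsg

namespace Cfsg.Agent.S0030

/-- Under coprime action fixed points of a product of two invariant subgroups factor: if K = X Y with X and Y normalised by A then every A-fixed element of K is a product of an A-fixed element of X and an A-fixed element of Y. -/
theorem result {G : Type*} [Group G] [Finite G] (A K : Subgroup G) (hAK : A ≤ Subgroup.normalizer (K : Set G))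
    (hcop : (Nat.card A).Coprime (Nat.card K)) (hsolv : Group.IsSolvable A ∨ Group.IsSolvable K)
    (X Y : Subgroup G) (hX : X ≤ K) (hY : Y ≤ K) (hXA : A ≤ Subgroup.normalizer (X : Set G)) (hYA : A ≤ Subgroup.normalizer (Y : Set G))
    (hXY : ∀ k ∈ K, ∃ x ∈ X, ∃ y ∈ Y, k = x * y) (k : G) (hk : k ∈ K ⊓ Subgroup.centralizer (A : Set G)) :
    ∃ x ∈ X ⊓ Subgroup.centralizer (A : Set G), ∃ y ∈ Y ⊓ Subgroup.centralizer (A : Set G), k = x * y := by
  classical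
  obtain ⟨hkK, hkC⟩ := Subgroup.mem_inf.mp hk
  obtain ⟨x, hx, y, hy, rfl⟩ := hXY k hkK
  set D : Subgroup G := X ⊓ Y with hD
  have hDK : D ≤ K := inf_le_left.trans hX
  have hAD : A ≤ Subgroup.normalizer (D : Set G) := by
    rw [Subgroup.le_normalizer_iff]
    intro a ha z hz
    obtain ⟨hz1, hz2⟩ := Subgroup.mem_inf.mp hz
    exact Subgroup.mem_inf.mpr ⟨(Subgroup.le_normalizer_iff.mp hXA) a ha z hz1,
      (Subgroup.le_normalizer_iff.mp hYA) a ha z hz2⟩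
  have hcopD : (Nat.card A).Coprime (Nat.card D) :=
    Nat.Coprime.coprime_dvd_right (Subgroup.card_dvd_of_le hDK) hcop
  have hsolvD : Group.IsSolvable A ∨ Group.IsSolvable D := by
    rcases hsolv with h | h
    · exact Or.inl h
    · exact Or.inr (Cfsg.Agent.Lib.H1SZ.isSolvable_of_le hDK h)
  -- `a x⁻¹ a⁻¹ ∈ D x⁻¹`
  have hfix : ∀ a ∈ A, a * x⁻¹ * a⁻¹ * x⁻¹⁻¹ ∈ D := by
    intro a ha
    have hcomm : a * (x * y) * a⁻¹ = x * y := by
      have := Subgroup.mem_centralizer_iff.mp hkC a ha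
      rw [this]
      group
    have hxa : a * x * a⁻¹ ∈ X := (Subgroup.le_normalizer_iff.mp hXA) a ha x hx
    have hya : a * y * a⁻¹ ∈ Y := (Subgroup.le_normalizer_iff.mp hYA) a ha y hy
    have e : a * x * a⁻¹ * (a * y * a⁻¹) = x * y := by
      rw [← hcomm]; group
    have h1 : a * x⁻¹ * a⁻¹ * x⁻¹⁻¹ = (a * x * a⁻¹)⁻¹ * x := by group
    have h2 : (a * x * a⁻¹)⁻¹ * x = (a * y * a⁻¹) * y⁻¹ := by
      calc (a * x * a⁻¹)⁻¹ * x = (a * x * a⁻¹)⁻¹ * (x * y) * y⁻¹ := by group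
        _ = (a * x * a⁻¹)⁻¹ * (a * x * a⁻¹ * (a * y * a⁻¹)) * y⁻¹ := by rw [e]
        _ = _ := by group
    rw [h1]
    refine Subgroup.mem_inf.mpr ⟨X.mul_mem (X.inv_mem hxa) hx, ?_⟩
    rw [h2]
    exact Y.mul_mem hya (Y.inv_mem hy)
  obtain ⟨d, hd, hd'⟩ := Cfsg.Agent.Lib.H1Cop.coset_fixed hAD hcopD hsolvD hfix
  obtain ⟨hd1, hd2⟩ := Subgroup.mem_inf.mp hd
  have hinf : A ⊓ K = ⊥ := Subgroup.inf_eq_bot_of_coprime hcop
  have hcC : d * x⁻¹ ∈ Subgroup.centralizer (A : Set G) :=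
    Cfsg.Agent.Lib.H1Cop.mem_centralizer_of_normalizes hAK hinf
      (K.mul_mem (hX hd1) (K.inv_mem (hX hx))) hd'
  have hx' : x * d⁻¹ ∈ Subgroup.centralizer (A : Set G) := by
    have e : x * d⁻¹ = (d * x⁻¹)⁻¹ := by group
    rw [e]
    exact Subgroup.inv_mem _ hcC
  refine ⟨x * d⁻¹, Subgroup.mem_inf.mpr ⟨X.mul_mem hx (X.inv_mem hd1), hx'⟩, d * y, ?_, by group⟩
  refine Subgroup.mem_inf.mpr ⟨Y.mul_mem hd2 hy, ?_⟩
  have e : d * y = (x * d⁻¹)⁻¹ * (x * y) := by group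
  rw [e]
  exact Subgroup.mul_mem _ (Subgroup.inv_mem _ hx') hkC

end Cfsg.Agent.S0030
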