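import Cfsg.Statements.S0031
import Cfsg.Agent.Lib.H1Core

set_option autoImplicit false
open Cfsg

namespace Cfsg.Agent.S0031

/-- A fixed-point-free automorphism of a finite group maps some Sylow p-subgroup to itself. -/
theorem result {G : Type*} [Group G] [Finite G] (φ : G ≃* G)
    (hφ : MonoidHom.FixedPointFree (φ : G →* G)) (p : ℕ) [Fact p.Prime] :
    ∃ P : Sylow p G, (P : Subgroup G).map (φ : G →* G) = P := by
  obtain ⟨P⟩ : Nonempty (Sylow p G) := inferInstance
  -- `φ(P)` is again Sylow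
  have hsurj : Function.Surjective (φ : G →* G) := φ.surjective
  let Q : Sylow p G := P.mapSurjective hsurj
  obtain ⟨g, hg⟩ := MulAction.exists_smul_eq G P Q
  have hsur := MonoidHom.FixedPointFree.commutatorMap_surjective (φ := φ) hφ
  obtain ⟨z, hz⟩ := hsur g⁻¹
  simp only [MonoidHom.commutatorMap_apply] at hz
  -- `g⁻¹ = z / φ z`
  have hQ : (Q : Subgroup G) = (P : Subgroup G).map (φ : G →* G) := P.coe_mapSurjective hsurj
  let R : Sylow p G := z⁻¹ • P
  refine ⟨R, ?_⟩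
  apply Subgroup.eq_of_le_of_card_ge
  · rintro _ ⟨u, hu, rfl⟩
    have hu' : (z⁻¹)⁻¹ * u * z⁻¹ ∈ (P : Subgroup G) := Cfsg.Agent.Lib.H1Core.mem_sylow_smul.mp hu
    have hw : φ ((z⁻¹)⁻¹ * u * z⁻¹) ∈ (Q : Subgroup G) := by
      rw [hQ]
      exact ⟨_, hu', rfl⟩
    rw [← hg] at hw
    have hw' := Cfsg.Agent.Lib.H1Core.mem_sylow_smul.mp hw
    show φ u ∈ ((z⁻¹ • P : Sylow p G) : Subgroup G)
    rw [Cfsg.Agent.Lib.H1Core.mem_sylow_smul]
    have hg' : g = φ z * z⁻¹ := by
      have : g = (g⁻¹)⁻¹ := by simp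
      rw [this, ← hz]; simp [div_eq_mul_inv]
    rw [hg'] at hw'
    convert hw' using 1
    simp only [map_mul, map_inv, mul_inv_rev, inv_inv]
    group
  · rw [Subgroup.card_map_of_injective φ.injective]

end Cfsg.Agent.S0031
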