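import Cfsg.Statements.S0032

set_option autoImplicit false
open Cfsg

namespace Cfsg.Agent.S0032

/-- If an automorphism of a finite group fixes only the identity and maps a normal subgroup N into itself, then the only cosets of N it fixes are those in N: a fixed coset xN forces x ∈ N. -/
theorem result {G : Type*} [Group G] [Finite G] (φ : G ≃* G)
    (hφ : MonoidHom.FixedPointFree (φ : G →* G)) (N : Subgroup G) [N.Normal] (hN : ∀ n ∈ N, φ n ∈ N)
    (x : G) (hx : (φ x)⁻¹ * x ∈ N) : x ∈ N := by
  -- the map `n ↦ (φ n)⁻¹ * n` is injective on `N` hence surjective on `N`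
  have hinj : ∀ a b : G, (φ a)⁻¹ * a = (φ b)⁻¹ * b → a = b := by
    intro a b hab
    have : φ (a * b⁻¹) = a * b⁻¹ := by
      have h : φ a * (φ b)⁻¹ = a * b⁻¹ := by
        calc φ a * (φ b)⁻¹ = (φ a * ((φ b)⁻¹ * b)) * b⁻¹ := by group
          _ = (φ a * ((φ a)⁻¹ * a)) * b⁻¹ := by rw [hab]
          _ = a * b⁻¹ := by group
      simpa using h
    have h3 := hφ _ this
    exact mul_inv_eq_one.mp h3
  let f : N → N := fun n => ⟨(φ n)⁻¹ * n, N.mul_mem (N.inv_mem (hN _ n.2)) n.2⟩
  have hf : Function.Injective f := by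
    intro a b hab
    apply Subtype.ext
    apply hinj
    exact congrArg Subtype.val hab
  have hs : Function.Surjective f := Finite.surjective_of_injective hf
  obtain ⟨n, hn⟩ := hs ⟨_, hx⟩
  have h4 : (φ (n : G))⁻¹ * n = (φ x)⁻¹ * x := congrArg Subtype.val hn
  have h5 := hinj _ _ h4
  rw [← h5]
  exact n.2

end Cfsg.Agent.S0032
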