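import Cfsg.Statements.S0036
import Cfsg.Agent.Lib.H1Frob

set_option autoImplicit false
open Cfsg

namespace Cfsg.Agent.S0036

open Cfsg.Agent.Lib.H1Frob

theorem invol_mul {G : Type*} [Group G] {H : Subgroup G} (hH : IsFrobeniusComplement H)
    {a b p q : G} (ha : a ≠ 1) (hb : b ≠ 1) (ha2 : a * a = 1) (hb2 : b * b = 1)
    (hp : p⁻¹ * a * p ∈ H) (hq : q⁻¹ * b * q ∈ H) (hpq : q⁻¹ * p ∉ H) :
    a * b ∈ frobeniusKernel H := by
  by_contra hab
  obtain ⟨hu, g, hg⟩ := not_mem_kernel_iff.mp hab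
  have hai : a⁻¹ = a := inv_eq_of_mul_eq_one_left ha2
  have hbi : b⁻¹ = b := inv_eq_of_mul_eq_one_left hb2
  have hinv : g⁻¹ * (a * b)⁻¹ * g ∈ H := by
    have := H.inv_mem hg
    simpa [mul_assoc] using this
  have h1 : g⁻¹ * a * g ∈ H := by
    have h2 := frob_eq hH hu (p := g) (q := a⁻¹ * g) hg (by
      have e : (a⁻¹ * g)⁻¹ * (a * b) * (a⁻¹ * g) = g⁻¹ * (a * b)⁻¹ * g := by
        have e2 : (a * b)⁻¹ = a * (a * b) * a⁻¹ := by
          rw [hai, mul_inv_rev, hai, hbi]
          calc b * a = 1 * b * a := by group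
            _ = (a * a) * b * a := by rw [ha2]
            _ = _ := by group
        rw [e2]
        group
      rw [e]
      exact hinv)
    have e : (a⁻¹ * g)⁻¹ * g = g⁻¹ * a * g := by group
    rwa [e] at h2
  have h2 : g⁻¹ * b * g ∈ H := by
    have h2 := frob_eq hH hu (p := g) (q := b⁻¹ * g) hg (by
      have e : (b⁻¹ * g)⁻¹ * (a * b) * (b⁻¹ * g) = g⁻¹ * (a * b)⁻¹ * g := by
        have e2 : (a * b)⁻¹ = b * (a * b) * b⁻¹ := by
          rw [hbi, mul_inv_rev, hai, hbi]
          calc b * a = b * a * 1 := by group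
            _ = b * a * (b * b) := by rw [hb2]
            _ = _ := by group
        rw [e2]
        group
      rw [e]
      exact hinv)
    have e : (b⁻¹ * g)⁻¹ * g = g⁻¹ * b * g := by group
    rwa [e] at h2
  have h3 := frob_eq hH ha hp h1
  have h4 := frob_eq hH hb hq h2
  apply hpq
  have e : q⁻¹ * p = (g⁻¹ * q)⁻¹ * (g⁻¹ * p) := by group
  rw [e]
  exact H.mul_mem (H.inv_mem h4) h3

theorem conj_ne_one {G : Type*} [Group G] {t : G} (g : G) (ht : t ≠ 1) : g * t * g⁻¹ ≠ 1 := by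
  intro h
  apply ht
  have h3 : t = g⁻¹ * (g * t * g⁻¹) * g := by group
  rw [h3, h]
  group

theorem conj_invol {G : Type*} [Group G] {t : G} (g : G) (ht : t * t = 1) :
    (g * t * g⁻¹) * (g * t * g⁻¹) = 1 := by
  calc (g * t * g⁻¹) * (g * t * g⁻¹) = g * (t * t) * g⁻¹ := by group
    _ = 1 := by rw [ht]; group

theorem out_mem {G : Type*} [Group G] {H : Subgroup G} {t : G} (i : G ⧸ H) (ht : t ∈ H) :
    (i.out)⁻¹ * (i.out * t * (i.out)⁻¹) * i.out ∈ H := by
  have e : (i.out)⁻¹ * (i.out * t * (i.out)⁻¹) * i.out = t := by group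
  rwa [e]

theorem out_ne {G : Type*} [Group G] {H : Subgroup G} {i j : G ⧸ H} (h : i ≠ j) :
    (j.out)⁻¹ * i.out ∉ H := by
  intro h2
  apply h
  rw [← QuotientGroup.out_eq' i, ← QuotientGroup.out_eq' j]
  exact (QuotientGroup.eq.mpr h2).symm

theorem t_central {G : Type*} [Group G] [Finite G] {H : Subgroup G} (hH : IsFrobeniusComplement H)
    {t : G} (ht : t ∈ H) (ht1 : t ≠ 1) (ht2 : t * t = 1) (u : G) (hu : u ∈ H) :
    u * t * u⁻¹ = t := by
  classical
  by_contra hne
  set t' := u * t * u⁻¹ with ht'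
  have ht'H : t' ∈ H := H.mul_mem (H.mul_mem hu ht) (H.inv_mem hu)
  have ht'1 : t' ≠ 1 := conj_ne_one u ht1
  have ht'2 : t' * t' = 1 := conj_invol u ht2
  have h1notin : ∀ i : G ⧸ H, i ≠ (QuotientGroup.mk 1 : G ⧸ H) → (i.out)⁻¹ * 1 ∉ H := by
    intro i hi hmem
    apply hi
    rw [← QuotientGroup.out_eq' i]
    exact QuotientGroup.eq.mpr hmem
  have hI : ∀ (s : G) (i : G ⧸ H), i ≠ (QuotientGroup.mk 1 : G ⧸ H) → s ∈ H → s ≠ 1 → s * s = 1 →
      t * (i.out * s * (i.out)⁻¹) ∈ frobeniusKernel H ∧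
        t * (i.out * s * (i.out)⁻¹) ≠ 1 := by
    intro s i hi hs hs1 hs2
    constructor
    · apply invol_mul hH ht1 (conj_ne_one _ hs1) ht2 (conj_invol _ hs2) (p := 1) (q := i.out)
        (by simpa using ht) (out_mem i hs)
      exact h1notin i hi
    · intro h
      have h3 : i.out * s * (i.out)⁻¹ = t := by
        have h4 := mul_eq_one_iff_eq_inv.mp h
        rw [inv_eq_of_mul_eq_one_left (conj_invol _ hs2)] at h4
        exact h4.symm
      have h4 := frob_eq hH ht1 (p := 1) (q := i.out) (by simpa using ht)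
        (by rw [← h3]; exact out_mem i hs)
      exact h1notin i hi h4
  obtain ⟨g₀, hg₀⟩ : ∃ g : G, g ∉ H := by
    by_contra h
    push_neg at h
    exact hH.2.1 (eq_top_iff.mpr fun x _ => h x)
  set i₀ : G ⧸ H := QuotientGroup.mk g₀ with hi₀
  have hi₀1 : i₀ ≠ (QuotientGroup.mk 1 : G ⧸ H) := by
    intro h
    apply hg₀
    have := QuotientGroup.eq.mp h
    simpa using H.inv_mem this
  let ψ : G ⧸ H → frobeniusKernel H := fun i =>
    if h : i = (QuotientGroup.mk 1 : G ⧸ H) then ⟨1, Or.inl rfl⟩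
    else ⟨t * (i.out * t * (i.out)⁻¹), (hI t i h ht ht1 ht2).1⟩
  have hψ1 : ∀ i (h : i ≠ (QuotientGroup.mk 1 : G ⧸ H)),
      (ψ i : G) = t * (i.out * t * (i.out)⁻¹) := by
    intro i h
    simp only [ψ, dif_neg h]
  have hψinj : Function.Injective ψ := by
    intro i j hij
    by_cases hi : i = (QuotientGroup.mk 1 : G ⧸ H)
    · by_cases hj : j = (QuotientGroup.mk 1 : G ⧸ H)
      · rw [hi, hj]
      · exfalso
        have h3 : (ψ j : G) = 1 := by
          rw [← hij, hi]
          simp [ψ]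
        rw [hψ1 j hj] at h3
        exact (hI t j hj ht ht1 ht2).2 h3
    · by_cases hj : j = (QuotientGroup.mk 1 : G ⧸ H)
      · exfalso
        have h3 : (ψ i : G) = 1 := by
          rw [hij, hj]
          simp [ψ]
        rw [hψ1 i hi] at h3
        exact (hI t i hi ht ht1 ht2).2 h3
      · have h3 := congrArg Subtype.val hij
        rw [hψ1 i hi, hψ1 j hj] at h3
        have h4 := mul_left_cancel h3
        by_contra hne2
        apply out_ne hne2
        apply frob_eq hH (conj_ne_one i.out ht1) (out_mem i ht)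
        rw [h4]
        exact out_mem j ht
  have hψbij : Function.Bijective ψ := by
    apply hψinj.bijective_of_nat_card_le
    rw [card_kernel hH]
    exact le_rfl
  obtain ⟨hw1, hw2⟩ := hI t' i₀ hi₀1 ht'H ht'1 ht'2
  obtain ⟨j, hj⟩ := hψbij.2 ⟨_, hw1⟩
  have hj1 : j ≠ (QuotientGroup.mk 1 : G ⧸ H) := by
    intro h
    apply hw2
    have h3 := congrArg Subtype.val hj
    rw [h] at h3
    simpa [ψ] using h3.symm
  have h3 := congrArg Subtype.val hj
  rw [hψ1 j hj1] at h3
  have h4 := mul_left_cancel h3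
  have hji : j = i₀ := by
    by_contra hne2
    apply out_ne hne2
    apply frob_eq hH (conj_ne_one j.out ht1) (out_mem j ht)
    rw [h4]
    exact out_mem i₀ ht'H
  rw [hji] at h4
  exact hne (mul_left_cancel (mul_right_cancel h4)).symm
/-- When a Frobenius complement contains an involution, an elementary argument shows the Frobenius kernel is closed under multiplication (hence a subgroup). -/
theorem result {G : Type*} [Group G] [Finite G] (H : Subgroup G) (hH : Cfsg.IsFrobeniusComplement H)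
    (t : G) (ht : t ∈ H) (ht1 : t ≠ 1) (ht2 : t * t = 1) :
    ∀ x ∈ Cfsg.frobeniusKernel H, ∀ y ∈ Cfsg.frobeniusKernel H, x * y ∈ Cfsg.frobeniusKernel H := by

  classical
  let τ : G ⧸ H → G := fun i => i.out * t * (i.out)⁻¹
  have hτ1 : ∀ i, τ i ≠ 1 := fun i => conj_ne_one _ ht1
  have hτ2 : ∀ i, τ i * τ i = 1 := fun i => conj_invol _ ht2
  have hτ3 : ∀ i, (i.out)⁻¹ * τ i * i.out ∈ H := fun i => out_mem i ht
  have hmem : ∀ i j, τ i * τ j ∈ frobeniusKernel H := by
    intro i j
    by_cases hij : i = j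
    · subst hij
      left
      exact hτ2 i
    · exact invol_mul hH (hτ1 i) (hτ1 j) (hτ2 i) (hτ2 j) (hτ3 i) (hτ3 j) (out_ne hij)
  have hτinj : Function.Injective τ := by
    intro i j hij
    by_contra hne
    apply out_ne hne
    apply frob_eq hH (hτ1 i) (hτ3 i)
    rw [hij]
    exact hτ3 j
  have hsurj : ∀ i, ∀ x ∈ frobeniusKernel H, ∃ j, x = τ i * τ j := by
    intro i x hx
    let f : G ⧸ H → frobeniusKernel H := fun j => ⟨τ i * τ j, hmem i j⟩
    have hf : Function.Injective f := by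
      intro j j' hjj
      have h3 := congrArg Subtype.val hjj
      exact hτinj (mul_left_cancel h3)
    have hfb : Function.Bijective f := by
      apply hf.bijective_of_nat_card_le
      rw [card_kernel hH]
      exact le_rfl
    obtain ⟨j, hj⟩ := hfb.2 ⟨x, hx⟩
    exact ⟨j, (congrArg Subtype.val hj).symm⟩
  have hτt : τ (QuotientGroup.mk 1) = t := by
    have h1 : ((QuotientGroup.mk 1 : G ⧸ H).out)⁻¹ * 1 ∈ H :=
      QuotientGroup.eq.mp (QuotientGroup.out_eq' (QuotientGroup.mk 1 : G ⧸ H))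
    have h2 : ((QuotientGroup.mk 1 : G ⧸ H).out) ∈ H := by
      have := H.inv_mem h1
      simpa using this
    exact t_central hH ht ht1 ht2 _ h2
  intro x hx y hy
  obtain ⟨j, hj⟩ := hsurj (QuotientGroup.mk 1) x hx
  obtain ⟨l, hl⟩ := hsurj j y hy
  have h1 : x * y = τ (QuotientGroup.mk 1) * τ l := by
    rw [hj, hl]
    calc τ (QuotientGroup.mk 1) * τ j * (τ j * τ l)
        = τ (QuotientGroup.mk 1) * (τ j * τ j) * τ l := by group
      _ = τ (QuotientGroup.mk 1) * τ l := by rw [hτ2 j]; group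
  rw [h1]
  exact hmem _ _

end Cfsg.Agent.S0036
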