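import Cfsg.Statements.S0040
import Cfsg.Agent.Lib.H1FC2

set_option autoImplicit false
open Cfsg

namespace Cfsg.Agent.S0040

/-- Sylow subgroups of Frobenius complements: if H complements a nontrivial normal subgroup K and every nonidentity element of H has trivial centraliser in K, then each Sylow subgroup of H is cyclic or isomorphic to a generalized quaternion group. -/
theorem result {G : Type*} [Group G] [Finite G] (K H : Subgroup G) [K.Normal]
    (hc : Subgroup.IsComplement' K H) (hK : K ≠ ⊥) (hfpf : ∀ h ∈ H, h ≠ 1 → K ⊓ Subgroup.centralizer {h} = ⊥)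
    (p : ℕ) [Fact p.Prime] (P : Sylow p H) :
    IsCyclic P ∨ ∃ n : ℕ, Nonempty (P ≃* QuaternionGroup (2 ^ n)) := by
  have hHK : H ≤ Subgroup.normalizer (K : Set G) := by
    rw [Subgroup.normalizer_eq_top_iff.mpr ‹K.Normal›]
    exact le_top
  let T : Subgroup G := (P : Subgroup H).map H.subtype
  let e : (P : Subgroup H) ≃* T := (P : Subgroup H).equivMapOfInjective H.subtype H.subtype_injective
  have hTH : T ≤ H := Subgroup.map_subtype_le _
  have hT : IsPGroup p T := P.isPGroup'.map _
  rcases Cfsg.Agent.Lib.H1FC2.sylow_of_fc hHK hK hfpf hTH p hT with h | ⟨-, n, ⟨f⟩⟩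
  · left
    exact isCyclic_of_surjective e.symm.toMonoidHom e.symm.surjective
  · right
    exact ⟨n, ⟨e.trans f⟩⟩

end Cfsg.Agent.S0040
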