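import Cfsg.Statements.S0043
import Cfsg.Agent.Lib.H1Frat

set_option autoImplicit false
open Cfsg

namespace Cfsg.Agent.S0043

/-- A minimal normal subgroup of a finite solvable group is abelian, and for some prime p all of its elements have order dividing p. -/
theorem result {G : Type*} [Group G] [Finite G] [Group.IsSolvable G]
    (N : Subgroup G) [N.Normal] (hN : N ≠ ⊥) (hmin : ∀ M : Subgroup G, M.Normal → M ≤ N → M = ⊥ ∨ M = N) :
    IsMulCommutative N ∧ ∃ p : ℕ, p.Prime ∧ ∀ x ∈ N, x ^ p = 1 := by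
  classical
  haveI hNtriv : Nontrivial N := (Subgroup.nontrivial_iff_ne_bot N).mpr hN
  have h1 : ((commutator N).map N.subtype).Normal :=
    Cfsg.Agent.Lib.H1Core.normal_map_of_characteristic N (commutator N)
  have h2 : (commutator N).map N.subtype ≤ N := Subgroup.map_subtype_le _
  have hcomm : commutator N = ⊥ := by
    rcases hmin _ h1 h2 with h | h
    · rw [Subgroup.map_eq_bot_iff, Subgroup.ker_subtype] at h
      exact le_bot_iff.mp h
    · exfalso
      have h3 : commutator N < ⊤ := Group.IsSolvable.commutator_lt_top_of_nontrivial N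
      apply h3.ne
      apply Subgroup.map_injective N.subtype_injective
      rw [h, ← MonoidHom.range_eq_map, Subgroup.range_subtype]
  have hab : ∀ a ∈ N, ∀ b ∈ N, a * b = b * a := by
    intro a ha b hb
    have h3 := Subgroup.commutator_mem_commutator (Subgroup.mem_top (⟨a, ha⟩ : N)) (Subgroup.mem_top (⟨b, hb⟩ : N))
    rw [← commutator_def, hcomm, Subgroup.mem_bot] at h3
    have h4 : (⟨a, ha⟩ : N) * ⟨b, hb⟩ = ⟨b, hb⟩ * ⟨a, ha⟩ := commutatorElement_eq_one_iff_mul_comm.mp h3
    exact congrArg Subtype.val h4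
  refine ⟨IsMulCommutative.of_setLike_mul_comm hab, ?_⟩
  have hcard : Nat.card N ≠ 1 := by
    intro h
    exact hN (Subgroup.card_eq_one.mp h)
  obtain ⟨p, hp, hpd⟩ := Nat.exists_prime_and_dvd hcard
  refine ⟨p, hp, ?_⟩
  haveI : Fact p.Prime := ⟨hp⟩
  let Ω : Subgroup G :=
    { carrier := {x | x ∈ N ∧ x ^ p = 1}
      mul_mem' := by
        rintro a b ⟨ha, ha'⟩ ⟨hb, hb'⟩
        refine ⟨N.mul_mem ha hb, ?_⟩
        have : Commute a b := hab a ha b hb
        rw [this.mul_pow, ha', hb', one_mul]
      one_mem' := ⟨N.one_mem, one_pow _⟩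
      inv_mem' := by
        rintro a ⟨ha, ha'⟩
        exact ⟨N.inv_mem ha, by rw [inv_pow, ha', inv_one]⟩ }
  have hΩn : Ω.Normal := by
    constructor
    rintro a ⟨ha, ha'⟩ g
    refine ⟨(inferInstance : N.Normal).conj_mem a ha g, ?_⟩
    rw [conj_pow, ha']
    group
  have hΩle : Ω ≤ N := fun x hx => hx.1
  have hΩ : Ω = N := by
    rcases hmin Ω hΩn hΩle with h | h
    · exfalso
      obtain ⟨x, hx⟩ := exists_prime_orderOf_dvd_card' (G := N) p hpd
      have hmem : (x : G) ∈ Ω := by
        refine ⟨x.2, ?_⟩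
        have := pow_orderOf_eq_one x
        rw [hx] at this
        have h5 := congrArg Subtype.val this
        simpa using h5
      rw [h, Subgroup.mem_bot] at hmem
      have : x = 1 := Subtype.ext hmem
      rw [this, orderOf_one] at hx
      exact hp.one_lt.ne hx
    · exact h
  intro x hx
  rw [← hΩ] at hx
  exact hx.2

end Cfsg.Agent.S0043
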