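import Cfsg.Statements.S0048
import Cfsg.Agent.Lib.H1Fit

set_option autoImplicit false
open Cfsg

namespace Cfsg.Agent.S0048

open Cfsg.Agent.Lib.H1Hall Cfsg.Agent.Lib.H1SZ Cfsg.Agent.Lib.H1Conj

universe u

theorem aux (n : ℕ) : ∀ (G : Type u) [Group G] [Finite G] [Group.IsSolvable G]
    (M : Subgroup G) (_ : IsCoatom M), Nat.card G = n → IsPrimePow M.index := by
  induction n using Nat.strong_induction_on with
  | _ n ih =>
  intro G _ _ _ M hM hn
  classical
  haveI : Nontrivial G := by
    by_contra h
    rw [not_nontrivial_iff_subsingleton] at h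
    exact hM.1 (Subsingleton.elim _ _)
  obtain ⟨p, a, N, hp, ha, hNn, hN⟩ := exists_minimal_normal_pgroup (X := G)
  haveI := hNn
  by_cases hNM : N ≤ M
  · -- pass to the quotient
    let q := QuotientGroup.mk' N
    have hqs : Function.Surjective q := QuotientGroup.mk'_surjective N
    have hcomap : (M.map q).comap q = M := by
      rw [Subgroup.comap_map_eq, QuotientGroup.ker_mk']
      exact sup_eq_left.mpr hNM
    have hc : IsCoatom (M.map q) := by
      constructor
      · intro h
        apply hM.1
        rw [← hcomap, h, Subgroup.comap_top]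
      · intro K hK
        have h1 : M < K.comap q := by
          refine lt_of_le_of_ne ?_ ?_
          · rw [← hcomap]
            exact Subgroup.comap_mono hK.le
          · intro h
            apply hK.ne
            rw [h, Subgroup.map_comap_eq_self_of_surjective hqs]
        have h2 := hM.2 _ h1
        rw [← Subgroup.map_comap_eq_self_of_surjective hqs K, h2, ← MonoidHom.range_eq_map]
        exact MonoidHom.range_eq_top.mpr hqs
    have hcard : Nat.card (G ⧸ N) < n := by
      have h1 := card_quotient_mul N
      have h2 : 1 < Nat.card N := by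
        rw [hN]
        exact Nat.one_lt_pow (by omega) hp.one_lt
      rw [← hn, ← h1]
      have h3 : 0 < Nat.card (G ⧸ N) := Nat.card_pos
      nlinarith
    have h3 := ih _ hcard (G ⧸ N) (M.map q) hc rfl
    have h4 : (M.map q).index = M.index := by
      conv_rhs => rw [← hcomap]
      rw [Subgroup.index_comap_of_surjective _ hqs]
    rwa [h4] at h3
  · have hsup : M ⊔ N = ⊤ := hM.2 _ (lt_of_le_of_ne le_sup_left (fun h => hNM (by
      rw [h]; exact le_sup_right)))
    have h1 := card_sup_mul_card_inf M N
    rw [hsup, Subgroup.card_top] at h1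
    have h2 : M.index * Nat.card M = Nat.card G := Subgroup.index_mul_card M
    have h3 : M.index * Nat.card (M ⊓ N : Subgroup G) = Nat.card N := by
      have h4 : 0 < Nat.card M := Nat.card_pos
      apply Nat.eq_of_mul_eq_mul_left h4
      rw [← h1, ← h2]
      ring
    have h5 : M.index ∣ p ^ a := by
      rw [← hN, ← h3]
      exact Dvd.intro _ rfl
    obtain ⟨k, -, hk⟩ := (Nat.dvd_prime_pow hp).mp h5
    rw [hk]
    have hk0 : k ≠ 0 := by
      rintro rfl
      rw [pow_zero] at hk
      exact hM.1 (Subgroup.index_eq_one.mp hk)
    exact hp.isPrimePow.pow hk0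
/-- In a finite solvable group every maximal subgroup has index a prime power. -/
theorem result {G : Type*} [Group G] [Finite G] [Group.IsSolvable G]
    (M : Subgroup G) (hM : IsCoatom M) : IsPrimePow M.index := by

  exact aux _ G M hM rfl

end Cfsg.Agent.S0048
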