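import Cfsg.Statements.S0049
import Cfsg.Agent.Lib.H1Frat

set_option autoImplicit false
open Cfsg

namespace Cfsg.Agent.S0049

/-- A prime divisor of the order of a finite group also divides the index of the Frattini subgroup. -/
theorem result {G : Type*} [Group G] [Finite G] (p : ℕ) (hp : p.Prime) (hdvd : p ∣ Nat.card G) :
    p ∣ (frattini G).index := by
  classical
  by_contra hnd
  haveI : Fact p.Prime := ⟨hp⟩
  have hdvdΦ : p ∣ Nat.card (frattini G) := by
    have h1 := (frattini G).index_mul_card
    rw [← h1] at hdvd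
    exact (hp.dvd_mul.mp hdvd).resolve_left hnd
  obtain ⟨P⟩ : Nonempty (Sylow p (frattini G)) := inferInstance
  have hPn : ((P : Subgroup (frattini G)).map (frattini G).subtype).Normal :=
    Cfsg.Agent.Lib.H1Core.sylow_map_normal_of_nilpotent (frattini G) frattini_nilpotent P
  set Q : Subgroup G := (P : Subgroup (frattini G)).map (frattini G).subtype with hQ
  have hQpg : IsPGroup p Q := P.isPGroup'.map _
  have hQle : Q ≤ frattini G := Subgroup.map_subtype_le _
  have hidx : Q.index = (P : Subgroup (frattini G)).index * (frattini G).index := by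
    rw [hQ, Subgroup.index_map_subtype]
  have hndQ : ¬ p ∣ Q.index := by
    rw [hidx]
    exact hp.not_dvd_mul P.not_dvd_index hnd
  obtain ⟨k, hk⟩ := IsPGroup.iff_card.mp hQpg
  have hcop : (Nat.card Q).Coprime Q.index := by
    rw [hk]
    exact Nat.Coprime.pow_left _ ((Nat.Prime.coprime_iff_not_dvd hp).mpr hndQ)
  obtain ⟨H, hH⟩ := Subgroup.exists_right_complement'_of_coprime hcop
  have h1 : H ⊔ frattini G = ⊤ := by
    apply top_le_iff.mp
    rw [← hH.sup_eq_top, sup_comm]
    exact sup_le_sup_left hQle _
  have h2 := frattini_nongenerating h1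
  rw [h2] at hH
  have h3 : Q = ⊥ := Subgroup.isComplement'_top_right.mp hH
  have h4 : (P : Subgroup (frattini G)) ≠ ⊥ := P.ne_bot_of_dvd_card hdvdΦ
  apply h4
  rw [hQ, Subgroup.map_eq_bot_iff, Subgroup.ker_subtype] at h3
  exact le_bot_iff.mp h3

end Cfsg.Agent.S0049
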