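import Cfsg.Statements.S0050
import Cfsg.Agent.Lib.H1Hall

set_option autoImplicit false
open Cfsg

namespace Cfsg.Agent.S0050

open scoped Pointwise

/-- Frattini argument for Hall subgroups: if L is a solvable normal subgroup and H a subgroup of L of order coprime to its index in L, then L together with the normaliser of H generates the whole group. -/
theorem result {G : Type*} [Group G] [Finite G] (L : Subgroup G) [L.Normal] (hL : Group.IsSolvable L)
    (H : Subgroup G) (hHL : H ≤ L) (hHall : (Nat.card H).Coprime (H.relIndex L)) :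
    L ⊔ Subgroup.normalizer (H : Set G) = ⊤ := by
  classical
  -- Hall subgroups of `L` are conjugate in `L`
  have hHcard : Nat.card (H.subgroupOf L) = Nat.card H := Cfsg.Agent.Lib.H1SZ.card_subgroupOf_of_le hHL
  rw [eq_top_iff]
  intro g _
  set H₁ : Subgroup G := MulAut.conj g • H with hH₁
  have hH₁L : H₁ ≤ L := by
    intro x hx
    have hx' : g⁻¹ * x * g ∈ H := Cfsg.Agent.Lib.H1Core.mem_conj_smul.mp hx
    have h1 := (inferInstance : L.Normal).conj_mem _ (hHL hx') g
    simpa [mul_assoc] using h1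
  have hH₁card : Nat.card (H₁.subgroupOf L) = Nat.card H := by
    rw [Cfsg.Agent.Lib.H1SZ.card_subgroupOf_of_le hH₁L, Cfsg.Agent.Lib.H1Conj.card_conj_smul]
  have hLcard : Nat.card L = Nat.card H * H.relIndex L := by
    have := Subgroup.relIndex_mul_relIndex (⊥ : Subgroup G) H L bot_le hHL
    rw [Subgroup.relIndex_bot_left, Subgroup.relIndex_bot_left] at this
    rw [← this]
  obtain ⟨y, hy⟩ := Cfsg.Agent.Lib.H1Hall.hall_conj (G := L) (Nat.card H) (H.relIndex L) hLcard hHall
    (H₁.subgroupOf L) (H.subgroupOf L) hH₁card hHcard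
  have h2 := Cfsg.Agent.Lib.H1SZ.conj_of_subgroupOf hH₁L hHL y hy
  have h3 : (y : G) * g ∈ Subgroup.normalizer (H : Set G) := by
    apply Cfsg.Agent.Lib.H1Conj.mem_normalizer_of_conj_smul_eq
    rw [Cfsg.Agent.Lib.H1Conj.conj_mul_smul, ← hH₁, h2]
  have e : g = (y : G)⁻¹ * ((y : G) * g) := by group
  rw [e]
  exact Subgroup.mul_mem_sup (L.inv_mem y.2) h3

end Cfsg.Agent.S0050
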