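import Cfsg.Statements.S0053
import Cfsg.Agent.Lib.H1Frat

set_option autoImplicit false
open Cfsg

namespace Cfsg.Agent.S0053

/-- An abelian minimal normal subgroup N of a finite group is complemented exactly when N is not inside the Frattini subgroup. -/
theorem result {G : Type*} [Group G] [Finite G]
    (N : Subgroup G) [N.Normal] [IsMulCommutative N] (hN : N ≠ ⊥)
    (hmin : ∀ M : Subgroup G, M.Normal → M ≤ N → M = ⊥ ∨ M = N) :
    (∃ H : Subgroup G, Subgroup.IsComplement' N H) ↔ ¬ N ≤ frattini G := by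
  classical
  constructor
  · rintro ⟨H, hH⟩ hle
    have h1 : H ⊔ frattini G = ⊤ := by
      apply top_le_iff.mp
      rw [← hH.sup_eq_top, sup_comm]
      exact sup_le_sup_left hle _
    have h2 := frattini_nongenerating h1
    rw [h2] at hH
    exact hN (Subgroup.isComplement'_top_right.mp hH)
  · intro hnle
    rw [Cfsg.Agent.Lib.H1Frat.le_frattini_iff] at hnle
    push_neg at hnle
    obtain ⟨M, hM, hNM⟩ := hnle
    have hsup : N ⊔ M = ⊤ := by
      apply hM.2
      refine lt_of_le_of_ne le_sup_right ?_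
      intro h
      exact hNM (h.symm ▸ le_sup_left)
    have hinfn : (N ⊓ M).Normal := by
      constructor
      intro x hx g
      obtain ⟨hxN, hxM⟩ := Subgroup.mem_inf.mp hx
      have hg : g ∈ ((N ⊔ M : Subgroup G) : Set G) := by rw [hsup]; trivial
      rw [Subgroup.normal_mul] at hg
      obtain ⟨n, hn, m, hm, rfl⟩ := Set.mem_mul.mp hg
      have h1 : m * x * m⁻¹ ∈ N := (inferInstance : N.Normal).conj_mem x hxN m
      have h2 : m * x * m⁻¹ ∈ M := M.mul_mem (M.mul_mem hm hxM) (M.inv_mem hm)
      have h3 : n * (m * x * m⁻¹) = (m * x * m⁻¹) * n := setLike_mul_comm hn h1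
      have h4 : n * m * x * (n * m)⁻¹ = m * x * m⁻¹ := by
        calc n * m * x * (n * m)⁻¹ = (n * (m * x * m⁻¹)) * n⁻¹ := by group
          _ = m * x * m⁻¹ := by rw [h3]; group
      rw [h4]
      exact Subgroup.mem_inf.mpr ⟨h1, h2⟩
    have hinf : N ⊓ M = ⊥ := by
      rcases hmin _ hinfn inf_le_left with h | h
      · exact h
      · exfalso
        exact hNM (inf_eq_left.mp h)
    refine ⟨M, Subgroup.isComplement'_of_disjoint_and_mul_eq_univ (disjoint_iff.mpr hinf) ?_⟩
    rw [← Subgroup.normal_mul, hsup]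
    rfl

end Cfsg.Agent.S0053
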