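import Cfsg.Statements.S0054
import Cfsg.Agent.Lib.H1Fit

set_option autoImplicit false
open Cfsg

namespace Cfsg.Agent.S0054

/-- A regular normal subgroup of a finite 2-transitive group is elementary abelian: it is commutative and all its elements have order dividing one prime. -/
theorem result {G : Type*} [Group G] [Finite G]
    {X : Type*} [Nonempty X] [MulAction G X] (h2 : MulAction.IsMultiplyPretransitive G X 2)
    (N : Subgroup G) [N.Normal] (htrans : MulAction.IsPretransitive N X) (hreg : ∀ x : X, MulAction.stabilizer N x = ⊥) :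
    IsMulCommutative N ∧ ∃ p : ℕ, p.Prime ∧ ∀ n ∈ N, n ^ p = 1 := by
  classical
  obtain ⟨x₀⟩ := ‹Nonempty X›
  have hstab : ∀ n ∈ N, n • x₀ = x₀ → n = 1 := by
    intro n hn h
    have h1 : (⟨n, hn⟩ : N) ∈ MulAction.stabilizer N x₀ := by
      rw [MulAction.mem_stabilizer_iff]
      exact h
    rw [hreg x₀] at h1
    simpa using h1
  have key : ∀ n ∈ N, ∀ m ∈ N, n ≠ 1 → m ≠ 1 → ∃ g : G, g * n * g⁻¹ = m := by
    intro n hn m hm hn1 hm1
    have hne1 : x₀ ≠ n • x₀ := fun h => hn1 (hstab n hn h.symm)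
    have hne2 : x₀ ≠ m • x₀ := fun h => hm1 (hstab m hm h.symm)
    let e1 : Fin 2 ↪ X := ⟨![x₀, n • x₀], by
      intro i j hij
      fin_cases i <;> fin_cases j <;> simp_all⟩
    let e2 : Fin 2 ↪ X := ⟨![x₀, m • x₀], by
      intro i j hij
      fin_cases i <;> fin_cases j <;> simp_all⟩
    haveI : MulAction.IsPretransitive G (Fin 2 ↪ X) := h2
    obtain ⟨g, hg⟩ := MulAction.exists_smul_eq G e1 e2
    have hg0 : g • x₀ = x₀ := by
      exact DFunLike.congr_fun hg 0
    have hg1 : g • n • x₀ = m • x₀ := by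
      exact DFunLike.congr_fun hg 1
    refine ⟨g, ?_⟩
    have hmem : m⁻¹ * (g * n * g⁻¹) ∈ N :=
      N.mul_mem (N.inv_mem hm) (‹N.Normal›.conj_mem n hn g)
    have h3 : (m⁻¹ * (g * n * g⁻¹)) • x₀ = x₀ := by
      have h4 : g⁻¹ • x₀ = x₀ := by
        conv_lhs => rw [← hg0]
        simp
      rw [mul_smul, mul_smul, mul_smul, h4, hg1]
      simp
    have h5 := hstab _ hmem h3
    rw [inv_mul_eq_one] at h5
    exact h5.symm
  by_cases hN : N = ⊥
  · subst hN
    refine ⟨⟨⟨fun a b => ?_⟩⟩, 2, Nat.prime_two, ?_⟩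
    · exact Subsingleton.elim _ _
    · intro n hn
      rw [Subgroup.mem_bot.mp hn, one_pow]
  haveI hNnt : Nontrivial N := (Subgroup.nontrivial_iff_ne_bot N).mpr hN
  obtain ⟨p, hp, hpd⟩ := Nat.exists_prime_and_dvd (Finite.one_lt_card (α := N)).ne'
  haveI : Fact p.Prime := ⟨hp⟩
  obtain ⟨m, hm⟩ := exists_prime_orderOf_dvd_card' p hpd
  have hmpow : ((m : N) : G) ^ p = 1 := by
    have := pow_orderOf_eq_one m
    rw [hm] at this
    simpa using congrArg Subtype.val this
  have hm1 : ((m : N) : G) ≠ 1 := by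
    intro h
    have h2 : m = 1 := Subtype.ext h
    rw [h2, orderOf_one] at hm
    exact hp.one_lt.ne hm
  have hexp : ∀ n ∈ N, n ^ p = 1 := by
    intro n hn
    by_cases hn1 : n = 1
    · rw [hn1, one_pow]
    obtain ⟨g, hg⟩ := key _ m.2 n hn hm1 hn1
    rw [← hg, conj_pow, hmpow]
    simp
  refine ⟨?_, p, hp, hexp⟩
  have hpg : IsPGroup p N := by
    intro x
    refine ⟨1, ?_⟩
    rw [pow_one]
    exact Subtype.ext (by simpa using hexp x x.2)
  haveI := hpg.center_nontrivial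
  obtain ⟨z, hz⟩ := exists_ne (1 : Subgroup.center N)
  have hz1 : (((z : Subgroup.center N) : N) : G) ≠ 1 := by
    intro h
    apply hz
    exact Subtype.ext (Subtype.ext h)
  have hzc : ∀ a ∈ N, ((z : N) : G) * a = a * ((z : N) : G) := by
    intro a ha
    have := (Subgroup.mem_center_iff.mp z.2) ⟨a, ha⟩
    simpa using (congrArg Subtype.val this).symm
  refine ⟨⟨fun a b => ?_⟩⟩
  by_cases ha1 : (a : G) = 1
  · have : a = 1 := Subtype.ext ha1
    rw [this]
    simp
  obtain ⟨g, hg⟩ := key _ (z : N).2 a a.2 hz1 ha1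
  apply Subtype.ext
  show (a : G) * b = b * a
  rw [← hg]
  have hb : g⁻¹ * (b : G) * g ∈ N := by
    have := ‹N.Normal›.conj_mem b b.2 g⁻¹
    simpa using this
  have h6 := hzc _ hb
  calc g * ((z : N) : G) * g⁻¹ * b = g * (((z : N) : G) * (g⁻¹ * b * g)) * g⁻¹ := by group
    _ = g * ((g⁻¹ * b * g) * ((z : N) : G)) * g⁻¹ := by rw [h6]
    _ = _ := by group

end Cfsg.Agent.S0054
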