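import Cfsg.Statements.S0057
import Cfsg.Agent.Lib.H1PQ

set_option autoImplicit false
open Cfsg

namespace Cfsg.Agent.S0057

open Cfsg.Agent.Lib.H1Cop Cfsg.Agent.Lib.H1Cop2
open scoped commutatorElement

theorem mul_eq_of_relIndex {G : Type*} [Group G] [Finite G] {R C K : Subgroup G} (hRK : R ≤ K)
    (hCK : C ≤ K) (h : C.relIndex R = C.relIndex K) {k : G} (hk : k ∈ K) :
    ∃ x ∈ R, ∃ c ∈ C, k = x * c := by
  classical
  have hstab : ∀ L : Subgroup G, MulAction.stabilizer L (QuotientGroup.mk 1 : G ⧸ C) = C.subgroupOf L := by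
    intro L
    ext u
    rw [Cfsg.Agent.Lib.H1Frob.mem_stabilizer_mk, Subgroup.mem_subgroupOf]
    simp
  have h1 : (MulAction.orbit R (QuotientGroup.mk 1 : G ⧸ C)).ncard = C.relIndex R := by
    rw [← MulAction.index_stabilizer, hstab]
    rfl
  have h2 : (MulAction.orbit K (QuotientGroup.mk 1 : G ⧸ C)).ncard = C.relIndex K := by
    rw [← MulAction.index_stabilizer, hstab]
    rfl
  have h3 : MulAction.orbit R (QuotientGroup.mk 1 : G ⧸ C) =
      MulAction.orbit K (QuotientGroup.mk 1 : G ⧸ C) := by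
    apply Set.eq_of_subset_of_ncard_le ?_ ?_ (Set.toFinite _)
    · rintro _ ⟨⟨x, hx⟩, rfl⟩
      exact ⟨⟨x, hRK hx⟩, rfl⟩
    · rw [h1, h2, h]
  have h4 : (QuotientGroup.mk k : G ⧸ C) ∈ MulAction.orbit K (QuotientGroup.mk 1 : G ⧸ C) := by
    refine ⟨⟨k, hk⟩, ?_⟩
    show (QuotientGroup.mk (k * 1) : G ⧸ C) = _
    rw [mul_one]
  rw [← h3] at h4
  obtain ⟨⟨x, hx⟩, hxk⟩ := h4
  have h5 : (QuotientGroup.mk (x * 1) : G ⧸ C) = QuotientGroup.mk k := hxk
  rw [mul_one] at h5
  have h6 : x⁻¹ * k ∈ C := QuotientGroup.eq.mp h5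
  exact ⟨x, hx, _, h6, by group⟩
/-- Under coprime action, if the centraliser of A in K has prime index p in K then the commutator subgroup [K, A] has order exactly p. -/
theorem result {G : Type*} [Group G] [Finite G] (A K : Subgroup G) (hAK : A ≤ Subgroup.normalizer (K : Set G))
    (hcop : (Nat.card A).Coprime (Nat.card K)) (hsolv : Group.IsSolvable A ∨ Group.IsSolvable K)
    (p : ℕ) (hp : p.Prime) (hidx : (K ⊓ Subgroup.centralizer (A : Set G)).relIndex K = p) :
    Nat.card (⁅K, A⁆ : Subgroup G) = p := by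

  classical
  haveI : Fact p.Prime := ⟨hp⟩
  set C : Subgroup G := K ⊓ Subgroup.centralizer (A : Set G) with hC
  set M : Subgroup G := ⁅K, A⁆ with hM
  have hCK : C ≤ K := inf_le_left
  have hMK : M ≤ K := commutator_le_left hAK
  have hcc : ⁅M, A⁆ = M := commutator_commutator_eq hAK hcop hsolv
  have hsup : M ⊔ C = K := commutator_sup_centralizer hAK hcop hsolv
  -- `M` is a `p`-group
  obtain ⟨R, ⟨hRK, hRp, hRi⟩, hAR⟩ := exists_invariant_sylow hAK hcop hsolv p
  have hMR : M ≤ R := by
    have hRC : ¬ R ≤ C := by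
      intro h
      apply hRi
      rw [← hidx]
      exact Subgroup.relIndex_dvd_of_le_left K h
    have hrel : C.relIndex R = C.relIndex K := by
      have h1 : C.relIndex R ≤ C.relIndex K :=
        Subgroup.relIndex_le_of_le_right hRK Subgroup.index_ne_zero_of_finite
      have h2 : C.relIndex R ∣ Nat.card R := by
        exact Subgroup.card_quotient_dvd_card _
      obtain ⟨k, hk⟩ := IsPGroup.iff_card.mp hRp
      rw [hk] at h2
      obtain ⟨j, -, hj⟩ := (Nat.dvd_prime_pow hp).mp h2
      have hj0 : j ≠ 0 := by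
        rintro rfl
        rw [pow_zero] at hj
        exact hRC (Subgroup.relIndex_eq_one.mp hj)
      rw [hidx] at h1 ⊢
      rw [hj] at h1 ⊢
      have h3 : p ≤ p ^ j := by
        calc p = p ^ 1 := (pow_one p).symm
          _ ≤ p ^ j := Nat.pow_le_pow_right hp.pos (by omega)
      omega
    rw [hM, Subgroup.commutator_le]
    intro k hk a ha
    obtain ⟨x, hx, c, hc, rfl⟩ := mul_eq_of_relIndex hRK hCK hrel hk
    have hca : c * a = a * c := Subgroup.mem_centralizer_iff.mp hc.2 a ha |>.symm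
    have e : ⁅x * c, a⁆ = x * (a * x⁻¹ * a⁻¹) := by
      rw [commutatorElement_def]
      calc x * c * a * (x * c)⁻¹ * a⁻¹ = x * (c * a) * c⁻¹ * x⁻¹ * a⁻¹ := by group
        _ = x * (a * c) * c⁻¹ * x⁻¹ * a⁻¹ := by rw [hca]
        _ = _ := by group
    rw [e]
    exact R.mul_mem hx (conj_mem_of_normalizer hAR ha (R.inv_mem hx))
  have hMp : IsPGroup p M := hRp.to_le hMR
  haveI hMnil : Group.IsNilpotent M := hMp.isNilpotent
  -- the order of `M`
  set D : Subgroup G := C ⊓ M with hD
  have hDeq : D = M ⊓ Subgroup.centralizer (A : Set G) := by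
    rw [hD, hC]
    ext z
    constructor
    · rintro ⟨⟨-, h2⟩, h3⟩
      exact ⟨h3, h2⟩
    · rintro ⟨h1, h2⟩
      exact ⟨⟨hMK h1, h2⟩, h1⟩
  have hCM : C ≤ Subgroup.normalizer (M : Set G) :=
    hCK.trans (commutator_normalized_left K A)
  have hcard : Nat.card K * Nat.card D = Nat.card C * Nat.card M := by
    have h1 := card_sup_mul_inf_of_normalizes hCM
    rw [sup_comm, hsup] at h1
    exact h1
  have hKC : C.relIndex K * Nat.card C = Nat.card K := by
    have := Subgroup.relIndex_mul_relIndex (⊥ : Subgroup G) C K bot_le hCK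
    rw [Subgroup.relIndex_bot_left, Subgroup.relIndex_bot_left] at this
    rw [mul_comm]
    exact this
  have hMD : Nat.card M = p * Nat.card D := by
    have hCpos : 0 < Nat.card C := Nat.card_pos
    apply Nat.eq_of_mul_eq_mul_left hCpos
    rw [← hcard, ← hKC, hidx]
    ring
  have hDM : D ≤ M := inf_le_right
  have hrelDM : D.relIndex M = p := by
    have := Subgroup.relIndex_mul_relIndex (⊥ : Subgroup G) D M bot_le hDM
    rw [Subgroup.relIndex_bot_left, Subgroup.relIndex_bot_left] at this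
    have hDpos : 0 < Nat.card D := Nat.card_pos
    apply Nat.eq_of_mul_eq_mul_left hDpos
    rw [this, hMD]
    ring
  have hDlt : D < M := by
    refine lt_of_le_of_ne hDM ?_
    intro h
    rw [h, Subgroup.relIndex_self] at hrelDM
    exact hp.one_lt.ne hrelDM
  -- `D` is normal in `M`
  have hMN : M ≤ Subgroup.normalizer (D : Set G) := by
    obtain ⟨m, hmM, hmD, hmN⟩ := Cfsg.Agent.Lib.H1PQ.exists_normalizing hMnil hDlt
    set X : Subgroup G := M ⊓ Subgroup.normalizer (D : Set G) with hX
    have hDX : D ≤ X := le_inf hDM Subgroup.le_normalizer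
    have hXM : X ≤ M := inf_le_left
    have h1 := Subgroup.relIndex_mul_relIndex D X M hDX hXM
    rw [hrelDM] at h1
    have h2 : D.relIndex X ≠ 1 := by
      intro h3
      rw [Subgroup.relIndex_eq_one] at h3
      exact hmD (h3 ⟨hmM, hmN⟩)
    have h3 : X.relIndex M = 1 := by
      have h4 : D.relIndex X ∣ p := Dvd.intro _ h1
      rcases (Nat.dvd_prime hp).mp h4 with h5 | h5
      · exact absurd h5 h2
      · rw [h5] at h1
        exact Nat.eq_of_mul_eq_mul_left hp.pos (by rw [h1, mul_one])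
    exact (Subgroup.relIndex_eq_one.mp h3).trans inf_le_right
  -- `D` is central in `M`
  have hDc : ∀ d ∈ D, ∀ m ∈ M, m * d = d * m := by
    intro d hd
    have hdA : ∀ a ∈ A, a * d = d * a := fun a ha =>
      Subgroup.mem_centralizer_iff.mp (hDeq ▸ hd).2 a ha
    have h1 : M ≤ Subgroup.centralizer {d} := by
      rw [← hcc, Subgroup.commutator_le]
      intro m hm a ha
      rw [Subgroup.mem_centralizer_singleton_iff]
      have he : m⁻¹ * d * m ∈ D := by
        have := conj_mem_of_normalizer hMN (M.inv_mem hm) hd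
        simpa using this
      have heA := Subgroup.mem_centralizer_iff.mp (hDeq ▸ he).2 a ha
      have e1 : a⁻¹ * d * a = d := by
        rw [mul_assoc, ← hdA a ha]
        group
      rw [commutatorElement_def]
      calc m * a * m⁻¹ * a⁻¹ * d = m * a * m⁻¹ * (a⁻¹ * d * a) * a⁻¹ := by group
        _ = m * a * (m⁻¹ * d * m) * m⁻¹ * a⁻¹ := by rw [e1]; group
        _ = m * (a * (m⁻¹ * d * m)) * m⁻¹ * a⁻¹ := by group
        _ = m * ((m⁻¹ * d * m) * a) * m⁻¹ * a⁻¹ := by rw [heA]
        _ = d * (m * a * m⁻¹ * a⁻¹) := by group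
    intro m hm
    exact Subgroup.mem_centralizer_singleton_iff.mp (h1 hm)
  -- `M` is abelian
  haveI hD' : (D.subgroupOf M).Normal :=
    (Subgroup.normal_subgroupOf_iff_le_normalizer hDM).mpr hMN
  let f := QuotientGroup.mk' (D.subgroupOf M)
  have hfk : f.ker ≤ Subgroup.center M := by
    rw [QuotientGroup.ker_mk']
    intro d hd
    rw [Subgroup.mem_center_iff]
    intro m
    apply Subtype.ext
    exact hDc d (Subgroup.mem_subgroupOf.mp hd) m m.2
  haveI hcyc : IsCyclic (M ⧸ D.subgroupOf M) := by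
    apply isCyclic_of_prime_card (p := p)
    exact hrelDM
  have hcomm := commutative_of_cyclic_center_quotient f hfk
  haveI : IsMulCommutative M := ⟨⟨fun a b => hcomm a b⟩⟩
  have hcopM : (Nat.card A).Coprime (Nat.card M) :=
    Nat.Coprime.coprime_dvd_right (Subgroup.card_dvd_of_le hMK) hcop
  have hAM : A ≤ Subgroup.normalizer (M : Set G) := commutator_normalized_right K A
  have hbot := inf_commutator_eq_bot hAM hcopM
  rw [hcc, ← hDeq] at hbot
  have hD0 : D = ⊥ := by
    rw [← hbot]
    exact (inf_eq_left.mpr hDM).symm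
  rw [hMD, hD0, Subgroup.card_bot, mul_one]

end Cfsg.Agent.S0057
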