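import Cfsg.Statements.S0063
import Cfsg.Agent.Lib.H1Frat

set_option autoImplicit false
open Cfsg

namespace Cfsg.Agent.S0063

/-- A finite group of prime-power order p ^ m with m > 1 is nilpotent of class at most m - 1. -/
theorem result {G : Type*} [Group G] [Finite G] (p m : ℕ) [Fact p.Prime]
    (hG : Nat.card G = p ^ m) (hm : 1 < m) : Group.nilpotencyClass G ≤ m - 1 := by
  classical
  have hp : Nat.Prime p := Fact.out
  revert hm hG
  induction m using Nat.strong_induction_on generalizing G with
  | _ m ih =>
    intro hG hm
    haveI : Group.IsNilpotent G := (IsPGroup.of_card hG).isNilpotent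
    by_cases hcomm : IsMulCommutative G
    · have := (Group.IsNilpotent.nilpotencyClass_le_one_iff (G := G)).mpr hcomm
      omega
    · -- the central quotient
      have hpg : IsPGroup p G := IsPGroup.of_card hG
      haveI : Nontrivial G := by
        rw [← Finite.one_lt_card_iff_nontrivial, hG]
        exact Nat.one_lt_pow (by omega) hp.one_lt
      have hcen : ⊥ < Subgroup.center G := hpg.bot_lt_center
      obtain ⟨m', hm'⟩ := IsPGroup.iff_card.mp (hpg.to_quotient (Subgroup.center G))
      have hcard : Nat.card (G ⧸ Subgroup.center G) * Nat.card (Subgroup.center G) = Nat.card G := by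
        rw [← Subgroup.index_eq_card, Subgroup.index_mul_card]
      have h1 : 1 < Nat.card (Subgroup.center G) :=
        (Subgroup.one_lt_card_iff_ne_bot _).mpr hcen.ne'
      have hlt : m' < m := by
        apply (Nat.pow_lt_pow_iff_right hp.one_lt).mp
        rw [← hm', ← hG, ← hcard]
        exact lt_mul_of_one_lt_right (by rw [hm']; exact pow_pos hp.pos _) h1
      have hm'2 : 1 < m' := by
        by_contra hle
        apply hcomm
        have hcyc : IsCyclic (G ⧸ Subgroup.center G) := by
          have : m' = 0 ∨ m' = 1 := by omega
          rcases this with rfl | rfl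
          · rw [pow_zero] at hm'
            haveI : Subsingleton (G ⧸ Subgroup.center G) := (Nat.card_eq_one_iff_unique.mp hm').1
            infer_instance
          · rw [pow_one] at hm'
            haveI : Fact (Nat.card (G ⧸ Subgroup.center G)).Prime := ⟨hm' ▸ hp⟩
            exact isCyclic_of_prime_card rfl
        exact (QuotientGroup.mk' (Subgroup.center G)).isMulCommutative_of_isCyclic_of_ker_le_center
          (by rw [QuotientGroup.ker_mk'])
      have h2 := ih m' hlt (G := G ⧸ Subgroup.center G) hm' hm'2
      rw [Group.nilpotencyClass_quotient_center] at h2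
      omega

end Cfsg.Agent.S0063
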