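import Cfsg.Statements.S0064
import Cfsg.Agent.Lib.H1Frat

set_option autoImplicit false
open Cfsg

namespace Cfsg.Agent.S0064

/-- A finite group is nilpotent exactly when each of its subgroups is subnormal. -/
theorem result {G : Type*} [Group G] [Finite G] :
    Group.IsNilpotent G ↔ ∀ H : Subgroup G, H.IsSubnormal := by
  classical
  constructor
  · intro hnil
    haveI := hnil
    intro H
    -- strong induction on the index
    induction h : H.index using Nat.strong_induction_on generalizing H with
    | _ n ih =>
      by_cases htop : H = ⊤
      · rw [htop]; exact Subgroup.IsSubnormal.top
      · have hcond := normalizerCondition_of_isNilpotent (G := G)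
        have hlt : H < Subgroup.normalizer (H : Set G) := hcond H (lt_top_iff_ne_top.mpr htop)
        have hidx : (Subgroup.normalizer (H : Set G)).index < H.index :=
          Subgroup.index_strictAnti hlt
        have hsub := ih _ (h ▸ hidx) (Subgroup.normalizer (H : Set G)) rfl
        exact Subgroup.IsSubnormal.step H _ hlt.le hsub Subgroup.normal_in_normalizer
  · intro hsub
    have hq := (Group.isNilpotent_of_finite_tfae (G := G)).out 0 1
    rw [hq]
    intro H hH
    have key : ∀ H : Subgroup G, H.IsSubnormal → H = ⊤ ∨ H < Subgroup.normalizer (H : Set G) := by
      intro H hH
      induction hH with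
      | top => left; rfl
      | step H K hle hK hN ih =>
        rcases hle.eq_or_lt with rfl | hlt
        · exact ih
        · right
          have : K ≤ Subgroup.normalizer (H : Set G) :=
            (Subgroup.normal_subgroupOf_iff_le_normalizer hle).mp hN
          exact lt_of_lt_of_le hlt this
    rcases key H (hsub H) with h | h
    · exact absurd h hH.ne
    · exact h

end Cfsg.Agent.S0064
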