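import Cfsg.Statements.S0068
import Cfsg.Agent.Lib.H1Frat

set_option autoImplicit false
open Cfsg

namespace Cfsg.Agent.S0068

/-- Frobenius complements of even order: if H complements a nontrivial normal subgroup K, each nonidentity element of H has trivial centraliser in K, and H has even order, then H contains a unique involution s, K is abelian, and s inverts every element of K. -/
theorem result {G : Type*} [Group G] [Finite G] (K H : Subgroup G) [K.Normal]
    (hc : Subgroup.IsComplement' K H) (hK : K ≠ ⊥) (hfpf : ∀ h ∈ H, h ≠ 1 → K ⊓ Subgroup.centralizer {h} = ⊥)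
    (heven : 2 ∣ Nat.card H) :
    (∃ s ∈ H, orderOf s = 2 ∧ (∀ t ∈ H, orderOf t = 2 → t = s) ∧ ∀ k ∈ K, s * k * s⁻¹ = k⁻¹) ∧ IsMulCommutative K := by
  classical
  -- every involution of `H` inverts `K`
  have hinv : ∀ t ∈ H, orderOf t = 2 → ∀ k ∈ K, t * k * t⁻¹ = k⁻¹ := by
    intro t ht hord k hk
    have ht1 : t ≠ 1 := by
      rintro rfl
      simp at hord
    have ht2 : t⁻¹ = t := by
      have : t * t = 1 := by
        have := pow_orderOf_eq_one t
        rw [hord, pow_two] at this
        exact this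
      exact inv_eq_of_mul_eq_one_left this
    let f : K → K := fun x => ⟨x⁻¹ * (t * x * t⁻¹), K.mul_mem (K.inv_mem x.2)
      ((inferInstance : K.Normal).conj_mem _ x.2 t)⟩
    have hf : Function.Injective f := by
      intro x y hxy
      have h1 : (x : G)⁻¹ * (t * x * t⁻¹) = (y : G)⁻¹ * (t * y * t⁻¹) := congrArg Subtype.val hxy
      have h2 : (y * x⁻¹ : K).1 ∈ K ⊓ Subgroup.centralizer {t} := by
        refine Subgroup.mem_inf.mpr ⟨(y * x⁻¹ : K).2, ?_⟩
        rw [Subgroup.mem_centralizer_iff]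
        intro y' hy'
        rw [show y' = t from hy']
        have h3 : (x : G)⁻¹ * (t * x) = (y : G)⁻¹ * (t * y) := by
          have := congrArg (· * t) h1
          simpa [mul_assoc] using this
        have h4 : t * (y * x⁻¹ : K).1 = (y * x⁻¹ : K).1 * t := by
          simp only [Subgroup.coe_mul, Subgroup.coe_inv]
          calc t * (y * (x : G)⁻¹) = (y : G) * ((y : G)⁻¹ * (t * y)) * (x : G)⁻¹ := by group
            _ = (y : G) * ((x : G)⁻¹ * (t * x)) * (x : G)⁻¹ := by rw [h3]
            _ = (y : G) * (x : G)⁻¹ * t := by group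
        exact h4
      rw [hfpf t ht ht1, Subgroup.mem_bot] at h2
      have h5 : y * x⁻¹ = 1 := Subtype.ext h2
      exact (mul_inv_eq_one.mp h5).symm
    have hs : Function.Surjective f := Finite.surjective_of_injective hf
    obtain ⟨x, hx⟩ := hs ⟨k, hk⟩
    have hx' : (x : G)⁻¹ * (t * x * t⁻¹) = k := congrArg Subtype.val hx
    rw [← hx']
    simp only [ht2]
    have h6 : t * t = 1 := by
      have := pow_orderOf_eq_one t
      rw [hord, pow_two] at this
      exact this
    calc t * ((x : G)⁻¹ * (t * x * t)) * t = t * (x : G)⁻¹ * t * x * (t * t) := by group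
      _ = t * (x : G)⁻¹ * t * x := by rw [h6, mul_one]
      _ = ((x : G)⁻¹ * (t * x * t))⁻¹ := by
        have : t⁻¹ = t := ht2
        calc t * (x : G)⁻¹ * t * x = t⁻¹ * (x : G)⁻¹ * t⁻¹ * x := by rw [this]
          _ = _ := by group
  obtain ⟨s', hs'⟩ := exists_prime_orderOf_dvd_card' (G := H) 2 heven
  have hs'' : orderOf (s' : G) = 2 := by rw [Subgroup.orderOf_coe]; exact hs'
  refine ⟨⟨(s' : G), s'.2, hs'', ?_, hinv _ s'.2 hs''⟩, ?_⟩
  · intro t ht htord
    have hk1 : ∃ k ∈ K, k ≠ 1 := by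
      obtain ⟨⟨k, hk⟩, hne⟩ := Subgroup.ne_bot_iff_exists_ne_one.mp hK
      exact ⟨k, hk, fun h => hne (Subtype.ext h)⟩
    obtain ⟨k, hk, hk1⟩ := hk1
    by_contra hne
    have hst : (s' : G) * t⁻¹ ≠ 1 := fun h => hne (mul_inv_eq_one.mp h).symm
    have hmem : (s' : G) * t⁻¹ ∈ H := H.mul_mem s'.2 (H.inv_mem ht)
    have hk2 : k ∈ K ⊓ Subgroup.centralizer {(s' : G) * t⁻¹} := by
      refine Subgroup.mem_inf.mpr ⟨hk, ?_⟩
      rw [Subgroup.mem_centralizer_iff]
      intro y' hy'
      rw [show y' = (s' : G) * t⁻¹ from hy']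
      have h1 := hinv t ht htord k hk
      have h2 := hinv _ s'.2 hs'' k hk
      have h3 : t⁻¹ * k⁻¹ * t = k := by rw [← h1]; group
      have h3' : t⁻¹ * k * t = k⁻¹ := by
        have := congrArg (·⁻¹) h3
        simpa [mul_assoc] using this
      calc (s' : G) * t⁻¹ * k = (s' : G) * (t⁻¹ * k * t) * t⁻¹ := by group
        _ = (s' : G) * k⁻¹ * t⁻¹ := by rw [h3']
        _ = ((s' : G) * k⁻¹ * (s' : G)⁻¹) * ((s' : G) * t⁻¹) := by group
        _ = k * ((s' : G) * t⁻¹) := by
          have h4 : (s' : G) * k⁻¹ * (s' : G)⁻¹ = k := by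
            have := congrArg (·⁻¹) h2
            simpa [mul_assoc] using this
          rw [h4]
    rw [hfpf _ hmem hst, Subgroup.mem_bot] at hk2
    exact hk1 hk2
  · apply IsMulCommutative.of_setLike_mul_comm
    intro a ha b hb
    have h1 := hinv _ s'.2 hs'' a ha
    have h2 := hinv _ s'.2 hs'' b hb
    have h3 := hinv _ s'.2 hs'' (a * b) (K.mul_mem ha hb)
    have h4 : (s' : G) * (a * b) * (s' : G)⁻¹ = ((s' : G) * a * (s' : G)⁻¹) * ((s' : G) * b * (s' : G)⁻¹) := by group
    rw [h4, h1, h2] at h3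
    have h5 : (a * b)⁻¹ = (b * a)⁻¹ := by
      rw [← h3]; group
    exact inv_injective h5

end Cfsg.Agent.S0068
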