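import Cfsg.Statements.S0070
import Cfsg.Agent.Lib.H1Fit

set_option autoImplicit false
open Cfsg

namespace Cfsg.Agent.S0070

/-- The Fitting subgroup commutes with passing to the Frattini quotient: the Fitting subgroup of G modulo its Frattini subgroup is the image of the Fitting subgroup of G. -/
theorem result {G : Type*} [Group G] [Finite G] :
    Cfsg.fittingSubgroup (G ⧸ frattini G) = (Cfsg.fittingSubgroup G).map (QuotientGroup.mk' (frattini G)) := by
  classical
  open Cfsg.Agent.Lib.H1Core in
  apply le_antisymm
  · have hFn : (Cfsg.fittingSubgroup (G ⧸ frattini G)).Normal := fittingSubgroup_normal _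
    let q := QuotientGroup.mk' (frattini G)
    have hqs : Function.Surjective q := QuotientGroup.mk'_surjective _
    set L : Subgroup G := (Cfsg.fittingSubgroup (G ⧸ frattini G)).comap q with hL
    haveI hLn : L.Normal := hFn.comap q
    have hBL : frattini G ≤ L := by
      intro x hx
      have h1 : q x = 1 := (QuotientGroup.eq_one_iff x).mpr hx
      rw [hL, Subgroup.mem_comap, h1]
      exact Subgroup.one_mem _
    have hmap : L.map q = Cfsg.fittingSubgroup (G ⧸ frattini G) :=
      Subgroup.map_comap_eq_self_of_surjective hqs _
    have hnil : Group.IsNilpotent L := by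
      apply Cfsg.Agent.Lib.H1Fit.isNilpotent_of_map_frattini hBL le_rfl
      show Group.IsNilpotent (L.map q)
      rw [hmap]
      exact fittingSubgroup_isNilpotent
    have hLF : L ≤ Cfsg.fittingSubgroup G := le_fittingSubgroup hLn hnil
    rw [← hmap]
    exact Subgroup.map_mono hLF
  · apply le_fittingSubgroup
      (Subgroup.Normal.map (fittingSubgroup_normal G) _ (QuotientGroup.mk'_surjective _))
    have h1 : Group.IsNilpotent (Cfsg.fittingSubgroup G) := fittingSubgroup_isNilpotent
    let f := (QuotientGroup.mk' (frattini G)).comp (Cfsg.fittingSubgroup G).subtype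
    let φ : Cfsg.fittingSubgroup G →* (Cfsg.fittingSubgroup G).map (QuotientGroup.mk' (frattini G)) :=
      f.codRestrict _ (fun x => ⟨x, x.2, rfl⟩)
    apply nilpotent_of_surjective φ
    rintro ⟨_, x, hx, rfl⟩
    exact ⟨⟨x, hx⟩, rfl⟩

end Cfsg.Agent.S0070
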