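import Cfsg.Statements.S0073
import Cfsg.Agent.Lib.PThomp2
-- import your own Cfsg.Agent.* helpers here

set_option autoImplicit false
open Cfsg

namespace Cfsg.Agent.S0073

theorem Nat.sq_sub_one_aux (p : ℕ) (hp : 0 < p) : p ^ 2 - 1 = (p - 1) * (p + 1) := by
  obtain ⟨t, rfl⟩ : ∃ t, p = t + 1 := ⟨p - 1, by omega⟩
  simp only [Nat.add_sub_cancel]
  have : (t + 1) ^ 2 = t * (t + 1 + 1) + 1 := by ring
  omega

theorem Nat.sq_sub_self_aux (p : ℕ) (hp : 0 < p) : p ^ 2 - p = p * (p - 1) := by
  obtain ⟨t, rfl⟩ : ∃ t, p = t + 1 := ⟨p - 1, by omega⟩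
  simp only [Nat.add_sub_cancel]
  have : (t + 1) ^ 2 = (t + 1) * t + (t + 1) := by ring
  omega


/-- For a finite non-abelian simple group, either the cube of the least prime divisor of the order divides the order, or 12 does. -/
theorem result {G : Type*} [Group G] [Finite G] [IsSimpleGroup G] (hG : ∃ x y : G, x * y ≠ y * x) : (Nat.card G).minFac ^ 3 ∣ Nat.card G ∨ 12 ∣ Nat.card G := by
  classical
  by_contra hnot
  push Not at hnot
  obtain ⟨hn3, hn12⟩ := hnot
  have hne1 : Nat.card G ≠ 1 := by
    intro h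
    haveI := (Nat.card_eq_one_iff_unique.1 h).1
    exact (not_subsingleton_iff_nontrivial.2 (IsSimpleGroup.toNontrivial (G := G))) inferInstance
  set p := (Nat.card G).minFac with hp
  have hpp : p.Prime := Nat.minFac_prime hne1
  haveI hf : Fact p.Prime := ⟨hpp⟩
  have hpG : p ∣ Nat.card G := Nat.minFac_dvd _
  obtain ⟨P⟩ : Nonempty (Sylow p G) := inferInstance
  obtain ⟨k, hk⟩ := IsPGroup.iff_card.1 P.2
  have hPd : Nat.card (P : Subgroup G) ∣ Nat.card G := Subgroup.card_subgroup_dvd_card _
  have hk1 : k ≠ 0 := by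
    rintro rfl
    have := P.dvd_card_of_dvd_card hpG
    rw [hk, pow_zero] at this
    exact hpp.one_lt.ne' (Nat.dvd_one.1 this)
  have hk2 : k ≤ 2 := by
    by_contra hlt
    push Not at hlt
    exact hn3 ((pow_dvd_pow p hlt).trans (hk ▸ hPd))
  have hcases : k = 1 ∨ k = 2 := by omega
  have hab : ∀ a ∈ (P : Subgroup G), ∀ b ∈ (P : Subgroup G), a * b = b * a := by
    intro a ha b hb
    have hc : IsMulCommutative (P : Subgroup G) := by
      rcases hcases with rfl | rfl
      · haveI : IsCyclic (P : Subgroup G) := isCyclic_of_prime_card (p := p) (by rw [hk, pow_one])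
        exact IsCyclic.isMulCommutative
      · exact IsPGroup.isMulCommutative_of_card_eq_prime_sq hk
    have := hc.is_comm.comm ⟨a, ha⟩ ⟨b, hb⟩
    exact congrArg Subtype.val this
  have hnoc : ¬ Cfsg.HasNormalPComplement p G := by
    rintro ⟨Q, N, hN, hc⟩
    obtain rfl | rfl := IsSimpleGroup.eq_bot_or_eq_top_of_normal N hN
    · -- `G` is a `p`-group, so `P` is everything
      have hcard := hc.card_mul_card
      rw [Subgroup.card_bot, one_mul] at hcard
      have hQP : (Q : Subgroup G) = ⊤ := Subgroup.eq_top_of_card_eq _ hcard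
      have hPtop : (P : Subgroup G) = ⊤ := by
        apply Subgroup.eq_top_of_card_eq
        rw [P.card_eq_multiplicity, ← Q.card_eq_multiplicity, hcard]
      obtain ⟨x, y, hxy⟩ := hG
      exact hxy (hab x (hPtop ▸ Subgroup.mem_top x) y (hPtop ▸ Subgroup.mem_top y))
    · have hcard := hc.card_mul_card
      rw [Subgroup.card_top] at hcard
      have h1 : Nat.card (Q : Subgroup G) = 1 :=
        Nat.eq_of_mul_eq_mul_left Nat.card_pos (by rw [hcard, mul_one])
      rw [Q.card_eq_multiplicity, ← P.card_eq_multiplicity, hk] at h1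
      exact (Nat.one_lt_pow hk1 hpp.one_lt).ne' h1
  obtain ⟨q, F, hq, hqp, hqG, hFne, hcong⟩ := Cfsg.Agent.Lib.PThomp.exists_prime_automizer P hab hnoc
  have hpq : p < q := lt_of_le_of_ne (Nat.minFac_le_of_dvd hq.two_le hqG) hqp.symm
  have hFd : Nat.card F ∣ p ^ k := hk ▸ Subgroup.card_subgroup_dvd_card F
  have hFl : Nat.card F ≠ p ^ k := by
    intro h
    apply hFne
    apply Subgroup.eq_top_of_card_eq
    rw [h, hk]
  obtain ⟨j, hjk, hj⟩ := (Nat.dvd_prime_pow hpp).1 hFd
  have hjlt : j < k := lt_of_le_of_ne hjk (fun he => hFl (by rw [hj, he]))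
  rw [hk, hj] at hcong
  -- `q ∣ p^k - p^j`
  have hd : q ∣ p ^ k - p ^ j := (Nat.modEq_iff_dvd' (Nat.pow_le_pow_right hpp.pos hjk)).1 hcong.symm
  have hpminus : ¬ q ∣ p - 1 := by
    intro h
    have := Nat.le_of_dvd (by have := hpp.two_le; omega) h
    omega
  have hqnp : ¬ q ∣ p := fun h => hqp ((Nat.prime_dvd_prime_iff_eq hq hpp).1 h)
  rcases hcases with rfl | rfl
  · interval_cases j
    simp only [pow_one, pow_zero] at hd
    exact hpminus hd
  · interval_cases j
    · simp only [pow_zero] at hd
      have hfac : p ^ 2 - 1 = (p - 1) * (p + 1) := by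
        have hpos := hpp.pos
        exact Nat.sq_sub_one_aux p hpos
      rw [hfac] at hd
      obtain h | h := (Nat.Prime.dvd_mul hq).1 hd
      · exact hpminus h
      · have hle := Nat.le_of_dvd (by omega) h
        have hqe : q = p + 1 := by omega
        -- consecutive primes
        have hp2 : p = 2 := by
          by_contra hne
          have hodd : Odd p := hpp.odd_of_ne_two hne
          have heven : Even q := by rw [hqe]; exact hodd.add_one
          have := hq.even_iff.1 heven
          have := hpp.two_le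
          omega
        have hq3 : q = 3 := by omega
        apply hn12
        have h4 : 4 ∣ Nat.card G := by
          have : p ^ 2 ∣ Nat.card G := hk ▸ hPd
          rwa [hp2] at this
        have h3 : 3 ∣ Nat.card G := hq3 ▸ hqG
        exact Nat.Coprime.mul_dvd_of_dvd_of_dvd (by norm_num) h3 h4
    · simp only [pow_one] at hd
      have hfac : p ^ 2 - p = p * (p - 1) := by
        have hpos := hpp.pos
        exact Nat.sq_sub_self_aux p hpos
      rw [hfac] at hd
      obtain h | h := (Nat.Prime.dvd_mul hq).1 hd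
      · exact hqnp h
      · exact hpminus h

end Cfsg.Agent.S0073
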