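import Cfsg.Statements.S0076
import Cfsg.Agent.Lib.PNilp
-- import your own Cfsg.Agent.* helpers here

set_option autoImplicit false
open Cfsg

namespace Cfsg.Agent.S0076

/-- Two P-invariant subsets of a Sylow p-subgroup P that are conjugate in G are conjugate under the normalizer of P. -/
theorem result {G : Type*} [Group G] [Finite G] {p : ℕ} [Fact p.Prime] (P : Sylow p G) (X Y : Set G) (hXP : X ⊆ P) (hYP : Y ⊆ P) (hX : ∀ x ∈ P, (fun y => x * y * x⁻¹) '' X = X) (hY : ∀ x ∈ P, (fun y => x * y * x⁻¹) '' Y = Y) (g : G) (hg : (fun y => g * y * g⁻¹) '' X = Y) : ∃ n ∈ Subgroup.normalizer (P : Set G), (fun y => n * y * n⁻¹) '' X = Y := by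
  open Cfsg.Agent.Lib.PNilp in
  have hP1 : (P : Subgroup G) ≤ Subgroup.normalizer X := by
    intro x hx
    rw [Subgroup.mem_set_normalizer_iff]
    intro y
    constructor
    · intro hy
      have := hX x hx
      rw [← this]
      exact ⟨y, hy, rfl⟩
    · intro hy
      have h1 := hX x hx
      rw [← h1] at hy
      obtain ⟨z, hz, hzy⟩ := hy
      have h2 : x * z * x⁻¹ = x * y * x⁻¹ := hzy
      have h3 : z = y := by simpa using h2
      rw [← h3]; exact hz
  have hP2 : ((g⁻¹ • P : Sylow p G) : Subgroup G) ≤ Subgroup.normalizer X := by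
    intro x hx
    have hx' : g⁻¹⁻¹ * x * g⁻¹ ∈ P := mem_smul_sylow.1 hx
    rw [inv_inv] at hx'
    rw [Subgroup.mem_set_normalizer_iff]
    have h1 := hY _ hx'
    intro y
    have hyiff : ∀ w, w ∈ X ↔ g * w * g⁻¹ ∈ Y := by
      intro w
      constructor
      · intro hw
        rw [← hg]; exact ⟨w, hw, rfl⟩
      · intro hw
        rw [← hg] at hw
        obtain ⟨z, hz, hzw⟩ := hw
        have h2 : g * z * g⁻¹ = g * w * g⁻¹ := hzw
        have h3 : z = w := by simpa using h2
        rw [← h3]; exact hz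
    have hYiff : ∀ w, w ∈ Y ↔ (g * x * g⁻¹) * w * (g * x * g⁻¹)⁻¹ ∈ Y := by
      intro w
      constructor
      · intro hw
        have h5 : (g * x * g⁻¹) * w * (g * x * g⁻¹)⁻¹ ∈ (fun y => (g * x * g⁻¹) * y * (g * x * g⁻¹)⁻¹) '' Y := ⟨w, hw, rfl⟩
        rwa [h1] at h5
      · intro hw
        rw [← h1] at hw
        obtain ⟨z, hz, hzw⟩ := hw
        have h2 : (g * x * g⁻¹) * z * (g * x * g⁻¹)⁻¹ = (g * x * g⁻¹) * w * (g * x * g⁻¹)⁻¹ := hzw
        have h3 : z = w := by simpa using h2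
        rw [← h3]; exact hz
    rw [hyiff y, hyiff (x * y * x⁻¹), hYiff (g * y * g⁻¹)]
    have e : g * (x * y * x⁻¹) * g⁻¹ = (g * x * g⁻¹) * (g * y * g⁻¹) * (g * x * g⁻¹)⁻¹ := by group
    rw [e]
  obtain ⟨u, huM, hu⟩ := exists_conj_sylow_in P (g⁻¹ • P) _ hP1 hP2
  refine ⟨g * u, ?_, ?_⟩
  · change g * u ∈ Subgroup.normalizer (((P : Subgroup G)) : Set G)
    rw [mem_normalizer_iff_map']
    have : (((g * u) • P : Sylow p G) : Subgroup G) = (P : Subgroup G) := by
      rw [sm_mul, coe_smul_sylow, hu]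
      rw [← coe_smul_sylow]
      rw [smul_smul, mul_inv_cancel, one_smul]
    exact this
  · rw [← hg]
    ext y
    constructor
    · rintro ⟨z, hz, rfl⟩
      refine ⟨u * z * u⁻¹, (Subgroup.mem_set_normalizer_iff.1 huM z).1 hz, ?_⟩
      simp only
      group
    · rintro ⟨z, hz, rfl⟩
      refine ⟨u⁻¹ * z * u, ?_, ?_⟩
      · have := (Subgroup.mem_set_normalizer_iff.1 (inv_mem huM) z).1 hz
        simpa using this
      · simp only
        group

end Cfsg.Agent.S0076
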