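import Cfsg.Statements.S0078
import Cfsg.Agent.Lib.PNilp2
-- import your own Cfsg.Agent.* helpers here

set_option autoImplicit false
open Cfsg

namespace Cfsg.Agent.S0078

/-- In a p-normal group, a Sylow p-subgroup P meets O^p(G) exactly where it meets O^p(V), for any subgroup V containing the normalizer of the centre of P. -/
theorem result {G : Type*} [Group G] [Finite G] {p : ℕ} [Fact p.Prime] (P : Sylow p G) (hn : ∀ Q : Sylow p G, (P : Subgroup G) ⊓ Subgroup.centralizer (P : Set G) ≤ (Q : Subgroup G) → (Q : Subgroup G) ⊓ Subgroup.centralizer (Q : Set G) = (P : Subgroup G) ⊓ Subgroup.centralizer (P : Set G)) (V : Subgroup G) (hV : Subgroup.normalizer (((P : Subgroup G) ⊓ Subgroup.centralizer (P : Set G) : Subgroup G) : Set G) ≤ V) : (P : Subgroup G) ⊓ Cfsg.pResidual p G = (P : Subgroup G) ⊓ (Cfsg.pResidual p V).map V.subtype := by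
  open Cfsg.Agent.Lib.PNilp Cfsg.Agent.Lib.PNilp2 in
  set Z : Subgroup G := (P : Subgroup G) ⊓ Subgroup.centralizer (P : Set G) with hZdef
  have hZc : Z ≤ Subgroup.centralizer ((P : Subgroup G) : Set G) := inf_le_right
  have hW : Cfsg.IsWeaklyClosed Z P := by
    refine ⟨inf_le_left, fun g hg => ?_⟩
    -- `Z ≤ g⁻¹ • P`
    have h1 : Z ≤ ((g⁻¹ • P : Sylow p G) : Subgroup G) := by
      intro z hz
      change z ∈ (g⁻¹ • P : Sylow p G)
      rw [mem_smul_sylow]
      have h0 : g * z * g⁻¹ ∈ (P : Subgroup G) := hg ⟨z, hz, rfl⟩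
      rw [inv_inv]
      exact h0
    have h2 := hn (g⁻¹ • P) h1
    have h3 : Z.map (MulAut.conj g⁻¹).toMonoidHom = Z := by
      exact (center_conj (P : Subgroup G) g⁻¹).symm.trans h2
    have h5 : g⁻¹ ∈ Subgroup.normalizer (Z : Set G) := mem_normalizer_iff_map'.2 h3
    exact mem_normalizer_iff_map'.1 (by simpa using inv_mem h5)
  apply le_antisymm
  · exact inf_pResidual_le_of_weakly_closed P Z hZc hW V hV
  · exact inf_le_inf_left _ (pResidual_map_le V)

end Cfsg.Agent.S0078
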