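import Cfsg.Statements.S0082
import Cfsg.Agent.Lib.PTate2
-- import your own Cfsg.Agent.* helpers here

set_option autoImplicit false
open Cfsg

namespace Cfsg.Agent.S0082

/-- With a cyclic Sylow p-subgroup, either there is a normal p-complement or the elements of order prime to p generate the whole group. -/
theorem result {G : Type*} [Group G] [Finite G] {p : ℕ} [Fact p.Prime] (P : Sylow p G) (hP : IsCyclic P) : Cfsg.HasNormalPComplement p G ∨ Cfsg.pResidual p G = ⊤ := by
  classical
  by_cases hR : Cfsg.pResidual p G = ⊤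
  · exact Or.inr hR
  left
  -- `P ∩ R` is proper
  let R : Subgroup G := Cfsg.pResidual p G
  have hlt : R ⊓ (P : Subgroup G) ≤ (frattini P).map (P : Subgroup G).subtype := by
    have hne : ¬ (P : Subgroup G) ≤ R := by
      intro hle
      have := Cfsg.Agent.Lib.PNilp.sylow_sup_pResidual P
      rw [sup_eq_right.2 hle] at this
      exact hR this
    exact Cfsg.Agent.Lib.PTate.inf_le_frattini_of_cyclic P R hP hne
  have h1 := Cfsg.Agent.Lib.PTate.tate P R hlt
  rw [Cfsg.Agent.Lib.PNilp.hasNormalPComplement_iff_pResidual, Cfsg.Agent.Lib.PNilp.pResidual_pResidual, Subgroup.card_top] at h1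
  rw [Cfsg.Agent.Lib.PNilp.hasNormalPComplement_iff_pResidual]
  exact h1

end Cfsg.Agent.S0082
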