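import Cfsg.Statements.S0083
import Cfsg.Agent.Lib.PNilp2
-- import your own Cfsg.Agent.* helpers here

set_option autoImplicit false
open Cfsg

namespace Cfsg.Agent.S0083

/-- For an abelian Sylow p-subgroup P, a normal p-complement exists exactly when the normalizer of P is an internal direct product of P with some subgroup. -/
theorem result {G : Type*} [Group G] [Finite G] {p : ℕ} [Fact p.Prime] (P : Sylow p G) (hP : IsMulCommutative P) : Cfsg.HasNormalPComplement p G ↔ ∃ Q : Subgroup G, Q ≤ Subgroup.centralizer (P : Set G) ∧ Q ⊓ (P : Subgroup G) = ⊥ ∧ Q ⊔ (P : Subgroup G) = Subgroup.normalizer (P : Set G) := by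
  open Cfsg.Agent.Lib.PNilp in
  constructor
  · intro h
    obtain ⟨N, hN, hc⟩ := (isComplement_iff_exists P).1 h
    haveI := hN
    refine ⟨N ⊓ Subgroup.normalizer (P : Set G), ?_, ?_, ?_⟩
    · intro n hn
      rw [Subgroup.mem_centralizer_iff]
      intro x hx
      have hcop : Nat.Coprime (orderOf n) p :=
        (mem_iff_coprime_of_isComplement P N hc n).1 hn.1
      have := centralizer_of_hasNormalPComplement N (coprime_card_of_isComplement P N hc)
        (isPGroup_quotient_of_isComplement P N hc) (P : Subgroup G) P.2 n hn.2 hcop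
      exact (Subgroup.mem_centralizer_iff.1 this) x hx
    · have hd : Disjoint N (P : Subgroup G) := hc.disjoint
      apply le_antisymm _ bot_le
      intro y hy
      exact (Subgroup.disjoint_def.1 hd) hy.1.1 hy.2
    · apply le_antisymm
      · exact sup_le inf_le_right Subgroup.le_normalizer
      · intro g hg
        have htop : N ⊔ (P : Subgroup G) = ⊤ := hc.sup_eq_top
        have hmem : g ∈ ((N ⊔ (P : Subgroup G) : Subgroup G) : Set G) := by
          rw [htop]; exact Subgroup.mem_top g
        rw [Subgroup.normal_mul] at hmem
        obtain ⟨n, hn, x, hx, rfl⟩ := Set.mem_mul.1 hmem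
        have hxN : x ∈ Subgroup.normalizer (P : Set G) := Subgroup.le_normalizer hx
        have hnN : n ∈ Subgroup.normalizer (P : Set G) := by
          have : n = n * x * x⁻¹ := by group
          rw [this]
          exact mul_mem hg (inv_mem hxN)
        exact Subgroup.mul_mem_sup ⟨hn, hnN⟩ hx
  · rintro ⟨Q, hQ, hQP, hsup⟩
    have hle : Subgroup.normalizer ((P : Subgroup G) : Set G) ≤ Subgroup.centralizer ((P : Subgroup G) : Set G) := by
      change Subgroup.normalizer (P : Set G) ≤ Subgroup.centralizer (P : Set G)
      rw [← hsup]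
      refine sup_le hQ ?_
      intro x hx
      rw [Subgroup.mem_centralizer_iff]
      intro y hy
      have := hP.is_comm.comm ⟨y, hy⟩ ⟨x, hx⟩
      exact congrArg Subtype.val this
    exact ⟨P, _, inferInstance, MonoidHom.ker_transferSylow_isComplement' P hle⟩

end Cfsg.Agent.S0083
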