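import Cfsg.Statements.S0084
import Cfsg.Agent.Lib.PThomp2
-- import your own Cfsg.Agent.* helpers here

set_option autoImplicit false
open Cfsg

namespace Cfsg.Agent.S0084

/-- A group whose Sylow 2-subgroups are Klein four-groups and whose order is prime to 3 has a normal 2-complement. -/
theorem result {G : Type*} [Group G] [Finite G] (T : Sylow 2 G) (hT : IsKleinFour T) (h3 : ¬ 3 ∣ Nat.card G) : Cfsg.HasNormalPComplement 2 G := by
  classical
  by_contra hnot
  have hcard : Nat.card (T : Subgroup G) = 4 := hT.card_four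
  have hab : ∀ a ∈ (T : Subgroup G), ∀ b ∈ (T : Subgroup G), a * b = b * a := by
    intro a ha b hb
    have hc : IsMulCommutative (T : Subgroup G) :=
      IsPGroup.isMulCommutative_of_card_eq_prime_sq (p := 2) (by rw [hcard]; norm_num)
    have := hc.is_comm.comm ⟨a, ha⟩ ⟨b, hb⟩
    exact congrArg Subtype.val this
  obtain ⟨q, F, hq, hqp, hqG, hFne, hcong⟩ := Cfsg.Agent.Lib.PThomp.exists_prime_automizer T hab hnot
  rw [hcard] at hcong
  have hFd : Nat.card F ∣ 4 := hcard ▸ Subgroup.card_subgroup_dvd_card F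
  have hFl : Nat.card F ≠ 4 := by
    intro h
    apply hFne
    apply Subgroup.eq_top_of_card_eq
    rw [h, hcard]
  have hF : Nat.card F = 1 ∨ Nat.card F = 2 := by
    have : Nat.card F ≤ 4 := Nat.le_of_dvd (by norm_num) hFd
    have hpos : 0 < Nat.card F := Nat.card_pos
    interval_cases hh : Nat.card F <;> simp_all
  rcases hF with h | h
  · rw [h] at hcong
    have hd : q ∣ 3 := (Nat.modEq_iff_dvd' (by norm_num)).1 hcong.symm
    have : q = 3 := (Nat.prime_dvd_prime_iff_eq hq Nat.prime_three).1 hd
    exact h3 (this ▸ hqG)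
  · rw [h] at hcong
    have hd : q ∣ 2 := (Nat.modEq_iff_dvd' (by norm_num)).1 hcong.symm
    have : q = 2 := (Nat.prime_dvd_prime_iff_eq hq Nat.prime_two).1 hd
    exact hqp this

end Cfsg.Agent.S0084
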