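import Cfsg.Statements.S0085
import Cfsg.Agent.Lib.PThomp2
-- import your own Cfsg.Agent.* helpers here

set_option autoImplicit false
open Cfsg

namespace Cfsg.Agent.S0085

/-- A group whose Sylow 2-subgroups are elementary abelian of order 8 and whose order is prime to 3 and to 7 has a normal 2-complement. -/
theorem result {G : Type*} [Group G] [Finite G] (T : Sylow 2 G) (h8 : Nat.card T = 8) (he : ∀ x : T, x * x = 1) (h3 : ¬ 3 ∣ Nat.card G) (h7 : ¬ 7 ∣ Nat.card G) : Cfsg.HasNormalPComplement 2 G := by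
  classical
  by_contra hnot
  have hcard : Nat.card (T : Subgroup G) = 8 := h8
  have hab : ∀ a ∈ (T : Subgroup G), ∀ b ∈ (T : Subgroup G), a * b = b * a := by
    intro a ha b hb
    have h1 := he ⟨a, ha⟩
    have h2 := he ⟨b, hb⟩
    have h3 := he (⟨a, ha⟩ * ⟨b, hb⟩)
    have e1 : a * a = 1 := congrArg Subtype.val h1
    have e2 : b * b = 1 := congrArg Subtype.val h2
    have e3 : (a * b) * (a * b) = 1 := congrArg Subtype.val h3
    have ia : a⁻¹ = a := inv_eq_of_mul_eq_one_left e1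
    have ib : b⁻¹ = b := inv_eq_of_mul_eq_one_left e2
    have iab : (a * b)⁻¹ = a * b := inv_eq_of_mul_eq_one_left e3
    rw [← iab, mul_inv_rev, ia, ib]
  obtain ⟨q, F, hq, hqp, hqG, hFne, hcong⟩ := Cfsg.Agent.Lib.PThomp.exists_prime_automizer T hab hnot
  rw [hcard] at hcong
  have hFd : Nat.card F ∣ 8 := hcard ▸ Subgroup.card_subgroup_dvd_card F
  have hFl : Nat.card F ≠ 8 := by
    intro h
    apply hFne
    apply Subgroup.eq_top_of_card_eq
    rw [h, hcard]
  have hF : Nat.card F = 1 ∨ Nat.card F = 2 ∨ Nat.card F = 4 := by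
    have : Nat.card F ≤ 8 := Nat.le_of_dvd (by norm_num) hFd
    have hpos : 0 < Nat.card F := Nat.card_pos
    interval_cases hh : Nat.card F <;> simp_all
  rcases hF with h | h | h
  · rw [h] at hcong
    have hd : q ∣ 7 := (Nat.modEq_iff_dvd' (by norm_num)).1 hcong.symm
    have : q = 7 := (Nat.prime_dvd_prime_iff_eq hq (by norm_num)).1 hd
    exact h7 (this ▸ hqG)
  · rw [h] at hcong
    have hd : q ∣ 6 := (Nat.modEq_iff_dvd' (by norm_num)).1 hcong.symm
    have h6 : q ∣ 2 * 3 := hd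
    obtain h | h := (Nat.Prime.dvd_mul hq).1 h6
    · exact hqp ((Nat.prime_dvd_prime_iff_eq hq Nat.prime_two).1 h)
    · have : q = 3 := (Nat.prime_dvd_prime_iff_eq hq Nat.prime_three).1 h
      exact h3 (this ▸ hqG)
  · rw [h] at hcong
    have hd : q ∣ 4 := (Nat.modEq_iff_dvd' (by norm_num)).1 hcong.symm
    have h6 : q ∣ 2 ^ 2 := hd
    exact hqp ((Nat.prime_dvd_prime_iff_eq hq Nat.prime_two).1 (hq.dvd_of_dvd_pow h6))

end Cfsg.Agent.S0085
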