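import Cfsg.Statements.S0089
import Cfsg.Agent.Lib.PNilp3
-- import your own Cfsg.Agent.* helpers here

set_option autoImplicit false
open Cfsg

namespace Cfsg.Agent.S0089

/-- When all Sylow subgroups are abelian, the derived subgroup meets the centre trivially. -/
theorem result {G : Type*} [Group G] [Finite G] (h : ∀ p : ℕ, p.Prime → ∀ P : Sylow p G, IsMulCommutative P) : commutator G ⊓ Subgroup.center G = ⊥ := by
  by_contra hne
  obtain ⟨⟨z, hz⟩, hz1⟩ := Subgroup.ne_bot_iff_exists_ne_one.1 hne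
  have hz1' : z ≠ 1 := fun h => hz1 (Subtype.ext h)
  have hord : orderOf z ≠ 1 := fun h => hz1' (orderOf_eq_one_iff.1 h)
  have hpp : (orderOf z).minFac.Prime := Nat.minFac_prime hord
  haveI hp : Fact (orderOf z).minFac.Prime := ⟨hpp⟩
  have hy : orderOf (z ^ (orderOf z / (orderOf z).minFac)) = (orderOf z).minFac :=
    orderOf_pow_orderOf_div (orderOf_pos z).ne' (Nat.minFac_dvd _)
  set y := z ^ (orderOf z / (orderOf z).minFac) with hydef
  have hyK : y ∈ commutator G ⊓ Subgroup.center G := pow_mem hz _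
  have hpg : IsPGroup (orderOf z).minFac (Subgroup.zpowers y) := by
    apply IsPGroup.of_card (n := 1)
    rw [Nat.card_zpowers, hy, pow_one]
  obtain ⟨Q, hQ⟩ := hpg.exists_le_sylow
  have hyQ : y ∈ (Q : Subgroup G) := hQ (Subgroup.mem_zpowers y)
  have hbot := Cfsg.Agent.Lib.PNilp3.inf_commutator_inf_center_eq_bot (Q : Subgroup G) (h _ hpp Q)
    Q.card_coprime_index
  have h1 : y ∈ (Q : Subgroup G) ⊓ commutator G ⊓ Subgroup.center G :=
    Subgroup.mem_inf.2 ⟨Subgroup.mem_inf.2 ⟨hyQ, hyK.1⟩, hyK.2⟩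
  rw [hbot, Subgroup.mem_bot] at h1
  rw [h1, orderOf_one] at hy
  exact hpp.one_lt.ne hy

end Cfsg.Agent.S0089
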