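import Cfsg.Statements.S0091
import Cfsg.Agent.Lib.PNilp
-- import your own Cfsg.Agent.* helpers here

set_option autoImplicit false
open Cfsg

namespace Cfsg.Agent.S0091

/-- If a nontrivial Sylow p-subgroup controls its own fusion then it is not contained in the derived subgroup. -/
theorem result {G : Type*} [Group G] [Finite G] {p : ℕ} [Fact p.Prime] (P : Sylow p G) (hp : p ∣ Nat.card G) (h : ∀ x ∈ P, ∀ y ∈ P, (∃ g : G, g * x * g⁻¹ = y) → ∃ z ∈ P, z * x * z⁻¹ = y) : ¬ (P : Subgroup G) ≤ commutator G := by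
  open Cfsg.Agent.Lib.PNilp in
  intro hle
  have hbot := P.ne_bot_of_dvd_card hp
  apply hbot
  have h1 : (P : Subgroup G) ≤ ⁅(P : Subgroup G), (P : Subgroup G)⁆ := by
    have h2 : (P : Subgroup G) ≤ commutator G ⊓ P := le_inf hle le_rfl
    rw [Subgroup.commutator_inf_eq_focalSubgroup P] at h2
    refine h2.trans (focal_le_commutator_of_control _ _ ?_)
    intro x hx u hu
    obtain ⟨z, hz, hzu⟩ := h x hx _ hu ⟨u, rfl⟩
    exact ⟨z, hz, hzu.symm⟩
  exact eq_bot_of_le_commutator_of_isNilpotent _ _ P.2.isNilpotent le_rfl h1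

end Cfsg.Agent.S0091
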