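import Cfsg.Statements.S0102
import Cfsg.Agent.Lib.PTate2
-- import your own Cfsg.Agent.* helpers here

set_option autoImplicit false
open Cfsg

namespace Cfsg.Agent.S0102

/-- A finite perfect group with cyclic Sylow p-subgroups has no perfect central extension whose kernel has order divisible by p. -/
theorem result {G : Type*} {H : Type*} [Group G] [Group H] [Finite G] [Finite H] (hG : commutator G = ⊤) {p : ℕ} [Fact p.Prime] (hcyc : ∀ P : Sylow p G, IsCyclic P) (σ : H →* G) (hσ : Function.Surjective σ) (hz : σ.ker ≤ Subgroup.center H) (hH : commutator H = ⊤) : ¬ p ∣ Nat.card σ.ker := by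
  classical
  intro hdvd
  obtain ⟨P⟩ : Nonempty (Sylow p H) := inferInstance
  -- `P ∩ ker σ ≤ Φ(P)`
  have hfr := Cfsg.Agent.Lib.PTate.central_inf_le_frattini σ.ker hz hH P
  -- `σ(P)` is Sylow, so cyclic
  let Q : Sylow p G := P.mapSurjective hσ
  have hQc : IsCyclic Q := hcyc Q
  obtain ⟨q, hq⟩ := IsCyclic.exists_generator (α := (Q : Subgroup G))
  have hqP : (q : G) ∈ (P : Subgroup H).map σ := q.2
  obtain ⟨c, hcP, hcq⟩ := hqP
  have hPc : IsCyclic P := by
    refine ⟨⟨⟨c, hcP⟩, ?_⟩⟩
    by_contra hne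
    have hne' : Subgroup.zpowers (⟨c, hcP⟩ : (P : Subgroup H)) ≠ ⊤ := by
      intro h
      apply hne
      intro x
      have : x ∈ Subgroup.zpowers (⟨c, hcP⟩ : (P : Subgroup H)) := by rw [h]; exact Subgroup.mem_top _
      exact this
    obtain h | ⟨M, hM, hle⟩ := eq_top_or_exists_le_coatom (Subgroup.zpowers (⟨c, hcP⟩ : (P : Subgroup H)))
    · exact hne' h
    · apply hM.1
      rw [eq_top_iff]
      intro y _
      have hy : σ y ∈ (Q : Subgroup G) := ⟨y, y.2, rfl⟩
      obtain ⟨k, hk⟩ := hq ⟨σ y, hy⟩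
      have hk' : (q : G) ^ k = σ y := by simpa using congrArg Subtype.val hk
      rw [← hcq, ← map_zpow] at hk'
      -- `y⁻¹ c^k` lies in the kernel
      have hmem : ((y : H)⁻¹ * c ^ k) ∈ σ.ker ⊓ (P : Subgroup H) := by
        refine Subgroup.mem_inf.2 ⟨?_, mul_mem (inv_mem y.2) (zpow_mem hcP k)⟩
        rw [MonoidHom.mem_ker, map_mul, map_inv, hk', inv_mul_cancel]
      obtain ⟨t, ht, hte⟩ := hfr hmem
      have ht' : t ∈ frattini (P : Subgroup H) := ht
      have htM : t ∈ M := (Cfsg.Agent.Lib.H1Frat.mem_frattini.1 ht') M hM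
      have hck : (⟨c, hcP⟩ : (P : Subgroup H)) ^ k ∈ M := hle (Subgroup.zpow_mem_zpowers _ k)
      have : y = (⟨c, hcP⟩ : (P : Subgroup H)) ^ k * t⁻¹ := by
        apply Subtype.ext
        have hte' : (t : H) = (y : H)⁻¹ * c ^ k := hte
        simp [hte']
      rw [this]
      exact mul_mem hck (inv_mem htM)
  -- an element of order `p` in the kernel
  obtain ⟨z, hzo⟩ : ∃ z : σ.ker, orderOf z = p := exists_prime_orderOf_dvd_card' p hdvd
  have hzo' : orderOf (z : H) = p := by rw [Subgroup.orderOf_coe]; exact hzo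
  have hzc : (z : H) ∈ Subgroup.center H := hz z.2
  have hzP : (z : H) ∈ (P : Subgroup H) := by
    have hpz : IsPGroup p (Subgroup.zpowers (z : H)) := by
      apply IsPGroup.of_card (n := 1)
      rw [Nat.card_zpowers, hzo', pow_one]
    have hle : Subgroup.zpowers (z : H) ≤ Subgroup.normalizer ((P : Subgroup H) : Set H) := by
      rw [Subgroup.zpowers_le, Subgroup.mem_normalizer_iff]
      intro h
      have := (Subgroup.mem_center_iff.1 hzc) h
      rw [← this, mul_assoc, mul_inv_cancel, mul_one]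
    have hsup := IsPGroup.to_sup_of_normal_right' hpz P.2 hle
    have h3 := P.3 hsup le_sup_right
    rw [← h3]
    exact (le_sup_left : Subgroup.zpowers (z : H) ≤ _) (Subgroup.mem_zpowers _)
  have hN := Cfsg.Agent.Lib.PTate.normalizer_le_centralizer_of_cyclic_of_central P hPc (z : H) hzc hzP hzo'
  -- the transfer
  haveI : (P : Subgroup H).FiniteIndex := ⟨Subgroup.index_ne_zero_of_finite⟩
  have hT := MonoidHom.transferSylow_eq_pow P hN (z : H) hzP
  have hcommP : ∀ a b : (P : Subgroup H), a * b = b * a := fun a b => Subtype.ext (hN (Subgroup.le_normalizer b.2) a a.2)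
  have hV : MonoidHom.transferSylow P hN (z : H) = 1 := by
    have hzcomm : (z : H) ∈ commutator H := by rw [hH]; exact Subgroup.mem_top _
    have hle : commutator H ≤ (MonoidHom.transferSylow P hN).ker := by
      rw [commutator_eq_closure, Subgroup.closure_le]
      rintro _ ⟨a, b, rfl⟩
      rw [SetLike.mem_coe, MonoidHom.mem_ker, map_commutatorElement, commutatorElement_eq_one_iff_mul_comm]
      exact hcommP _ _
    exact hle hzcomm
  rw [hV] at hT
  have h1 : (z : H) ^ (P : Subgroup H).index = 1 := by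
    have := congrArg Subtype.val hT
    simpa using this.symm
  have h2 : p ∣ (P : Subgroup H).index := by
    have h3 : orderOf (z : H) ∣ (P : Subgroup H).index := orderOf_dvd_of_pow_eq_one h1
    rw [hzo'] at h3
    exact h3
  exact P.not_dvd_index h2

end Cfsg.Agent.S0102
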