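import Cfsg.Statements.S0103
import Cfsg.Agent.Lib.PNilp
-- import your own Cfsg.Agent.* helpers here

set_option autoImplicit false
open Cfsg

namespace Cfsg.Agent.S0103

/-- If a Sylow p-subgroup P intersects every distinct conjugate trivially, then its normalizer controls fusion in P. -/
theorem result {G : Type*} [Group G] [Finite G] {p : ℕ} [Fact p.Prime] (P : Sylow p G) (hTI : ∀ g : G, (P : Subgroup G).map (MulAut.conj g).toMonoidHom ≠ (P : Subgroup G) → (P : Subgroup G) ⊓ (P : Subgroup G).map (MulAut.conj g).toMonoidHom = ⊥) (x y : G) (hx : x ∈ P) (hy : y ∈ P) (hc : ∃ g : G, g * x * g⁻¹ = y) : ∃ n ∈ Subgroup.normalizer (P : Set G), n * x * n⁻¹ = y := by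
  obtain ⟨g, hg⟩ := hc
  by_cases hy1 : y = 1
  · refine ⟨1, one_mem _, ?_⟩
    rw [hy1] at hg
    have hx1 : x = 1 := by
      have : g * x = g := by
        have h2 := congrArg (· * g) hg
        simpa using h2
      simpa using this
    simp [hx1, hy1]
  · refine ⟨g, ?_, hg⟩
    change g ∈ Subgroup.normalizer (((P : Subgroup G)) : Set G)
    rw [Cfsg.Agent.Lib.PNilp.mem_normalizer_iff_map']
    by_contra hne
    have h1 := hTI g hne
    apply hy1
    have hmem : y ∈ (P : Subgroup G) ⊓ (P : Subgroup G).map (MulAut.conj g).toMonoidHom := by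
      refine ⟨hy, x, hx, ?_⟩
      simpa using hg
    rw [h1] at hmem
    simpa using hmem

end Cfsg.Agent.S0103
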