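import Cfsg.Statements.S0104
import Cfsg.Agent.Lib.PNilp2
-- import your own Cfsg.Agent.* helpers here

set_option autoImplicit false
open Cfsg

namespace Cfsg.Agent.S0104

/-- A subgroup Z of a Sylow p-subgroup P that is normalized by N_G(P) is weakly closed in P exactly when it is normal in every Sylow p-subgroup containing it. -/
theorem result {G : Type*} [Group G] [Finite G] {p : ℕ} [Fact p.Prime] (P : Sylow p G) (Z : Subgroup G) (hZP : Z ≤ (P : Subgroup G)) (hZN : Subgroup.normalizer (P : Set G) ≤ Subgroup.normalizer (Z : Set G)) : Cfsg.IsWeaklyClosed Z P ↔ ∀ R : Sylow p G, Z ≤ (R : Subgroup G) → (R : Subgroup G) ≤ Subgroup.normalizer (Z : Set G) := by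
  open Cfsg.Agent.Lib.PNilp Cfsg.Agent.Lib.PNilp2 in
  have hPN : (P : Subgroup G) ≤ Subgroup.normalizer (Z : Set G) :=
    (Subgroup.le_normalizer).trans hZN
  constructor
  · intro hW R hZR
    obtain ⟨g, rfl⟩ := MulAction.exists_smul_eq G P R
    have h1 : Z.map (MulAut.conj g⁻¹).toMonoidHom ≤ P := by
      rintro _ ⟨z, hz, rfl⟩
      have := mem_smul_sylow.1 (hZR hz)
      change g⁻¹ * z * g⁻¹⁻¹ ∈ (P : Subgroup G)
      rw [inv_inv]
      exact this
    have h2 := hW.2 _ h1
    have h3 : g⁻¹ ∈ Subgroup.normalizer (Z : Set G) := mem_normalizer_iff_map'.2 h2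
    have h4 : g ∈ Subgroup.normalizer (Z : Set G) := by simpa using inv_mem h3
    intro y hy
    have hy' : g⁻¹ * y * g ∈ (P : Subgroup G) := mem_smul_sylow.1 hy
    have h5 := mul_mem (mul_mem h4 (hPN hy')) (inv_mem h4)
    have e : g * (g⁻¹ * y * g) * g⁻¹ = y := by group
    rwa [e] at h5
  · intro h
    refine ⟨hZP, fun g hg => ?_⟩
    have h1 : Z ≤ ((g⁻¹ • P : Sylow p G) : Subgroup G) := by
      intro z hz
      change z ∈ (g⁻¹ • P : Sylow p G)
      rw [mem_smul_sylow]
      have h0 : g * z * g⁻¹ ∈ (P : Subgroup G) := hg ⟨z, hz, rfl⟩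
      rw [inv_inv]
      exact h0
    have h2 := h (g⁻¹ • P) h1
    obtain ⟨u, hu, hue⟩ := exists_conj_sylow_in (g⁻¹ • P) P (Subgroup.normalizer (Z : Set G)) h2 hPN
    have h3 : u * g⁻¹ ∈ Subgroup.normalizer (P : Set G) := by
      change u * g⁻¹ ∈ Subgroup.normalizer ((P : Subgroup G) : Set G)
      rw [mem_normalizer_iff_map', map_conj_mul]
      exact hue
    have h4 := hZN h3
    have h5 : g⁻¹ ∈ Subgroup.normalizer (Z : Set G) := by
      have : g⁻¹ = u⁻¹ * (u * g⁻¹) := by group
      rw [this]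
      exact mul_mem (inv_mem hu) h4
    have h6 : g ∈ Subgroup.normalizer (Z : Set G) := by simpa using inv_mem h5
    exact mem_normalizer_iff_map'.1 h6

end Cfsg.Agent.S0104
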