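import Cfsg.Statements.S0105
import Cfsg.Agent.Lib.PNilp3
-- import your own Cfsg.Agent.* helpers here

set_option autoImplicit false
open Cfsg

namespace Cfsg.Agent.S0105

/-- With an abelian Sylow p-subgroup P, some quotient of G is isomorphic to the part of P central in N_G(P). -/
theorem result {G : Type*} [Group G] [Finite G] {p : ℕ} [Fact p.Prime] (P : Sylow p G) (hP : IsMulCommutative P) : ∃ (N : Subgroup G) (hN : N.Normal), Nonempty (G ⧸ N ≃* ((P : Subgroup G) ⊓ Subgroup.centralizer (Subgroup.normalizer (P : Set G) : Set G) : Subgroup G)) := by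
  open Cfsg.Agent.Lib.PNilp Cfsg.Agent.Lib.PNilp3 in
  have hPN : (P : Subgroup G) ≤ Subgroup.normalizer ((P : Subgroup G) : Set G) := Subgroup.le_normalizer
  let Nm : Subgroup G := Subgroup.normalizer ((P : Subgroup G) : Set G)
  let A : Subgroup Nm := (P : Subgroup G).subgroupOf Nm
  haveI hAn : A.Normal := Subgroup.normal_in_normalizer
  have hcA : IsMulCommutative A := by
    refine ⟨⟨fun x y => ?_⟩⟩
    apply Subtype.ext
    apply Subtype.ext
    have hx : (x.1.1 : G) ∈ (P : Subgroup G) := x.2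
    have hy : (y.1.1 : G) ∈ (P : Subgroup G) := y.2
    have := congrArg Subtype.val (hP.is_comm.comm ⟨_, hx⟩ ⟨_, hy⟩)
    exact this
  have hcardA : Nat.card A = Nat.card (P : Subgroup G) := Nat.card_congr (Subgroup.subgroupOfEquivOfLe hPN).toEquiv
  have hHall : Nat.Coprime (Nat.card A) A.index := by
    rw [hcardA]
    have h1 : A.index ∣ (P : Subgroup G).index := by
      have : A.index = (P : Subgroup G).relIndex Nm := rfl
      rw [this]
      exact Subgroup.relIndex_dvd_index_of_le hPN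
    exact Nat.Coprime.coprime_dvd_right h1 P.card_coprime_index
  obtain ⟨h1, h2, h3⟩ := abelian_normal_hall A hcA hHall
  have hmapA : A.map Nm.subtype = (P : Subgroup G) := by
    rw [Subgroup.map_subgroupOf_eq_of_le hPN]
  have hmapC : (⁅A, (⊤ : Subgroup Nm)⁆).map Nm.subtype = ⁅(P : Subgroup G), Nm⁆ := by
    rw [Subgroup.map_commutator, hmapA]
    congr 1
    rw [← MonoidHom.range_eq_map, Subgroup.range_subtype]
  let K : Subgroup G := Cfsg.pResidual p G
  have hKP : (P : Subgroup G) ⊓ K = ⁅(P : Subgroup G), Nm⁆ := inf_pResidual_eq_of_abelian P hP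
  have hsup : K ⊔ (P : Subgroup G) = ⊤ := by
    rw [sup_comm]
    exact sylow_sup_pResidual P
  let W : Subgroup G := (P : Subgroup G) ⊓ Subgroup.centralizer (Nm : Set G)
  have hWA : ∀ w ∈ W, ∃ hw : w ∈ Nm, (⟨w, hw⟩ : Nm) ∈ Subgroup.center Nm ⊓ A := by
    intro w hw
    refine ⟨hPN hw.1, Subgroup.mem_inf.2 ⟨?_, hw.1⟩⟩
    rw [Subgroup.mem_center_iff]
    intro n
    apply Subtype.ext
    exact (Subgroup.mem_centralizer_iff.1 hw.2) n n.2
  have hWinf : ∀ x ∈ ⁅(P : Subgroup G), Nm⁆, x ∈ W → x = 1 := by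
    intro x hx hw
    obtain ⟨hwN, hwA⟩ := hWA x hw
    rw [← hmapC] at hx
    obtain ⟨y, hy, rfl⟩ := hx
    have e : y = ⟨_, hwN⟩ := Subtype.ext rfl
    rw [← e] at hwA
    have h4 : y ∈ (commutator Nm ⊓ A) ⊓ (Subgroup.center Nm ⊓ A) := by
      rw [← h1]
      exact Subgroup.mem_inf.2 ⟨hy, hwA⟩
    rw [h2, Subgroup.mem_bot] at h4
    rw [h4]
    rfl
  have hPle : (P : Subgroup G) ≤ ⁅(P : Subgroup G), Nm⁆ ⊔ W := by
    have h8 : A.map Nm.subtype = (⁅A, (⊤ : Subgroup Nm)⁆).map Nm.subtype ⊔ (Subgroup.center Nm ⊓ A).map Nm.subtype := by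
      rw [← Subgroup.map_sup, h1, h3]
    intro x hx
    have h9 : x ∈ A.map Nm.subtype := by rw [hmapA]; exact hx
    rw [h8, hmapC] at h9
    have h10 : (Subgroup.center Nm ⊓ A).map Nm.subtype ≤ W := by
      rintro _ ⟨y, hy, rfl⟩
      refine Subgroup.mem_inf.2 ⟨hy.2, ?_⟩
      rw [Subgroup.mem_centralizer_iff]
      intro n hn
      have := (Subgroup.mem_center_iff.1 hy.1) ⟨n, hn⟩
      exact congrArg Subtype.val this
    exact (sup_le_sup_left h10 _ : _ ≤ _) h9
  have hKW : K ⊔ W = ⊤ := by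
    apply le_antisymm le_top
    rw [← hsup]
    refine sup_le le_sup_left (hPle.trans (sup_le ?_ le_sup_right))
    rw [← hKP]
    exact inf_le_right.trans le_sup_left
  refine ⟨K, inferInstance, ?_⟩
  let f : W →* G ⧸ K := (QuotientGroup.mk' K).comp W.subtype
  have hinj : Function.Injective f := by
    rw [injective_iff_map_eq_one]
    rintro ⟨w, hw⟩ hf
    have h5 : w ∈ K := by
      have : (w : G ⧸ K) = 1 := hf
      exact (QuotientGroup.eq_one_iff w).1 this
    have h6 : w ∈ ⁅(P : Subgroup G), Nm⁆ := by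
      rw [← hKP]
      exact Subgroup.mem_inf.2 ⟨hw.1, h5⟩
    exact Subtype.ext (hWinf w h6 hw)
  have hsurj : Function.Surjective f := by
    intro q
    obtain ⟨g, rfl⟩ := QuotientGroup.mk_surjective q
    have hmem : g⁻¹ ∈ ((K ⊔ W : Subgroup G) : Set G) := by
      rw [hKW]; exact Subgroup.mem_top _
    rw [Subgroup.normal_mul] at hmem
    obtain ⟨k, hk, w, hw, hkw⟩ := Set.mem_mul.1 hmem
    refine ⟨⟨w⁻¹, inv_mem hw⟩, ?_⟩
    change ((w⁻¹ : G) : G ⧸ K) = g
    rw [QuotientGroup.eq]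
    have : (w⁻¹)⁻¹ * g = k⁻¹ := by
      rw [inv_inv]
      have : w = k⁻¹ * g⁻¹ := by rw [← hkw]; group
      rw [this]; group
    rw [this]
    exact inv_mem hk
  exact ⟨(MulEquiv.ofBijective f ⟨hinj, hsurj⟩).symm⟩

end Cfsg.Agent.S0105
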