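import Cfsg.Statements.S0107
import Cfsg.Agent.Lib.PThomp
-- import your own Cfsg.Agent.* helpers here

set_option autoImplicit false
open Cfsg

namespace Cfsg.Agent.S0107

/-- A finite group with no nontrivial 2-group quotient and dihedral Sylow 2-subgroups of order at least 8 has a single class of involutions. -/
theorem result {G : Type*} [Group G] [Finite G] (T : Sylow 2 G) (n : ℕ) (hn : 2 ≤ n) (hT : Nonempty ((T : Subgroup G) ≃* DihedralGroup (2 ^ n))) (hO : Cfsg.pResidual 2 G = ⊤) (x y : G) (hx : orderOf x = 2) (hy : orderOf y = 2) : ∃ g : G, g * x * g⁻¹ = y := by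
  classical
  obtain ⟨e⟩ := hT
  haveI hnz : NeZero (2 ^ n) := ⟨by positivity⟩
  let R : Subgroup (DihedralGroup (2 ^ n)) := Subgroup.zpowers (DihedralGroup.r 1)
  have hRcard : Nat.card R = 2 ^ n := by
    rw [Nat.card_zpowers, DihedralGroup.orderOf_r_one]
  have hDcard : Nat.card (DihedralGroup (2 ^ n)) = 2 * 2 ^ n := DihedralGroup.nat_card
  have hRi : R.index = 2 := by
    have := R.card_mul_index
    rw [hRcard, hDcard, mul_comm 2] at this
    exact Nat.eq_of_mul_eq_mul_left (by positivity) this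
  have hRs : ∀ i : ZMod (2 ^ n), DihedralGroup.sr i ∉ R := by
    rintro i ⟨k, hk⟩
    simp only [DihedralGroup.r_one_zpow] at hk
    cases hk
  have hRr : ∀ a ∈ R, ∃ i : ZMod (2 ^ n), a = DihedralGroup.r i := by
    rintro a ⟨k, rfl⟩
    exact ⟨_, DihedralGroup.r_one_zpow k⟩
  let Q₀ : Subgroup (T : Subgroup G) := R.comap e.toMonoidHom
  have hQ₀i : Q₀.index = 2 := by
    rw [Subgroup.index_comap_of_surjective _ e.surjective]; exact hRi
  let Q : Subgroup G := Q₀.map (T : Subgroup G).subtype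
  have hQsub : Q.subgroupOf (T : Subgroup G) = Q₀ := by
    apply Subgroup.comap_map_eq_self_of_injective
    exact Subtype.val_injective
  have hQi : Q.relIndex (T : Subgroup G) = 2 := by
    change (Q.subgroupOf (T : Subgroup G)).index = 2
    rw [hQsub, hQ₀i]
  -- no normal subgroup of index 2
  have hnoM : ∀ M : Subgroup G, M.Normal → M.index ≠ 2 := by
    intro M hM hi
    haveI := hM
    have h1 : IsPGroup 2 (G ⧸ M) := by
      apply IsPGroup.of_card (n := 1)
      rw [pow_one, ← Subgroup.index_eq_card, hi]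
    have h2 := Cfsg.Agent.Lib.PNilp.pResidual_le_of_isPGroup_quotient M h1
    rw [hO, top_le_iff] at h2
    rw [h2, Subgroup.index_top] at hi
    omega
  -- the central involution
  obtain ⟨m, rfl⟩ : ∃ m, n = m + 1 := ⟨n - 1, by omega⟩
  let i₀ : ZMod (2 ^ (m + 1)) := ((2 ^ m : ℕ) : ZMod (2 ^ (m + 1)))
  let z : (T : Subgroup G) := e.symm (DihedralGroup.r i₀)
  have hrinv : ∀ i : ZMod (2 ^ (m + 1)), orderOf (DihedralGroup.r i) = 2 → i = i₀ := by
    intro i hi
    have h1 := pow_orderOf_eq_one (DihedralGroup.r i)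
    rw [hi, DihedralGroup.r_pow, DihedralGroup.one_def] at h1
    have h2 : i * ((2 : ℕ) : ZMod (2 ^ (m + 1))) = 0 := DihedralGroup.r.inj h1
    have hi0 : i ≠ 0 := by
      rintro rfl
      rw [DihedralGroup.r_zero, orderOf_one] at hi
      omega
    have h3 : ((i.val * 2 : ℕ) : ZMod (2 ^ (m + 1))) = 0 := by
      rw [Nat.cast_mul, ZMod.natCast_zmod_val]; exact h2
    rw [ZMod.natCast_eq_zero_iff] at h3
    have h4 : 2 ^ m ∣ i.val := by
      have h3' : 2 ^ m * 2 ∣ i.val * 2 := by
        have h5 : 2 ^ m * 2 = 2 ^ (m + 1) := (pow_succ 2 m).symm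
        rw [h5]; exact h3
      exact Nat.dvd_of_mul_dvd_mul_right (by omega) h3'
    obtain ⟨c, hc⟩ := h4
    have hlt : i.val < 2 ^ (m + 1) := ZMod.val_lt i
    have hc2 : c < 2 := by
      have h5 : 2 ^ (m + 1) = 2 ^ m * 2 := pow_succ 2 m
      have hlt' : 2 ^ m * c < 2 ^ m * 2 := by rw [← hc, ← h5]; exact hlt
      exact Nat.lt_of_mul_lt_mul_left hlt'
    interval_cases c
    · apply absurd _ hi0
      have : i.val = 0 := by simpa using hc
      exact (ZMod.val_eq_zero i).1 this
    · change i = ((2 ^ m : ℕ) : ZMod (2 ^ (m + 1)))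
      rw [← ZMod.natCast_zmod_val i, hc, mul_one]
  have hmain : ∀ t : (T : Subgroup G), orderOf t = 2 → ∃ g : G, g * (t : G) * g⁻¹ = (z : G) := by
    intro t ht
    have het : orderOf (e t) = 2 := by rw [MulEquiv.orderOf_eq]; exact ht
    have hrot : ∀ s : (T : Subgroup G), orderOf s = 2 → s ∈ Q₀ → s = z := by
      intro s hs hsQ
      obtain ⟨i, hi⟩ := hRr _ hsQ
      have hi' : e s = DihedralGroup.r i := hi
      have hes : orderOf (DihedralGroup.r i) = 2 := by
        rw [← hi', MulEquiv.orderOf_eq]; exact hs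
      rw [hrinv i hes] at hi'
      change s = e.symm (DihedralGroup.r i₀)
      rw [← hi', MulEquiv.symm_apply_apply]
    by_cases htQ : t ∈ Q₀
    · exact ⟨1, by simp [hrot t ht htQ]⟩
    · have htQ' : (t : G) ∉ Q := by
        rintro ⟨s, hs, hse⟩
        have : s = t := Subtype.ext hse
        exact htQ (this ▸ hs)
      have hord : orderOf (t : G) = 2 := by rw [Subgroup.orderOf_coe]; exact ht
      obtain ⟨M, hM, hMi, -⟩ | ⟨g, hg⟩ := Cfsg.Agent.Lib.PThomp.thompson_transfer T Q hQi (t : G) hord t.2 htQ'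
      · exact absurd hMi (hnoM M hM)
      · obtain ⟨s, hs, hse⟩ := hg
        refine ⟨g, ?_⟩
        have hse' : (s : G) = g * (t : G) * g⁻¹ := hse
        have hos : orderOf s = 2 := by
          rw [← Subgroup.orderOf_coe, hse', Cfsg.Agent.Lib.PNilp.orderOf_conj']
          exact hord
        rw [← hse', hrot s hos hs]
  have hconj : ∀ x : G, orderOf x = 2 → ∃ g : G, g * x * g⁻¹ = (z : G) := by
    intro x hx
    have hx2 : x ^ 2 ^ 1 = 1 := by
      rw [pow_one]
      have := pow_orderOf_eq_one x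
      rwa [hx] at this
    obtain ⟨a, ha⟩ := Cfsg.Agent.Lib.PNilp.exists_conj_mem_sylow T x ⟨1, hx2⟩
    have hord : orderOf (⟨a * x * a⁻¹, ha⟩ : (T : Subgroup G)) = 2 := by
      rw [← Subgroup.orderOf_coe]
      change orderOf (a * x * a⁻¹) = 2
      rw [Cfsg.Agent.Lib.PNilp.orderOf_conj']; exact hx
    obtain ⟨b, hb⟩ := hmain _ hord
    refine ⟨b * a, ?_⟩
    rw [← hb]
    simp only [mul_inv_rev]
    group
  obtain ⟨a, ha⟩ := hconj x hx
  obtain ⟨b, hb⟩ := hconj y hy
  refine ⟨b⁻¹ * a, ?_⟩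
  have : b⁻¹ * a * x * (b⁻¹ * a)⁻¹ = b⁻¹ * (a * x * a⁻¹) * b := by group
  rw [this, ha, ← hb]
  group

end Cfsg.Agent.S0107
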