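import Cfsg.Statements.S0136
import Cfsg.Agent.Lib.CharOrth

set_option autoImplicit false
open Cfsg

namespace Cfsg.Agent.S0136

/-- Two elements of a finite group are conjugate if and only if no irreducible complex character separates them. -/
theorem result {G : Type*} [Group G] [Finite G] (g h : G) : IsConj g h ↔ ∀ χ : Cfsg.IrrCharacter G, (χ : G → ℂ) g = (χ : G → ℂ) h := by
  have := Fintype.ofFinite G
  exact Cfsg.Agent.Lib.CharOrth.isConj_iff_forall_irr g h

end Cfsg.Agent.S0136
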