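import Cfsg.Statements.S0143
import Cfsg.Agent.Lib.CharGal

set_option autoImplicit false
open Cfsg

namespace Cfsg.Agent.S0143

/-- If a finite simple group has a non-identity element whose conjugacy class has prime-power size, then the group has prime order. -/
theorem result {G : Type*} [Group G] [Finite G] [IsSimpleGroup G] (p k : ℕ) (hp : p.Prime) (g : G) (hg : g ≠ 1) (hclass : (Subgroup.centralizer ({g} : Set G)).index = p ^ k) : (Nat.card G).Prime := by
  have := Fintype.ofFinite G
  exact Cfsg.Agent.Lib.CharGal.prime_card_of_prime_power_class p k hp g hg hclass

end Cfsg.Agent.S0143
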