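import Cfsg.Statements.S0165
import Cfsg.Agent.Lib.CharBrauer3

set_option autoImplicit false
open Cfsg

namespace Cfsg.Agent.S0165

/-- If p ^ n is the exact power of the prime p dividing the order of a finite group and p ^ n divides the degree of an irreducible complex representation, then its character vanishes at every element of order divisible by p. -/
theorem result {G : Type*} [Group G] [Finite G] {V : Type*} [AddCommGroup V] [Module ℂ V] [FiniteDimensional ℂ V] (ρ : Representation ℂ G V) [ρ.IsIrreducible] (p n : ℕ) (hp : p.Prime) (hn : p ^ n ∣ Nat.card G) (hn' : ¬ p ^ (n + 1) ∣ Nat.card G) (hdeg : p ^ n ∣ Module.finrank ℂ V) (x : G) (hx : p ∣ orderOf x) : ρ.character x = 0 := by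
  classical
  have := Fintype.ofFinite G
  haveI hV : Nontrivial V := ((Cfsg.Agent.Lib.CharBasic.isIrreducible_iff ρ).mp inferInstance).1
  obtain ⟨n', hn'2⟩ := hn
  have hpn : ¬ p ∣ n' := by
    intro h
    obtain ⟨k, rfl⟩ := h
    apply hn'
    rw [hn'2, pow_succ]
    exact ⟨k, by ring⟩
  have hcop : (p ^ n).Coprime n' := Nat.Coprime.pow_left n ((Nat.Prime.coprime_iff_not_dvd hp).mpr hpn)
  obtain ⟨d, hd⟩ := hdeg
  have hχ := Cfsg.Agent.Lib.CharBasic.isIrrCharacter_character ρ inferInstance
  apply Cfsg.Agent.Lib.CharBrauer3.vanish_of_defect_zero hχ p (p ^ n) n' d hp hn'2 hcop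
  · rw [Representation.char_one, hd]
  · intro h
    have h2 : orderOf x ∣ n' := orderOf_dvd_of_pow_eq_one h
    exact hpn (dvd_trans hx h2)

end Cfsg.Agent.S0165
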