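import Cfsg.Statements.S0200
import Mathlib
import Cfsg.Agent.Lib.BaerSuzuki
import Cfsg.Agent.Lib.Invol

set_option autoImplicit false
open Cfsg

namespace Cfsg.Agent.S0200

open Cfsg.Agent.Lib.Invol

/-- An involution lying in no normal 2-subgroup of a finite group inverts a nontrivial element of odd order (a consequence of the Baer–Suzuki Theorem). -/
theorem result {G : Type*} [Group G] [Finite G] (t : G) (ht : orderOf t = 2) (hO : ∀ N : Subgroup G, N.Normal → IsPGroup 2 N → t ∉ N) : ∃ h : G, h ≠ 1 ∧ Odd (orderOf h) ∧ t * h * t⁻¹ = h⁻¹ := by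
  classical
  haveI : Fact (Nat.Prime 2) := ⟨Nat.prime_two⟩
  have ht2 : t * t = 1 := mul_self_eq_one ht
  have hcase : ∃ g : G, ¬ IsPGroup 2 ↥(Subgroup.zpowers t ⊔ (Subgroup.zpowers t).map (MulAut.conj g).toMonoidHom) := by
    by_contra hcon
    push Not at hcon
    have hX : IsPGroup 2 (Subgroup.zpowers t) := by
      apply IsPGroup.of_card (n := 1)
      rw [Nat.card_zpowers, ht, pow_one]
    obtain ⟨N, hNn, hNp, hXN⟩ := Cfsg.Agent.Lib.BaerSuzuki.baer_suzuki _ hX hcon
    exact hO N hNn hNp (hXN (Subgroup.mem_zpowers t))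
  obtain ⟨g, hg⟩ := hcase
  set u := g * t * g⁻¹ with hu
  have hu2 : orderOf u = 2 := by rw [hu, orderOf_conj', ht]
  have hcl : Subgroup.zpowers t ⊔ (Subgroup.zpowers t).map (MulAut.conj g).toMonoidHom ≤ Subgroup.closure ({t, u} : Set G) := by
    apply sup_le
    · rw [Subgroup.zpowers_le]; exact mem_closure_left
    · rw [Subgroup.map_le_iff_le_comap, Subgroup.zpowers_le]
      exact mem_closure_right
  set h := t * u with hh
  have hnot : ¬ ∃ a : ℕ, h ^ (2 ^ a) = 1 := by
    rintro ⟨a, ha⟩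
    apply hg
    apply IsPGroup.to_le _ hcl
    intro d
    obtain ⟨k, hk | hk⟩ := mem_closure_cases ht hu2 d.2
    · refine ⟨a, Subtype.ext ?_⟩
      simp only [SubmonoidClass.coe_pow, OneMemClass.coe_one]
      rw [hk, ← zpow_natCast, ← zpow_mul, mul_comm, zpow_mul, zpow_natCast, ha, one_zpow]
    · refine ⟨1, Subtype.ext ?_⟩
      simp only [SubmonoidClass.coe_pow, OneMemClass.coe_one, pow_one]
      rw [hk]
      exact sq_x_zpow ht hu2 k
  have hord : orderOf h ≠ 0 := (orderOf_pos h).ne'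
  obtain ⟨a, b, hb, hab⟩ := Nat.exists_eq_two_pow_mul_odd hord
  have hb1 : b ≠ 1 := by
    rintro rfl
    apply hnot
    refine ⟨a, ?_⟩
    rw [mul_one] at hab
    rw [← hab]
    exact pow_orderOf_eq_one h
  have hdvd : b ∣ orderOf h := ⟨2 ^ a, by rw [hab, mul_comm]⟩
  set w := h ^ (orderOf h / b) with hw
  have hwo : orderOf w = b := orderOf_pow_orderOf_div hord hdvd
  refine ⟨w, ?_, ?_, ?_⟩
  · rintro h1
    rw [h1, orderOf_one] at hwo
    exact hb1 hwo.symm
  · rw [hwo]; exact hb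
  · have h1 : t * h * t⁻¹ = h⁻¹ := conj_mul_inv ht hu2
    rw [hw, ← conj_pow, h1, inv_pow]

end Cfsg.Agent.S0200
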