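import Cfsg.Statements.S0202
import Mathlib
import Cfsg.Agent.Lib.KleinSylow

set_option autoImplicit false
open Cfsg

namespace Cfsg.Agent.S0202

open Cfsg.Agent.Lib.KleinSylow

/-- If a Sylow 2-subgroup of a finite group is a Klein four-group, the group has one or three conjugacy classes of involutions. -/
theorem result {G : Type*} [Group G] [Finite G] (P : Sylow 2 G) (hP : IsKleinFour (P : Subgroup G)) : Nat.card {C : ConjClasses G // ∃ t : G, orderOf t = 2 ∧ ConjClasses.mk t = C} = 1 ∨ Nat.card {C : ConjClasses G // ∃ t : G, orderOf t = 2 ∧ ConjClasses.mk t = C} = 3 := by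
  obtain ⟨a, b, c, ha, hb, hc, ha1, hb1, hc1, hab, hac, hbc, hall, hsq⟩ := klein_elements (P : Subgroup G) hP
  have hcomm : ∀ x ∈ (P : Subgroup G), ∀ y ∈ (P : Subgroup G), x * y = y * x := by
    intro x hx y hy
    have h1 := hsq _ ((P : Subgroup G).mul_mem hx hy)
    have h2 := hsq x hx
    have h3 := hsq y hy
    calc x * y = x * y * (y * x) * (y * x) := by
          have : y * x * (y * x) = 1 := hsq _ ((P : Subgroup G).mul_mem hy hx)
          rw [mul_assoc (x * y), this, mul_one]
      _ = y * x := by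
          have : x * y * (y * x) = 1 := by
            calc x * y * (y * x) = x * (y * y) * x := by group
              _ = 1 := by rw [h3, mul_one, h2]
          rw [this, one_mul]
  have oa := orderOf_two_of_sq (hsq a ha) ha1
  have ob := orderOf_two_of_sq (hsq b hb) hb1
  have oc := orderOf_two_of_sq (hsq c hc) hc1
  have hcov := cover P hall
  have hall' : ∀ {u v w : G}, (u = a ∧ v = b ∧ w = c) ∨ (u = a ∧ v = c ∧ w = b) ∨ (u = b ∧ v = c ∧ w = a) →
      ∀ x ∈ (P : Subgroup G), x = 1 ∨ x = u ∨ x = v ∨ x = w := by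
    rintro u v w (⟨rfl, rfl, rfl⟩ | ⟨rfl, rfl, rfl⟩ | ⟨rfl, rfl, rfl⟩) x hx
    · exact hall x hx
    · rcases hall x hx with h | h | h | h
      · exact Or.inl h
      · exact Or.inr (Or.inl h)
      · exact Or.inr (Or.inr (Or.inr h))
      · exact Or.inr (Or.inr (Or.inl h))
    · rcases hall x hx with h | h | h | h
      · exact Or.inl h
      · exact Or.inr (Or.inr (Or.inr h))
      · exact Or.inr (Or.inl h)
      · exact Or.inr (Or.inr (Or.inl h))
  by_cases h1 : IsConj a b
  · left
    exact card_one oa hcov h1 (conj_third P hcomm ha hb hab ha1 hall h1 hb1)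
  by_cases h2 : IsConj a c
  · left
    have h3 := conj_third P hcomm ha hc hac ha1 (hall' (Or.inr (Or.inl ⟨rfl, rfl, rfl⟩))) h2 hc1
    exact card_one oa hcov (h2.trans h3) h3.symm
  by_cases h3 : IsConj b c
  · left
    have h4 := conj_third P hcomm hb hc hbc hb1 (hall' (Or.inr (Or.inr ⟨rfl, rfl, rfl⟩))) h3 hc1
    exact card_one oa hcov (h3.trans h4).symm h3
  · right
    exact card_three oa ob oc hcov h1 h2 h3

end Cfsg.Agent.S0202
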