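import Cfsg.Statements.S0203
import Mathlib
import Cfsg.Agent.Lib.KleinSylow

set_option autoImplicit false
open Cfsg

namespace Cfsg.Agent.S0203

open Cfsg.Agent.Lib.KleinSylow

/-- If a Sylow 2-subgroup P of a finite group G is a Klein four-group, then G has three classes of involutions if and only if P has a normal complement in G. -/
theorem result {G : Type*} [Group G] [Finite G] (P : Sylow 2 G) (hP : IsKleinFour (P : Subgroup G)) : Nat.card {C : ConjClasses G // ∃ t : G, orderOf t = 2 ∧ ConjClasses.mk t = C} = 3 ↔ ∃ N : Subgroup G, N.Normal ∧ Subgroup.IsComplement' N (P : Subgroup G) := by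
  obtain ⟨a, b, c, ha, hb, hc, ha1, hb1, hc1, hab, hac, hbc, hall, hsq⟩ := klein_elements (P : Subgroup G) hP
  have hcomm : ∀ x ∈ (P : Subgroup G), ∀ y ∈ (P : Subgroup G), x * y = y * x := by
    intro x hx y hy
    have h1 := hsq _ ((P : Subgroup G).mul_mem hx hy)
    have h2 := hsq x hx
    have h3 := hsq y hy
    calc x * y = x * y * (y * x) * (y * x) := by
          have : y * x * (y * x) = 1 := hsq _ ((P : Subgroup G).mul_mem hy hx)
          rw [mul_assoc (x * y), this, mul_one]
      _ = y * x := by
          have : x * y * (y * x) = 1 := by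
            calc x * y * (y * x) = x * (y * y) * x := by group
              _ = 1 := by rw [h3, mul_one, h2]
          rw [this, one_mul]
  have oa := orderOf_two_of_sq (hsq a ha) ha1
  have ob := orderOf_two_of_sq (hsq b hb) hb1
  have oc := orderOf_two_of_sq (hsq c hc) hc1
  have hcov := cover P hall
  have hall' : ∀ {u v w : G}, (u = a ∧ v = b ∧ w = c) ∨ (u = a ∧ v = c ∧ w = b) ∨ (u = b ∧ v = c ∧ w = a) →
      ∀ x ∈ (P : Subgroup G), x = 1 ∨ x = u ∨ x = v ∨ x = w := by
    rintro u v w (⟨rfl, rfl, rfl⟩ | ⟨rfl, rfl, rfl⟩ | ⟨rfl, rfl, rfl⟩) x hx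
    · exact hall x hx
    · rcases hall x hx with h | h | h | h
      · exact Or.inl h
      · exact Or.inr (Or.inl h)
      · exact Or.inr (Or.inr (Or.inr h))
      · exact Or.inr (Or.inr (Or.inl h))
    · rcases hall x hx with h | h | h | h
      · exact Or.inl h
      · exact Or.inr (Or.inr (Or.inr h))
      · exact Or.inr (Or.inl h)
      · exact Or.inr (Or.inr (Or.inl h))
  constructor
  · intro h3c
    -- pairwise non conjugate
    have hone : ∀ (hh : Nat.card {C : ConjClasses G // ∃ t : G, orderOf t = 2 ∧ ConjClasses.mk t = C} = 1), False := by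
      intro hh; omega
    have h1 : ¬ IsConj a b := fun h1 => hone (card_one oa hcov h1 (conj_third P hcomm ha hb hab ha1 hall h1 hb1))
    have h2 : ¬ IsConj a c := fun h2 => by
      have h3 := conj_third P hcomm ha hc hac ha1 (hall' (Or.inr (Or.inl ⟨rfl, rfl, rfl⟩))) h2 hc1
      exact hone (card_one oa hcov (h2.trans h3) h3.symm)
    have h3 : ¬ IsConj b c := fun h3 => by
      have h4 := conj_third P hcomm hb hc hbc hb1 (hall' (Or.inr (Or.inr ⟨rfl, rfl, rfl⟩))) h3 hc1
      exact hone (card_one oa hcov (h3.trans h4).symm h3)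
    -- normalizer = centralizer
    have hN : Subgroup.normalizer (P : Set G) ≤ Subgroup.centralizer (P : Set G) := by
      intro y hy
      have hy' : y ∈ Subgroup.normalizer ((P : Subgroup G) : Set G) := hy
      refine Subgroup.mem_centralizer_iff.mpr ?_
      intro x hx
      have hx' : x ∈ (P : Subgroup G) := hx
      have hyx : y * x * y⁻¹ ∈ (P : Subgroup G) := (Subgroup.mem_normalizer_iff.mp hy' x).mp hx'
      have hconj : IsConj x (y * x * y⁻¹) := isConj_iff.mpr ⟨y, rfl⟩
      have key : y * x * y⁻¹ = x := by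
        rcases hall x hx' with rfl | rfl | rfl | rfl
        · simp
        · rcases hall _ hyx with h | h | h | h
          · exact absurd (by rw [h] at hconj; exact isConj_one_right.mp hconj.symm) ha1
          · exact h
          · exact absurd (h ▸ hconj) h1
          · exact absurd (h ▸ hconj) h2
        · rcases hall _ hyx with h | h | h | h
          · exact absurd (by rw [h] at hconj; exact isConj_one_right.mp hconj.symm) hb1
          · exact absurd (h ▸ hconj).symm h1
          · exact h
          · exact absurd (h ▸ hconj) h3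
        · rcases hall _ hyx with h | h | h | h
          · exact absurd (by rw [h] at hconj; exact isConj_one_right.mp hconj.symm) hc1
          · exact absurd (h ▸ hconj).symm h2
          · exact absurd (h ▸ hconj).symm h3
          · exact h
      calc x * y = y * x * y⁻¹ * y := by rw [key]
        _ = y * x := by group
    exact ⟨_, inferInstance, MonoidHom.ker_transferSylow_isComplement' P hN⟩
  · rintro ⟨N, hNn, hcomp⟩
    have hnc : ∀ {u v : G}, u ∈ (P : Subgroup G) → v ∈ (P : Subgroup G) → IsConj u v → u = v := by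
      intro u v hu hv hconj
      obtain ⟨g, rfl⟩ := isConj_iff.mp hconj
      have hg : g ∈ (P : Subgroup G) ⊔ N := by
        rw [sup_comm, hcomp.sup_eq_top]; trivial
      obtain ⟨p, hp, n, hn, rfl⟩ := Subgroup.mem_sup_of_normal_right.mp hg
      have hcn : n * u * n⁻¹ * u⁻¹ ∈ N := by
        have h1 := hNn.conj_mem n⁻¹ (N.inv_mem hn) u
        have h2 := N.mul_mem hn h1
        have e : n * (u * n⁻¹ * u⁻¹) = n * u * n⁻¹ * u⁻¹ := by group
        rwa [e] at h2
      have h3 : (p * n) * u * (p * n)⁻¹ * u⁻¹ ∈ N := by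
        have e : (p * n) * u * (p * n)⁻¹ * u⁻¹ = p * (n * u * n⁻¹ * u⁻¹) * p⁻¹ * (p * u * p⁻¹ * u⁻¹) := by group
        have e2 : p * u * p⁻¹ * u⁻¹ = 1 := by
          rw [hcomm p hp u hu]; group
        rw [e, e2, mul_one]
        exact hNn.conj_mem _ hcn p
      have h4 : (p * n) * u * (p * n)⁻¹ * u⁻¹ ∈ (P : Subgroup G) :=
        (P : Subgroup G).mul_mem hv ((P : Subgroup G).inv_mem hu)
      have h5 : (p * n) * u * (p * n)⁻¹ * u⁻¹ = 1 := by
        have hd := hcomp.disjoint
        exact Subgroup.disjoint_def.mp hd h3 h4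
      exact (mul_inv_eq_one.mp h5).symm
    exact card_three oa ob oc hcov (fun h => hab (hnc ha hb h)) (fun h => hac (hnc ha hc h)) (fun h => hbc (hnc hb hc h))

end Cfsg.Agent.S0203
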