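import Cfsg.Statements.S0206
import Mathlib
import Cfsg.Agent.Lib.Invol

set_option autoImplicit false
open Cfsg

namespace Cfsg.Agent.S0206

open Cfsg.Agent.Lib.Invol

variable {G : Type*} [Group G] [Finite G]

/-- the powers map on `ZMod` -/
lemma pow_val_add {a : G} (i j : ZMod (orderOf a)) :
    a ^ (i + j).val = a ^ i.val * a ^ j.val := by
  have : NeZero (orderOf a) := ⟨(orderOf_pos a).ne'⟩
  rw [ZMod.val_add, ← pow_add, pow_mod_orderOf]

lemma pow_val_neg {a : G} (i : ZMod (orderOf a)) :
    a ^ (-i).val = (a ^ i.val)⁻¹ := by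
  have : NeZero (orderOf a) := ⟨(orderOf_pos a).ne'⟩
  rw [eq_inv_iff_mul_eq_one, ← pow_val_add]
  simp

lemma pow_val_sub {a : G} (i j : ZMod (orderOf a)) :
    a ^ (i - j).val = a ^ i.val * (a ^ j.val)⁻¹ := by
  rw [sub_eq_add_neg, pow_val_add, pow_val_neg]

/-- The homomorphism from the dihedral group. -/
noncomputable def dihedralHom {x y : G} (hx : orderOf x = 2) (hy : orderOf y = 2) :
    DihedralGroup (orderOf (x * y)) →* G :=
  MonoidHom.mk' (fun d => match d with
    | DihedralGroup.r i => (x * y) ^ i.val
    | DihedralGroup.sr i => x * (x * y) ^ i.val) (by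
    have hc : ∀ k : ℕ, (x * y) ^ k * x = x * ((x * y) ^ k)⁻¹ := by
      intro k
      have := zpow_mul_comm hx hy (k : ℤ)
      rwa [zpow_natCast, zpow_neg, zpow_natCast] at this
    rintro (i | i) (j | j)
    · show (x * y) ^ (i + j).val = _
      rw [pow_val_add]
    · show x * (x * y) ^ (j - i).val = (x * y) ^ i.val * (x * (x * y) ^ j.val)
      rw [pow_val_sub, ← mul_assoc ((x * y) ^ i.val) x, hc, mul_assoc x,
        ((Commute.refl (x * y)).pow_pow _ _).inv_right.eq]
    · show x * (x * y) ^ (i + j).val = x * (x * y) ^ i.val * (x * y) ^ j.val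
      rw [pow_val_add, mul_assoc]
    · show (x * y) ^ (j - i).val = x * (x * y) ^ i.val * (x * (x * y) ^ j.val)
      rw [pow_val_sub]
      have e : x * (x * y) ^ i.val * (x * (x * y) ^ j.val) =
          x * ((x * y) ^ i.val * x) * (x * y) ^ j.val := by simp only [mul_assoc]
      rw [e, hc, ← mul_assoc, mul_self_eq_one hx, one_mul,
        ((Commute.refl (x * y)).pow_pow _ _).inv_left.eq])

lemma dihedralHom_r {x y : G} (hx : orderOf x = 2) (hy : orderOf y = 2) (i : ZMod (orderOf (x * y))) :
    dihedralHom hx hy (DihedralGroup.r i) = (x * y) ^ i.val := rfl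

lemma dihedralHom_sr {x y : G} (hx : orderOf x = 2) (hy : orderOf y = 2) (i : ZMod (orderOf (x * y))) :
    dihedralHom hx hy (DihedralGroup.sr i) = x * (x * y) ^ i.val := rfl

/-- Two distinct involutions x, y of a finite group generate a subgroup isomorphic to the dihedral group of order 2·|xy|. -/
theorem result {G : Type*} [Group G] [Finite G] (x y : G) (hx : orderOf x = 2) (hy : orderOf y = 2) (hxy : x ≠ y) : Nonempty (↥(Subgroup.closure ({x, y} : Set G)) ≃* DihedralGroup (orderOf (x * y))) := by
  classical
  have hpos : 0 < orderOf (x * y) := orderOf_pos _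
  have hnz : NeZero (orderOf (x * y)) := ⟨hpos.ne'⟩
  have ha1 : x * y ≠ 1 := by
    intro h
    apply hxy
    have := eq_inv_of_mul_eq_one_left h
    rwa [inv_eq_self hy] at this
  have hn1 : 1 < orderOf (x * y) := by
    rcases Nat.lt_or_ge 1 (orderOf (x * y)) with h | h
    · exact h
    · exfalso
      have : orderOf (x * y) = 1 := by omega
      exact ha1 (orderOf_eq_one_iff.mp this)
  -- x is not a power of a
  have hxnot : ∀ k : ℕ, x * (x * y) ^ k ≠ 1 := by
    intro k h
    have h1 : x = ((x * y) ^ k)⁻¹ := eq_inv_of_mul_eq_one_left h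
    have h2' : Commute (((x * y) ^ k)⁻¹) (x * y) := ((Commute.refl (x * y)).pow_left k).inv_left
    have h2 : Commute x (x * y) := by rwa [← h1] at h2'
    have h3 := conj_mul_inv hx hy
    have h4 : x * (x * y) * x⁻¹ = x * y := by rw [h2.eq]; simp
    rw [h4] at h3
    have h5 : (x * y) ^ 2 = 1 := by
      rw [pow_two]; nth_rewrite 2 [h3]; simp
    have h6 : orderOf (x * y) = 2 := orderOf_eq_prime h5 ha1
    -- k even or odd
    have h7 : (x * y) ^ k = 1 ∨ (x * y) ^ k = x * y := by
      rw [← pow_mod_orderOf, h6]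
      have : k % 2 = 0 ∨ k % 2 = 1 := by omega
      rcases this with h8 | h8 <;> simp [h8]
    rcases h7 with h7 | h7
    · rw [h7] at h
      exact ne_one_of_two hx (by simpa using h)
    · rw [h7] at h
      have := left_cancel_pair (v := y) hx
      rw [h] at this
      exact ne_one_of_two hy this.symm
  have hinj : Function.Injective (dihedralHom hx hy) := by
    rw [injective_iff_map_eq_one]
    rintro (i | i) h
    · rw [dihedralHom_r] at h
      have h1 : i.val = 0 := by
        by_contra h0
        have h2 := Nat.pos_of_ne_zero h0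
        have h3 := orderOf_le_of_pow_eq_one h2 h
        have h4 := ZMod.val_lt i
        omega
      have : i = 0 := (ZMod.val_eq_zero i).mp h1
      rw [this]; rfl
    · rw [dihedralHom_sr] at h
      exact absurd h (hxnot _)
  have hrange : (dihedralHom hx hy).range = Subgroup.closure ({x, y} : Set G) := by
    apply le_antisymm
    · rintro _ ⟨(i | i), rfl⟩
      · rw [dihedralHom_r, ← zpow_natCast]; exact zpow_mem_closure _
      · rw [dihedralHom_sr, ← zpow_natCast]; exact x_zpow_mem_closure _
    · rw [Subgroup.closure_le]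
      rintro z (rfl | hz)
      · refine ⟨DihedralGroup.sr 0, ?_⟩
        rw [dihedralHom_sr]; simp
      · rw [Set.mem_singleton_iff] at hz
        subst hz
        refine ⟨DihedralGroup.sr 1, ?_⟩
        rw [dihedralHom_sr]
        have : Fact (1 < orderOf (x * z)) := ⟨hn1⟩
        rw [ZMod.val_one, pow_one]
        exact (y_eq hx).symm
  have e1 := MonoidHom.ofInjective hinj
  exact ⟨(MulEquiv.subgroupCongr hrange.symm).trans e1.symm⟩

end Cfsg.Agent.S0206
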