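import Cfsg.Statements.S0212
import Mathlib
import Cfsg.Agent.Lib.BrauerFowler

set_option autoImplicit false
open Cfsg

namespace Cfsg.Agent.S0212

open Cfsg.Agent.Lib.BrauerFowler

/-- The Brauer–Fowler bound: if G is a finite simple group and t an involution of G whose centralizer has order n, then |G| ≤ (2n^2)!. -/
theorem result {G : Type*} [Group G] [Finite G] [IsSimpleGroup G] (t : G) (ht : orderOf t = 2) : Nat.card G ≤ Nat.factorial (2 * (Nat.card (Subgroup.centralizer ({t} : Set G))) ^ 2) := by
  classical
  set c := Nat.card (Subgroup.centralizer ({t} : Set G)) with hc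
  have hcpos : 0 < c := Nat.card_pos
  by_cases hcen : Subgroup.centralizer ({t} : Set G) = ⊤
  · have h1 : Nat.card G = c := by rw [hc, hcen, Subgroup.card_top]
    rw [h1]
    calc c ≤ 2 * c ^ 2 := by nlinarith
      _ ≤ _ := Nat.self_le_factorial _
  have hZle : Subgroup.center G ≤ Subgroup.centralizer ({t} : Set G) := by
    intro z hz
    exact Subgroup.mem_centralizer_singleton_iff.mpr (Subgroup.mem_center_iff.mp hz t).symm
  have hZ : Subgroup.center G = ⊥ := by
    refine (IsSimpleGroup.eq_bot_or_eq_top_of_normal _ inferInstance).resolve_right ?_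
    intro h
    rw [h, top_le_iff] at hZle
    exact hcen hZle
  have hodd : Odd (Nat.card (Subgroup.center G)) := by
    rw [hZ, Subgroup.card_bot]; exact odd_one
  have heven : Even (Nat.card G) := by
    apply even_iff_two_dvd.mpr
    rw [← ht]
    exact orderOf_dvd_natCard t
  obtain ⟨H, hH, hcase⟩ := brauer_fowler heven hodd
  have h1 := card_le_factorial_index H hH
  refine h1.trans (Nat.factorial_le ?_)
  rcases hcase with h2 | h2
  · rw [h2]
    nlinarith
  · set n := Nat.card {t : G // orderOf t = 2} with hn
    have hnG : n ≤ Nat.card G := Nat.card_le_card_of_injective Subtype.val Subtype.val_injective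
    have hle := card_le_mul_centralizer t ht
    rw [← hc, ← hn] at hle
    have hnpos : 0 < n := by
      by_contra h0
      have : n = 0 := by omega
      rw [this] at hle
      have : 0 < Nat.card G := Nat.card_pos
      omega
    have h3 : Nat.card G * (Nat.card G + n) ≤ 2 * (c * n) ^ 2 := by
      have h4 : Nat.card G + n ≤ 2 * (c * n) := by
        have : n ≤ c * n := Nat.le_mul_of_pos_left n hcpos
        omega
      calc Nat.card G * (Nat.card G + n) ≤ (c * n) * (2 * (c * n)) := Nat.mul_le_mul hle h4
        _ = 2 * (c * n) ^ 2 := by ring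
    have h5 : 2 * H.index * n ^ 2 < 2 * c ^ 2 * n ^ 2 := by
      calc 2 * H.index * n ^ 2 < Nat.card G * (Nat.card G + n) := h2
        _ ≤ 2 * (c * n) ^ 2 := h3
        _ = 2 * c ^ 2 * n ^ 2 := by ring
    have h6 : 2 * H.index < 2 * c ^ 2 := Nat.lt_of_mul_lt_mul_right h5
    have h7 : H.index < c ^ 2 := by omega
    have : c ^ 2 ≤ 2 * c ^ 2 := by omega
    omega

end Cfsg.Agent.S0212
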