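import Cfsg.Statements.S0213
import Mathlib
import Cfsg.Agent.Lib.Invol
import Cfsg.Agent.Lib.InvolSylow

set_option autoImplicit false
open Cfsg

namespace Cfsg.Agent.S0213

open Cfsg.Agent.Lib.Invol Cfsg.Agent.Lib.InvolSylow

theorem mem_zpowers_half {G : Type*} [Group G] [Finite G] {a w : G} (heven : Even (orderOf a)) (hw : orderOf w = 2) (hwa : w ∈ Subgroup.zpowers a) :
    w = a ^ (orderOf a / 2) := by
  have hwa' : w ∈ Submonoid.powers a := mem_powers_iff_mem_zpowers.mpr hwa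
  obtain ⟨k, hk⟩ := hwa'
  have hk' : a ^ k = w := hk
  subst hk'
  obtain ⟨m, hm⟩ := heven
  have h2 : orderOf a / 2 = m := by omega
  rw [h2]
  have hw2 : (a ^ k) ^ 2 = 1 := sq_eq_one hw
  rw [← pow_mul] at hw2
  have h3 : orderOf a ∣ k * 2 := orderOf_dvd_of_pow_eq_one hw2
  rw [hm] at h3
  have hmpos : 0 < m := by
    have := orderOf_pos a
    omega
  have h4 : m ∣ k := by
    have h5 : m * 2 ∣ k * 2 := by
      have e : m + m = m * 2 := by ring
      rwa [e] at h3
    exact Nat.dvd_of_mul_dvd_mul_right (by norm_num) h5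
  obtain ⟨l, rfl⟩ := h4
  have hlo : ¬ Even l := by
    rintro ⟨j, rfl⟩
    have : a ^ (m * (j + j)) = 1 := by
      have e : m * (j + j) = (m + m) * j := by ring
      rw [e, ← hm, pow_mul, pow_orderOf_eq_one, one_pow]
    rw [this] at hw
    simp at hw
  obtain ⟨j, rfl⟩ := Nat.not_even_iff_odd.mp hlo
  have e : m * (2 * j + 1) = (m + m) * j + m := by ring
  rw [e, pow_add, pow_mul, ← hm, pow_orderOf_eq_one, one_pow, one_mul]

theorem half_conj {G : Type*} [Group G] (g a : G) : (g * a * g⁻¹) ^ (orderOf (g * a * g⁻¹) / 2) = g * (a ^ (orderOf a / 2)) * g⁻¹ := by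
  rw [orderOf_conj', conj_pow]

/-- Thompson Order Formula, two-class case: if every involution of the finite group G is conjugate to exactly one of the non-conjugate involutions x₁, x₂, and nᵢ is the number of pairs (u, v) with u conjugate to x₁, v conjugate to x₂ and xᵢ in the cyclic group generated by uv, then |G| = |C(x₂)| n₁ + |C(x₁)| n₂. -/
theorem result {G : Type*} [Group G] [Finite G] (x₁ x₂ : G) (h₁ : orderOf x₁ = 2) (h₂ : orderOf x₂ = 2) (hnc : ¬ IsConj x₁ x₂) (hall : ∀ t : G, orderOf t = 2 → IsConj x₁ t ∨ IsConj x₂ t) : Nat.card G = Nat.card (Subgroup.centralizer ({x₂} : Set G)) * Nat.card {p : G × G // IsConj x₁ p.1 ∧ IsConj x₂ p.2 ∧ x₁ ∈ Subgroup.zpowers (p.1 * p.2)} + Nat.card (Subgroup.centralizer ({x₁} : Set G)) * Nat.card {p : G × G // IsConj x₁ p.1 ∧ IsConj x₂ p.2 ∧ x₂ ∈ Subgroup.zpowers (p.1 * p.2)} := by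
  classical
  haveI : Fintype G := Fintype.ofFinite G
  set C₁ : Finset G := Finset.univ.filter (fun w => IsConj x₁ w) with hC₁
  set C₂ : Finset G := Finset.univ.filter (fun w => IsConj x₂ w) with hC₂
  have hdisj : Disjoint C₁ C₂ := by
    rw [Finset.disjoint_left]
    intro w h1 h2
    simp only [hC₁, hC₂, Finset.mem_filter, Finset.mem_univ, true_and] at h1 h2
    exact hnc (h1.trans h2.symm)
  set P : Finset (G × G) := C₁ ×ˢ C₂ with hP
  have hmemP : ∀ p : G × G, p ∈ P ↔ IsConj x₁ p.1 ∧ IsConj x₂ p.2 := by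
    intro p
    rw [hP, Finset.mem_product, hC₁, hC₂, Finset.mem_filter, Finset.mem_filter]
    simp only [Finset.mem_univ, true_and]
  have hcard1 : Nat.card {y : G // IsConj x₁ y} = C₁.card := by
    rw [Nat.card_eq_fintype_card, Fintype.card_subtype]
  have hcard2 : Nat.card {y : G // IsConj x₂ y} = C₂.card := by
    rw [Nat.card_eq_fintype_card, Fintype.card_subtype]
  have ho1 := orbit_conj_card x₁
  have ho2 := orbit_conj_card x₂
  rw [hcard1] at ho1
  rw [hcard2] at ho2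
  set f : G × G → G := fun p => (p.1 * p.2) ^ (orderOf (p.1 * p.2) / 2) with hf
  have hord : ∀ p : G × G, p ∈ P → orderOf p.1 = 2 ∧ orderOf p.2 = 2 := by
    intro p hp
    obtain ⟨h3, h4⟩ := (hmemP p).mp hp
    constructor
    · obtain ⟨g, hg⟩ := isConj_iff.mp h3
      rw [← hg, orderOf_conj', h₁]
    · obtain ⟨g, hg⟩ := isConj_iff.mp h4
      rw [← hg, orderOf_conj', h₂]
  have heven : ∀ p : G × G, p ∈ P → Even (orderOf (p.1 * p.2)) := by
    intro p hp
    by_contra hcon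
    obtain ⟨h3, h4⟩ := hord p hp
    obtain ⟨d, _, hd⟩ := exists_conj_of_odd h3 h4 (Nat.not_even_iff_odd.mp hcon)
    obtain ⟨h5, h6⟩ := (hmemP p).mp hp
    have h7 : IsConj p.1 p.2 := isConj_iff.mpr ⟨d, hd⟩
    exact hnc (h5.trans (h7.trans h6.symm))
  have hfmem : ∀ p ∈ P, f p ∈ C₁ ∪ C₂ := by
    intro p hp
    have h3 : orderOf (f p) = 2 := orderOf_half' (heven p hp)
    rcases hall _ h3 with h4 | h4
    · exact Finset.mem_union_left _ (Finset.mem_filter.mpr ⟨Finset.mem_univ _, h4⟩)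
    · exact Finset.mem_union_right _ (Finset.mem_filter.mpr ⟨Finset.mem_univ _, h4⟩)
  have hfib : ∀ (x : G) (hx : orderOf x = 2) (w : G), IsConj x w →
      (P.filter (fun p => f p = w)).card = (Finset.univ.filter (fun p : G × G => IsConj x₁ p.1 ∧ IsConj x₂ p.2 ∧ x ∈ Subgroup.zpowers (p.1 * p.2))).card := by
    intro x hx w hw
    obtain ⟨g, rfl⟩ := isConj_iff.mp hw
    symm
    apply Finset.card_bij' (fun p _ => (g * p.1 * g⁻¹, g * p.2 * g⁻¹)) (fun p _ => (g⁻¹ * p.1 * g, g⁻¹ * p.2 * g))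
    · rintro ⟨u, v⟩ hp
      simp only [Finset.mem_filter, Finset.mem_univ, true_and] at hp
      obtain ⟨h3, h4, h5⟩ := hp
      have hpP : (u, v) ∈ P := (hmemP _).mpr ⟨h3, h4⟩
      have h6 := mem_zpowers_half (heven _ hpP) hx h5
      have e : g * u * g⁻¹ * (g * v * g⁻¹) = g * (u * v) * g⁻¹ := by group
      simp only [Finset.mem_filter]
      refine ⟨(hmemP _).mpr ⟨h3.trans (isConj_iff.mpr ⟨g, rfl⟩), h4.trans (isConj_iff.mpr ⟨g, rfl⟩)⟩, ?_⟩
      simp only [hf]
      rw [e, half_conj, ← h6]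
    · rintro ⟨u, v⟩ hp
      simp only [Finset.mem_filter] at hp
      obtain ⟨hpP, h5⟩ := hp
      obtain ⟨h3, h4⟩ := (hmemP _).mp hpP
      simp only at h3 h4
      simp only [Finset.mem_filter, Finset.mem_univ, true_and]
      refine ⟨h3.trans (isConj_iff.mpr ⟨g⁻¹, by group⟩), h4.trans (isConj_iff.mpr ⟨g⁻¹, by group⟩), ?_⟩
      have e : g⁻¹ * u * g * (g⁻¹ * v * g) = g⁻¹ * (u * v) * g := by group
      rw [e]
      have h6 : f (u, v) = g * x * g⁻¹ := h5
      simp only [hf] at h6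
      have h7 : x = (g⁻¹ * (u * v) * g) ^ (orderOf (u * v) / 2) := by
        rw [← zpow_natCast, show g⁻¹ * (u * v) * g = g⁻¹ * (u * v) * g⁻¹⁻¹ by simp, conj_zpow, zpow_natCast, h6]
        group
      rw [h7]
      exact Subgroup.npow_mem_zpowers _ _
    · rintro ⟨u, v⟩ _
      simp only [Prod.mk.injEq]
      constructor <;> group
    · rintro ⟨u, v⟩ _
      simp only [Prod.mk.injEq]
      constructor <;> group
  set n₁ := (Finset.univ.filter (fun p : G × G => IsConj x₁ p.1 ∧ IsConj x₂ p.2 ∧ x₁ ∈ Subgroup.zpowers (p.1 * p.2))).card with hn₁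
  set n₂ := (Finset.univ.filter (fun p : G × G => IsConj x₁ p.1 ∧ IsConj x₂ p.2 ∧ x₂ ∈ Subgroup.zpowers (p.1 * p.2))).card with hn₂
  have hN1 : Nat.card {p : G × G // IsConj x₁ p.1 ∧ IsConj x₂ p.2 ∧ x₁ ∈ Subgroup.zpowers (p.1 * p.2)} = n₁ := by
    rw [Nat.card_eq_fintype_card, Fintype.card_subtype]
  have hN2 : Nat.card {p : G × G // IsConj x₁ p.1 ∧ IsConj x₂ p.2 ∧ x₂ ∈ Subgroup.zpowers (p.1 * p.2)} = n₂ := by
    rw [Nat.card_eq_fintype_card, Fintype.card_subtype]
  rw [hN1, hN2]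
  have hsum := Finset.card_eq_sum_card_fiberwise hfmem
  rw [Finset.sum_union hdisj] at hsum
  have hs1 : ∑ w ∈ C₁, (P.filter (fun p => f p = w)).card = C₁.card * n₁ := by
    rw [Finset.sum_congr rfl (fun w hw => hfib x₁ h₁ w (Finset.mem_filter.mp hw).2), Finset.sum_const, smul_eq_mul]
  have hs2 : ∑ w ∈ C₂, (P.filter (fun p => f p = w)).card = C₂.card * n₂ := by
    rw [Finset.sum_congr rfl (fun w hw => hfib x₂ h₂ w (Finset.mem_filter.mp hw).2), Finset.sum_const, smul_eq_mul]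
  rw [hs1, hs2, hP, Finset.card_product] at hsum
  set a₁ := Nat.card (Subgroup.centralizer ({x₁} : Set G)) with ha₁
  set a₂ := Nat.card (Subgroup.centralizer ({x₂} : Set G)) with ha₂
  have hGpos : 0 < Nat.card G := Nat.card_pos
  apply Nat.eq_of_mul_eq_mul_left hGpos
  calc Nat.card G * Nat.card G = (C₁.card * a₁) * (C₂.card * a₂) := by rw [ho1, ho2]
    _ = (C₁.card * C₂.card) * (a₁ * a₂) := by ring
    _ = (C₁.card * n₁ + C₂.card * n₂) * (a₁ * a₂) := by rw [hsum]
    _ = (C₁.card * a₁) * (a₂ * n₁) + (C₂.card * a₂) * (a₁ * n₂) := by ring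
    _ = Nat.card G * (a₂ * n₁ + a₁ * n₂) := by rw [ho1, ho2]; ring

end Cfsg.Agent.S0213
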