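import Cfsg.Statements.S0216
import Mathlib
import Cfsg.Agent.Lib.InvolSylow

set_option autoImplicit false
open Cfsg

namespace Cfsg.Agent.S0216

open Cfsg.Agent.Lib.Invol Cfsg.Agent.Lib.InvolSylow



/-- For an involution u in a Sylow 2-subgroup P of a finite group G, the following are equivalent: no G-conjugate of u other than u lies in P; every commutator of u with an element of G has odd order. -/
theorem result {G : Type*} [Group G] [Finite G] (P : Sylow 2 G) (u : G) (hu : orderOf u = 2) (huP : u ∈ P) : (∀ g : G, g * u * g⁻¹ ∈ P → g * u * g⁻¹ = u) ↔ (∀ g : G, Odd (orderOf (u * g * u⁻¹ * g⁻¹))) := by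
  have e : ∀ g : G, u * g * u⁻¹ * g⁻¹ = u * (g * u * g⁻¹) := by
    intro g
    rw [inv_eq_self hu]; group
  constructor
  · intro hiso g
    rw [e]
    refine odd_order_mul_of_isolated hu huP hiso ?_ (isConj_iff.mpr ⟨g, rfl⟩)
    rw [orderOf_conj']; exact hu
  · intro h g hg
    have h1 := h g
    rw [e] at h1
    have hmem : u * (g * u * g⁻¹) ∈ (P : Subgroup G) := Subgroup.mul_mem _ huP hg
    obtain ⟨k, hk⟩ := IsPGroup.iff_orderOf.mp P.isPGroup' ⟨_, hmem⟩
    rw [Subgroup.orderOf_mk] at hk
    have h2 : k = 0 := by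
      by_contra hk0
      rw [hk] at h1
      have : Even (2 ^ k) := (Nat.even_pow' hk0).mpr even_two
      exact (Nat.not_even_iff_odd.mpr h1) this
    rw [h2, pow_zero, orderOf_eq_one_iff] at hk
    have h3 : g * u * g⁻¹ = u⁻¹ := eq_inv_of_mul_eq_one_right hk
    rw [h3, inv_eq_self hu]

end Cfsg.Agent.S0216
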