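import Cfsg.Statements.S0218
import Mathlib

set_option autoImplicit false
open Cfsg

namespace Cfsg.Agent.S0218



/-- The generalized quaternion group of order 2^(n+3) contains exactly one element of order 2. -/
theorem result (n : ℕ) : Nat.card {x : QuaternionGroup (2 ^ (n + 1)) // orderOf x = 2} = 1 := by
  classical
  set N := 2 ^ (n + 1) with hNdef
  have hNpos : 0 < N := by positivity
  have : NeZero N := ⟨hNpos.ne'⟩
  have : NeZero (2 * N) := ⟨by positivity⟩
  have hval : ∀ i : ZMod (2 * N), i + i = 0 → i = 0 ∨ i = ((N : ℕ) : ZMod (2 * N)) := by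
    intro i hi
    have h1 : (i + i).val = 0 := by rw [hi]; exact ZMod.val_zero
    rw [ZMod.val_add] at h1
    have h2 : i.val < 2 * N := ZMod.val_lt i
    have h3 : i.val = 0 ∨ i.val = N := by
      have h4 : (i.val + i.val) % (2 * N) = 0 := h1
      rcases Nat.lt_or_ge (i.val) N with h5 | h5
      · left
        rw [Nat.mod_eq_of_lt (by omega)] at h4
        omega
      · right
        have h6 : i.val + i.val - 2 * N < 2 * N := by omega
        rw [Nat.mod_eq_sub_mod (by omega), Nat.mod_eq_of_lt h6] at h4
        omega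
    rcases h3 with h3 | h3
    · left
      rw [← ZMod.natCast_zmod_val i, h3]; simp
    · right
      rw [← ZMod.natCast_zmod_val i, h3]
  have hNne : ((N : ℕ) : ZMod (2 * N)) ≠ 0 := by
    intro h
    rw [ZMod.natCast_eq_zero_iff] at h
    have := Nat.le_of_dvd hNpos h
    omega
  have hNN : ((N : ℕ) : ZMod (2 * N)) + ((N : ℕ) : ZMod (2 * N)) = 0 := by
    have : ((2 * N : ℕ) : ZMod (2 * N)) = 0 := ZMod.natCast_self _
    push_cast at this
    rw [← two_mul]
    exact this
  have hx : orderOf (QuaternionGroup.a ((N : ℕ) : ZMod (2 * N)) : QuaternionGroup N) = 2 := by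
    apply orderOf_eq_prime
    · rw [pow_two, QuaternionGroup.a_mul_a, hNN, QuaternionGroup.a_zero]
    · intro h
      rw [← QuaternionGroup.a_zero] at h
      exact hNne (QuaternionGroup.a.inj h)
  rw [Nat.card_eq_one_iff_unique]
  refine ⟨⟨?_⟩, ⟨⟨_, hx⟩⟩⟩
  have hall : ∀ y : {x : QuaternionGroup N // orderOf x = 2},
      y.1 = QuaternionGroup.a ((N : ℕ) : ZMod (2 * N)) := by
    rintro ⟨y, hy⟩
    cases y with
    | xa i =>
      rw [QuaternionGroup.orderOf_xa] at hy
      omega
    | a i =>
      have h1 : (QuaternionGroup.a i : QuaternionGroup N) ^ 2 = 1 := by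
        rw [← hy]; exact pow_orderOf_eq_one _
      rw [pow_two, QuaternionGroup.a_mul_a, ← QuaternionGroup.a_zero] at h1
      rcases hval i (QuaternionGroup.a.inj h1) with rfl | h2
      · rw [QuaternionGroup.a_zero] at hy
        simp at hy
      · exact congrArg _ h2
  intro y z
  apply Subtype.ext
  rw [hall y, hall z]

end Cfsg.Agent.S0218
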