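import Cfsg.Statements.S0220
import Mathlib
import Cfsg.Agent.Lib.InvolSylow

set_option autoImplicit false
open Cfsg

namespace Cfsg.Agent.S0220

open Cfsg.Agent.Lib.Invol Cfsg.Agent.Lib.InvolSylow

lemma aux {G : Type*} [Group G] [Finite G] (x : G) (hx : orderOf x = 2) (C : Subgroup G)
    (hC : ∀ g, g ∈ C ↔ g * x = x * g) (S : Sylow 2 ↥C) (hS : IsCyclic (S : Subgroup ↥C)) :
    ∃ H : Subgroup G, H.index = 2 := by
  have hxC : x ∈ C := (hC x).mpr rfl
  -- x is in S
  have hxS : (⟨x, hxC⟩ : C) ∈ S := by
    have hnorm : (Subgroup.zpowers (⟨x, hxC⟩ : C)).Normal := by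
      constructor
      rintro _ ⟨k, rfl⟩ g
      refine ⟨k, ?_⟩
      have hg : (g : G) * x = x * g := (hC _).mp g.2
      have : g * (⟨x, hxC⟩ : C) * g⁻¹ = ⟨x, hxC⟩ := by
        ext
        simp [hg]
      show _ = g * (⟨x, hxC⟩ : C) ^ k * g⁻¹
      rw [← conj_zpow, this]
    have hp : IsPGroup 2 (Subgroup.zpowers (⟨x, hxC⟩ : C)) := by
      apply isPGroup_zpowers_of_pow (r := 1)
      ext
      simpa using sq_eq_one hx
    exact hp.le_sylow_of_normal S (Subgroup.mem_zpowers _)
  -- image of S in G
  set St : Subgroup G := (S : Subgroup C).map C.subtype with hSt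
  have hSt2 : IsPGroup 2 St := S.isPGroup'.map C.subtype
  have hxSt : x ∈ St := ⟨⟨x, hxC⟩, hxS, rfl⟩
  obtain ⟨T, hT⟩ := hSt2.exists_le_sylow
  have hStcyc : IsCyclic St := by
    have e : (S : Subgroup C) ≃* St := (S : Subgroup C).equivMapOfInjective C.subtype Subtype.coe_injective
    exact isCyclic_of_surjective e e.surjective
  have heq : St = T := by
    by_contra hne
    have hlt : St.subgroupOf (T : Subgroup G) < ⊤ := by
      refine lt_top_iff_ne_top.mpr ?_
      intro h
      apply hne
      apply le_antisymm hT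
      intro z hz
      have : (⟨z, hz⟩ : (T : Subgroup G)) ∈ St.subgroupOf (T : Subgroup G) := by rw [h]; trivial
      exact Subgroup.mem_subgroupOf.mp this
    have hnil : Group.IsNilpotent (T : Subgroup G) := T.isPGroup'.isNilpotent
    have hgrow := Group.normalizerCondition_of_isNilpotent (G := (T : Subgroup G)) _ hlt
    obtain ⟨⟨y, hyT⟩, hy1, hy2⟩ := SetLike.exists_of_lt hgrow
    have hySt : y ∉ St := fun h => hy2 (Subgroup.mem_subgroupOf.mpr h)
    -- y normalizes St
    have hyN : ∀ n ∈ St, y * n * y⁻¹ ∈ St := by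
      intro n hn
      have := (Subgroup.mem_normalizer_iff.mp hy1 ⟨n, hT hn⟩).mp (Subgroup.mem_subgroupOf.mpr hn)
      exact Subgroup.mem_subgroupOf.mp this
    -- y x y⁻¹ = x as x is the unique involution of St
    have hxy : y * x * y⁻¹ = x := by
      have h1 : y * x * y⁻¹ ∈ St := hyN x hxSt
      have hord : orderOf (y * x * y⁻¹) = 2 := by rw [orderOf_conj']; exact hx
      set w : St := ⟨y * x * y⁻¹, h1⟩ with hw
      set v : St := ⟨x, hxSt⟩ with hv
      have hw2 : w ^ 2 = 1 := by
        ext
        simpa [hw] using sq_eq_one hord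
      have hv2 : v ^ 2 = 1 := by
        ext
        simpa [hv] using sq_eq_one hx
      classical
      have : Fintype St := Fintype.ofFinite _
      have hcard := IsCyclic.card_pow_eq_one_le (α := St) (n := 2) (by norm_num)
      by_contra hne'
      have hwv : w ≠ v := fun h => hne' (congrArg Subtype.val h)
      have hw1 : w ≠ 1 := fun h => ne_one_of_two hord (congrArg Subtype.val h)
      have hv1 : v ≠ 1 := fun h => ne_one_of_two hx (congrArg Subtype.val h)
      have h3 : ({1, v, w} : Finset St) ⊆ Finset.univ.filter (fun a : St => a ^ 2 = 1) := by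
        intro a ha
        simp only [Finset.mem_insert, Finset.mem_singleton] at ha
        rcases ha with rfl | rfl | rfl <;> simp [hw2, hv2]
      have h4 := Finset.card_le_card h3
      have h5 : ({1, v, w} : Finset St).card = 3 := by
        rw [Finset.card_insert_of_notMem, Finset.card_insert_of_notMem, Finset.card_singleton]
        · simpa using hwv.symm
        · simp [hv1.symm, hw1.symm]
      have h6 : (Finset.univ.filter (fun a : St => a ^ 2 = 1)).card ≤ 2 := hcard
      omega
    -- so y ∈ C
    have hyC : y ∈ C := by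
      rw [hC]
      rw [mul_inv_eq_iff_eq_mul] at hxy
      exact hxy
    -- T ∩ C is a 2-subgroup of C containing S
    have hTC : IsPGroup 2 ((T : Subgroup G).comap C.subtype) := T.isPGroup'.comap_subtype
    have hST : (S : Subgroup C) ≤ (T : Subgroup G).comap C.subtype := by
      intro z hz
      exact hT ⟨z, hz, rfl⟩
    have hEq := S.is_maximal' hTC hST
    have hyS : (⟨y, hyC⟩ : C) ∈ (T : Subgroup G).comap C.subtype := hyT
    rw [hEq] at hyS
    exact hySt ⟨_, hyS, rfl⟩
  rw [heq] at hStcyc
  refine exists_index_two_of_cyclic_sylow ?_ T hStcyc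
  exact even_iff_two_dvd.mpr (hx ▸ orderOf_dvd_natCard x)



/-- If x is an involution of a finite group G and a Sylow 2-subgroup of the centralizer of x is cyclic, then G has a subgroup of index 2; in particular G is not simple unless it has order 2. -/
theorem result {G : Type*} [Group G] [Finite G] (x : G) (hx : orderOf x = 2) (S : Sylow 2 ↥(Subgroup.centralizer ({x} : Set G))) (hS : IsCyclic (S : Subgroup ↥(Subgroup.centralizer ({x} : Set G)))) : ∃ H : Subgroup G, H.index = 2 := by
  exact aux x hx _ (fun g => Subgroup.mem_centralizer_singleton_iff) S hS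

end Cfsg.Agent.S0220
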