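import Cfsg.Statements.S0221
import Mathlib
import Cfsg.Agent.Lib.ThompsonTransfer
import Cfsg.Agent.Lib.NormalKlein
import Cfsg.Agent.Lib.H1Frat
import Cfsg.Agent.Lib.SylowTools

set_option autoImplicit false
open Cfsg

namespace Cfsg.Agent.S0221

open Cfsg.Agent.Lib.ThompsonTransfer Cfsg.Agent.Lib.NormalKlein Cfsg.Agent.Lib.SylowTools

/-- Let G be a finite group with no subgroup of index 2 whose 2-rank is at least 3 (it contains an elementary abelian subgroup of order 8). Then the centralizer of every involution of G also contains an elementary abelian subgroup of order 8. -/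
theorem result {G : Type*} [Group G] [Finite G] (hno : ∀ H : Subgroup G, H.index ≠ 2) (hrank : ∃ E : Subgroup G, Nat.card E = 8 ∧ ∀ e ∈ E, e ^ 2 = 1) (x : G) (hx : orderOf x = 2) : ∃ E : Subgroup G, E ≤ Subgroup.centralizer ({x} : Set G) ∧ Nat.card E = 8 ∧ ∀ e ∈ E, e ^ 2 = 1 := by
  classical
  haveI hp2 : Fact (Nat.Prime 2) := ⟨Nat.prime_two⟩
  obtain ⟨E, hE8, hEe⟩ := hrank
  have hEe' : ∀ e ∈ E, e * e = 1 := fun e he => by rw [← pow_two]; exact hEe e he
  have hEp : IsPGroup 2 E := IsPGroup.of_card (n := 3) (by rw [hE8]; norm_num)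
  obtain ⟨S, hES⟩ := hEp.exists_le_sylow
  have hSp : IsPGroup 2 (S : Subgroup G) := S.2
  have hE'c : Nat.card (E.subgroupOf (S : Subgroup G)) = 8 := by
    rw [← hE8]
    exact Nat.card_congr (Subgroup.subgroupOfEquivOfLe hES).toEquiv
  obtain ⟨U, hUn, hUc, hUe⟩ := exists_normal_klein hSp (E.subgroupOf (S : Subgroup G)) hE'c (by
    intro e he
    have := hEe' _ (Subgroup.mem_subgroupOf.mp he)
    exact Subtype.ext this)
  haveI : Group.IsNilpotent (S : Subgroup G) := hSp.isNilpotent
  have hUne : U ≠ ⊥ := by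
    intro h
    rw [h, Subgroup.card_bot] at hUc
    omega
  have hinf := Cfsg.Agent.Lib.H1Frat.normal_inf_center_ne_bot U hUne
  obtain ⟨⟨z₀, hz₀m⟩, hz₀1⟩ := Subgroup.ne_bot_iff_exists_ne_one.mp hinf
  have hz₀U : z₀ ∈ U := hz₀m.1
  have hz₀Z : z₀ ∈ Subgroup.center (S : Subgroup G) := hz₀m.2
  have hz₀ne : z₀ ≠ 1 := fun h => hz₀1 (Subtype.ext h)
  -- second element of U
  obtain ⟨w₀, hw₀U, hw₀1, hw₀z⟩ : ∃ w₀ ∈ U, w₀ ≠ 1 ∧ w₀ ≠ z₀ := by
    by_contra hcon
    push Not at hcon
    have hsub : (U : Set (S : Subgroup G)) ⊆ ({1, z₀} : Finset (S : Subgroup G)) := by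
      intro u hu
      by_cases h1 : u = 1
      · simp [h1]
      · simp [hcon u hu h1]
    have : Nat.card U ≤ 2 := by
      have h3 := Set.ncard_le_ncard hsub (Finset.finite_toSet _)
      rw [Set.ncard_coe_finset] at h3
      have h4 : ({1, z₀} : Finset (S : Subgroup G)).card ≤ 2 := Finset.card_le_two
      have h5 : Nat.card U = (U : Set (S : Subgroup G)).ncard := Nat.card_coe_set_eq _
      omega
    omega
  have hspan := Cfsg.Agent.Lib.ThompsonTransfer.klein_span U hUc hUe hz₀U hw₀U hz₀ne hw₀1 (Ne.symm hw₀z)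
  -- conjugation on U
  have hconj : ∀ s : (S : Subgroup G), s * w₀ * s⁻¹ = w₀ ∨ s * w₀ * s⁻¹ = z₀ * w₀ := by
    intro s
    have hm : s * w₀ * s⁻¹ ∈ U := hUn.conj_mem _ hw₀U s
    rcases hspan _ hm with h | h | h | h
    · exfalso; apply hw₀1
      have := (mul_inv_eq_one.mp h)
      exact mul_left_cancel (this.trans (mul_one s).symm)
    · exfalso; apply hw₀z
      have hcomm : s * z₀ * s⁻¹ = z₀ := by
        have := Subgroup.mem_center_iff.mp hz₀Z s
        rw [this]; simp
      have : s * w₀ * s⁻¹ = s * z₀ * s⁻¹ := by rw [h, hcomm]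
      have h2 : s * w₀ = s * z₀ := mul_right_cancel this
      exact mul_left_cancel h2
    · exact Or.inl h
    · exact Or.inr h
  set z : G := (z₀ : G) with hz
  set w : G := (w₀ : G) with hw
  have hzz : z * z = 1 := by
    have := hUe z₀ hz₀U
    exact congrArg Subtype.val this
  have hww : w * w = 1 := by
    have := hUe w₀ hw₀U
    exact congrArg Subtype.val this
  have hzS : z ∈ (S : Subgroup G) := z₀.2
  have hwS : w ∈ (S : Subgroup G) := w₀.2
  have hzcent : ∀ s ∈ (S : Subgroup G), s * z = z * s := by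
    intro s hs
    have := Subgroup.mem_center_iff.mp hz₀Z ⟨s, hs⟩
    have h2 := congrArg Subtype.val this
    exact h2
  have hwconj : ∀ s ∈ (S : Subgroup G), s * w * s⁻¹ = w ∨ s * w * s⁻¹ = z * w := by
    intro s hs
    rcases hconj ⟨s, hs⟩ with h | h
    · left; exact congrArg Subtype.val h
    · right; exact congrArg Subtype.val h
  -- T
  set T : Subgroup G := (S : Subgroup G) ⊓ Subgroup.centralizer ({w} : Set G) with hT
  have hTS : T ≤ (S : Subgroup G) := inf_le_left
  have hcardT : Nat.card (S : Subgroup G) ≤ 2 * Nat.card T :=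
    Cfsg.Agent.Lib.ThompsonTransfer.card_le_two_mul_inf _ w (z * w) hwconj
  have hxx : x * x = 1 := by rw [← pow_two, ← hx]; exact pow_orderOf_eq_one x
  obtain ⟨g, hgT⟩ : ∃ g : G, g * x * g⁻¹ ∈ T := by
    by_cases heq : Nat.card T = Nat.card (S : Subgroup G)
    · have hTeq : T = (S : Subgroup G) := Subgroup.eq_of_le_of_card_ge hTS (by omega)
      have hzp : IsPGroup 2 (Subgroup.zpowers x) := by
        apply IsPGroup.of_card (n := 1)
        rw [Nat.card_zpowers, hx]; norm_num
      obtain ⟨g, hg⟩ := Cfsg.Agent.Lib.SylowTools.exists_conj_le_sylow S hzp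
      refine ⟨g, ?_⟩
      rw [hTeq]
      apply hg
      exact ⟨x, Subgroup.mem_zpowers x, by simp⟩
    · by_contra hcon
      push Not at hcon
      have hdvd : Nat.card T ∣ Nat.card (S : Subgroup G) := Subgroup.card_dvd_of_le hTS
      have hpos : 0 < Nat.card T := Nat.card_pos
      have hSpos : 0 < Nat.card (S : Subgroup G) := Nat.card_pos
      have hle : Nat.card T ≤ Nat.card (S : Subgroup G) := Nat.le_of_dvd hSpos hdvd
      have hidx : 2 * Nat.card T = Nat.card (S : Subgroup G) := by
        obtain ⟨k, hk⟩ := hdvd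
        have hk1 : k ≠ 1 := by
          rintro rfl
          omega
        have hk0 : k ≠ 0 := by
          rintro rfl
          omega
        have hk2 : k = 2 := by
          have hkle : k ≤ 2 := by
            by_contra hlt
            push Not at hlt
            have : Nat.card T * 3 ≤ Nat.card T * k := Nat.mul_le_mul_left _ hlt
            omega
          omega
        rw [hk, hk2]; ring
      exact Cfsg.Agent.Lib.ThompsonTransfer.thompson_transfer hno S T hTS hidx x hxx hcon
  set y : G := g * x * g⁻¹ with hy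
  have hyy : y * y = 1 := by
    rw [hy]
    calc g * x * g⁻¹ * (g * x * g⁻¹) = g * (x * x) * g⁻¹ := by group
      _ = 1 := by rw [hxx]; group
  have hyS : y ∈ (S : Subgroup G) := hgT.1
  have hyw : y * w = w * y := by
    have := Subgroup.mem_centralizer_singleton_iff.mp hgT.2
    exact this
  have hyz : y * z = z * y := hzcent y hyS
  -- it is enough to find V in C(y)
  suffices hV : ∃ V : Subgroup G, V ≤ Subgroup.centralizer ({y} : Set G) ∧ Nat.card V = 8 ∧ ∀ v ∈ V, v * v = 1 by
    obtain ⟨V, hVle, hVc, hVs⟩ := hV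
    refine ⟨V.map (MulAut.conj g⁻¹).toMonoidHom, ?_, ?_, ?_⟩
    · rintro _ ⟨v, hv, rfl⟩
      have hvc := Subgroup.mem_centralizer_singleton_iff.mp (hVle hv)
      rw [Subgroup.mem_centralizer_singleton_iff]
      simp only [MulEquiv.coe_toMonoidHom, MulAut.conj_apply, inv_inv]
      have h2 : v * (g * x * g⁻¹) = (g * x * g⁻¹) * v := hvc
      calc g⁻¹ * v * g * x = g⁻¹ * (v * (g * x * g⁻¹)) * g := by group
        _ = g⁻¹ * ((g * x * g⁻¹) * v) * g := by rw [h2]
        _ = x * (g⁻¹ * v * g) := by group
    · rw [← hVc]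
      exact Nat.card_congr ((V.equivMapOfInjective _ (MulEquiv.injective _)).symm.toEquiv)
    · rintro _ ⟨v, hv, rfl⟩
      have := hVs v hv
      simp only [MulEquiv.coe_toMonoidHom, MulAut.conj_apply, inv_inv]
      rw [pow_two]
      calc g⁻¹ * v * g * (g⁻¹ * v * g) = g⁻¹ * (v * v) * g := by group
        _ = 1 := by rw [this]; group
  -- The subgroup 𝒰
  set 𝒰 : Subgroup G := U.map (S : Subgroup G).subtype with h𝒰
  have h𝒰card : Nat.card 𝒰 = 4 := by
    rw [← hUc]
    exact Nat.card_congr ((U.equivMapOfInjective _ (Subtype.val_injective)).symm.toEquiv)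
  have h𝒰mem : ∀ u ∈ 𝒰, u = 1 ∨ u = z ∨ u = w ∨ u = z * w := by
    rintro _ ⟨u, hu, rfl⟩
    rcases hspan u hu with h | h | h | h <;> subst h
    · left; rfl
    · right; left; rfl
    · right; right; left; rfl
    · right; right; right; rfl
  have hwz : w * z = z * w := hzcent w hwS
  have h𝒰sq : ∀ u ∈ 𝒰, u * u = 1 := by
    intro u hu
    rcases h𝒰mem u hu with rfl | rfl | rfl | rfl
    · simp
    · exact hzz
    · exact hww
    · calc z * w * (z * w) = z * (w * z) * w := by group
        _ = z * (z * w) * w := by rw [hwz]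
        _ = (z * z) * (w * w) := by group
        _ = 1 := by rw [hzz, hww]; simp
  by_cases hyU : y ∈ 𝒰
  · -- y in 𝒰
    have hy1 : y ≠ 1 := by
      intro h
      rw [hy] at h
      have h3 : x = 1 := by
        have : g * x = g := mul_inv_eq_one.mp h
        exact mul_left_cancel (this.trans (mul_one g).symm)
      rw [h3, orderOf_one] at hx
      omega
    have hyconj : ∀ s ∈ (S : Subgroup G), s * y * s⁻¹ = y ∨ s * y * s⁻¹ = z * y := by
      intro s hs
      have hzc : s * z * s⁻¹ = z := by rw [hzcent s hs]; group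
      rcases h𝒰mem y hyU with h | h | h | h
      · exact absurd h hy1
      · left; rw [h]; exact hzc
      · rw [h]; exact hwconj s hs
      · rw [h]
        have h5 : s * (z * w) * s⁻¹ = (s * z * s⁻¹) * (s * w * s⁻¹) := by group
        rw [h5, hzc]
        rcases hwconj s hs with h6 | h6
        · left; rw [h6]
        · right; rw [h6]
    by_cases hcomm : E ≤ Subgroup.centralizer ({y} : Set G)
    · exact ⟨E, hcomm, hE8, hEe'⟩
    · set F : Subgroup G := E ⊓ Subgroup.centralizer ({y} : Set G) with hF
      have hFE : F ≤ E := inf_le_left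
      have hcF : Nat.card E ≤ 2 * Nat.card F :=
        Cfsg.Agent.Lib.ThompsonTransfer.card_le_two_mul_inf E y (z * y) (fun s hs => hyconj s (hES hs))
      have hFne : Nat.card F ≠ 8 := by
        intro h
        have : F = E := Subgroup.eq_of_le_of_card_ge hFE (by omega)
        apply hcomm
        rw [← this]; exact inf_le_right
      have hFdvd : Nat.card F ∣ 8 := by rw [← hE8]; exact Subgroup.card_dvd_of_le hFE
      have hF4 : Nat.card F = 4 := by
        have hle : Nat.card F ≤ 8 := Nat.le_of_dvd (by norm_num) hFdvd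
        have h4 : 4 ≤ Nat.card F := by omega
        interval_cases h : Nat.card F
        · rfl
        · omega
        · omega
        · omega
        · omega
      have hyF : y ∉ F := by
        intro hyF
        apply hcomm
        intro e he
        rw [Subgroup.mem_centralizer_singleton_iff]
        have hye : y ∈ E := hFE hyF
        have h1 : (e * y) * (e * y) = 1 := hEe' _ (E.mul_mem he hye)
        have h2 := hEe' e he
        have h3 := hEe' y hye
        calc e * y = e * (e * y * (e * y)) * y := by rw [h1]; group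
          _ = (e * e) * (y * (e * y)) * y := by group
          _ = y * e * (y * y) := by rw [h2]; group
          _ = y * e := by rw [h3]; group
      obtain ⟨V, hV1, hV2, hV3⟩ := Cfsg.Agent.Lib.ThompsonTransfer.exists_extend F
        (fun a ha => hEe' a (hFE ha)) y hyy hyF (fun a ha => Subgroup.mem_centralizer_singleton_iff.mp ha.2)
      exact ⟨V, hV1, by rw [hV2, hF4], hV3⟩
  · obtain ⟨V, hV1, hV2, hV3⟩ := Cfsg.Agent.Lib.ThompsonTransfer.exists_extend 𝒰 h𝒰sq y hyy hyU (by
      intro a ha
      rcases h𝒰mem a ha with rfl | rfl | rfl | rfl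
      · simp
      · exact hyz.symm
      · exact hyw.symm
      · calc z * w * y = z * (w * y) := by group
          _ = z * (y * w) := by rw [hyw]
          _ = (z * y) * w := by group
          _ = (y * z) * w := by rw [hyz]
          _ = y * (z * w) := by group)
    exact ⟨V, hV1, by rw [hV2, h𝒰card], hV3⟩

end Cfsg.Agent.S0221
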