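import Cfsg.Statements.S0225
import Mathlib
import Cfsg.Agent.Lib.H9ZT

set_option autoImplicit false
open Cfsg

namespace Cfsg.Agent.S0225



/-- If a finite group G has even order but contains no Klein four-subgroup (2-rank 1), then some involution z of G is central modulo a normal subgroup of odd order: there is a normal subgroup N of odd order containing every commutator z g z⁻¹ g⁻¹. -/
theorem result {G : Type*} [Group G] [Finite G] (heven : Even (Nat.card G)) (hrank : ∀ E : Subgroup G, ¬ IsKleinFour E) : ∃ z : G, orderOf z = 2 ∧ ∃ N : Subgroup G, N.Normal ∧ Odd (Nat.card N) ∧ ∀ g : G, z * g * z⁻¹ * g⁻¹ ∈ N := by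
  classical
  haveI : Fact (Nat.Prime 2) := ⟨Nat.prime_two⟩
  obtain ⟨z, hz⟩ := exists_prime_orderOf_dvd_card' 2 (even_iff_two_dvd.mp heven)
  have hzz : z * z = 1 := by rw [← pow_two, ← hz]; exact pow_orderOf_eq_one z
  have hz1 : z ≠ 1 := by
    intro e
    rw [e, orderOf_one] at hz
    norm_num at hz
  have hiso : IsIsolated z := by
    intro g hc
    by_contra hne
    set w := g * z * g⁻¹ with hw
    have hww : w * w = 1 := by
      have : w * w = g * (z * z) * g⁻¹ := by rw [hw]; group
      rw [this, hzz]; group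
    have hw1 : w ≠ 1 := by
      intro e
      apply hz1
      have : z = g⁻¹ * w * g := by rw [hw]; group
      rw [this, e]; group
    obtain ⟨E, hE, -, -⟩ := Cfsg.Agent.Lib.H9ZT.exists_klein hzz hww hz1 hw1 (Ne.symm hne) hc.eq
    exact hrank E hE
  exact ⟨z, hz, Cfsg.oddCore G, Cfsg.Agent.Lib.H1Core.pPrimeCore_normal 2 G, Cfsg.Agent.Lib.H9ZS.odd_core G,
    Cfsg.Agent.Lib.H9ZS.zstar G z hz hiso⟩

end Cfsg.Agent.S0225
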