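import Cfsg.Statements.S0226
import Mathlib
import Cfsg.Agent.Lib.Invol

set_option autoImplicit false
open Cfsg

namespace Cfsg.Agent.S0226



/-- A finite group of even order has an odd number of involutions. -/
theorem result {G : Type*} [Group G] [Finite G] (heven : Even (Nat.card G)) : Odd (Nat.card {t : G // orderOf t = 2}) := by
  classical
  have : Fintype G := Fintype.ofFinite G
  -- inversion as a permutation: fixed points are x with x⁻¹ = x
  let f : Function.End G := fun x => x⁻¹
  have hf : f ^ 2 ^ 1 = 1 := by
    rw [pow_one, pow_two]
    funext x
    show (x⁻¹)⁻¹ = x
    simp
  have key := Equiv.Perm.card_fixedPoints_modEq (p := 2) (n := 1) hf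
  -- count
  have h1 : Fintype.card (Function.fixedPoints f) = Nat.card {t : G // orderOf t = 2} + 1 := by
    have e : (Function.fixedPoints f) ≃ Option {t : G // orderOf t = 2} :=
      { toFun := fun s => if h : s.1 = 1 then none else some ⟨s.1, by
          apply orderOf_eq_prime _ h
          have h2 : s.1⁻¹ = s.1 := s.2
          rw [pow_two]
          nth_rewrite 1 [← h2]
          simp⟩
        invFun := fun o => o.elim ⟨1, by simp [Function.IsFixedPt, f]⟩
          (fun t => ⟨t.1, Cfsg.Agent.Lib.Invol.inv_eq_self t.2⟩)
        left_inv := fun s => by
          by_cases h : s.1 = 1
          · simp only [h, dite_true, Option.elim_none]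
            exact Subtype.ext h.symm
          · simp [h]
        right_inv := fun o => by
          cases o with
          | none => simp
          | some t =>
            have : t.1 ≠ 1 := by
              intro h
              have := t.2
              rw [h] at this
              simp at this
            simp [this] }
    rw [Fintype.card_congr e, Fintype.card_option, Nat.card_eq_fintype_card]
  rw [h1] at key
  have h2 : Fintype.card G % 2 = 0 := by
    rw [← Nat.card_eq_fintype_card]
    exact Nat.even_iff.mp heven
  unfold Nat.ModEq at key
  rw [h2] at key
  rw [Nat.odd_iff]
  omega

end Cfsg.Agent.S0226
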