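import Cfsg.Statements.S0229
import Mathlib
import Cfsg.Agent.Lib.InvolSylow

set_option autoImplicit false
open Cfsg

namespace Cfsg.Agent.S0229

open Cfsg.Agent.Lib.Invol Cfsg.Agent.Lib.InvolSylow



/-- Let t be an involution of a Sylow 2-subgroup S of a finite group G, conjugate in G to no other element of S, and let s be an involution of G not conjugate to t. Then the order of st is twice an odd number. -/
theorem result {G : Type*} [Group G] [Finite G] (S : Sylow 2 G) (t : G) (ht : orderOf t = 2) (htS : t ∈ S) (hiso : ∀ g : G, g * t * g⁻¹ ∈ S → g * t * g⁻¹ = t) (s : G) (hs : orderOf s = 2) (hns : ¬ IsConj s t) : orderOf (s * t) % 4 = 2 := by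
  have hord : orderOf (t * s) = orderOf (s * t) := by
    rw [← orderOf_inv (s * t), mul_inv_rev, inv_eq_self hs, inv_eq_self ht]
  by_cases hodd : Odd (orderOf (s * t))
  · exfalso
    obtain ⟨d, -, hd⟩ := exists_conj_of_odd hs ht hodd
    exact hns (isConj_iff.mpr ⟨d, hd⟩)
  · rw [Nat.not_odd_iff_even] at hodd
    have h4 : ¬ 4 ∣ orderOf (s * t) := by
      intro h
      rw [← hord] at h hodd
      obtain ⟨d, -, hd⟩ := (conj_half_iff ht hs hodd).mpr h
      exact not_conj_mul_central ht hiso (orderOf_half' hodd) (half_commute_left ht hs hodd) hd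
    have := hodd.two_dvd
    omega

end Cfsg.Agent.S0229
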