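import Cfsg.Statements.S0230
import Mathlib
import Cfsg.Agent.Lib.InvolSylow

set_option autoImplicit false
open Cfsg

namespace Cfsg.Agent.S0230

open Cfsg.Agent.Lib.Invol Cfsg.Agent.Lib.InvolSylow



/-- Let G be a finite group with two non-conjugate involutions, and let t be an involution whose centralizer has maximal order among centralizers of involutions. Then |G| < |C_G(t)|^3. -/
theorem result {G : Type*} [Group G] [Finite G] (s t : G) (hs : orderOf s = 2) (ht : orderOf t = 2) (hnc : ¬ IsConj s t) (hmax : ∀ u : G, orderOf u = 2 → Nat.card (Subgroup.centralizer ({u} : Set G)) ≤ Nat.card (Subgroup.centralizer ({t} : Set G))) : Nat.card G < Nat.card (Subgroup.centralizer ({t} : Set G)) ^ 3 := by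
  classical
  set M := Nat.card (Subgroup.centralizer ({t} : Set G)) with hM
  have hMpos : 0 < M := Nat.card_pos
  -- involutions in the conjugacy class of t
  let A := {u : G // IsConj t u}
  have horder : ∀ u : A, orderOf u.1 = 2 := by
    rintro ⟨u, hu⟩
    obtain ⟨g, rfl⟩ := isConj_iff.mp hu
    rw [orderOf_conj']; exact ht
  have heven : ∀ u : A, Even (orderOf (s * u.1)) := by
    intro u
    by_contra h
    rw [Nat.not_even_iff_odd] at h
    obtain ⟨d, -, hd⟩ := exists_conj_of_odd hs (horder u) h
    exact hnc ((isConj_iff.mpr ⟨d, hd⟩).trans u.2.symm)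
  let I := {z : G // orderOf z = 2 ∧ Commute z s}
  let f : A → I := fun u => ⟨(s * u.1) ^ (orderOf (s * u.1) / 2),
    orderOf_half' (heven u), half_commute_left hs (horder u) (heven u)⟩
  have hfib : ∀ z : I, Nat.card {u : A // f u = z} ≤ M - 1 := by
    intro z
    have h1 : Nat.card {u : A // f u = z} + 1 ≤ Nat.card (Subgroup.centralizer ({z.1} : Set G)) := by
      refine card_add_one_le (fun u => (⟨u.1.1, ?_⟩ : ↥(Subgroup.centralizer ({z.1} : Set G)))) ?_ 1 ?_
      · rw [Subgroup.mem_centralizer_singleton_iff]
        have h2 := half_commute_right hs (horder u.1) (heven u.1)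
        have h3 : (s * u.1.1) ^ (orderOf (s * u.1.1) / 2) = z.1 := congrArg Subtype.val u.2
        rw [h3] at h2
        exact h2.eq.symm
      · intro a b hab
        have h' : a.1.1 = b.1.1 := by simpa using hab
        exact Subtype.ext (Subtype.ext h')
      · intro a hab
        have h' : a.1.1 = 1 := by simpa using congrArg Subtype.val hab
        have := horder a.1
        rw [h'] at this
        simp at this
    have h2 := hmax z.1 z.2.1
    omega
  have hI : Nat.card I + 1 ≤ Nat.card (Subgroup.centralizer ({s} : Set G)) := by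
    refine card_add_one_le (fun z => (⟨z.1, ?_⟩ : ↥(Subgroup.centralizer ({s} : Set G)))) ?_ 1 ?_
    · rw [Subgroup.mem_centralizer_singleton_iff]
      exact z.2.2.eq
    · intro a b hab
      have h' : a.1 = b.1 := by simpa using hab
      exact Subtype.ext h'
    · intro a hab
      have h' : a.1 = 1 := by simpa using congrArg Subtype.val hab
      have := a.2.1
      rw [h'] at this
      simp at this
  have hI2 : Nat.card I ≤ M - 1 := by
    have := hmax s hs
    omega
  have hA := card_le_mul_of_fibers f (M - 1) hfib
  have hG := orbit_conj_card t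
  have hA2 : Nat.card A ≤ (M - 1) * (M - 1) := hA.trans (Nat.mul_le_mul_left _ hI2)
  rw [← hG]
  obtain ⟨N, hN⟩ : ∃ N, M = N + 1 := ⟨M - 1, by omega⟩
  have hA3 : Nat.card {y : G // IsConj t y} ≤ N * N := by
    have : M - 1 = N := by omega
    rw [this] at hA2
    exact hA2
  calc Nat.card {y : G // IsConj t y} * M ≤ N * N * M := Nat.mul_le_mul_right _ hA3
    _ < M ^ 3 := by
      rw [hN]
      nlinarith [Nat.zero_le N, mul_nonneg (Nat.zero_le N) (Nat.zero_le N)]

end Cfsg.Agent.S0230
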