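import Cfsg.Statements.S0231
import Mathlib
import Cfsg.Agent.Lib.InvolSylow

set_option autoImplicit false
open scoped Pointwise
open Cfsg

namespace Cfsg.Agent.S0231

open Cfsg.Agent.Lib.Invol Cfsg.Agent.Lib.InvolSylow
open scoped Pointwise

lemma mem_of_commute {G : Type*} [Group G] [Finite G] (T : Sylow 2 G)
    (hTI : ∀ g : G, MulAut.conj g • (T : Subgroup G) ≠ T → MulAut.conj g • (T : Subgroup G) ⊓ T = ⊥)
    {x y : G} (hx : x ∈ T) (hx1 : x ≠ 1) (hxy : Commute y x) (hy : orderOf y = 2) : y ∈ T := by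
  obtain ⟨k, hk⟩ := IsPGroup.iff_orderOf.mp T.isPGroup' ⟨x, hx⟩
  rw [Subgroup.orderOf_mk] at hk
  have hx2 : x ^ (2 ^ k) = 1 := by rw [← hk]; exact pow_orderOf_eq_one x
  have hy2 : y ^ (2 ^ 1) = 1 := by simpa using sq_eq_one hy
  have hinv : x * y * x⁻¹ ∈ Subgroup.zpowers y := by
    have : x * y * x⁻¹ = y := by rw [← hxy.eq]; simp
    rw [this]; exact Subgroup.mem_zpowers y
  have hQ := isPGroup_sup_zpowers hy2 hx2 hinv
  obtain ⟨R, hR⟩ := hQ.exists_le_sylow
  obtain ⟨g, rfl⟩ := MulAction.exists_smul_eq G T R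
  have hxR : x ∈ g • T := hR (Subgroup.mem_sup_right (Subgroup.mem_zpowers x))
  have hyR : y ∈ g • T := hR (Subgroup.mem_sup_left (Subgroup.mem_zpowers y))
  by_cases hg : MulAut.conj g • (T : Subgroup G) = T
  · have h1 : y ∈ MulAut.conj g • (T : Subgroup G) := by
      rw [mem_smul_iff]; exact mem_sylow_smul_iff.mp hyR
    rwa [hg] at h1
  · exfalso
    have h2 := hTI g hg
    have h3 : x ∈ MulAut.conj g • (T : Subgroup G) ⊓ T := by
      refine Subgroup.mem_inf.mpr ⟨?_, hx⟩
      rw [mem_smul_iff]; exact mem_sylow_smul_iff.mp hxR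
    rw [h2] at h3
    exact hx1 (Subgroup.mem_bot.mp h3)

lemma exists_conj_mem {G : Type*} [Group G] [Finite G] (T : Sylow 2 G) {s : G} (hs : orderOf s = 2) :
    ∃ g : G, g * s * g⁻¹ ∈ T := by
  have hs2 : s ^ (2 ^ 1) = 1 := by simpa using sq_eq_one hs
  obtain ⟨R, hR⟩ := (isPGroup_zpowers_of_pow hs2).exists_le_sylow
  obtain ⟨g, rfl⟩ := MulAction.exists_smul_eq G T R
  refine ⟨g⁻¹, ?_⟩
  have := mem_sylow_smul_iff.mp (hR (Subgroup.mem_zpowers s))
  simpa using this

/-- Let T be a Sylow 2-subgroup of the finite group G which is not normal and which intersects every other Sylow 2-subgroup trivially. Then G has a single conjugacy class of involutions. -/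
theorem result {G : Type*} [Group G] [Finite G] (T : Sylow 2 G) (hnn : ¬ (T : Subgroup G).Normal) (hTI : ∀ g : G, MulAut.conj g • (T : Subgroup G) ≠ T → MulAut.conj g • (T : Subgroup G) ⊓ T = ⊥) (s t : G) (hs : orderOf s = 2) (ht : orderOf t = 2) : IsConj s t := by
  obtain ⟨g₁, hg₁⟩ := exists_conj_mem T hs
  obtain ⟨g₂, hg₂⟩ := exists_conj_mem T ht
  set s' := g₁ * s * g₁⁻¹ with hs'
  set t' := g₂ * t * g₂⁻¹ with ht'
  have hs'o : orderOf s' = 2 := by rw [hs', orderOf_conj']; exact hs
  have ht'o : orderOf t' = 2 := by rw [ht', orderOf_conj']; exact ht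
  -- some conjugate of T differs from T
  obtain ⟨h, hh⟩ : ∃ h : G, MulAut.conj h • (T : Subgroup G) ≠ T := by
    by_contra hcon
    push_neg at hcon
    apply hnn
    constructor
    intro x hx g
    have : g * x * g⁻¹ ∈ MulAut.conj g • (T : Subgroup G) := by
      rw [mem_smul_iff]; simpa [mul_assoc] using hx
    rwa [hcon g] at this
  set t'' := h * t' * h⁻¹ with ht''
  have ht''o : orderOf t'' = 2 := by rw [ht'', orderOf_conj']; exact ht'o
  have hconj : IsConj s t := by
    have h1 : IsConj s s' := isConj_iff.mpr ⟨g₁, rfl⟩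
    have h2 : IsConj t t' := isConj_iff.mpr ⟨g₂, rfl⟩
    have h3 : IsConj t' t'' := isConj_iff.mpr ⟨h, rfl⟩
    have h4 : IsConj s' t'' := by
      by_cases hpar : Odd (orderOf (s' * t''))
      · obtain ⟨d, -, hd⟩ := exists_conj_of_odd hs'o ht''o hpar
        exact isConj_iff.mpr ⟨d, hd⟩
      · rw [Nat.not_odd_iff_even] at hpar
        exfalso
        set z := (s' * t'') ^ (orderOf (s' * t'') / 2) with hz
        have hzo : orderOf z = 2 := orderOf_half' hpar
        have hzs : Commute z s' := half_commute_left hs'o ht''o hpar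
        have hzt : Commute z t'' := half_commute_right hs'o ht''o hpar
        have hzT : z ∈ T := mem_of_commute T hTI hg₁ (ne_one_of_two hs'o) hzs hzo
        have hzT2 : h⁻¹ * z * h ∈ T := by
          refine mem_of_commute T hTI hg₂ (ne_one_of_two ht'o) ?_ ?_
          · show h⁻¹ * z * h * t' = t' * (h⁻¹ * z * h)
            have : z * (h * t' * h⁻¹) = (h * t' * h⁻¹) * z := hzt.eq
            calc h⁻¹ * z * h * t' = h⁻¹ * (z * (h * t' * h⁻¹)) * h := by group
              _ = h⁻¹ * ((h * t' * h⁻¹) * z) * h := by rw [this]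
              _ = t' * (h⁻¹ * z * h) := by group
          · have := orderOf_conj' h⁻¹ z
            rw [hzo] at this
            simpa using this
        have hzI : z ∈ MulAut.conj h • (T : Subgroup G) ⊓ T :=
          Subgroup.mem_inf.mpr ⟨mem_smul_iff.mpr hzT2, hzT⟩
        rw [hTI h hh] at hzI
        exact ne_one_of_two hzo (Subgroup.mem_bot.mp hzI)
    exact h1.trans (h4.trans (h3.symm.trans h2.symm))
  exact hconj

end Cfsg.Agent.S0231
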