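import Cfsg.Statements.S0232
import Mathlib
import Cfsg.Agent.Lib.BrauerFowler
import Cfsg.Agent.Lib.InvolSylow

set_option autoImplicit false
open Cfsg

namespace Cfsg.Agent.S0232

open Cfsg.Agent.Lib.BrauerFowler

universe u

theorem aux : ∀ (n : ℕ) (G : Type u) [Group G] [Finite G], Nat.card G = n → Even n → 2 < n →
    ∃ H : Subgroup G, H ≠ ⊤ ∧ n < (Nat.card H) ^ 3 := by
  intro n
  induction n using Nat.strong_induction_on with
  | _ n ih =>
    intro G _ _ hn heven hgt
    classical
    haveI : Fact (Nat.Prime 2) := ⟨Nat.prime_two⟩
    by_cases hZ : Odd (Nat.card (Subgroup.center G))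
    · obtain ⟨H, hH, hcase⟩ := brauer_fowler (hn ▸ heven) hZ
      rcases hcase with h2 | h2
      · refine ⟨H, hH, ?_⟩
        have h3 : 2 * Nat.card H = n := by
          rw [← hn, ← h2]
          exact Subgroup.index_mul_card H
        have h4 : 2 ≤ Nat.card H := by omega
        nlinarith [Nat.mul_le_mul h4 h4, Nat.mul_le_mul (Nat.mul_le_mul h4 h4) h4]
      · -- an involution
        obtain ⟨t, ht⟩ := exists_prime_orderOf_dvd_card' (G := G) 2 (by rw [hn]; exact even_iff_two_dvd.mp heven)
        set C := Subgroup.centralizer ({t} : Set G) with hC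
        have hCtop : C ≠ ⊤ := by
          intro h
          have hxc : t ∈ Subgroup.center G := by
            rw [Subgroup.mem_center_iff]
            intro g
            have : g ∈ C := by rw [h]; trivial
            exact Subgroup.mem_centralizer_singleton_iff.mp this
          have h3 : orderOf (⟨t, hxc⟩ : Subgroup.center G) = 2 := by
            rw [← Subgroup.orderOf_mk t hxc] at ht
            exact ht
          have h4 : 2 ∣ Nat.card (Subgroup.center G) := h3 ▸ orderOf_dvd_natCard _
          exact (Nat.not_even_iff_odd.mpr hZ) (even_iff_two_dvd.mpr h4)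
        set k := Nat.card {t : G // orderOf t = 2} with hk
        have hnG : k ≤ Nat.card G := Nat.card_le_card_of_injective Subtype.val Subtype.val_injective
        have hle := card_le_mul_centralizer t ht
        rw [← hC, ← hk, hn] at hle
        rw [hn] at hnG h2
        set c := Nat.card C with hc
        set h := Nat.card H with hh
        have hi : H.index * h = n := by rw [← hn]; exact Subgroup.index_mul_card H
        have hhpos : 0 < h := Nat.card_pos
        have hcpos : 0 < c := Nat.card_pos
        have hnpos : 0 < n := by omega
        -- `k² < n h`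
        have h3 : H.index * k ^ 2 < n ^ 2 := by
          have h4 : n * (n + k) ≤ 2 * n ^ 2 := by nlinarith
          have h5 : 2 * H.index * k ^ 2 < 2 * n ^ 2 := lt_of_lt_of_le h2 h4
          nlinarith
        have h4 : k ^ 2 < n * h := by
          have h5 : (H.index * k ^ 2) * h < n ^ 2 * h := Nat.mul_lt_mul_of_pos_right h3 hhpos
          have h6 : n * k ^ 2 < n * (n * h) := by
            calc n * k ^ 2 = H.index * h * k ^ 2 := by rw [hi]
              _ = (H.index * k ^ 2) * h := by ring
              _ < n ^ 2 * h := h5
              _ = n * (n * h) := by ring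
          exact Nat.lt_of_mul_lt_mul_left h6
        have h5 : n < c ^ 2 * h := by
          have h6 : n ^ 2 ≤ (c * k) ^ 2 := Nat.pow_le_pow_left hle 2
          have h7 : n * n < n * (c ^ 2 * h) := by
            calc n * n = n ^ 2 := by ring
              _ ≤ (c * k) ^ 2 := h6
              _ = c ^ 2 * k ^ 2 := by ring
              _ < c ^ 2 * (n * h) := Nat.mul_lt_mul_of_pos_left h4 (by positivity)
              _ = n * (c ^ 2 * h) := by ring
          exact Nat.lt_of_mul_lt_mul_left h7
        by_cases hch : c ≤ h
        · refine ⟨H, hH, lt_of_lt_of_le h5 ?_⟩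
          calc c ^ 2 * h ≤ h ^ 2 * h := Nat.mul_le_mul_right h (Nat.pow_le_pow_left hch 2)
            _ = h ^ 3 := by ring
        · refine ⟨C, hCtop, lt_of_lt_of_le h5 ?_⟩
          push Not at hch
          calc c ^ 2 * h ≤ c ^ 2 * c := Nat.mul_le_mul_left _ hch.le
            _ = c ^ 3 := by ring
    · -- central involution
      have h2Z : 2 ∣ Nat.card (Subgroup.center G) := even_iff_two_dvd.mp (Nat.not_odd_iff_even.mp hZ)
      obtain ⟨z, hz⟩ := exists_prime_orderOf_dvd_card' (G := Subgroup.center G) 2 h2Z
      set z' : G := z.1 with hz'
      have hz2 : orderOf z' = 2 := by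
        rw [← hz]; exact (Subgroup.orderOf_coe z)
      set K := Subgroup.zpowers z' with hK
      have hKn : K.Normal := by
        constructor
        intro x hx g
        have hzc : ∀ y : G, y * z' = z' * y := fun y => (Subgroup.mem_center_iff.mp z.2 y)
        obtain ⟨m, rfl⟩ := Subgroup.mem_zpowers_iff.mp hx
        have : g * z' ^ m * g⁻¹ = z' ^ m := by
          have h1 : Commute g (z' ^ m) := (Commute.zpow_right (hzc g) m)
          rw [h1.eq, mul_inv_cancel_right]
        rw [this]
        exact Subgroup.zpow_mem_zpowers z' m
      haveI := hKn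
      have hKc : Nat.card K = 2 := by rw [hK, Nat.card_zpowers, hz2]
      have hQ : n = Nat.card (G ⧸ K) * 2 := by
        rw [← hn, Subgroup.card_eq_card_quotient_mul_card_subgroup K, hKc]
      set q := Nat.card (G ⧸ K) with hq
      by_cases hq2 : q = 2
      · refine ⟨K, ?_, ?_⟩
        · intro h
          rw [h, Subgroup.card_top, hn] at hKc
          omega
        · rw [hKc]; omega
      by_cases hqe : Even q
      · have hq3 : 2 < q := by
          have : 0 < q := Nat.card_pos
          obtain ⟨r, hr⟩ := hqe
          omega
        obtain ⟨Hb, hHb, hcard⟩ := ih q (by omega) (G ⧸ K) rfl hqe hq3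
        set π := QuotientGroup.mk' K with hπ
        have hπs : Function.Surjective π := QuotientGroup.mk'_surjective K
        refine ⟨Hb.comap π, ?_, ?_⟩
        · intro h
          apply hHb
          rw [eq_top_iff]
          intro y _
          obtain ⟨x, rfl⟩ := hπs y
          have : x ∈ Hb.comap π := by rw [h]; trivial
          exact this
        · have hidx : (Hb.comap π).index = Hb.index := Subgroup.index_comap_of_surjective Hb hπs
          have h1 : (Hb.comap π).index * Nat.card (Hb.comap π) = n := by rw [← hn]; exact Subgroup.index_mul_card _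
          have h3 : Hb.index * Nat.card Hb = q := Subgroup.index_mul_card Hb
          have hipos : 0 < Hb.index := Nat.pos_of_ne_zero (Subgroup.index_ne_zero_of_finite)
          have h4 : Nat.card (Hb.comap π) = 2 * Nat.card Hb := by
            apply Nat.eq_of_mul_eq_mul_left hipos
            rw [← hidx, h1, hidx, hQ, ← h3]
            ring
          rw [h4]
          have h5 : (2 * Nat.card Hb) ^ 3 = 8 * (Nat.card Hb) ^ 3 := by ring
          rw [h5]
          omega
      · -- `q` odd: index two subgroup
        have hqo : Odd q := Nat.not_even_iff_odd.mp hqe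
        have hidx : ¬ 2 ∣ K.index := by
          intro h
          exact hqe (even_iff_two_dvd.mpr h)
        have hKp : IsPGroup 2 K := by
          apply IsPGroup.of_card (n := 1)
          rw [hKc, pow_one]
        let T : Sylow 2 G := hKp.toSylow hidx
        have hT : (T : Subgroup G) = K := rfl
        have hTc : IsCyclic (T : Subgroup G) := by
          rw [hT]; infer_instance
        obtain ⟨H, hH⟩ := Cfsg.Agent.Lib.InvolSylow.exists_index_two_of_cyclic_sylow (hn ▸ heven) T hTc
        refine ⟨H, ?_, ?_⟩
        · intro h
          rw [h, Subgroup.index_top] at hH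
          omega
        · have h3 : 2 * Nat.card H = n := by
            rw [← hn, ← hH]
            exact Subgroup.index_mul_card H
          have h4 : 2 ≤ Nat.card H := by omega
          nlinarith [Nat.mul_le_mul h4 h4, Nat.mul_le_mul (Nat.mul_le_mul h4 h4) h4]

/-- A finite group G of even order greater than 2 has a proper subgroup H with |G| < |H|^3. -/
theorem result {G : Type*} [Group G] [Finite G] (heven : Even (Nat.card G)) (hgt : 2 < Nat.card G) : ∃ H : Subgroup G, H ≠ ⊤ ∧ Nat.card G < (Nat.card H) ^ 3 := by
  exact aux _ G rfl heven hgt

end Cfsg.Agent.S0232
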