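import Cfsg.Statements.S0234
import Mathlib
import Cfsg.Agent.Lib.BrauerFowler
import Cfsg.Agent.Lib.InvolSylow
import Cfsg.Agent.Lib.CharGal

set_option autoImplicit false
open Cfsg

namespace Cfsg.Agent.S0234

open Cfsg.Agent.Lib.BrauerFowler

theorem count_alt5 : Nat.card {s : alternatingGroup (Fin 5) // orderOf s = 2} = 15 := by
  classical
  have h : Fintype.card {s : alternatingGroup (Fin 5) // s * s = 1 ∧ s ≠ 1} = 15 := by decide +kernel
  rw [← h, ← Nat.card_eq_fintype_card]
  apply Nat.card_congr
  apply Equiv.subtypeEquivRight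
  intro s
  constructor
  · intro hs
    refine ⟨?_, ?_⟩
    · rw [← pow_two, ← hs]; exact pow_orderOf_eq_one s
    · rintro rfl; simp at hs
  · rintro ⟨h1, h2⟩
    haveI : Fact (Nat.Prime 2) := ⟨Nat.prime_two⟩
    exact orderOf_eq_prime (by rw [pow_two]; exact h1) h2

theorem card_alt (i : ℕ) (hi : 2 ≤ i) : 2 * Nat.card (alternatingGroup (Fin i)) = Nat.factorial i := by
  haveI : Nontrivial (Fin i) := Fin.nontrivial_iff_two_le.mpr hi
  rw [two_mul_nat_card_alternatingGroup, Nat.card_perm, Nat.card_eq_fintype_card, Fintype.card_fin]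

variable {G : Type*} [Group G] [Finite G] [IsSimpleGroup G]

/-- embedding into an alternating group -/
theorem exists_alt (H : Subgroup G) (hH : H ≠ ⊤) (hgt : 2 < Nat.card G) :
    ∃ ψ : G →* alternatingGroup (Fin H.index), Function.Injective ψ := by
  classical
  haveI : Fintype (G ⧸ H) := Fintype.ofFinite _
  have e : G ⧸ H ≃ Fin H.index := Finite.equivFinOfCardEq rfl
  set φ : G →* Equiv.Perm (Fin H.index) := (Equiv.permCongrHom e).toMonoidHom.comp (MulAction.toPermHom G (G ⧸ H)) with hφ
  have hker : φ.ker ≠ ⊤ := by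
    intro h
    apply hH
    rw [eq_top_iff]
    intro x _
    have hx : x ∈ φ.ker := by rw [h]; trivial
    have h1 : φ x = 1 := hx
    have h1' : (MulAction.toPermHom G (G ⧸ H)) x = 1 := by
      apply (Equiv.permCongrHom e).injective
      rw [map_one]
      exact h1
    have h2 : x • ((1 : G) : G ⧸ H) = ((1 : G) : G ⧸ H) := by
      have := congrArg (fun p : Equiv.Perm (G ⧸ H) => p ((1 : G) : G ⧸ H)) h1'
      exact this
    have h3 : ((x : G) : G ⧸ H) = ((1 : G) : G ⧸ H) := by
      calc ((x : G) : G ⧸ H) = ((x * 1 : G) : G ⧸ H) := by rw [mul_one]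
        _ = x • ((1 : G) : G ⧸ H) := rfl
        _ = _ := h2
    rw [QuotientGroup.eq] at h3
    simpa using H.inv_mem h3
  have hinj : Function.Injective φ := by
    rw [← MonoidHom.ker_eq_bot_iff]
    exact (IsSimpleGroup.eq_bot_or_eq_top_of_normal φ.ker (MonoidHom.normal_ker φ)).resolve_right hker
  -- sign is trivial
  set σ : G →* ℤˣ := (Equiv.Perm.sign).comp φ with hσ
  have hσker : σ.ker = ⊤ := by
    refine (IsSimpleGroup.eq_bot_or_eq_top_of_normal σ.ker (MonoidHom.normal_ker σ)).resolve_left ?_
    intro h
    have hσinj : Function.Injective σ := (MonoidHom.ker_eq_bot_iff σ).mp h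
    have h3 := Nat.card_le_card_of_injective σ hσinj
    have h4 : Nat.card ℤˣ = 2 := by
      rw [Nat.card_eq_fintype_card, Fintype.card_units_int]
    omega
  have hmem : ∀ x : G, φ x ∈ alternatingGroup (Fin H.index) := by
    intro x
    rw [Equiv.Perm.mem_alternatingGroup]
    have : x ∈ σ.ker := by rw [hσker]; trivial
    exact this
  refine ⟨φ.codRestrict _ hmem, ?_⟩
  intro a b hab
  apply hinj
  exact congrArg Subtype.val hab

theorem not_comm_of_card (hgt : 2 < Nat.card G) (heven : Even (Nat.card G)) : ¬ ∀ a b : G, a * b = b * a := by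
  intro hcomm
  obtain ⟨t, ht⟩ := exists_prime_orderOf_dvd_card' (G := G) 2 (even_iff_two_dvd.mp heven)
  have hn : (Subgroup.zpowers t).Normal := by
    constructor
    intro x hx g
    rw [hcomm g x, mul_inv_cancel_right]
    exact hx
  have hc : Nat.card (Subgroup.zpowers t) = 2 := by rw [Nat.card_zpowers, ht]
  rcases IsSimpleGroup.eq_bot_or_eq_top_of_normal _ hn with h | h
  · rw [h, Subgroup.card_bot] at hc
    omega
  · rw [h, Subgroup.card_top] at hc
    omega

theorem not_pq (hgt : 2 < Nat.card G) (heven : Even (Nat.card G)) (p q a b : ℕ) (hp : p.Prime) (hq : q.Prime)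
    (hcard : Nat.card G = p ^ a * q ^ b) : False := by
  apply not_comm_of_card hgt heven
  rw [IsSimpleGroup.comm_iff_isSolvable]
  exact Cfsg.Agent.Lib.CharGal.solvable_of_card_pq p q a b hp hq hcard

theorem no_index_two (hgt : 2 < Nat.card G) (H : Subgroup G) (hH : H.index = 2) : False := by
  haveI := Subgroup.normal_of_index_eq_two hH
  rcases IsSimpleGroup.eq_bot_or_eq_top_of_normal H inferInstance with h | h
  · rw [h, Subgroup.index_bot] at hH
    omega
  · rw [h, Subgroup.index_top] at hH
    omega

theorem not_30 (hgt : 2 < Nat.card G) (hc : Nat.card G = 30) : False := by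
  classical
  haveI : Fact (Nat.Prime 2) := ⟨Nat.prime_two⟩
  obtain ⟨T⟩ : Nonempty (Sylow 2 G) := inferInstance
  obtain ⟨e, he⟩ := IsPGroup.iff_card.mp T.isPGroup'
  have hd : Nat.card T ∣ 30 := by rw [← hc]; exact Subgroup.card_subgroup_dvd_card _
  rw [he] at hd
  have he1 : e ≤ 1 := by
    by_contra hcon
    push Not at hcon
    have : 2 ^ 2 ∣ 2 ^ e := pow_dvd_pow 2 hcon
    have := this.trans hd
    omega
  have hTc : IsCyclic (T : Subgroup G) := by
    interval_cases e
    · have : Subsingleton (T : Subgroup G) := (Nat.card_eq_one_iff_unique.mp (by simpa using he)).1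
      infer_instance
    · haveI : Fact (Nat.Prime 2) := ⟨Nat.prime_two⟩
      exact isCyclic_of_prime_card (p := 2) he
  obtain ⟨H, hH⟩ := Cfsg.Agent.Lib.InvolSylow.exists_index_two_of_cyclic_sylow (by rw [hc]; decide) T hTc
  exact no_index_two hgt H hH

/-- In a finite simple group G of even order greater than 2, the number n of involutions satisfies 3n < |G|. -/
theorem result {G : Type*} [Group G] [Finite G] [IsSimpleGroup G] (heven : Even (Nat.card G)) (hgt : 2 < Nat.card G) : 3 * Nat.card {t : G // orderOf t = 2} < Nat.card G := by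
  classical
  by_contra hcon
  push Not at hcon
  set n := Nat.card {t : G // orderOf t = 2} with hn
  have hcomm := not_comm_of_card hgt heven
  have hZ : Subgroup.center G = ⊥ := by
    refine (IsSimpleGroup.eq_bot_or_eq_top_of_normal _ inferInstance).resolve_right ?_
    intro h
    apply hcomm
    intro a b
    have : a ∈ Subgroup.center G := by rw [h]; trivial
    exact (Subgroup.mem_center_iff.mp this b).symm
  have hodd : Odd (Nat.card (Subgroup.center G)) := by
    rw [hZ, Subgroup.card_bot]; exact odd_one
  obtain ⟨H, hH, hcase⟩ := brauer_fowler heven hodd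
  rcases hcase with h2 | h2
  · exact no_index_two hgt H h2
  rw [← hn] at h2
  have hnG : n ≤ Nat.card G := Nat.card_le_card_of_injective Subtype.val Subtype.val_injective
  have hnpos : 0 < n := by omega
  have hi6 : H.index < 6 := by
    have h3 : Nat.card G * (Nat.card G + n) ≤ (3 * n) * (4 * n) := Nat.mul_le_mul hcon (by omega)
    have h4 : 2 * H.index * n ^ 2 < 12 * n ^ 2 := by
      calc 2 * H.index * n ^ 2 < Nat.card G * (Nat.card G + n) := h2
        _ ≤ (3 * n) * (4 * n) := h3
        _ = 12 * n ^ 2 := by ring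
    have h5 := Nat.lt_of_mul_lt_mul_right h4
    omega
  have hi1 : H.index ≠ 1 := by
    intro h
    exact hH (Subgroup.index_eq_one.mp h)
  have hi0 : H.index ≠ 0 := Subgroup.index_ne_zero_of_finite
  obtain ⟨ψ, hψ⟩ := exists_alt H hH hgt
  have hdvd : Nat.card G ∣ Nat.card (alternatingGroup (Fin H.index)) := Subgroup.card_dvd_of_injective ψ hψ
  have hi2 : 2 ≤ H.index := by omega
  have hcA := card_alt H.index hi2
  have h2G : 2 ∣ Nat.card G := even_iff_two_dvd.mp heven
  generalize hj : H.index = i at *
  have hcases : i = 2 ∨ i = 3 ∨ i = 4 ∨ i = 5 := by omega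
  have hsmall : ∀ d, d = 4 ∨ d = 6 ∨ d = 10 ∨ d = 12 ∨ d = 20 ∨ d = 30 → Nat.card G ≠ d := by
    rintro d (rfl | rfl | rfl | rfl | rfl | rfl) hd
    · exact not_pq hgt heven 2 3 2 0 Nat.prime_two Nat.prime_three (by rw [hd]; norm_num)
    · exact not_pq hgt heven 2 3 1 1 Nat.prime_two Nat.prime_three (by rw [hd]; norm_num)
    · exact not_pq hgt heven 2 5 1 1 Nat.prime_two Nat.prime_five (by rw [hd]; norm_num)
    · exact not_pq hgt heven 2 3 2 1 Nat.prime_two Nat.prime_three (by rw [hd]; norm_num)
    · exact not_pq hgt heven 2 5 2 1 Nat.prime_two Nat.prime_five (by rw [hd]; norm_num)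
    · exact not_30 hgt hd
  rcases hcases with rfl | rfl | rfl | rfl
  · have : Nat.card (alternatingGroup (Fin 2)) = 1 := by
      have e : Nat.factorial 2 = 2 := rfl
      rw [e] at hcA; omega
    rw [this] at hdvd
    have := Nat.le_of_dvd one_pos hdvd
    omega
  · have : Nat.card (alternatingGroup (Fin 3)) = 3 := by
      have e : Nat.factorial 3 = 6 := rfl
      rw [e] at hcA; omega
    rw [this] at hdvd
    have := Nat.le_of_dvd (by norm_num) hdvd
    interval_cases (Nat.card G) <;> omega
  · have : Nat.card (alternatingGroup (Fin 4)) = 12 := by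
      have e : Nat.factorial 4 = 24 := rfl
      rw [e] at hcA; omega
    rw [this] at hdvd
    have := Nat.le_of_dvd (by norm_num) hdvd
    have h4 := hsmall 4 (by simp)
    have h6 := hsmall 6 (by simp)
    have h12 := hsmall 12 (by simp)
    interval_cases (Nat.card G) <;> omega
  · have hc60 : Nat.card (alternatingGroup (Fin 5)) = 60 := by
      have e : Nat.factorial 5 = 120 := rfl
      rw [e] at hcA; omega
    rw [hc60] at hdvd
    have hle := Nat.le_of_dvd (by norm_num) hdvd
    have h4 := hsmall 4 (by simp)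
    have h6 := hsmall 6 (by simp)
    have h10 := hsmall 10 (by simp)
    have h12 := hsmall 12 (by simp)
    have h20 := hsmall 20 (by simp)
    have h30 := hsmall 30 (by simp)
    have hG60 : Nat.card G = 60 := by
      set g := Nat.card G with hg
      interval_cases g <;> omega
    -- now `ψ` is bijective
    have hbij : Function.Bijective ψ := by
      rw [Nat.bijective_iff_injective_and_card]
      exact ⟨hψ, by rw [hG60, hc60]⟩
    have hnc : n = 15 := by
      rw [hn, ← count_alt5]
      apply Nat.card_congr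
      refine Equiv.subtypeEquiv (Equiv.ofBijective ψ hbij) ?_
      intro a
      simp only [Equiv.ofBijective_apply]
      rw [orderOf_injective ψ hψ]
    omega

end Cfsg.Agent.S0234
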