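import Cfsg.Statements.S0235
import Mathlib
import Cfsg.Agent.Lib.Invol

set_option autoImplicit false
open Cfsg

namespace Cfsg.Agent.S0235



/-- If x² ≠ 1, the ordered pairs (u, v) of involutions with uv = x correspond bijectively to the involutions t with t x t⁻¹ = x⁻¹ (via (u, v) ↦ u), so the two counts agree. -/
theorem result {G : Type*} [Group G] [Finite G] (x : G) (hx : x ^ 2 ≠ 1) : Nat.card {p : G × G // orderOf p.1 = 2 ∧ orderOf p.2 = 2 ∧ p.1 * p.2 = x} = Nat.card {t : G // orderOf t = 2 ∧ t * x * t⁻¹ = x⁻¹} := by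
  have e : {p : G × G // orderOf p.1 = 2 ∧ orderOf p.2 = 2 ∧ p.1 * p.2 = x} ≃
      {t : G // orderOf t = 2 ∧ t * x * t⁻¹ = x⁻¹} :=
    { toFun := fun p => ⟨p.1.1, p.2.1, Cfsg.Agent.Lib.Invol.invert_of_pair p.2.1 p.2.2.1 p.2.2.2⟩
      invFun := fun t => ⟨(t.1, t.1 * x), by
        obtain ⟨h1, h2⟩ := t.2
        refine ⟨h1, ?_, ?_⟩
        · apply orderOf_eq_prime (Cfsg.Agent.Lib.Invol.sq_mul_of_invert h1 h2)
          intro h
          apply hx
          have h3 : t.1⁻¹ = x := inv_eq_of_mul_eq_one_right h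
          rw [← h3, Cfsg.Agent.Lib.Invol.inv_eq_self h1]
          exact Cfsg.Agent.Lib.Invol.sq_eq_one h1
        · exact Cfsg.Agent.Lib.Invol.left_cancel_pair h1⟩
      left_inv := fun p => by
        obtain ⟨⟨u, v⟩, h1, h2, h3⟩ := p
        apply Subtype.ext
        simp only at h3
        subst h3
        ext
        · rfl
        · exact Cfsg.Agent.Lib.Invol.left_cancel_pair h1
      right_inv := fun t => rfl }
  exact Nat.card_congr e

end Cfsg.Agent.S0235
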