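import Cfsg.Statements.S0236
import Mathlib
import Cfsg.Agent.Lib.Invol

set_option autoImplicit false
open Cfsg

namespace Cfsg.Agent.S0236



/-- If x is an involution, the number of ordered pairs (u, v) of involutions with uv = x, plus one, equals the number of involutions in the centralizer of x. -/
theorem result {G : Type*} [Group G] [Finite G] (x : G) (hx : orderOf x = 2) : Nat.card {p : G × G // orderOf p.1 = 2 ∧ orderOf p.2 = 2 ∧ p.1 * p.2 = x} + 1 = Nat.card {t : G // orderOf t = 2 ∧ Commute t x} := by
  classical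
  have hc : ∀ u v : G, orderOf u = 2 → orderOf v = 2 → u * v = x → Commute u x := by
    intro u v h1 h2 h3
    have := Cfsg.Agent.Lib.Invol.invert_of_pair h1 h2 h3
    rw [Cfsg.Agent.Lib.Invol.inv_eq_self hx, Cfsg.Agent.Lib.Invol.inv_eq_self h1] at this
    calc u * x = u * x * u * u := by
          rw [mul_assoc _ u u, Cfsg.Agent.Lib.Invol.mul_self_eq_one h1, mul_one]
      _ = x * u := by rw [this]
  have hne : ∀ u v : G, orderOf v = 2 → u * v = x → u ≠ x := by
    intro u v h2 h3 h
    subst h
    have : v = 1 := by simpa using h3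
    subst this
    simp at h2
  have e : {p : G × G // orderOf p.1 = 2 ∧ orderOf p.2 = 2 ∧ p.1 * p.2 = x} ≃
      {t : G // (orderOf t = 2 ∧ Commute t x) ∧ t ≠ x} :=
    { toFun := fun p => ⟨p.1.1, ⟨p.2.1, hc _ _ p.2.1 p.2.2.1 p.2.2.2⟩, hne _ _ p.2.2.1 p.2.2.2⟩
      invFun := fun t => ⟨(t.1, t.1 * x), by
        obtain ⟨⟨h1, h2⟩, h3⟩ := t.2
        refine ⟨h1, ?_, ?_⟩
        · apply orderOf_eq_prime
          · rw [h2.mul_pow, Cfsg.Agent.Lib.Invol.sq_eq_one h1, Cfsg.Agent.Lib.Invol.sq_eq_one hx, one_mul]
          · intro h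
            apply h3
            have h4 : t.1⁻¹ = x := inv_eq_of_mul_eq_one_right h
            exact (Cfsg.Agent.Lib.Invol.inv_eq_self h1).symm.trans h4
        · exact Cfsg.Agent.Lib.Invol.left_cancel_pair h1⟩
      left_inv := fun p => by
        obtain ⟨⟨u, v⟩, h1, h2, h3⟩ := p
        apply Subtype.ext
        simp only at h3
        subst h3
        ext
        · rfl
        · exact Cfsg.Agent.Lib.Invol.left_cancel_pair h1
      right_inv := fun t => rfl }
  have e2 : {t : G // orderOf t = 2 ∧ Commute t x} ≃ Option {t : G // (orderOf t = 2 ∧ Commute t x) ∧ t ≠ x} :=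
    { toFun := fun t => if h : t.1 = x then none else some ⟨t.1, t.2, h⟩
      invFun := fun o => match o with
        | none => ⟨x, hx, Commute.refl x⟩
        | some t => ⟨t.1, t.2.1⟩
      left_inv := fun t => by
        by_cases h : t.1 = x
        · simp [h]; apply Subtype.ext; exact h.symm
        · simp [h]
      right_inv := fun o => by
        cases o with
        | none => simp
        | some t => simp [t.2.2] }
  have : Fintype G := Fintype.ofFinite G
  rw [Nat.card_congr e, Nat.card_congr e2]
  simp [Nat.card_eq_fintype_card, Fintype.card_option]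

end Cfsg.Agent.S0236
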