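import Cfsg.Statements.S0237
import Mathlib

set_option autoImplicit false
open Cfsg

namespace Cfsg.Agent.S0237



/-- If x is real (conjugate to x⁻¹) in a finite group G, the number of g with g x g⁻¹ = x⁻¹ equals |C_G(x)|. -/
theorem result {G : Type*} [Group G] [Finite G] (x : G) (hreal : IsConj x x⁻¹) : Nat.card {g : G // g * x * g⁻¹ = x⁻¹} = Nat.card (Subgroup.centralizer ({x} : Set G)) := by
  obtain ⟨c, hc⟩ := isConj_iff.mp hreal
  have e : {g : G // g * x * g⁻¹ = x⁻¹} ≃ ↥(Subgroup.centralizer ({x} : Set G)) :=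
    { toFun := fun g => ⟨c⁻¹ * g, by
        rw [Subgroup.mem_centralizer_singleton_iff]
        have := g.2
        have h2 : g.1 * x * g.1⁻¹ = c * x * c⁻¹ := by rw [this, hc]
        calc c⁻¹ * g.1 * x = c⁻¹ * (g.1 * x * g.1⁻¹) * g.1 := by group
          _ = c⁻¹ * (c * x * c⁻¹) * g.1 := by rw [h2]
          _ = x * (c⁻¹ * g.1) := by group⟩
      invFun := fun z => ⟨c * z.1, by
        have hz := z.2
        rw [Subgroup.mem_centralizer_singleton_iff] at hz
        calc c * z.1 * x * (c * z.1)⁻¹ = c * (z.1 * x) * z.1⁻¹ * c⁻¹ := by group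
          _ = c * (x * z.1) * z.1⁻¹ * c⁻¹ := by rw [hz]
          _ = c * x * c⁻¹ := by group
          _ = x⁻¹ := hc⟩
      left_inv := fun g => by simp
      right_inv := fun z => by simp }
  exact Nat.card_congr e

end Cfsg.Agent.S0237
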