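import Cfsg.Statements.S0238
import Cfsg.Agent.Lib.Invol
import Cfsg.Agent.S0237
import Cfsg.Agent.S0236

set_option autoImplicit false
open Cfsg

namespace Cfsg.Agent.S0238



/-- For every x in a finite group G, the number c of ordered pairs (u, v) of involutions with uv = x is at most |C_G(x)|; c = 0 when x is not conjugate to x⁻¹; and c + 2 ≤ |C_G(x)| when x is an involution. -/
theorem result {G : Type*} [Group G] [Finite G] (x : G) : Nat.card {p : G × G // orderOf p.1 = 2 ∧ orderOf p.2 = 2 ∧ p.1 * p.2 = x} ≤ Nat.card (Subgroup.centralizer ({x} : Set G)) ∧ (¬ IsConj x x⁻¹ → Nat.card {p : G × G // orderOf p.1 = 2 ∧ orderOf p.2 = 2 ∧ p.1 * p.2 = x} = 0) ∧ (orderOf x = 2 → Nat.card {p : G × G // orderOf p.1 = 2 ∧ orderOf p.2 = 2 ∧ p.1 * p.2 = x} + 2 ≤ Nat.card (Subgroup.centralizer ({x} : Set G))) := by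
  classical
  have : Fintype G := Fintype.ofFinite G
  have hinj : Nat.card {p : G × G // orderOf p.1 = 2 ∧ orderOf p.2 = 2 ∧ p.1 * p.2 = x} ≤
      Nat.card {g : G // g * x * g⁻¹ = x⁻¹} := by
    refine Nat.card_le_card_of_injective
      (fun p => ⟨p.1.1, Cfsg.Agent.Lib.Invol.invert_of_pair p.2.1 p.2.2.1 p.2.2.2⟩) ?_
    rintro ⟨⟨u, v⟩, h1, h2, h3⟩ ⟨⟨u', v'⟩, h1', h2', h3'⟩ h
    simp only [Subtype.mk.injEq] at h
    subst h
    simp only at h3 h3'
    have : v = v' := mul_left_cancel (h3.trans h3'.symm)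
    subst this
    rfl
  have hzero : ¬ IsConj x x⁻¹ → Nat.card {p : G × G // orderOf p.1 = 2 ∧ orderOf p.2 = 2 ∧ p.1 * p.2 = x} = 0 := by
    intro hn
    rw [Nat.card_eq_zero]
    left
    constructor
    rintro ⟨⟨u, v⟩, h1, h2, h3⟩
    apply hn
    rw [isConj_iff]
    exact ⟨u, by
      simp only at h3
      rw [← h3]
      exact Cfsg.Agent.Lib.Invol.conj_mul_inv h1 h2⟩
  refine ⟨?_, hzero, ?_⟩
  · by_cases hr : IsConj x x⁻¹
    · rw [← Cfsg.Agent.S0237.result x hr]; exact hinj
    · rw [hzero hr]; exact Nat.zero_le _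
  · intro hx
    have h1 := Cfsg.Agent.S0236.result x hx
    -- involutions commuting with x inject into the centralizer minus 1
    have h2 : Nat.card {t : G // orderOf t = 2 ∧ Commute t x} + 1 ≤ Nat.card (Subgroup.centralizer ({x} : Set G)) := by
      refine Cfsg.Agent.Lib.Invol.card_add_one_le
        (fun t => (⟨t.1, by
              rw [Subgroup.mem_centralizer_singleton_iff]
              exact t.2.2⟩ : ↥(Subgroup.centralizer ({x} : Set G)))) ?_ 1 ?_
      · intro a b h
        have h' : a.1 = b.1 := by simpa using h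
        exact Subtype.ext h'
      · intro a h
        have h2 : a.1 = 1 := by simpa using congrArg Subtype.val h
        have h3 := a.2.1
        rw [h2] at h3
        simp at h3
    omega

end Cfsg.Agent.S0238
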