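import Cfsg.Statements.S0239
import Mathlib

set_option autoImplicit false
open Cfsg

namespace Cfsg.Agent.S0239



/-- If some nontrivial element x of a finite group G is conjugate to x⁻¹, then |G| is even. -/
theorem result {G : Type*} [Group G] [Finite G] (x : G) (hx : x ≠ 1) (hreal : IsConj x x⁻¹) : Even (Nat.card G) := by
  by_contra hG
  rw [Nat.not_even_iff_odd] at hG
  obtain ⟨g, hg⟩ := isConj_iff.mp hreal
  -- g has odd order, so g is a power of g²
  have hgo : Odd (orderOf g) := Odd.of_dvd_nat hG (orderOf_dvd_natCard g)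
  have h2 : g ^ 2 * x * (g ^ 2)⁻¹ = x := by
    calc g ^ 2 * x * (g ^ 2)⁻¹ = g * (g * x * g⁻¹) * g⁻¹ := by simp [pow_two, mul_assoc]
      _ = g * x⁻¹ * g⁻¹ := by rw [hg]
      _ = (g * x * g⁻¹)⁻¹ := by group
      _ = x := by rw [hg, inv_inv]
  obtain ⟨m, hm⟩ := hgo
  have h3 : g ^ (2 * (m + 1)) = g := by
    have : 2 * (m + 1) = orderOf g + 1 := by omega
    rw [this, pow_succ, pow_orderOf_eq_one, one_mul]
  have hc : Commute (g ^ 2) x := by
    rw [mul_inv_eq_iff_eq_mul] at h2
    exact h2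
  have hc' : Commute g x := by
    have := hc.pow_left (m + 1)
    rwa [← pow_mul, h3] at this
  have h4 : x = x⁻¹ := by
    rw [← hg]
    rw [hc'.eq]
    group
  have h5 : x ^ 2 = 1 := by
    rw [pow_two]
    nth_rewrite 2 [h4]
    simp
  have h6 : orderOf x = 2 := orderOf_eq_prime h5 hx
  have h7 : 2 ∣ Nat.card G := h6 ▸ orderOf_dvd_natCard x
  exact (Nat.not_even_iff_odd.mpr hG) (even_iff_two_dvd.mpr h7)

end Cfsg.Agent.S0239
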