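import Cfsg.Statements.S0240
import Mathlib
import Cfsg.Agent.Lib.Invol

set_option autoImplicit false
open Cfsg

namespace Cfsg.Agent.S0240



/-- Let G be a finite group with n involutions and H a subgroup with |H|·(n+1) > |G|. Then some nontrivial h ∈ H is strongly real in G: an involution t of G satisfies t h t⁻¹ = h⁻¹. -/
theorem result {G : Type*} [Group G] [Finite G] (H : Subgroup G) (hH : Nat.card G < Nat.card H * (Nat.card {t : G // orderOf t = 2} + 1)) : ∃ h : G, h ∈ H ∧ h ≠ 1 ∧ ∃ t : G, orderOf t = 2 ∧ t * h * t⁻¹ = h⁻¹ := by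
  classical
  have : Fintype G := Fintype.ofFinite G
  -- S = {1} ∪ involutions
  let S := {s : G // s = 1 ∨ orderOf s = 2}
  have hS : Nat.card S = Nat.card {t : G // orderOf t = 2} + 1 := by
    have e : S ≃ Option {t : G // orderOf t = 2} :=
      { toFun := fun s => if h : s.1 = 1 then none else some ⟨s.1, s.2.resolve_left h⟩
        invFun := fun o => o.elim ⟨1, Or.inl rfl⟩ (fun t => ⟨t.1, Or.inr t.2⟩)
        left_inv := fun s => by
          by_cases h : s.1 = 1
          · simp only [h, dite_true, Option.elim_none]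
            exact Subtype.ext h.symm
          · simp [h]
        right_inv := fun o => by
          cases o with
          | none => simp
          | some t =>
            have : t.1 ≠ 1 := by
              intro h
              have := t.2
              rw [h] at this
              simp at this
            simp [this] }
    rw [Nat.card_congr e, Finite.card_option]
  -- pigeonhole on S × H → G
  have hcard : Nat.card G < Nat.card (S × H) := by
    rw [Nat.card_prod, hS, mul_comm]
    exact hH
  have hni : ¬ Function.Injective (fun p : S × H => p.1.1 * (p.2 : G)) := fun hinj =>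
    absurd (Nat.card_le_card_of_injective _ hinj) (not_le.mpr hcard)
  rw [Function.not_injective_iff] at hni
  obtain ⟨⟨⟨s₁, hs₁⟩, h₁⟩, ⟨⟨s₂, hs₂⟩, h₂⟩, heq, hne⟩ := hni
  simp only at heq
  have hss : s₁ ≠ s₂ := by
    rintro rfl
    apply hne
    have := mul_left_cancel heq
    congr
    exact Subtype.ext this
  have hinvs : ∀ s : G, s = 1 ∨ orderOf s = 2 → s⁻¹ = s := by
    rintro s (rfl | h)
    · simp
    · exact Cfsg.Agent.Lib.Invol.inv_eq_self h
  have hk : s₁ * s₂ = h₁ * (h₂ : G)⁻¹ := by
    have h3 : (s₁)⁻¹ * s₂ = h₁ * (h₂ : G)⁻¹ := by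
      calc (s₁)⁻¹ * s₂ = (s₁)⁻¹ * (s₂ * h₂) * (h₂ : G)⁻¹ := by group
        _ = (s₁)⁻¹ * (s₁ * h₁) * (h₂ : G)⁻¹ := by rw [heq]
        _ = h₁ * (h₂ : G)⁻¹ := by group
    rwa [hinvs _ hs₁] at h3
  refine ⟨s₁ * s₂, ?_, ?_, ?_⟩
  · rw [hk]; exact H.mul_mem h₁.2 (H.inv_mem h₂.2)
  · intro h
    apply hss
    have := eq_inv_of_mul_eq_one_left h
    rwa [hinvs _ hs₂] at this
  · rcases hs₁ with rfl | h1
    · rcases hs₂ with rfl | h2
      · exact absurd rfl hss
      · exact ⟨s₂, h2, by simp [Cfsg.Agent.Lib.Invol.inv_eq_self h2, Cfsg.Agent.Lib.Invol.mul_self_eq_one h2]⟩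
    · refine ⟨s₁, h1, ?_⟩
      rcases hs₂ with rfl | h2
      · simp [Cfsg.Agent.Lib.Invol.inv_eq_self h1, Cfsg.Agent.Lib.Invol.mul_self_eq_one h1]
      · exact Cfsg.Agent.Lib.Invol.conj_mul_inv h1 h2

end Cfsg.Agent.S0240
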