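import Cfsg.Statements.S0241
import Mathlib
import Cfsg.Agent.Lib.Invol

set_option autoImplicit false
open Cfsg

namespace Cfsg.Agent.S0241



/-- If x ≠ 1 is conjugate to x⁻¹ in a finite group G and |C_G(x)| is odd, then some involution t satisfies t x t⁻¹ = x⁻¹. -/
theorem result {G : Type*} [Group G] [Finite G] (x : G) (hx : x ≠ 1) (hreal : IsConj x x⁻¹) (hodd : Odd (Nat.card (Subgroup.centralizer ({x} : Set G)))) : ∃ t : G, orderOf t = 2 ∧ t * x * t⁻¹ = x⁻¹ := by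
  obtain ⟨g, hg⟩ := isConj_iff.mp hreal
  -- x² ≠ 1, else x is an involution in the odd-order centralizer
  have hxmem : x ∈ Subgroup.centralizer ({x} : Set G) := by
    rw [Subgroup.mem_centralizer_singleton_iff]
  have hx2 : x ^ 2 ≠ 1 := by
    intro h
    have h6 : orderOf x = 2 := orderOf_eq_prime h hx
    have h7 : orderOf (⟨x, hxmem⟩ : ↥(Subgroup.centralizer ({x} : Set G))) = 2 := by
      rw [Subgroup.orderOf_mk]; exact h6
    have h8 : 2 ∣ Nat.card (Subgroup.centralizer ({x} : Set G)) := h7 ▸ orderOf_dvd_natCard _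
    exact (Nat.not_even_iff_odd.mpr hodd) (even_iff_two_dvd.mpr h8)
  -- odd powers of g invert x
  have hpow : ∀ k : ℕ, g ^ (2 * k + 1) * x * (g ^ (2 * k + 1))⁻¹ = x⁻¹ := by
    intro k
    induction k with
    | zero => simpa using hg
    | succ n ih =>
      have e1 : 2 * (n + 1) + 1 = 2 * n + 1 + 2 := by ring
      have e2 : g ^ (2 * (n + 1) + 1) * x * (g ^ (2 * (n + 1) + 1))⁻¹ =
          g ^ (2 * n + 1) * (g * (g * x * g⁻¹) * g⁻¹) * (g ^ (2 * n + 1))⁻¹ := by
        rw [e1, pow_add]; simp [pow_two, mul_assoc]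
      rw [e2, hg]
      have e3 : g * x⁻¹ * g⁻¹ = x := by
        have : g * x⁻¹ * g⁻¹ = (g * x * g⁻¹)⁻¹ := by group
        rw [this, hg, inv_inv]
      rw [e3, ih]
  have hgpos : 0 < orderOf g := orderOf_pos g
  -- decompose the order of g
  obtain ⟨r, m, hm, hn⟩ : ∃ r m : ℕ, Odd m ∧ orderOf g = 2 ^ r * m := by
    obtain ⟨r, m, hm, hn⟩ := Nat.exists_eq_two_pow_mul_odd hgpos.ne'
    exact ⟨r, m, hm, hn⟩
  obtain ⟨k, hk⟩ := hm
  set h := g ^ m with hh
  have hinv : h * x * h⁻¹ = x⁻¹ := by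
    rw [hh, hk]; exact hpow k
  -- h has 2-power order
  have hpow2 : h ^ (2 ^ r) = 1 := by
    rw [hh, ← pow_mul, mul_comm, ← hn, pow_orderOf_eq_one]
  -- h² commutes with x
  have hcomm : h ^ 2 * x * (h ^ 2)⁻¹ = x := by
    calc h ^ 2 * x * (h ^ 2)⁻¹ = h * (h * x * h⁻¹) * h⁻¹ := by simp [pow_two, mul_assoc]
      _ = h * x⁻¹ * h⁻¹ := by rw [hinv]
      _ = (h * x * h⁻¹)⁻¹ := by group
      _ = x := by rw [hinv, inv_inv]
  have hmem : h ^ 2 ∈ Subgroup.centralizer ({x} : Set G) := by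
    rw [Subgroup.mem_centralizer_singleton_iff]
    rw [mul_inv_eq_iff_eq_mul] at hcomm
    exact hcomm
  -- h² has odd order and 2-power order
  have hh2 : h ^ 2 = 1 := by
    have h1 : orderOf (h ^ 2) ∣ 2 ^ r := by
      rw [orderOf_dvd_iff_pow_eq_one, ← pow_mul, mul_comm, pow_mul, hpow2, one_pow]
    have h2 : orderOf (h ^ 2) ∣ Nat.card (Subgroup.centralizer ({x} : Set G)) := by
      have := orderOf_dvd_natCard (⟨h ^ 2, hmem⟩ : ↥(Subgroup.centralizer ({x} : Set G)))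
      rwa [Subgroup.orderOf_mk] at this
    have h3 : Nat.Coprime (2 ^ r) (Nat.card (Subgroup.centralizer ({x} : Set G))) :=
      Nat.Coprime.pow_left r (Nat.coprime_two_left.mpr hodd)
    have h4 : orderOf (h ^ 2) = 1 := Nat.eq_one_of_dvd_coprimes h3 h1 h2
    exact orderOf_eq_one_iff.mp h4
  refine ⟨h, ?_, hinv⟩
  apply orderOf_eq_prime hh2
  intro h1
  rw [h1] at hinv
  apply hx2
  have h5 : x = x⁻¹ := by simpa using hinv
  rw [pow_two]
  nth_rewrite 2 [h5]
  simp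

end Cfsg.Agent.S0241
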