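import Cfsg.Statements.S0247
import Cfsg.Agent.Lib.Heart
import Cfsg.Agent.Lib.SympOrder

set_option autoImplicit false
open Cfsg

namespace Cfsg.Agent.S0247

/-- Sp_4(2) is isomorphic to the symmetric group S_6. -/
theorem result {F : Type*} [Field F] [Fintype F] (hF : Fintype.card F = 2) : Nonempty (Matrix.symplecticGroup (Fin 2) F ≃* Equiv.Perm (Fin 6)) := by
  classical
  haveI : CharP F 2 := by
    have h0 : ((2 : ℕ) : F) = 0 := by
      rw [← hF]
      exact Nat.cast_card_eq_zero F
    exact CharTwo.of_one_ne_zero_of_two_eq_zero one_ne_zero (by exact_mod_cast h0)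
  obtain ⟨f, hf⟩ := Cfsg.Agent.Lib.Heart.embed_perm (α := Fin 6) (F := F) 2 (by simp) (by simp)
  have hcard : Nat.card (Equiv.Perm (Fin 6)) = Nat.card ↥(Matrix.symplecticGroup (Fin 2) F) := by
    rw [Cfsg.Agent.Lib.SympOrder.card_Sp, hF, Nat.card_perm]
    simp [Finset.prod_range_succ, Nat.factorial]
  have hb := (Nat.bijective_iff_injective_and_card f).2 ⟨hf, hcard⟩
  exact ⟨(MulEquiv.ofBijective f hb).symm⟩

end Cfsg.Agent.S0247
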