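import Cfsg.Statements.S0250
import Cfsg.Agent.Lib.SL2Gen

set_option autoImplicit false
open Cfsg

namespace Cfsg.Agent.S0250

open scoped LinearAlgebra.Projectivization

/-- SL_2(2) is isomorphic to S_3. -/
theorem result {F : Type*} [Field F] [Fintype F] (hF : Fintype.card F = 2) : Nonempty (Matrix.SpecialLinearGroup (Fin 2) F ≃* Equiv.Perm (Fin 3)) := by
  classical
  have hfr : Module.finrank F (Fin 2 → F) = 2 := by simp
  have hP : Nat.card (ℙ F (Fin 2 → F)) = 3 := by
    rw [Projectivization.card_of_finrank_two F (Fin 2 → F) hfr, Nat.card_eq_fintype_card, hF]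
  haveI : Finite (ℙ F (Fin 2 → F)) := Nat.finite_of_card_ne_zero (by omega)
  letI := Fintype.ofFinite (ℙ F (Fin 2 → F))
  have hP' : Fintype.card (ℙ F (Fin 2 → F)) = Fintype.card (Fin 3) := by
    rw [← Nat.card_eq_fintype_card, hP]; simp
  let e : ℙ F (Fin 2 → F) ≃ Fin 3 := Fintype.equivOfCardEq hP'
  let φ : Matrix.SpecialLinearGroup (Fin 2) F →* Equiv.Perm (ℙ F (Fin 2 → F)) :=
    MulAction.toPermHom _ _
  have hker : φ.ker = ⊥ := by
    rw [Projectivization.SL_mulAction_ker]
    rw [eq_bot_iff]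
    intro x hx
    have hc : Nat.card (Subgroup.center (Matrix.SpecialLinearGroup (Fin 2) F)) = 1 := by
      rw [Cfsg.Agent.Lib.ClassicalBasic.card_center_SL 2 (by norm_num), hF]
      norm_num
    have := (Nat.card_eq_one_iff_unique.1 hc).1
    have h2 := this.elim ⟨x, hx⟩ ⟨1, Subgroup.one_mem _⟩
    exact Subgroup.mem_bot.2 (congrArg Subtype.val h2)
  have hinj : Function.Injective φ := (MonoidHom.ker_eq_bot_iff φ).1 hker
  have hcard : Nat.card (Matrix.SpecialLinearGroup (Fin 2) F) = Nat.card (Equiv.Perm (ℙ F (Fin 2 → F))) := by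
    rw [Cfsg.Agent.Lib.SL2Gen.card_SL2, hF, Nat.card_eq_fintype_card (α := Equiv.Perm _), Fintype.card_perm,
      ← Nat.card_eq_fintype_card, hP]
    norm_num [Nat.factorial]
  have hbij : Function.Bijective φ := by
    refine (Nat.bijective_iff_injective_and_card φ).2 ⟨hinj, hcard⟩
  exact ⟨(MulEquiv.ofBijective φ hbij).trans e.permCongrHom⟩

end Cfsg.Agent.S0250
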