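import Cfsg.Statements.S0252
import Cfsg.Agent.S0494

set_option autoImplicit false
open Cfsg

namespace Cfsg.Agent.S0252

/-- PSL_2(4) is isomorphic to A_5. -/
theorem result {F : Type*} [Field F] [Fintype F] (hF : Fintype.card F = 4) : Nonempty (Matrix.ProjectiveSpecialLinearGroup (Fin 2) F ≃* alternatingGroup (Fin 5)) := by
  obtain ⟨a, ha, hsq⟩ := Cfsg.Agent.Lib.H1Rigid.exists_non_sq_one (F := F) (by omega)
  haveI := Cfsg.Agent.Lib.H1Rigid.PSL2_isSimple ha hsq
  have h1 := Cfsg.Agent.Lib.H1Rigid.PSL2_card (F := F)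
  rw [hF] at h1
  have h60 : Nat.card (Matrix.ProjectiveSpecialLinearGroup (Fin 2) F) = 60 := by
    norm_num at h1
    omega
  exact Cfsg.Agent.S0494.result h60

end Cfsg.Agent.S0252
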