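import Cfsg.Statements.S0253
import Cfsg.Agent.S0494

set_option autoImplicit false
open Cfsg

namespace Cfsg.Agent.S0253

/-- PSL_2(5) is isomorphic to A_5. -/
theorem result {F : Type*} [Field F] [Fintype F] (hF : Fintype.card F = 5) : Nonempty (Matrix.ProjectiveSpecialLinearGroup (Fin 2) F ≃* alternatingGroup (Fin 5)) := by
  haveI : Fact (Nat.Prime 5) := ⟨by norm_num⟩
  haveI : IsSimpleGroup (alternatingGroup (Fin 5)) := alternatingGroup.isSimpleGroup (by simp)
  have h5 : Nat.card (alternatingGroup (Fin 5)) = 60 := by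
    rw [Nat.card_eq_fintype_card]
    decide
  obtain ⟨e₂⟩ := Cfsg.Agent.S0494.iso5 h5 (F := F) hF
  exact ⟨e₂.symm⟩

end Cfsg.Agent.S0253
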