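import Cfsg.Statements.S0824
import Cfsg.Agent.Lib.HeartQ
import Cfsg.Agent.Lib.OrthOrder3

set_option autoImplicit false
open Cfsg

namespace Cfsg.Agent.S0824


open Matrix Cfsg.Agent.Lib.Heart Cfsg.Agent.Lib.HeartQ

section
variable {F : Type*} [Field F] [CharP F 2]

/-- The explicit coordinates on the even weight vectors. -/
def W₀ : ((Fin 1 ⊕ Fin 1) ⊕ Fin 2 → F) →ₗ[F] (Fin 5 → F) where
  toFun u := ![u (.inl (.inl 0)) + u (.inl (.inr 0)) + u (.inr 0),
    u (.inl (.inl 0)) + u (.inl (.inr 0)) + u (.inr 0) + u (.inr 1),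
    u (.inl (.inl 0)) + u (.inl (.inr 0)) + u (.inr 1),
    u (.inl (.inl 0)),
    u (.inl (.inr 0))]
  map_add' x y := by
    ext i
    fin_cases i <;> simp <;> ring
  map_smul' c x := by
    ext i
    fin_cases i <;> simp <;> ring

theorem W₀_mem (u : (Fin 1 ⊕ Fin 1) ⊕ Fin 2 → F) : W₀ u ∈ E (Fin 5) F := by
  rw [mem_E]
  have h2 : (2 : F) = 0 := CharTwo.two_eq_zero
  simp only [W₀, LinearMap.coe_mk, AddHom.coe_mk, Fin.sum_univ_five]
  simp
  grind

theorem W₀_Q (u : (Fin 1 ⊕ Fin 1) ⊕ Fin 2 → F) : Q0 (W₀ u) = quadFormMinus 1 F 1 1 u := by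
  have h2 : (2 : F) = 0 := CharTwo.two_eq_zero
  simp only [Q0, W₀, LinearMap.coe_mk, AddHom.coe_mk, Fin.sum_univ_five, quadFormMinus, Fin.sum_univ_one]
  simp
  grind

theorem rad_minus (u : (Fin 1 ⊕ Fin 1) ⊕ Fin 2 → F) (h : ∀ s, quadFormMinus 1 F 1 1 (u + s) = quadFormMinus 1 F 1 1 s) : u = 0 := by
  classical
  have h2 : (2 : F) = 0 := CharTwo.two_eq_zero
  have h0 := h 0
  have h1 := h (Pi.single (.inl (.inl 0)) 1)
  have h3 := h (Pi.single (.inl (.inr 0)) 1)
  have h4 := h (Pi.single (.inr 0) 1)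
  have h5 := h (Pi.single (.inr 1) 1)
  simp [quadFormMinus, Pi.single_apply] at h0 h1 h3 h4 h5
  ext i
  rcases i with (i | i) | i
  · fin_cases i
    simp
    grind
  · fin_cases i
    simp
    grind
  · fin_cases i
    · simp
      grind
    · simp
      grind

end


/-- O⁻_4(2) ≅ S_5: the isometry group of the form x y + z_1² + z_1 z_2 + z_2² over the field with 2 elements is isomorphic to the symmetric group on 5 letters. -/
theorem result {F : Type*} [Field F] [Fintype F] (hF : Fintype.card F = 2) : Nonempty (↥(Cfsg.isometryGroup F (Cfsg.quadFormMinus 1 F 1 1)) ≃* Equiv.Perm (Fin 5)) := by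
  classical
  haveI : CharP F 2 := by
    have h0 : ((2 : ℕ) : F) = 0 := by
      rw [← hF]
      exact Nat.cast_card_eq_zero F
    exact CharTwo.of_one_ne_zero_of_two_eq_zero one_ne_zero (by exact_mod_cast h0)
  have h01 : ∀ x : F, x = 0 ∨ x = 1 := by
    intro x
    by_cases hx : x = 0
    · exact Or.inl hx
    · right
      have := FiniteField.pow_card_sub_one_eq_one x hx
      rw [hF] at this
      simpa using this
  have hab : ∀ z₁ z₂ : F, z₁ ^ 2 + 1 * z₁ * z₂ + 1 * z₂ ^ 2 = 0 → z₁ = 0 ∧ z₂ = 0 := by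
    intro z₁ z₂ h
    have h2 : (2 : F) = 0 := CharTwo.two_eq_zero
    rcases h01 z₁ with rfl | rfl <;> rcases h01 z₂ with rfl | rfl <;> simp at h ⊢
    have : (1 : F) = 0 := by linear_combination h - h2
    exact one_ne_zero this
  obtain ⟨f, hf⟩ := embed_even (N := 5) (F := F) (by decide) (quadFormMinus 1 F 1 1) W₀ W₀_mem W₀_Q rad_minus (by decide)
  have hcard : Nat.card (Equiv.Perm (Fin 5)) = Nat.card ↥(Cfsg.isometryGroup F (Cfsg.quadFormMinus 1 F 1 1)) := by
    rw [Cfsg.Agent.Lib.OrthOrder3.card_minus hab, hF, Nat.card_perm]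
    simp [Finset.prod_range_succ, Nat.factorial]
  have hb := (Nat.bijective_iff_injective_and_card f).2 ⟨hf, hcard⟩
  exact ⟨(MulEquiv.ofBijective f hb).symm⟩

end Cfsg.Agent.S0824
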