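import Cfsg.Statements.S0300
import Cfsg.Agent.Lib.OmegaSL2
import Cfsg.Agent.Lib.OrthOrder2
import Cfsg.Agent.Lib.OrthOrder3
import Cfsg.Agent.Lib.OrthSpin3
import Cfsg.Agent.Lib.OrthStd2
import Cfsg.Agent.Lib.SL2Gen
import Cfsg.Agent.Lib.FieldEmbed2
import Cfsg.Agent.S0824

set_option autoImplicit false
open Cfsg

namespace Cfsg.Agent.S0300


open Matrix Cfsg
open Cfsg.Agent.Lib.OmegaIso Cfsg.Agent.Lib.OmegaSL2 Cfsg.Agent.Lib.HermStd Cfsg.Agent.Lib.FieldEmbed

section

variable {F K : Type*} [Field F] [Fintype F] [Field K] [Fintype K] [Algebra F K] {q : ℕ}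

/-- Frobenius on matrices. -/
noncomputable def cj (hK : Fintype.card K = q ^ 2) : Matrix (Fin 2) (Fin 2) K →+* Matrix (Fin 2) (Fin 2) K := (sig hK).mapMatrix

theorem cj_apply (hK : Fintype.card K = q ^ 2) (A : Matrix (Fin 2) (Fin 2) K) (i j : Fin 2) : cj hK A i j = (A i j) ^ q := rfl

/-- Hermitian matrices. -/
noncomputable def H (hF : Fintype.card F = q) (hK : Fintype.card K = q ^ 2) : Submodule F (Matrix (Fin 2) (Fin 2) K) where
  carrier := {A | A.transpose = cj hK A}
  add_mem' := by
    intro A B hA hB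
    simp only [Set.mem_setOf_eq] at *
    rw [Matrix.transpose_add, hA, hB, map_add]
  zero_mem' := by
    simp
  smul_mem' := by
    intro c A hA
    simp only [Set.mem_setOf_eq] at *
    ext i j
    rw [Matrix.transpose_apply, cj_apply, Matrix.smul_apply, Matrix.smul_apply, Algebra.smul_def, Algebra.smul_def, mul_pow, pow_q_alg hF, ← cj_apply hK, ← hA]
    rfl

theorem mem_H (hF : Fintype.card F = q) (hK : Fintype.card K = q ^ 2) {A : Matrix (Fin 2) (Fin 2) K} : A ∈ H hF hK ↔ A.transpose = cj hK A := Iff.rfl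

theorem pow_pow_q (hK : Fintype.card K = q ^ 2) (w : K) : (w ^ q) ^ q = w := by
  rw [← pow_mul, ← sq, ← hK, FiniteField.pow_card]

theorem herm_mem (hF : Fintype.card F = q) (hK : Fintype.card K = q ^ 2) {x y : K} (w : K) (hx : x ^ q = x) (hy : y ^ q = y) :
    !![x, w; w ^ q, y] ∈ H hF hK := by
  rw [mem_H]
  ext i j
  rw [Matrix.transpose_apply, cj_apply]
  fin_cases i <;> fin_cases j
  · exact hx.symm
  · rfl
  · exact (pow_pow_q hK w).symm
  · exact hy.symm

/-- The linear coordinates of Hermitian matrices. -/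
noncomputable def LL (hF : Fintype.card F = q) (hK : Fintype.card K = q ^ 2) (S₀ : (Fin 2 → F) →ₗ[F] K) :
    ((Fin 1 ⊕ Fin 1) ⊕ Fin 2 → F) →ₗ[F] H hF hK where
  toFun v := ⟨!![-algebraMap F K (v (Sum.inl (Sum.inl 0))), S₀ (fun i => v (Sum.inr i)); (S₀ (fun i => v (Sum.inr i))) ^ q, algebraMap F K (v (Sum.inl (Sum.inr 0)))],
    herm_mem hF hK _ (by
      have h1 : (-1 : K) ^ q = -1 := by
        rw [← sig_apply hK, map_neg, map_one]
      rw [neg_pow, h1, pow_q_alg hF, neg_one_mul]) (pow_q_alg hF _)⟩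
  map_add' v w := by
    apply Subtype.ext
    ext i j
    have h1 : (fun i => (v + w) (Sum.inr i)) = (fun i => v (Sum.inr i)) + (fun i => w (Sum.inr i)) := rfl
    have h2 : ∀ x y : K, (x + y) ^ q = x ^ q + y ^ q := fun x y => by
      rw [← sig_apply hK, map_add]
      rfl
    rw [Submodule.coe_add, Matrix.add_apply]
    fin_cases i <;> fin_cases j
    · show -algebraMap F K ((v + w) _) = -algebraMap F K (v _) + -algebraMap F K (w _)
      rw [Pi.add_apply, map_add]
      ring
    · show S₀ _ = S₀ _ + S₀ _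
      rw [h1, map_add]
    · show (S₀ _) ^ q = (S₀ _) ^ q + (S₀ _) ^ q
      rw [h1, map_add, h2]
    · show algebraMap F K ((v + w) _) = algebraMap F K (v _) + algebraMap F K (w _)
      rw [Pi.add_apply, map_add]
  map_smul' c v := by
    apply Subtype.ext
    ext i j
    have h1 : (fun i => (c • v) (Sum.inr i)) = c • (fun i => v (Sum.inr i)) := rfl
    rw [RingHom.id_apply, Submodule.coe_smul, Matrix.smul_apply]
    fin_cases i <;> fin_cases j
    · show -algebraMap F K ((c • v) _) = c • (-algebraMap F K (v _))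
      rw [Pi.smul_apply, smul_eq_mul, map_mul, Algebra.smul_def]
      ring
    · show S₀ _ = c • S₀ _
      rw [h1, map_smul]
    · show (S₀ _) ^ q = c • (S₀ _) ^ q
      rw [h1, map_smul, Algebra.smul_def, Algebra.smul_def, mul_pow, pow_q_alg hF]
    · show algebraMap F K ((c • v) _) = c • algebraMap F K (v _)
      rw [Pi.smul_apply, smul_eq_mul, map_mul, Algebra.smul_def]

theorem LL_coe (hF : Fintype.card F = q) (hK : Fintype.card K = q ^ 2) (S₀ : (Fin 2 → F) →ₗ[F] K) (v : (Fin 1 ⊕ Fin 1) ⊕ Fin 2 → F) :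
    ((LL hF hK S₀ v : H hF hK) : Matrix (Fin 2) (Fin 2) K) = !![-algebraMap F K (v (Sum.inl (Sum.inl 0))), S₀ (fun i => v (Sum.inr i)); (S₀ (fun i => v (Sum.inr i))) ^ q, algebraMap F K (v (Sum.inl (Sum.inr 0)))] := rfl

theorem LL_det (hF : Fintype.card F = q) (hK : Fintype.card K = q ^ 2) (a b : F) (S₀ : (Fin 2 → F) →ₗ[F] K)
    (hS : ∀ z, S₀ z * (S₀ z) ^ q = algebraMap F K (z 0 ^ 2 + a * z 0 * z 1 + b * z 1 ^ 2)) (v : (Fin 1 ⊕ Fin 1) ⊕ Fin 2 → F) :
    ((LL hF hK S₀ v : H hF hK) : Matrix (Fin 2) (Fin 2) K).det = - algebraMap F K (Cfsg.quadFormMinus 1 F a b v) := by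
  rw [LL_coe, Matrix.det_fin_two_of, hS]
  show _ = - algebraMap F K ((∑ i : Fin 1, v (Sum.inl (Sum.inl i)) * v (Sum.inl (Sum.inr i))) + (v (Sum.inr 0) ^ 2 + a * v (Sum.inr 0) * v (Sum.inr 1) + b * v (Sum.inr 1) ^ 2))
  simp only [Fin.sum_univ_one, map_add, map_mul]
  ring

theorem LL_bij (hF : Fintype.card F = q) (hK : Fintype.card K = q ^ 2) (S₀ : (Fin 2 → F) →ₗ[F] K) (hS : Function.Injective S₀) :
    Function.Bijective (LL hF hK S₀) := by
  have hcard : Fintype.card (Fin 2 → F) = Fintype.card K := by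
    rw [hK, ← hF]
    simp
  have hsurj : Function.Surjective S₀ := (Fintype.bijective_iff_injective_and_card S₀).2 ⟨hS, hcard⟩ |>.2
  constructor
  · intro v w h
    have h' := congrArg (fun A : H hF hK => (A : Matrix (Fin 2) (Fin 2) K)) h
    simp only [LL_coe] at h'
    have h00 := congrFun (congrFun h' 0) 0
    have h01 := congrFun (congrFun h' 0) 1
    have h11 := congrFun (congrFun h' 1) 1
    simp only [Matrix.of_apply, Matrix.cons_val', Matrix.cons_val_zero, Matrix.cons_val_one, Matrix.cons_val_fin_one] at h00 h01 h11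
    have h3 := (algebraMap F K).injective (neg_inj.1 h00)
    have h4 := (algebraMap F K).injective h11
    have h5 := hS h01
    funext i
    rcases i with (i | i) | i
    · obtain rfl : i = 0 := Subsingleton.elim _ _
      exact h3
    · obtain rfl : i = 0 := Subsingleton.elim _ _
      exact h4
    · exact congrFun h5 i
  · rintro ⟨A, hA⟩
    have hA' := (mem_H hF hK).1 hA
    have h00 := congrFun (congrFun hA' 0) 0
    have h11 := congrFun (congrFun hA' 1) 1
    have h01 := congrFun (congrFun hA' 0) 1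
    rw [Matrix.transpose_apply, cj_apply] at h00 h11 h01
    obtain ⟨x, hx⟩ := fix_range hF hK _ h00.symm
    obtain ⟨y, hy⟩ := fix_range hF hK _ h11.symm
    obtain ⟨z, hz⟩ := hsurj (A 0 1)
    refine ⟨Sum.elim (Sum.elim (fun _ => -x) (fun _ => y)) z, ?_⟩
    apply Subtype.ext
    rw [LL_coe]
    ext i j
    fin_cases i <;> fin_cases j
    · show - algebraMap F K (-x) = A 0 0
      rw [map_neg, neg_neg, hx]
    · show S₀ z = A 0 1
      exact hz
    · show (S₀ z) ^ q = A 1 0
      rw [hz]
      exact h01.symm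
    · show algebraMap F K y = A 1 1
      exact hy

local notation "M" => Matrix (Fin 2) (Fin 2) K
local notation "Γ" => Matrix.SpecialLinearGroup (Fin 2) K

theorem cj_transpose_mul (hK : Fintype.card K = q ^ 2) (A B : M) : (cj hK (A * B)).transpose = (cj hK B).transpose * (cj hK A).transpose := by
  rw [map_mul, Matrix.transpose_mul]

theorem exists_rep_H (hF : Fintype.card F = q) (hK : Fintype.card K = q ^ 2) : ∃ ρ : Γ →* (H hF hK →ₗ[F] H hF hK),
    ∀ g A, ((ρ g A : H hF hK) : M) = (g : M) * A * (cj hK (g : M)).transpose := by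
  refine exists_rep (H hF hK) (fun g : Γ => (g : M)) (fun g : Γ => (cj hK (g : M)).transpose) rfl (fun _ _ => rfl) ?_ ?_ ?_
  · simp
  · intro g h
    simp only [Matrix.SpecialLinearGroup.coe_mul]
    exact cj_transpose_mul hK _ _
  · intro g A hA
    rw [mem_H] at hA ⊢
    have hcc : ∀ B : M, cj hK (cj hK B) = B := fun B => by
      ext i j
      rw [cj_apply, cj_apply, pow_pow_q hK]
    have hct : ∀ B : M, cj hK B.transpose = (cj hK B).transpose := fun B => rfl
    rw [Matrix.transpose_mul, Matrix.transpose_mul, Matrix.transpose_transpose, hA, map_mul, map_mul, hct, hcc, Matrix.mul_assoc]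

theorem center_of_comm {g : Γ} (h1 : (g : M) * !![1, 0; 0, 0] = !![1, 0; 0, 0] * (g : M)) (h2 : (g : M) * !![0, 1; 1, 0] = !![0, 1; 1, 0] * (g : M)) :
    g ∈ Subgroup.center Γ := by
  rw [Matrix.SpecialLinearGroup.mem_center_iff]
  have h10 := congrFun (congrFun h1 0) 1
  have h11 := congrFun (congrFun h1 1) 0
  have h20 := congrFun (congrFun h2 0) 0
  have h21 := congrFun (congrFun h2 0) 1
  simp [Matrix.mul_apply, Fin.sum_univ_two] at h10 h11 h20 h21
  have hdet := g.det_coe
  rw [Matrix.det_fin_two] at hdet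
  refine ⟨(g : M) 0 0, ?_, ?_⟩
  · simp only [Fintype.card_fin]
    grind
  · ext i j
    fin_cases i <;> fin_cases j <;> simp [Matrix.scalar_apply, h10, h11, h21]

/-- The main statement with a given algebra structure. -/
theorem main_alg (hF : Fintype.card F = q) (hK : Fintype.card K = q ^ 2) (a b : F)
    (hab : ∀ z₁ z₂ : F, z₁ ^ 2 + a * z₁ * z₂ + b * z₂ ^ 2 = 0 → z₁ = 0 ∧ z₂ = 0)
    (hΩ : Nat.gcd 2 (Fintype.card K - 1) * Nat.card (Omega F (Cfsg.quadFormMinus 1 F a b)) = Fintype.card K * (Fintype.card K - 1) * (Fintype.card K + 1)) :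
    Nonempty (Cfsg.POmega F (Cfsg.quadFormMinus 1 F a b) ≃* Matrix.ProjectiveSpecialLinearGroup (Fin 2) K) := by
  classical
  have hq : 2 ≤ q := by
    rw [← hF]
    exact Fintype.one_lt_card
  have hK4 : 4 ≤ Fintype.card K := by
    rw [hK]
    nlinarith
  obtain ⟨S₀, hS₀, hS⟩ := Cfsg.Agent.Lib.FieldEmbed2.exists_norm_block hF hK a b hab
  obtain ⟨ρ, hρ⟩ := exists_rep_H (F := F) (K := K) hF hK
  obtain ⟨x₀, hx₀, hsq⟩ := Cfsg.Agent.Lib.H1Rigid.exists_non_sq_one (F := K) hK4
  let e : H hF hK ≃ₗ[F] ((Fin 1 ⊕ Fin 1) ⊕ Fin 2 → F) := (LinearEquiv.ofBijective (LL hF hK S₀) (LL_bij hF hK S₀ hS₀)).symm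
  have he : ∀ A : H hF hK, ((A : H hF hK) : M).det = - algebraMap F K (Cfsg.quadFormMinus 1 F a b (e A)) := by
    intro A
    have : LL hF hK S₀ (e A) = A := (LinearEquiv.ofBijective (LL hF hK S₀) (LL_bij hF hK S₀ hS₀)).apply_symm_apply A
    conv_lhs => rw [← this]
    rw [LL_det hF hK a b S₀ hS]
  have hker : ρ.ker = Subgroup.center Γ := by
    ext g
    rw [MonoidHom.mem_ker]
    constructor
    · intro hg
      have hfix : ∀ A (hA : A ∈ H hF hK), (g : M) * A * (cj hK (g : M)).transpose = A := by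
        intro A hA
        have h1 : ((ρ g ⟨A, hA⟩ : H hF hK) : M) = A := by
          rw [hg]
          rfl
        rwa [hρ] at h1
      have h1 := hfix 1 (by
        have := herm_mem (F := F) hF hK (x := 1) (y := 1) 0 (one_pow _) (one_pow _)
        convert this using 1
        ext i j
        fin_cases i <;> fin_cases j <;> simp [zero_pow (by omega : q ≠ 0)])
      rw [Matrix.mul_one] at h1
      have h1' : (cj hK (g : M)).transpose * (g : M) = 1 := mul_eq_one_comm.1 h1
      have hc : ∀ A (hA : A ∈ H hF hK), (g : M) * A = A * (g : M) := by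
        intro A hA
        conv_rhs => rw [← hfix A hA]
        rw [Matrix.mul_assoc _ _ (g : M), h1', Matrix.mul_one]
      apply center_of_comm
      · apply hc
        have := herm_mem (F := F) hF hK (x := 1) (y := 0) 0 (one_pow _) (zero_pow (by omega))
        convert this using 1
        ext i j
        fin_cases i <;> fin_cases j <;> simp [zero_pow (by omega : q ≠ 0)]
      · apply hc
        have := herm_mem (F := F) hF hK (x := 0) (y := 0) 1 (zero_pow (by omega)) (zero_pow (by omega))
        convert this using 1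
        ext i j
        fin_cases i <;> fin_cases j <;> simp
    · intro hg
      ext A : 1
      apply Subtype.ext
      rw [hρ]
      obtain ⟨r, hr1, hr⟩ := (Matrix.SpecialLinearGroup.mem_center_iff).1 hg
      simp only [Fintype.card_fin] at hr1
      have hrq : r ^ q = r := by
        have : (r - 1) * (r + 1) = 0 := by ring_nf; rw [hr1]; ring
        rcases mul_eq_zero.1 this with h | h
        · rw [sub_eq_zero.1 h, one_pow]
        · have : r = -1 := eq_neg_of_add_eq_zero_left h
          rw [this, ← sig_apply hK, map_neg, map_one]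
      have h2 : (cj hK (g : M)).transpose = (g : M) := by
        rw [← hr]
        ext i j
        rw [Matrix.transpose_apply, cj_apply, Matrix.scalar_apply, Matrix.diagonal_apply, Matrix.diagonal_apply]
        by_cases hij : i = j
        · subst hij
          simp [hrq]
        · simp [hij, Ne.symm hij, zero_pow (by omega : q ≠ 0)]
      rw [h2, comm_of_center hg, Matrix.mul_assoc]
      have h3 : (g : M) * (g : M) = 1 := by
        rw [← hr, ← map_mul, ← sq, hr1, map_one]
      rw [h3, Matrix.mul_one]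
      rfl
  refine main (fun A : H hF hK => Cfsg.quadFormMinus 1 F a b (e A)) (Cfsg.quadFormMinus 1 F a b) e (fun _ => rfl) ρ ?_ (QuotientGroup.mk' _) (QuotientGroup.mk'_surjective _) (by rw [QuotientGroup.ker_mk']) ?_ ?_ ?_ ?_
  · intro g A
    apply (algebraMap F K).injective
    have h1 := he (ρ g A)
    have h2 := he A
    rw [hρ, Matrix.det_mul, Matrix.det_mul, Matrix.SpecialLinearGroup.det_coe, Matrix.det_transpose] at h1
    have h3 : (cj hK (g : M)).det = 1 := by
      have : (cj hK (g : M)).det = sig hK (g : M).det := by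
        exact (RingHom.map_det (sig hK) (g : M)).symm
      rw [this, Matrix.SpecialLinearGroup.det_coe, map_one]
    rw [h3, one_mul, mul_one, h2] at h1
    exact (neg_inj.1 h1).symm
  · rw [QuotientGroup.ker_mk', hker]
  · exact center_PSL2 (by omega)
  · intro φ g
    exact mem_omega_of_perfect (Cfsg.Agent.Lib.H1Rigid.commutator_SL2_eq_top hx₀ hsq) φ g
  · rw [hker, Cfsg.Agent.Lib.ClassicalBasic.card_center_SL 2 (by norm_num), hΩ]
    exact Cfsg.Agent.Lib.SL2Gen.card_SL2 (F := K)

end


/-- PΩ^-_4(q) is isomorphic to PSL_2(q^2). -/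
theorem result {F K : Type*} [Field F] [Fintype F] [Field K] [Fintype K] {q : ℕ} (hF : Fintype.card F = q) (hK : Fintype.card K = q ^ 2) (a b : F) (hab : ∀ z₁ z₂ : F, z₁ ^ 2 + a * z₁ * z₂ + b * z₂ ^ 2 = 0 → z₁ = 0 ∧ z₂ = 0) : Nonempty (Cfsg.POmega F (Cfsg.quadFormMinus 1 F a b) ≃* Matrix.ProjectiveSpecialLinearGroup (Fin 2) K) := by
  obtain ⟨ι, -, -⟩ := Cfsg.Agent.Lib.SubfieldQ.exists_iota hK hF
  letI : Algebra F K := ι.toAlgebra
  refine main_alg hF hK a b hab ?_
  have hQ := Cfsg.Agent.Lib.OrthStd2.quadFormMinus_nondeg (m := 1) hab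
  have h1 := Cfsg.Agent.Lib.OrthOrder3.card_minus (k := 1) hab
  have h5 := Subgroup.index_mul_card (Omega F (Cfsg.quadFormMinus 1 F a b))
  rw [h1] at h5
  simp only [Finset.prod_range_one, Nat.zero_add, mul_zero, pow_one, hF] at h5
  have hq2 : 2 ≤ q := by
    rw [← hF]
    exact Fintype.one_lt_card
  obtain ⟨k, rfl⟩ : ∃ k, q = k + 1 := ⟨q - 1, by omega⟩
  have hs : (k + 1) ^ 2 - 1 = k * (k + 2) := by
    apply Nat.sub_eq_of_eq_add
    ring
  rw [hK, hs]
  simp only [Nat.add_sub_cancel, Nat.reduceAdd] at h5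
  rcases Nat.even_or_odd (k + 1) with he | ho
  · have h2 : (2 : F) = 0 := by
      have hchar : ringChar F = 2 := FiniteField.even_card_iff_char_two.mpr (Nat.even_iff.mp (hF ▸ he))
      exact_mod_cast (ringChar.spec F 2).mpr (by rw [hchar])
    haveI : CharP F 2 := CharTwo.of_one_ne_zero_of_two_eq_zero one_ne_zero h2
    have h6 : (Omega F (Cfsg.quadFormMinus 1 F a b)).index = 2 := by
      by_cases hq : k + 1 = 2
      · have hcard2 : Fintype.card F = 2 := by rw [hF, hq]
        have h01 : ∀ x : F, x = 0 ∨ x = 1 := by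
          intro x
          have := FiniteField.pow_card x
          rw [hcard2] at this
          have h3 : x * (x - 1) = 0 := by
            linear_combination this
          rcases mul_eq_zero.1 h3 with h | h
          · exact Or.inl h
          · exact Or.inr (sub_eq_zero.1 h)
        have hb : b = 1 := by
          rcases h01 b with h | h
          · exfalso
            have := (hab 0 1 (by rw [h]; ring)).2
            exact one_ne_zero this
          · exact h
        have ha : a = 1 := by
          rcases h01 a with h | h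
          · exfalso
            have := (hab 1 1 (by rw [h, hb]; linear_combination h2)).2
            exact one_ne_zero this
          · exact h
        subst ha hb
        obtain ⟨θ⟩ := Cfsg.Agent.S0824.result (F := F) hcard2
        have hcomm : commutator (Equiv.Perm (Fin 5)) = alternatingGroup (Fin 5) :=
          alternatingGroup.commutator_perm_eq (by simp)
        have hmap : (Cfsg.Omega F (Cfsg.quadFormMinus 1 F 1 1)).map θ.toMonoidHom = alternatingGroup (Fin 5) := by
          rw [← hcomm]
          unfold Cfsg.Omega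
          rw [commutator_def, commutator_def, Subgroup.map_commutator, Subgroup.map_top_of_surjective _ θ.surjective]
        have hcomap : Cfsg.Omega F (Cfsg.quadFormMinus 1 F 1 1) = (alternatingGroup (Fin 5)).comap θ.toMonoidHom := by
          rw [← hmap, Subgroup.comap_map_eq_self_of_injective θ.injective]
        rw [hcomap, Subgroup.index_comap_of_surjective _ θ.surjective]
        exact alternatingGroup.index_eq_two
      · exact (Cfsg.Agent.Lib.OrthSpin3.even_main hQ (by simp) (Or.inl (by rw [hF]; exact hq))).1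
    have h7 : Nat.gcd 2 (k * (k + 2)) = 2 ∨ True := Or.inr trivial
    have h8 : Nat.gcd 2 ((k + 1) ^ 2 - 1) = 1 := by
      rw [hs]
      obtain ⟨l, hl⟩ := he
      have hk : k = 2 * l - 1 := by omega
      have hl0 : 1 ≤ l := by omega
      apply Nat.Coprime.symm
      apply Nat.Coprime.symm
      rw [Nat.coprime_two_left]
      rw [hk]
      apply Odd.mul
      · exact ⟨l - 1, by omega⟩
      · exact ⟨l, by omega⟩
    rw [hs] at h8
    rw [h8]
    rw [h6] at h5
    generalize Nat.card ↥(Omega F (quadFormMinus 1 F a b)) = w at h5 ⊢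
    nlinarith
  · have h6 : (Omega F (Cfsg.quadFormMinus 1 F a b)).index = 4 :=
      Cfsg.Agent.Lib.OrthSpin3.omega_index hQ (by simp) (Cfsg.Agent.Lib.OrthStd.two_ne_zero_of_odd (hF ▸ ho))
    have h8 : Nat.gcd 2 (k * (k + 2)) = 2 := by
      apply Nat.gcd_eq_left
      obtain ⟨l, hl⟩ := ho
      have : k = 2 * l := by omega
      rw [this]
      exact ⟨l * (2 * l + 2), by ring⟩
    rw [h8]
    rw [h6] at h5
    generalize Nat.card ↥(Omega F (quadFormMinus 1 F a b)) = w at h5 ⊢
    nlinarith

end Cfsg.Agent.S0300
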