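import Cfsg.Statements.S0254
import Cfsg.Agent.S0300
import Cfsg.Agent.Lib.Heart
import Cfsg.Agent.Lib.OrthOrder3
import Cfsg.Agent.Lib.OrthSpin3

set_option autoImplicit false
open Cfsg

namespace Cfsg.Agent.S0254


open Matrix Cfsg
open Cfsg.Agent.Lib.OmegaIso Cfsg.Agent.Lib.OmegaSL2 Cfsg.Agent.Lib.Heart

section

local notation "F₃" => ZMod 3
local notation "κ" => ((Fin 1 ⊕ Fin 1) ⊕ Fin 2)
local notation "PP" => (P : Equiv.Perm (Fin 6) → (Fin 6 → ZMod 3) →ₗ[ZMod 3] (Fin 6 → ZMod 3))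

/-- The four vectors. -/
def h1 : Fin 6 → ZMod 3 := ![1, 1, 1, 0, 0, 0]
def h2 : Fin 6 → ZMod 3 := ![1, 1, 0, 1, 0, 0]
def c1 : Fin 6 → ZMod 3 := ![1, -1, 0, 0, 1, -1]
def c2 : Fin 6 → ZMod 3 := ![1, -1, 0, 0, -1, 1]

/-- Embedding. -/
def TT : (κ → ZMod 3) →ₗ[ZMod 3] (Fin 6 → ZMod 3) where
  toFun v := v (Sum.inl (Sum.inl 0)) • h1 + v (Sum.inl (Sum.inr 0)) • h2 + v (Sum.inr 0) • c1 + v (Sum.inr 1) • c2
  map_add' v w := by
    simp only [Pi.add_apply, add_smul]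
    abel
  map_smul' c v := by
    simp only [Pi.smul_apply, smul_eq_mul, mul_smul, RingHom.id_apply, smul_add]

/-- Coordinates. -/
def SS : (Fin 6 → ZMod 3) →ₗ[ZMod 3] (κ → ZMod 3) where
  toFun w := Sum.elim (Sum.elim (fun _ => 2 * (w ⬝ᵥ h2)) (fun _ => 2 * (w ⬝ᵥ h1))) ![w ⬝ᵥ c1, w ⬝ᵥ c2]
  map_add' v w := by
    funext i
    rcases i with (i | i) | i
    · simp [add_dotProduct, mul_add]
    · simp [add_dotProduct, mul_add]
    · fin_cases i <;> simp [add_dotProduct]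
  map_smul' c v := by
    funext i
    rcases i with (i | i) | i
    · simp [smul_dotProduct]
      ring
    · simp [smul_dotProduct]
      ring
    · fin_cases i <;> simp [smul_dotProduct]

theorem three_zero : (3 : ZMod 3) = 0 := by decide

theorem TT_eq (v : κ → ZMod 3) : TT v = ![v (Sum.inl (Sum.inl 0)) + v (Sum.inl (Sum.inr 0)) + v (Sum.inr 0) + v (Sum.inr 1),
    v (Sum.inl (Sum.inl 0)) + v (Sum.inl (Sum.inr 0)) - v (Sum.inr 0) - v (Sum.inr 1), v (Sum.inl (Sum.inl 0)), v (Sum.inl (Sum.inr 0)),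
    v (Sum.inr 0) - v (Sum.inr 1), v (Sum.inr 1) - v (Sum.inr 0)] := by
  funext i
  show v (Sum.inl (Sum.inl 0)) * h1 i + v (Sum.inl (Sum.inr 0)) * h2 i + v (Sum.inr 0) * c1 i + v (Sum.inr 1) * c2 i = _
  fin_cases i <;> simp [h1, h2, c1, c2] <;> ring

theorem SS_x (w : Fin 6 → ZMod 3) : SS w (Sum.inl (Sum.inl 0)) = 2 * (w 0 + w 1 + w 3) := by
  show 2 * (w ⬝ᵥ h2) = _
  have : w ⬝ᵥ h2 = w 0 + w 1 + w 3 := by
    simp [dotProduct, Fin.sum_univ_succ, h2, Fin.succ]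
    ring
  rw [this]

theorem SS_y (w : Fin 6 → ZMod 3) : SS w (Sum.inl (Sum.inr 0)) = 2 * (w 0 + w 1 + w 2) := by
  show 2 * (w ⬝ᵥ h1) = _
  have : w ⬝ᵥ h1 = w 0 + w 1 + w 2 := by
    simp [dotProduct, Fin.sum_univ_succ, h1, Fin.succ]
    ring
  rw [this]

theorem SS_a (w : Fin 6 → ZMod 3) : SS w (Sum.inr 0) = w 0 - w 1 + w 4 - w 5 := by
  show w ⬝ᵥ c1 = _
  simp [dotProduct, Fin.sum_univ_succ, c1, Fin.succ]
  ring

theorem SS_b (w : Fin 6 → ZMod 3) : SS w (Sum.inr 1) = w 0 - w 1 - w 4 + w 5 := by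
  show w ⬝ᵥ c2 = _
  simp [dotProduct, Fin.sum_univ_succ, c2, Fin.succ]
  ring

theorem ST (v : κ → ZMod 3) : SS (TT v) = v := by
  funext i
  have key1 : ∀ x y a b : ZMod 3, 2 * ((x + y + a + b) + (x + y - a - b) + y) = x := by decide
  have key2 : ∀ x y a b : ZMod 3, 2 * ((x + y + a + b) + (x + y - a - b) + x) = y := by decide
  have key3 : ∀ x y a b : ZMod 3, (x + y + a + b) - (x + y - a - b) + (a - b) - (b - a) = a := by decide
  have key4 : ∀ x y a b : ZMod 3, (x + y + a + b) - (x + y - a - b) - (a - b) + (b - a) = b := by decide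
  rcases i with (i | i) | i
  · obtain rfl : i = 0 := Subsingleton.elim _ _
    rw [SS_x, TT_eq]
    exact key1 _ _ _ _
  · obtain rfl : i = 0 := Subsingleton.elim _ _
    rw [SS_y, TT_eq]
    exact key2 _ _ _ _
  · fin_cases i
    · show SS _ (Sum.inr 0) = _
      rw [SS_a, TT_eq]
      exact key3 _ _ _ _
    · show SS _ (Sum.inr 1) = _
      rw [SS_b, TT_eq]
      exact key4 _ _ _ _

theorem key_TS : ∀ w0 w1 w2 w3 w4 w5 : ZMod 3, w0 + w1 + w2 + w3 + w4 + w5 = 0 →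
    ∃ c : ZMod 3,
      let x := 2 * (w0 + w1 + w3)
      let y := 2 * (w0 + w1 + w2)
      let a := w0 - w1 + w4 - w5
      let b := w0 - w1 - w4 + w5
      w0 = x + y + a + b + c ∧ w1 = x + y - a - b + c ∧ w2 = x + c ∧ w3 = y + c ∧ w4 = a - b + c ∧ w5 = b - a + c := by
  decide +kernel

theorem key_Q : ∀ w0 w1 w2 w3 w4 w5 : ZMod 3, w0 + w1 + w2 + w3 + w4 + w5 = 0 →
    (2 * (w0 + w1 + w3)) * (2 * (w0 + w1 + w2)) + ((w0 - w1 + w4 - w5) ^ 2 + 0 * (w0 - w1 + w4 - w5) * (w0 - w1 - w4 + w5) + 1 * (w0 - w1 - w4 + w5) ^ 2)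
      = w0 * w0 + w1 * w1 + w2 * w2 + w3 * w3 + w4 * w4 + w5 * w5 := by
  decide +kernel

theorem sum6 (w : Fin 6 → ZMod 3) : ∑ i, w i = w 0 + w 1 + w 2 + w 3 + w 4 + w 5 := by
  simp [Fin.sum_univ_succ, Fin.succ]
  ring

/-- The decomposition. -/
theorem TS {w : Fin 6 → ZMod 3} (hw : ∑ i, w i = 0) : ∃ c : ZMod 3, w = TT (SS w) + c • (fun _ => 1) := by
  rw [sum6] at hw
  obtain ⟨c, h0, h1', h2', h3, h4, h5⟩ := key_TS _ _ _ _ _ _ hw
  refine ⟨c, ?_⟩
  funext i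
  rw [TT_eq, SS_x, SS_y, SS_a, SS_b]
  fin_cases i
  · simpa using h0
  · simpa using h1'
  · simpa using h2'
  · simpa using h3
  · simpa using h4
  · simpa using h5

theorem SS_one : SS (fun _ => 1) = 0 := by
  funext i
  rcases i with (i | i) | i
  · obtain rfl : i = 0 := Subsingleton.elim _ _
    rw [SS_x]
    decide
  · obtain rfl : i = 0 := Subsingleton.elim _ _
    rw [SS_y]
    decide
  · fin_cases i
    · show SS _ (Sum.inr 0) = _
      rw [SS_a]
      decide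
    · show SS _ (Sum.inr 1) = _
      rw [SS_b]
      decide

theorem TT_mem (v : κ → ZMod 3) : TT v ∈ E (Fin 6) (ZMod 3) := by
  rw [mem_E, sum6, TT_eq]
  have : ∀ x y a b : ZMod 3, (x + y + a + b) + (x + y - a - b) + x + y + (a - b) + (b - a) = 0 := by decide
  exact this _ _ _ _

theorem P_const (g : Equiv.Perm (Fin 6)) (c : ZMod 3) : PP g (c • (fun _ => 1)) = c • (fun _ => 1) := rfl

theorem SS_aux (g : Equiv.Perm (Fin 6)) {x : Fin 6 → ZMod 3} (hx : x ∈ E (Fin 6) (ZMod 3)) :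
    SS (PP g (TT (SS x))) = SS (PP g x) := by
  obtain ⟨c, hc⟩ := TS (mem_E.1 hx)
  conv_rhs => rw [hc]
  rw [map_add, map_add, P_const, map_smul, SS_one, smul_zero, add_zero]

/-- The representation. -/
def psi : Equiv.Perm (Fin 6) →* ((κ → ZMod 3) →ₗ[ZMod 3] (κ → ZMod 3)) where
  toFun g := SS ∘ₗ PP g ∘ₗ TT
  map_one' := by
    apply LinearMap.ext
    intro v
    show SS (PP 1 (TT v)) = v
    rw [P_one]
    exact ST v
  map_mul' g h := by
    apply LinearMap.ext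
    intro v
    show SS (PP (g * h) (TT v)) = SS (PP g (TT (SS (PP h (TT v)))))
    rw [SS_aux g (P_mem h (TT_mem v)), P_mul]
    rfl

theorem psi_apply (g : Equiv.Perm (Fin 6)) (v : κ → ZMod 3) : psi g v = SS (PP g (TT v)) := rfl

theorem Q_SS {w : Fin 6 → ZMod 3} (hw : w ∈ E (Fin 6) (ZMod 3)) : Cfsg.quadFormMinus 1 (ZMod 3) 0 1 (SS w) = w ⬝ᵥ w := by
  have h1' := mem_E.1 hw
  rw [sum6] at h1'
  have h2' := key_Q _ _ _ _ _ _ h1'
  show (∑ i : Fin 1, SS w (Sum.inl (Sum.inl i)) * SS w (Sum.inl (Sum.inr i))) + (SS w (Sum.inr 0) ^ 2 + 0 * SS w (Sum.inr 0) * SS w (Sum.inr 1) + 1 * SS w (Sum.inr 1) ^ 2) = _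
  rw [Fin.sum_univ_one, SS_x, SS_y, SS_a, SS_b, h2']
  simp [dotProduct, Fin.sum_univ_succ, Fin.succ]
  ring

theorem psi_Q (g : Equiv.Perm (Fin 6)) (v : κ → ZMod 3) : Cfsg.quadFormMinus 1 (ZMod 3) 0 1 (psi g v) = Cfsg.quadFormMinus 1 (ZMod 3) 0 1 v := by
  rw [psi_apply, Q_SS (P_mem g (TT_mem v)), dot_P]
  conv_rhs => rw [← ST v]
  rw [Q_SS (TT_mem v)]

/-- The three-cycle. -/
def s3 : alternatingGroup (Fin 6) := ⟨Equiv.swap 0 1 * Equiv.swap 1 2, by rw [Equiv.Perm.mem_alternatingGroup, Equiv.Perm.sign_mul, Equiv.Perm.sign_swap (by decide), Equiv.Perm.sign_swap (by decide)]; rfl⟩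

theorem psi_s3 : psi (s3 : Equiv.Perm (Fin 6)) ≠ 1 := by
  intro h
  have h1' := congrArg (fun f : (κ → ZMod 3) →ₗ[ZMod 3] (κ → ZMod 3) => f (Sum.elim (fun _ => 0) ![1, 0]) (Sum.inl (Sum.inl 0))) h
  simp only [psi_apply, Module.End.one_apply] at h1'
  rw [SS_x, TT_eq] at h1'
  revert h1'
  simp only [P_apply]
  decide +kernel

theorem center_A6 : Subgroup.center (alternatingGroup (Fin 6)) = ⊥ := by
  haveI : IsSimpleGroup (alternatingGroup (Fin 6)) := alternatingGroup.isSimpleGroup (by simp)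
  rcases IsSimpleGroup.eq_bot_or_eq_top_of_normal (Subgroup.center (alternatingGroup (Fin 6))) inferInstance with h | h
  · exact h
  · exfalso
    let x : alternatingGroup (Fin 6) := ⟨Equiv.swap 0 1 * Equiv.swap 1 2, by rw [Equiv.Perm.mem_alternatingGroup, Equiv.Perm.sign_mul, Equiv.Perm.sign_swap (by decide), Equiv.Perm.sign_swap (by decide)]; rfl⟩
    let y : alternatingGroup (Fin 6) := ⟨Equiv.swap 0 1 * Equiv.swap 2 3, by rw [Equiv.Perm.mem_alternatingGroup, Equiv.Perm.sign_mul, Equiv.Perm.sign_swap (by decide), Equiv.Perm.sign_swap (by decide)]; rfl⟩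
    have hx : x ∈ Subgroup.center (alternatingGroup (Fin 6)) := by rw [h]; trivial
    have h1 := (Subgroup.mem_center_iff.1 hx) y
    have h2 := congrArg Subtype.val h1
    have h3 : ((y * x : alternatingGroup (Fin 6)) : Equiv.Perm (Fin 6)) ≠ ((x * y : alternatingGroup (Fin 6)) : Equiv.Perm (Fin 6)) := by
      decide +kernel
    exact h3 h2

end


/-- PSL_2(9) is isomorphic to A_6. -/
theorem result {F : Type*} [Field F] [Fintype F] (hF : Fintype.card F = 9) : Nonempty (Matrix.ProjectiveSpecialLinearGroup (Fin 2) F ≃* alternatingGroup (Fin 6)) := by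
  classical
  have hab : ∀ z₁ z₂ : ZMod 3, z₁ ^ 2 + 0 * z₁ * z₂ + 1 * z₂ ^ 2 = 0 → z₁ = 0 ∧ z₂ = 0 := by decide
  obtain ⟨e₁⟩ := Cfsg.Agent.S0300.result (F := ZMod 3) (K := F) (q := 3) (ZMod.card 3) (by rw [hF]; norm_num) 0 1 hab
  obtain ⟨φ, hφ⟩ := exists_hom (Cfsg.quadFormMinus 1 (ZMod 3) 0 1) (Cfsg.quadFormMinus 1 (ZMod 3) 0 1) (LinearEquiv.refl (ZMod 3) _) (fun _ => rfl) psi psi_Q
  have hcomm : commutator (Equiv.Perm (Fin 6)) = alternatingGroup (Fin 6) :=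
    alternatingGroup.commutator_perm_eq (by simp)
  have hmem : ∀ a : alternatingGroup (Fin 6), φ (a : Equiv.Perm (Fin 6)) ∈ Omega (ZMod 3) (Cfsg.quadFormMinus 1 (ZMod 3) 0 1) := by
    intro a
    have h1 : (a : Equiv.Perm (Fin 6)) ∈ commutator (Equiv.Perm (Fin 6)) := by
      rw [hcomm]
      exact a.2
    have h2 : Subgroup.map φ (commutator (Equiv.Perm (Fin 6))) ≤ Omega (ZMod 3) (Cfsg.quadFormMinus 1 (ZMod 3) 0 1) := by
      rw [commutator, Subgroup.map_commutator]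
      exact Subgroup.commutator_mono le_top le_top
    exact h2 ⟨_, h1, rfl⟩
  let f : alternatingGroup (Fin 6) →* ↥(Omega (ZMod 3) (Cfsg.quadFormMinus 1 (ZMod 3) 0 1)) :=
    (φ.comp (alternatingGroup (Fin 6)).subtype).codRestrict _ hmem
  haveI : IsSimpleGroup (alternatingGroup (Fin 6)) := alternatingGroup.isSimpleGroup (by simp)
  have hinj : Function.Injective f := by
    rw [injective_iff_map_eq_one]
    rcases IsSimpleGroup.eq_bot_or_eq_top_of_normal f.ker inferInstance with h | h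
    · intro a ha
      have : a ∈ f.ker := ha
      rw [h] at this
      exact Subgroup.mem_bot.1 this
    · exfalso
      have h1 : s3 ∈ f.ker := by rw [h]; trivial
      have h2 : φ (s3 : Equiv.Perm (Fin 6)) = 1 := congrArg Subtype.val h1
      have h3 : (s3 : Equiv.Perm (Fin 6)) ∈ psi.ker := by
        rw [← hφ]
        exact h2
      exact psi_s3 h3
  have hc1 : Nat.card (alternatingGroup (Fin 6)) = 360 := by
    have h1 := Subgroup.index_mul_card (alternatingGroup (Fin 6))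
    rw [alternatingGroup.index_eq_two, Nat.card_perm, Nat.card_eq_fintype_card (α := Fin 6), Fintype.card_fin] at h1
    have : Nat.factorial 6 = 720 := by decide
    omega
  have hc2 : Nat.card ↥(Omega (ZMod 3) (Cfsg.quadFormMinus 1 (ZMod 3) 0 1)) = 360 := by
    have h1 := Cfsg.Agent.Lib.OrthOrder3.card_minus (k := 1) hab
    have h5 := Subgroup.index_mul_card (Omega (ZMod 3) (Cfsg.quadFormMinus 1 (ZMod 3) 0 1))
    have hQ := Cfsg.Agent.Lib.OrthStd2.quadFormMinus_nondeg (m := 1) hab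
    have hi := Cfsg.Agent.Lib.OrthSpin3.omega_index hQ (by simp) (by decide : (2 : ZMod 3) ≠ 0)
    rw [h1, hi] at h5
    simp only [Finset.prod_range_one, ZMod.card] at h5
    norm_num at h5
    rw [Nat.card_eq_fintype_card]
    omega
  let e₂ : alternatingGroup (Fin 6) ≃* ↥(Omega (ZMod 3) (Cfsg.quadFormMinus 1 (ZMod 3) 0 1)) :=
    MulEquiv.ofBijective f ((Nat.bijective_iff_injective_and_card f).2 ⟨hinj, by rw [hc1, hc2]⟩)
  have hc : Subgroup.center ↥(Omega (ZMod 3) (Cfsg.quadFormMinus 1 (ZMod 3) 0 1)) = ⊥ := by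
    rw [eq_bot_iff]
    intro x hx
    have h1 : e₂.symm x ∈ Subgroup.center (alternatingGroup (Fin 6)) := by
      rw [Subgroup.mem_center_iff]
      intro y
      obtain ⟨z, rfl⟩ := e₂.symm.surjective y
      rw [← map_mul, ← map_mul, (Subgroup.mem_center_iff.1 hx) z]
    rw [center_A6, Subgroup.mem_bot] at h1
    rw [Subgroup.mem_bot]
    exact e₂.symm.injective (by rw [h1, map_one])
  have e₃ : Cfsg.POmega (ZMod 3) (Cfsg.quadFormMinus 1 (ZMod 3) 0 1) ≃* ↥(Omega (ZMod 3) (Cfsg.quadFormMinus 1 (ZMod 3) 0 1)) :=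
    (QuotientGroup.quotientMulEquivOfEq hc).trans QuotientGroup.quotientBot
  exact ⟨e₁.symm.trans (e₃.trans e₂.symm)⟩

end Cfsg.Agent.S0254
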