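import Cfsg.Statements.S0495
import Cfsg.Agent.Lib.H1Rigid
import Cfsg.Agent.Lib.H1L168

set_option autoImplicit false
open Cfsg

namespace Cfsg.Agent.S0495


open Equiv Cfsg.Agent.Lib.H1Rigid

set_option maxRecDepth 100000 in
theorem chk7 : Chk 7 2 3 3 2 := by decide +kernel

set_option maxRecDepth 100000 in
theorem cov7 : ∀ x : ZMod 7, x ≠ 0 → (∃ i < 3, (2 : ZMod 7) ^ i * 1 = x) ∨ (∃ i < 3, (2 : ZMod 7) ^ i * 3 = x) := by decide +kernel

theorem two7 : (2 : ZMod 7) ≠ 0 := by decide
theorem three7 : (3 : ZMod 7) ≠ 0 := by decide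
theorem pow7 : (2 : ZMod 7) ^ 3 = 1 := by decide

instance fact7 : Fact (Nat.Prime 7) := ⟨by norm_num⟩

theorem cand7 : (Nat.divisors 24).filter (fun d => d % 7 = 1 ∧ 2 ≤ d) = {8} := by decide +kernel

/-- no elements of order six -/
theorem no_six {H : Type*} [Group H] [Finite H] [IsSimpleGroup H] (hcard : Nat.card H = 168) {w t : H}
    (hc : w * t = t * w) (ht : orderOf t = 3) (hw : Even (orderOf w)) (hw0 : 0 < orderOf w) : False := by
  obtain ⟨k, hk⟩ := hw
  have hk0 : 0 < k := by omega
  have h1 : orderOf (w ^ k) = 2 := by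
    rw [orderOf_pow' _ (by omega), hk]
    have : Nat.gcd (k + k) k = k := by
      rw [Nat.gcd_eq_right_iff_dvd]
      exact ⟨2, by ring⟩
    rw [this]
    have : k + k = 2 * k := by ring
    rw [this]
    exact Nat.mul_div_cancel _ hk0
  have hcomm : Commute (w ^ k) t := Commute.pow_left hc k
  have h2 : orderOf (w ^ k * t) = 6 := by
    rw [hcomm.orderOf_mul_eq_mul_orderOf_of_coprime (by rw [h1, ht]; norm_num), h1, ht]
  rcases Cfsg.Agent.Lib.H1L168.order_cases hcard (w ^ k * t) with h | h | h
  · omega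
  · omega
  · rw [h2] at h
    omega

theorem range_eq {H : Type*} [Group H] [Finite H] [IsSimpleGroup H] (hcard : Nat.card H = 168) :
    ∃ f : H →* Perm (Option (ZMod 7)), Function.Injective f ∧ f.range = S0 7 := by
  let r : (ZMod 7)ˣ := Units.mk0 2 two7
  let n : (ZMod 7)ˣ := Units.mk0 3 three7
  obtain ⟨P⟩ : Nonempty (Sylow 7 H) := inferInstance
  obtain ⟨h1, h2, h3⟩ := sylow_of_card (q := 7) 24 (by rw [hcard]) (by norm_num) (by norm_num) (by norm_num) cand7 P
  obtain ⟨f, hf, hmod⟩ := exists_model P h1 h2 h3 (by decide)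
  have hr : r ^ ((7 - 1) / 2) = 1 := by
    apply Units.ext
    exact pow7
  refine ⟨f, hf, eq_S0_of_W0_mem hmod (W0_mem_of_chk hmod r n 2 hr cov7 ?_ chk7)⟩
  rintro W ⟨w, rfl⟩ h1' h2' s hs hs2
  have hsr : s = r := Units.ext hs2
  subst hsr
  obtain ⟨t, ht⟩ := hmod.M r hr
  have hc : w * t = t * w := by
    apply hf
    rw [map_mul, map_mul, ht]
    exact hs
  have ht3 : orderOf t = 3 := by
    haveI : Fact (Nat.Prime 3) := ⟨by norm_num⟩
    apply orderOf_eq_prime (p := 3)
    · apply hf
      rw [map_pow, ht, map_one, pow_succ, pow_succ, pow_one, aff_mul, aff_mul]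
      have e1 : r * r * r = 1 := by
        apply Units.ext
        show (2 : ZMod 7) * 2 * 2 = 1
        decide
      rw [e1]
      simp only [mul_zero, add_zero]
      exact aff_one
    · intro h
      rw [h, map_one] at ht
      have := congrArg (fun g : Perm (Option (ZMod 7)) => g (some 1)) ht
      simp only [Perm.one_apply, aff_some] at this
      have h9 : (1 : ZMod 7) = (r : ZMod 7) * 1 + 0 := Option.some.inj this
      have h10 : (r : ZMod 7) = 2 := rfl
      rw [h10] at h9
      revert h9
      decide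
  have hw0 : 0 < orderOf w := orderOf_pos w
  refine no_six hcard hc ht3 ?_ hw0
  by_contra hodd
  rw [Nat.not_even_iff_odd] at hodd
  have hpow : ∀ k : ℕ, ((f w) ^ (2 * k)) none = none ∧ ((f w) ^ (2 * k)) (some 0) = some 0 := by
    intro k
    induction k with
    | zero => simp
    | succ k ih =>
      have e1 : 2 * (k + 1) = 2 * k + 1 + 1 := by ring
      rw [e1, pow_succ, pow_succ]
      simp only [Perm.mul_apply, h1', h2', ih.1, ih.2, and_self]
  obtain ⟨k, hk⟩ := hodd
  have h5 := (hpow k).2
  have h6 : ((f w) ^ (orderOf w)) none = some 0 := by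
    rw [hk, pow_succ, Perm.mul_apply, h1', h5]
  rw [← map_pow, pow_orderOf_eq_one, map_one] at h6
  simp at h6


/-- A simple group of order 168 is isomorphic to the projective special linear group of dimension 2 over the field with
7 elements. -/
theorem result {G : Type*} [Group G] [Finite G] [IsSimpleGroup G]
    (h : Nat.card G = 168) {F : Type*} [Field F] [Fintype F] (hF : Fintype.card F = 7) :
    Nonempty (G ≃* Matrix.ProjectiveSpecialLinearGroup (Fin 2) F) := by
  obtain ⟨a, ha, hsq⟩ := exists_non_sq_one (F := F) (by omega)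
  haveI := PSL2_isSimple ha hsq
  have hcardF : Nat.card (Matrix.ProjectiveSpecialLinearGroup (Fin 2) F) = 168 := by
    have h1 := PSL2_card (F := F)
    rw [hF] at h1
    norm_num at h1
    omega
  obtain ⟨f, hf, hfr⟩ := range_eq h
  obtain ⟨f', hf', hfr'⟩ := range_eq hcardF
  exact ⟨(MonoidHom.ofInjective hf).trans ((MulEquiv.subgroupCongr (hfr.trans hfr'.symm)).trans (MonoidHom.ofInjective hf').symm)⟩

end Cfsg.Agent.S0495
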