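import Cfsg.Statements.S0302
import Cfsg.Agent.Lib.OmegaSL2
import Cfsg.Agent.Lib.OrthOrder2
import Cfsg.Agent.Lib.OrthSpin3
import Cfsg.Agent.Lib.OrthStd2
import Cfsg.Agent.Lib.Alt4
import Cfsg.Agent.S0242

set_option autoImplicit false
open Cfsg

namespace Cfsg.Agent.S0302


open Matrix Cfsg
open Cfsg.Agent.Lib.OmegaIso Cfsg.Agent.Lib.OmegaSL2 Cfsg.Agent.Lib.Alt4

section

variable {F : Type*} [Field F]

local notation "M" => Matrix (Fin 4) (Fin 4) F
local notation "Γ" => Matrix.SpecialLinearGroup (Fin 4) F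

/-- alternating matrices as a subspace. -/
def altSub (F : Type*) [Field F] : Submodule F (Matrix (Fin 4) (Fin 4) F) where
  carrier := {A | IsAlt A}
  add_mem' := by
    intro A B hA hB
    apply isAlt_of
    · intro s t
      rw [Matrix.add_apply, Matrix.add_apply, isAlt_symm hA s t, isAlt_symm hB s t]
      ring
    · intro s
      rw [Matrix.add_apply, isAlt_diag hA s, isAlt_diag hB s, add_zero]
  zero_mem' := by
    apply isAlt_of <;> simp
  smul_mem' := by
    intro c A hA
    exact isAlt_smul c hA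

/-- coordinates -/
noncomputable def e : altSub F ≃ₗ[F] (Fin 3 ⊕ Fin 3 → F) where
  toFun A := Sum.elim ![(A : M) 0 1, (A : M) 0 2, (A : M) 0 3] ![(A : M) 2 3, -(A : M) 1 3, (A : M) 1 2]
  map_add' A B := by
    funext i
    rcases i with i | i <;> fin_cases i <;> simp [add_comm]
  map_smul' c A := by
    funext i
    rcases i with i | i <;> fin_cases i <;> simp
  invFun v := ⟨altOf (v (Sum.inl 0)) (v (Sum.inl 1)) (v (Sum.inl 2)) (v (Sum.inr 2)) (- v (Sum.inr 1)) (v (Sum.inr 0)), isAlt_altOf _ _ _ _ _ _⟩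
  left_inv A := by
    apply Subtype.ext
    conv_rhs => rw [A.2]
    simp
  right_inv v := by
    funext i
    rcases i with i | i <;> fin_cases i <;> simp [altOf]

theorem e_spec (A : altSub F) : Cfsg.quadFormPlus 3 F (e A) = Pf (A : M) := by
  show ∑ i : Fin 3, e A (Sum.inl i) * e A (Sum.inr i) = _
  simp [Fin.sum_univ_three, e, Pf]
  ring

theorem exists_rep_alt : ∃ ρ : Γ →* (altSub F →ₗ[F] altSub F),
    ∀ g A, ((ρ g A : altSub F) : M) = (g : M) * A * (g : M).transpose := by
  refine exists_rep (altSub F) (fun g : Γ => (g : M)) (fun g : Γ => (g : M).transpose) rfl (fun _ _ => rfl) ?_ ?_ ?_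
  · simp
  · intro g h
    simp only [Matrix.SpecialLinearGroup.coe_mul, Matrix.transpose_mul]
  · intro g A hA
    exact isAlt_sandwich _ hA

end

section

variable {F : Type*} [Field F] [Fintype F]

theorem center_PSL4 : Subgroup.center (Matrix.ProjectiveSpecialLinearGroup (Fin 4) F) = ⊥ := by
  haveI := Cfsg.Agent.Lib.SLGen.PSL_isSimple (F := F) (n := 4) (by norm_num)
  apply center_of_simple
  have : Group.IsPerfect (Matrix.SpecialLinearGroup (Fin 4) F) := ⟨Cfsg.Agent.Lib.SLGen.commutator_SL_eq_top (by norm_num)⟩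
  have : Group.IsPerfect (Matrix.ProjectiveSpecialLinearGroup (Fin 4) F) := inferInstance
  exact this.commutator_eq_top

/-- The order formula. -/
theorem card_SL4 (k : ℕ) (hF : Fintype.card F = k + 1) (hk : 1 ≤ k) : Nat.card (Matrix.SpecialLinearGroup (Fin 4) F) =
    (k + 1) ^ 6 * (k * (k + 2) * (k ^ 2 + 2 * k + 2)) * (k * (k ^ 2 + 3 * k + 3)) * (k * (k + 2)) := by
  have h1 := Cfsg.Agent.S0242.result (F := F) hF 4 (by norm_num)
  simp only [Fin.prod_univ_four, Nat.add_sub_cancel] at h1
  have e0 : (k + 1) ^ 4 - (k + 1) ^ ((0 : Fin 4) : ℕ) = k * (k + 2) * (k ^ 2 + 2 * k + 2) := by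
    apply Nat.sub_eq_of_eq_add
    simp
    ring
  have e1 : (k + 1) ^ 4 - (k + 1) ^ ((1 : Fin 4) : ℕ) = (k + 1) * (k * (k ^ 2 + 3 * k + 3)) := by
    apply Nat.sub_eq_of_eq_add
    simp
    ring
  have e2 : (k + 1) ^ 4 - (k + 1) ^ ((2 : Fin 4) : ℕ) = (k + 1) ^ 2 * (k * (k + 2)) := by
    apply Nat.sub_eq_of_eq_add
    simp
    ring
  have e3 : (k + 1) ^ 4 - (k + 1) ^ ((3 : Fin 4) : ℕ) = (k + 1) ^ 3 * k := by
    apply Nat.sub_eq_of_eq_add
    simp
    ring
  rw [e0, e1, e2, e3] at h1
  apply Nat.eq_of_mul_eq_mul_left (by omega : 0 < k)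
  rw [h1]
  ring

theorem card_O6 (k : ℕ) (hF : Fintype.card F = k + 1) : Nat.card (isometryGroup F (Cfsg.quadFormPlus 3 F)) =
    2 * ((k + 1) ^ 6 * (k * (k + 2) * (k ^ 2 + 2 * k + 2)) * (k * (k ^ 2 + 3 * k + 3)) * (k * (k + 2))) := by
  rw [Cfsg.Agent.Lib.OrthOrder2.card_plus (F := F) (m := 3), hF]
  simp only [Finset.prod_range_succ, Finset.prod_range_zero, one_mul, Nat.add_sub_cancel]
  have e2 : (k + 1) ^ (1 + 1) - 1 = k * (k + 2) := by
    apply Nat.sub_eq_of_eq_add
    ring
  have e3 : (k + 1) ^ (2 + 1) - 1 = k * (k ^ 2 + 3 * k + 3) := by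
    apply Nat.sub_eq_of_eq_add
    ring
  have e1 : (k + 1) ^ (0 + 1) - 1 = k := by simp
  rw [e1, e2, e3]
  ring

end


/-- PΩ^+_6(q) is isomorphic to PSL_4(q). -/
theorem result {F : Type*} [Field F] [Fintype F] : Nonempty (Cfsg.POmega F (Cfsg.quadFormPlus 3 F) ≃* Matrix.ProjectiveSpecialLinearGroup (Fin 4) F) := by
  classical
  obtain ⟨ρ, hρ⟩ := exists_rep_alt (F := F)
  have hQ := Cfsg.Agent.Lib.OrthStd2.quadFormPlus_nondeg (m := 3) (F := F)
  have hkey : ∀ g : Matrix.SpecialLinearGroup (Fin 4) F, g ∈ ρ.ker ↔ ((g : Matrix (Fin 4) (Fin 4) F) = 1 ∨ (g : Matrix (Fin 4) (Fin 4) F) = -1) := by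
    intro g
    rw [MonoidHom.mem_ker]
    constructor
    · intro hg
      apply eq_one_or_neg_of_fix
      intro A hA
      have h1 : ((ρ g ⟨A, hA⟩ : altSub F) : Matrix (Fin 4) (Fin 4) F) = A := by
        rw [hg]
        rfl
      rwa [hρ] at h1
    · intro hg
      ext A : 1
      apply Subtype.ext
      rw [hρ]
      rcases hg with hg | hg <;> simp [hg]
  have hcen : ∀ g : Matrix.SpecialLinearGroup (Fin 4) F, g ∈ ρ.ker → g ∈ Subgroup.center (Matrix.SpecialLinearGroup (Fin 4) F) := by
    intro g hg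
    rw [Matrix.SpecialLinearGroup.mem_center_iff]
    rcases (hkey g).1 hg with h | h
    · refine ⟨1, by simp, ?_⟩
      rw [h]
      simp
    · refine ⟨-1, by simp; norm_num, ?_⟩
      rw [h]
      ext i j
      by_cases hij : i = j <;> simp [hij, Matrix.one_apply]
  obtain ⟨k, hk⟩ : ∃ k, Fintype.card F = k + 1 := ⟨Fintype.card F - 1, by have := Fintype.one_lt_card (α := F); omega⟩
  have hk1 : 1 ≤ k := by
    have := Fintype.one_lt_card (α := F)
    omega
  have hcard1 := card_SL4 k hk hk1
  have hcard2 := card_O6 (F := F) k hk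
  have h5 := Subgroup.index_mul_card (Omega F (Cfsg.quadFormPlus 3 F))
  rw [hcard2] at h5
  refine main (fun A : altSub F => Pf (A : Matrix (Fin 4) (Fin 4) F)) (Cfsg.quadFormPlus 3 F) e e_spec ρ ?_ (QuotientGroup.mk' _) (QuotientGroup.mk'_surjective _) (by rw [QuotientGroup.ker_mk']) ?_ center_PSL4 ?_ ?_
  · intro g A
    simp only [hρ]
    rw [Pf_sandwich _ A.2, Matrix.SpecialLinearGroup.det_coe, one_mul]
  · rw [QuotientGroup.ker_mk']
    exact hcen
  · intro φ g
    exact mem_omega_of_perfect (Cfsg.Agent.Lib.SLGen.commutator_SL_eq_top (by norm_num)) φ g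
  · rcases Nat.even_or_odd (Fintype.card F) with he | ho
    · have h2 : (2 : F) = 0 := by
        have hchar : ringChar F = 2 := FiniteField.even_card_iff_char_two.mpr (Nat.even_iff.mp he)
        exact_mod_cast (ringChar.spec F 2).mpr (by rw [hchar])
      haveI : CharP F 2 := CharTwo.of_one_ne_zero_of_two_eq_zero one_ne_zero h2
      have h6 : (Omega F (Cfsg.quadFormPlus 3 F)).index = 2 :=
        (Cfsg.Agent.Lib.OrthSpin3.even_main hQ (by simp) (Or.inr (by simp))).1
      have hn1 : (-1 : Matrix (Fin 4) (Fin 4) F) = 1 := by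
        have : (-1 : F) = 1 := by linear_combination -h2
        ext i j
        rw [Matrix.neg_apply, Matrix.one_apply]
        split_ifs <;> simp [this]
      have h7 : Nat.card ρ.ker = 1 := by
        apply card_one
        intro g
        rw [hkey, hn1, or_self]
        constructor
        · intro h
          exact Subtype.ext h
        · intro h
          rw [h]
          rfl
      rw [h7, hcard1, one_mul]
      rw [h6] at h5
      omega
    · have h2 := Cfsg.Agent.Lib.OrthStd.two_ne_zero_of_odd ho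
      have h6 : (Omega F (Cfsg.quadFormPlus 3 F)).index = 4 :=
        Cfsg.Agent.Lib.OrthSpin3.omega_index hQ (by simp) h2
      let s : Matrix.SpecialLinearGroup (Fin 4) F := ⟨-1, by rw [Matrix.det_neg]; simp; norm_num⟩
      have h7 : Nat.card ρ.ker = 2 := by
        apply card_two _ s
        · intro g
          rw [hkey]
          constructor
          · rintro (h | h)
            · exact Or.inl (Subtype.ext h)
            · exact Or.inr (Subtype.ext h)
          · rintro (h | h)
            · rw [h]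
              exact Or.inl rfl
            · rw [h]
              exact Or.inr rfl
        · intro hs
          have h8 := congrFun (congrFun (congrArg Subtype.val hs) 0) 0
          have h9 : (-1 : F) = 1 := by simpa [s] using h8
          apply h2
          linear_combination -h9
      rw [h7, hcard1]
      rw [h6] at h5
      omega

end Cfsg.Agent.S0302
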