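import Cfsg.Statements.S0825
import Cfsg.Agent.Lib.HeartQ
import Cfsg.Agent.Lib.OrthOrder2

set_option autoImplicit false
open Cfsg

namespace Cfsg.Agent.S0825


open Matrix Cfsg.Agent.Lib.Heart Cfsg.Agent.Lib.HeartQ

section
variable {F : Type*} [Field F] [CharP F 2]

/-- The explicit coordinates on the heart. -/
def W₀ : (Fin 3 ⊕ Fin 3 → F) →ₗ[F] (Fin 8 → F) where
  toFun u := ![u (.inl 0) + u (.inl 1) + u (.inl 2) + u (.inr 1),
    u (.inl 1) + u (.inl 2) + u (.inr 0) + u (.inr 1),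
    u (.inl 1) + u (.inr 1) + u (.inr 2),
    u (.inl 0) + u (.inl 2) + u (.inr 0),
    u (.inl 0) + u (.inr 0) + u (.inr 1) + u (.inr 2),
    u (.inl 0) + u (.inl 1) + u (.inr 0) + u (.inr 2),
    u (.inl 2) + u (.inr 2),
    0]
  map_add' x y := by
    ext i
    fin_cases i <;> simp <;> ring
  map_smul' c x := by
    ext i
    fin_cases i <;> simp <;> ring

theorem W₀_mem (u : Fin 3 ⊕ Fin 3 → F) : W₀ u ∈ E (Fin 8) F := by
  rw [mem_E]
  have h2 : (2 : F) = 0 := CharTwo.two_eq_zero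
  simp only [W₀, LinearMap.coe_mk, AddHom.coe_mk, Fin.sum_univ_eight]
  simp
  grind

theorem W₀_Q (u : Fin 3 ⊕ Fin 3 → F) : Q0 (W₀ u) = quadFormPlus 3 F u := by
  have h2 : (2 : F) = 0 := CharTwo.two_eq_zero
  simp only [Q0, W₀, LinearMap.coe_mk, AddHom.coe_mk, Fin.sum_univ_eight, quadFormPlus, Fin.sum_univ_three]
  simp
  grind

theorem one_Q : Q0 (fun _ => 1 : Fin 8 → F) = 0 := by
  have h2 : (2 : F) = 0 := CharTwo.two_eq_zero
  rw [Q0_one_cast]
  have : (∑ i : Fin 8, ∑ j : Fin 8, if i < j then 1 else 0 : ℕ) = 28 := by decide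
  rw [this]
  push_cast
  linear_combination 14 * h2

end


/-- O⁺_6(2) ≅ S_8: the isometry group of the hyperbolic form x_1y_1 + x_2y_2 + x_3y_3 over the field with 2 elements is isomorphic to the symmetric group on 8 letters. -/
theorem result {F : Type*} [Field F] [Fintype F] (hF : Fintype.card F = 2) : Nonempty (↥(Cfsg.isometryGroup F (Cfsg.quadFormPlus 3 F)) ≃* Equiv.Perm (Fin 8)) := by
  classical
  haveI : CharP F 2 := by
    have h0 : ((2 : ℕ) : F) = 0 := by
      rw [← hF]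
      exact Nat.cast_card_eq_zero F
    exact CharTwo.of_one_ne_zero_of_two_eq_zero one_ne_zero (by exact_mod_cast h0)
  obtain ⟨f, hf⟩ := embed_heart (N := 8) (F := F) (by decide) one_Q (by decide) (quadFormPlus 3 F) W₀ W₀_mem W₀_Q Cfsg.Agent.Lib.HeartQ.rad_plus (by decide)
  have hcard : Nat.card (Equiv.Perm (Fin 8)) = Nat.card ↥(Cfsg.isometryGroup F (Cfsg.quadFormPlus 3 F)) := by
    rw [Cfsg.Agent.Lib.OrthOrder2.card_plus, hF, Nat.card_perm]
    simp [Finset.prod_range_succ, Nat.factorial]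
  have hb := (Nat.bijective_iff_injective_and_card f).2 ⟨hf, hcard⟩
  exact ⟨(MulEquiv.ofBijective f hb).symm⟩

end Cfsg.Agent.S0825
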