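import Cfsg.Statements.S0256
import Cfsg.Agent.S0302
import Cfsg.Agent.S0825
import Cfsg.Agent.Lib.OmegaSL2

set_option autoImplicit false
open Cfsg

namespace Cfsg.Agent.S0256


open Cfsg.Agent.Lib.OmegaSL2

theorem center_A8 : Subgroup.center (alternatingGroup (Fin 8)) = ⊥ := by
  haveI : IsSimpleGroup (alternatingGroup (Fin 8)) := alternatingGroup.isSimpleGroup (by simp)
  rcases IsSimpleGroup.eq_bot_or_eq_top_of_normal (Subgroup.center (alternatingGroup (Fin 8))) inferInstance with h | h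
  · exact h
  · exfalso
    let x : alternatingGroup (Fin 8) := ⟨Equiv.swap 0 1 * Equiv.swap 1 2, by rw [Equiv.Perm.mem_alternatingGroup, Equiv.Perm.sign_mul, Equiv.Perm.sign_swap (by decide), Equiv.Perm.sign_swap (by decide)]; rfl⟩
    let y : alternatingGroup (Fin 8) := ⟨Equiv.swap 0 1 * Equiv.swap 2 3, by rw [Equiv.Perm.mem_alternatingGroup, Equiv.Perm.sign_mul, Equiv.Perm.sign_swap (by decide), Equiv.Perm.sign_swap (by decide)]; rfl⟩
    have hx : x ∈ Subgroup.center (alternatingGroup (Fin 8)) := by rw [h]; trivial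
    have h1 := (Subgroup.mem_center_iff.1 hx) y
    have h2 := congrArg Subtype.val h1
    have h3 : ((y * x : alternatingGroup (Fin 8)) : Equiv.Perm (Fin 8)) ≠ ((x * y : alternatingGroup (Fin 8)) : Equiv.Perm (Fin 8)) := by
      decide +kernel
    exact h3 h2


/-- PSL_4(2) is isomorphic to A_8. -/
theorem result {F : Type*} [Field F] [Fintype F] (hF : Fintype.card F = 2) : Nonempty (Matrix.ProjectiveSpecialLinearGroup (Fin 4) F ≃* alternatingGroup (Fin 8)) := by
  obtain ⟨e₁⟩ := Cfsg.Agent.S0302.result (F := F)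
  obtain ⟨θ⟩ := Cfsg.Agent.S0825.result (F := F) hF
  have hcomm : commutator (Equiv.Perm (Fin 8)) = alternatingGroup (Fin 8) :=
    alternatingGroup.commutator_perm_eq (by simp)
  have hmap : (Cfsg.Omega F (Cfsg.quadFormPlus 3 F)).map θ.toMonoidHom = alternatingGroup (Fin 8) := by
    rw [← hcomm]
    unfold Cfsg.Omega
    rw [commutator_def, commutator_def, Subgroup.map_commutator, Subgroup.map_top_of_surjective _ θ.surjective]
  let e₂ : ↥(Cfsg.Omega F (Cfsg.quadFormPlus 3 F)) ≃* alternatingGroup (Fin 8) := (θ.subgroupMap _).trans (MulEquiv.subgroupCongr hmap)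
  have hc : Subgroup.center ↥(Cfsg.Omega F (Cfsg.quadFormPlus 3 F)) = ⊥ := by
    rw [eq_bot_iff]
    intro x hx
    have h1 : e₂ x ∈ Subgroup.center (alternatingGroup (Fin 8)) := by
      rw [Subgroup.mem_center_iff]
      intro y
      obtain ⟨z, rfl⟩ := e₂.surjective y
      rw [← map_mul, ← map_mul, (Subgroup.mem_center_iff.1 hx) z]
    rw [center_A8, Subgroup.mem_bot] at h1
    rw [Subgroup.mem_bot]
    exact e₂.injective (by rw [h1, map_one])
  have e₃ : Cfsg.POmega F (Cfsg.quadFormPlus 3 F) ≃* ↥(Cfsg.Omega F (Cfsg.quadFormPlus 3 F)) :=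
    (QuotientGroup.quotientMulEquivOfEq hc).trans QuotientGroup.quotientBot
  exact ⟨e₁.symm.trans (e₃.trans e₂)⟩

end Cfsg.Agent.S0256
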