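import Cfsg.Statements.S0257
import Cfsg.Agent.Lib.SL2Gen

set_option autoImplicit false
open Cfsg

namespace Cfsg.Agent.S0257

abbrev S3 := Matrix.SpecialLinearGroup (Fin 2) (ZMod 3)

def A : S3 := ⟨!![0,2;1,0], by decide⟩
def X : S3 := ⟨!![1,1;1,2], by decide⟩

def phi : QuaternionGroup 2 → S3
  | .a i => A ^ i.val
  | .xa i => X * A ^ i.val

set_option maxRecDepth 100000 in
theorem phi_mul : ∀ x y : QuaternionGroup 2, phi (x * y) = phi x * phi y := by decide

set_option maxRecDepth 100000 in
theorem phi_inj : Function.Injective phi := by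
  have : ∀ x y : QuaternionGroup 2, phi x = phi y → x = y := by decide
  exact fun x y h => this x y h

set_option maxRecDepth 100000 in
theorem phi_range : ∀ g : S3, g ^ 4 = 1 → ∃ x, phi x = g := by decide

set_option maxRecDepth 100000 in
theorem phi_pow : ∀ x, (phi x) ^ 4 = 1 := by decide

def phiHom : QuaternionGroup 2 →* S3 := MonoidHom.mk' phi phi_mul

def Q0 : Subgroup S3 := phiHom.range

theorem mem_Q0 {g : S3} : g ∈ Q0 ↔ g ^ 4 = 1 := by
  constructor
  · rintro ⟨x, rfl⟩
    exact phi_pow x
  · intro h
    obtain ⟨x, hx⟩ := phi_range g h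
    exact ⟨x, hx⟩

theorem Q0_normal : Q0.Normal := by
  constructor
  intro n hn g
  rw [mem_Q0] at hn ⊢
  rw [conj_pow, hn]
  simp

noncomputable def Q0equiv : Q0 ≃* QuaternionGroup 2 :=
  (MonoidHom.ofInjective (f := phiHom) phi_inj).symm

/-- Transport along a ring isomorphism. -/
noncomputable def slEquiv {F : Type*} [Field F] (e : ZMod 3 ≃+* F) :
    Matrix.SpecialLinearGroup (Fin 2) F ≃* S3 where
  toFun := Matrix.SpecialLinearGroup.map (e.symm : F →+* ZMod 3)
  invFun := Matrix.SpecialLinearGroup.map (e : ZMod 3 →+* F)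
  left_inv g := by
    apply Subtype.ext
    ext i j
    simp
  right_inv g := by
    apply Subtype.ext
    ext i j
    simp
  map_mul' a b := map_mul _ a b

/-- SL_2(3) has a normal subgroup of index 3 isomorphic to the quaternion group of order 8, and its centre has order 2. -/
theorem result {F : Type*} [Field F] [Fintype F] (hF : Fintype.card F = 3) : (∃ Q : Subgroup (Matrix.SpecialLinearGroup (Fin 2) F), Q.Normal ∧ Q.index = 3 ∧ Nonempty (Q ≃* QuaternionGroup 2)) ∧ Nat.card (Subgroup.center (Matrix.SpecialLinearGroup (Fin 2) F)) = 2 := by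
  constructor
  · haveI : Fact (Nat.Prime 3) := ⟨by norm_num⟩
    let e : ZMod 3 ≃+* F := ZMod.ringEquivOfPrime F (by norm_num) hF
    let E := slEquiv e
    refine ⟨Q0.comap E.toMonoidHom, ?_, ?_, ?_⟩
    · haveI := Q0_normal
      exact Subgroup.Normal.comap this _
    · have h1 : (Q0.comap E.toMonoidHom).index = Q0.index :=
        Subgroup.index_comap_of_surjective _ E.surjective
      rw [h1]
      have h2 := Subgroup.index_mul_card Q0
      have h3 : Nat.card Q0 = 8 := by
        rw [Nat.card_congr Q0equiv.toEquiv, Nat.card_eq_fintype_card, QuaternionGroup.card]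
      have h4 : Nat.card S3 = 24 := by
        have := Cfsg.Agent.Lib.SL2Gen.card_SL2 (F := ZMod 3)
        rw [ZMod.card] at this
        simpa using this
      rw [h3, h4] at h2
      omega
    · refine ⟨?_⟩
      have : (Q0.comap E.toMonoidHom) ≃* Q0 :=
        { toFun := fun x => ⟨E x.1, x.2⟩
          invFun := fun x => ⟨E.symm x.1, by
            show E (E.symm x.1) ∈ Q0
            simp⟩
          left_inv := fun x => by
            apply Subtype.ext; simp
          right_inv := fun x => by
            apply Subtype.ext; simp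
          map_mul' := fun x y => by
            apply Subtype.ext; exact map_mul E _ _ }
      exact this.trans Q0equiv
  · rw [Cfsg.Agent.Lib.ClassicalBasic.card_center_SL 2 (by norm_num), hF]
    norm_num

end Cfsg.Agent.S0257
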