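import Cfsg.Statements.S0261
import Cfsg.Agent.Lib.H1SL2Syl2
import Cfsg.Agent.Lib.H1Quat

set_option autoImplicit false
open Cfsg

namespace Cfsg.Agent.S0261


open Matrix Cfsg.Agent.Lib.H1GL2 Cfsg.Agent.Lib.H1SL2 Cfsg.Agent.Lib.H1PSL2 Cfsg.Agent.Lib.H1PSL2P
  Cfsg.Agent.Lib.H1SL2C Cfsg.Agent.Lib.H1Torus Cfsg.Agent.Lib.H1SL2Syl2

section
variable {F : Type*} [Field F] [Fintype F]

/-- A subgroup with the `Syl` description is generalised quaternion. -/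
theorem quat_of_syl {x w : SL2 F} {a m : ℕ} {S : Subgroup (SL2 F)} (H : Syl x w a m S) :
    Nonempty (S ≃* QuaternionGroup (2 ^ (a - 1))) := by
  have hD := H.D
  have ha2 := hD.ha
  have e2 : 2 * 2 ^ (a - 1) = 2 ^ a := by
    rw [← pow_succ']
    congr 1
    omega
  have huord : orderOf (x ^ m) = 2 * 2 ^ (a - 1) := by rw [hD.ord_u, e2]
  have hu1 : (x ^ m) ^ (2 ^ (a - 1)) = mone := by
    have h0 : (x ^ m) ^ (2 ^ (a - 1)) * (x ^ m) ^ (2 ^ (a - 1)) = 1 := by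
      rw [← pow_add, ← two_mul, ← huord, pow_orderOf_eq_one]
    have h1 : (x ^ m) ^ (2 ^ (a - 1)) ≠ 1 := by
      intro h
      have h3 := orderOf_dvd_of_pow_eq_one h
      rw [huord] at h3
      have h4 := Nat.le_of_dvd (by positivity) h3
      have : 0 < 2 ^ (a - 1) := by positivity
      omega
    rcases eq_one_or_mone_of_sq hD.h2 _ h0 with h | h
    · exact absurd h h1
    · exact h
  let a' : S := ⟨x ^ m, H.u_mem⟩
  let g' : S := ⟨w, H.w_mem⟩
  have hzp : ∀ y : S, (y : SL2 F) ∈ Subgroup.zpowers (x ^ m) → y ∈ Subgroup.zpowers a' := by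
    intro y hy
    obtain ⟨k, hk⟩ := Subgroup.mem_zpowers_iff.1 hy
    refine Subgroup.mem_zpowers_iff.2 ⟨k, Subtype.ext ?_⟩
    simpa [a'] using hk
  have hzp' : ∀ y : S, y ∈ Subgroup.zpowers a' → (y : SL2 F) ∈ Subgroup.zpowers (x ^ m) := by
    intro y hy
    obtain ⟨k, hk⟩ := Subgroup.mem_zpowers_iff.1 hy
    refine Subgroup.mem_zpowers_iff.2 ⟨k, ?_⟩
    rw [← hk]
    simp [a']
  haveI : NeZero (2 ^ (a - 1)) := ⟨by positivity⟩
  refine Cfsg.Agent.Lib.H1Quat.quat_iso a' g' ?_ ?_ ?_ ?_ ?_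
  · rw [← huord]
    exact Subgroup.orderOf_mk _ _
  · apply Subtype.ext
    exact hD.w_inv_all hD.u_mem
  · apply Subtype.ext
    show w ^ 2 = (x ^ m) ^ (2 ^ (a - 1))
    rw [hu1, pow_two]
    exact hD.w_sq
  · intro h
    exact hD.w_not_T (hD.U_le_T (hzp' _ h))
  · intro y
    rcases (H.hS y).1 y.2 with h | h
    · exact Or.inl (hzp y h)
    · right
      apply hzp
      have hT : (y : SL2 F) * w⁻¹ ∈ Tz x := hD.U_le_T h
      have h4 : w * ((y : SL2 F) * w⁻¹)⁻¹ * w⁻¹ = (y : SL2 F) * w⁻¹ := by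
        rw [hD.w_inv_all (Subgroup.inv_mem _ hT), inv_inv]
      have h5 : ((g'⁻¹ * y : S) : SL2 F) = ((y : SL2 F) * w⁻¹)⁻¹ := by
        show w⁻¹ * (y : SL2 F) = _
        calc w⁻¹ * (y : SL2 F) = w⁻¹ * (((y : SL2 F) * w⁻¹) * w) := by group
          _ = w⁻¹ * ((w * ((y : SL2 F) * w⁻¹)⁻¹ * w⁻¹) * w) := by rw [h4]
          _ = _ := by group
      rw [h5]
      exact Subgroup.inv_mem _ h
end


/-- For q odd, the Sylow 2-subgroups of SL_2(q) are generalised quaternion. -/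
theorem result {F : Type*} [Field F] [Fintype F] (hF : Odd (Fintype.card F)) (P : Sylow 2 (Matrix.SpecialLinearGroup (Fin 2) F)) : ∃ k : ℕ, 1 ≤ k ∧ Nonempty ((P : Subgroup (Matrix.SpecialLinearGroup (Fin 2) F)) ≃* QuaternionGroup (2 ^ k)) := by
  obtain ⟨x, w, a, m, H, -, -⟩ := exists_syl hF P
  have ha2 := H.D.ha
  exact ⟨a - 1, by omega, quat_of_syl H⟩

end Cfsg.Agent.S0261
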