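import Cfsg.Statements.S0262
import Cfsg.Agent.Lib.H1Torus2

set_option autoImplicit false
open Cfsg

namespace Cfsg.Agent.S0262


open Matrix Cfsg.Agent.Lib.H1GL2 Cfsg.Agent.Lib.H1SL2 Cfsg.Agent.Lib.H1PSL2 Cfsg.Agent.Lib.H1PSL2P
  Cfsg.Agent.Lib.H1SL2C Cfsg.Agent.Lib.H1Torus

section
variable {F : Type*} [Field F] [Fintype F]

theorem cyc_of_torus (x : SL2 F) (hgen : ∀ t ∈ Tz x, ∃ k : ℕ, t = x ^ k) {ℓ : ℕ} [hℓ : Fact ℓ.Prime]
    (hidx : ¬ ℓ ∣ (Tz x).index) (P : Sylow ℓ (SL2 F)) : IsCyclic (P : Subgroup (SL2 F)) := by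
  obtain ⟨g, hg⟩ := exists_conj_le_Tz x hidx P
  have hgen2 : ∀ t ∈ Tz (g * x * g⁻¹), ∃ k : ℕ, t = (g * x * g⁻¹) ^ k := by
    intro t ht
    obtain ⟨k, hk⟩ := hgen _ (Tz_conj x g t ht)
    refine ⟨k, ?_⟩
    rw [conj_pow, ← hk]
    group
  haveI := isCyclic_Tz hgen2
  exact isCyclic_of_injective (Subgroup.inclusion hg) (Subgroup.inclusion_injective hg)
end


/-- For an odd prime r different from the characteristic, the Sylow r-subgroups of SL_2(q) are cyclic. -/
theorem result {F : Type*} [Field F] [Fintype F] (p : ℕ) [Fact p.Prime] [CharP F p] (r : ℕ) [Fact r.Prime] (hr : r ≠ 2) (hrp : r ≠ p) (R : Sylow r (Matrix.SpecialLinearGroup (Fin 2) F)) : IsCyclic (R : Subgroup (Matrix.SpecialLinearGroup (Fin 2) F)) := by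
  classical
  have hq : 1 < Fintype.card F := Fintype.one_lt_card
  have hpp : p.Prime := Fact.out
  have hrp' : (r).Prime := Fact.out
  obtain ⟨f, hf⟩ := FiniteField.card F p
  have hrq : ¬ r ∣ Fintype.card F := by
    rw [hf.2]
    intro h
    exact hrp ((Nat.prime_dvd_prime_iff_eq hrp' hpp).1 (hrp'.dvd_of_dvd_pow h))
  have hfac : Fintype.card F ^ 2 - 1 = (Fintype.card F - 1) * (Fintype.card F + 1) := by
    obtain ⟨k, hk⟩ : ∃ k, Fintype.card F = k + 1 := ⟨Fintype.card F - 1, by omega⟩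
    rw [hk]
    simp only [Nat.add_sub_cancel]
    have : (k + 1) ^ 2 = k * (k + 1 + 1) + 1 := by ring
    omega
  by_cases hd1 : r ∣ Fintype.card F - 1
  · -- split case
    obtain ⟨ζ, hζ⟩ := IsCyclic.exists_ofOrder_eq_natCard (α := Fˣ)
    rw [Nat.card_units, Nat.card_eq_fintype_card] at hζ
    have hζgen : ∀ u : Fˣ, ∃ k : ℕ, u = ζ ^ k := by
      intro u
      have h1 : Function.Bijective (fun i : Fin (orderOf ζ) => ζ ^ (i : ℕ)) := by
        rw [Fintype.bijective_iff_injective_and_card]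
        refine ⟨fun i j h => Fin.ext (pow_injOn_Iio_orderOf i.2 j.2 h), ?_⟩
        rw [Fintype.card_fin, hζ, Fintype.card_units]
      obtain ⟨i, hi⟩ := h1.2 u
      exact ⟨i, hi.symm⟩
    have hℓ3 : 3 ≤ r := by have := hrp'.two_le; omega
    have hq4 : 4 ≤ Fintype.card F := by
      have := Nat.le_of_dvd (by omega) hd1
      omega
    have hsq : (ζ : F) ^ 2 ≠ 1 := by
      intro h
      have h1 : ζ ^ 2 = 1 := Units.ext (by simpa using h)
      have h2 := orderOf_dvd_of_pow_eq_one h1
      rw [hζ] at h2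
      have := Nat.le_of_dvd (by norm_num) h2
      omega
    have h01 : (dg ζ : M2 F) 0 1 = 0 := rfl
    have h10 : (dg ζ : M2 F) 1 0 = 0 := rfl
    have hgen := diag_gen ζ hζgen h01 h10 hsq
    have hord : orderOf (dg ζ) = Fintype.card F - 1 := by
      rw [orderOf_injective dg dg_injective, hζ]
    have hidx : ¬ r ∣ (Tz (dg ζ)).index := by
      have h1 := Subgroup.index_mul_card (Tz (dg ζ))
      rw [card_Tz hgen, hord, card_sl2, hfac] at h1
      have h3 : (Tz (dg ζ)).index = Fintype.card F * (Fintype.card F + 1) := by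
        have h4 : 0 < Fintype.card F - 1 := by omega
        apply Nat.eq_of_mul_eq_mul_right h4
        rw [h1]
        ring
      rw [h3]
      intro h5
      rcases (Nat.Prime.dvd_mul hrp').mp h5 with h6 | h6
      · exact hrq h6
      · have : r ∣ 2 := by
          have h7 := Nat.dvd_sub h6 hd1
          have e : Fintype.card F + 1 - (Fintype.card F - 1) = 2 := by omega
          rwa [e] at h7
        exact hr ((Nat.prime_dvd_prime_iff_eq hrp' Nat.prime_two).mp this)
    exact cyc_of_torus _ hgen hidx R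
  by_cases hd2 : r ∣ Fintype.card F + 1
  · obtain ⟨τ, hord, -, hgen0⟩ := ns_data (F := F)
    obtain ⟨hx, hns⟩ := ns_gen_props τ hord
    have hgen : ∀ t ∈ Tz τ, ∃ k : ℕ, t = τ ^ k := fun t ht => hgen0 t hns (mem_Tz.mp ht)
    have hidx : ¬ r ∣ (Tz τ).index := by
      have h1 := Subgroup.index_mul_card (Tz τ)
      rw [card_Tz hgen, hord, card_sl2, hfac] at h1
      have h3 : (Tz τ).index = Fintype.card F * (Fintype.card F - 1) := by
        apply Nat.eq_of_mul_eq_mul_right (by omega : 0 < Fintype.card F + 1)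
        rw [h1]
        ring
      rw [h3]
      intro h5
      rcases (Nat.Prime.dvd_mul hrp').mp h5 with h6 | h6
      · exact hrq h6
      · exact hd1 h6
    exact cyc_of_torus _ hgen hidx R
  · -- trivial Sylow
    have h1 : ¬ r ∣ Nat.card (Matrix.SpecialLinearGroup (Fin 2) F) := by
      rw [card_sl2, hfac]
      intro h5
      rcases (Nat.Prime.dvd_mul hrp').mp h5 with h6 | h6
      · exact hrq h6
      · rcases (Nat.Prime.dvd_mul hrp').mp h6 with h7 | h7
        · exact hd1 h7
        · exact hd2 h7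
    have h2 : (R : Subgroup (Matrix.SpecialLinearGroup (Fin 2) F)) = ⊥ := by
      obtain ⟨n, hn⟩ := R.isPGroup'.exists_card_eq
      have h3 : Nat.card (R : Subgroup (Matrix.SpecialLinearGroup (Fin 2) F)) ∣ Nat.card (Matrix.SpecialLinearGroup (Fin 2) F) := Subgroup.card_subgroup_dvd_card _
      rw [hn] at h3
      rcases n with _ | n
      · rw [pow_zero] at hn
        exact Subgroup.eq_bot_of_card_eq _ hn
      · exact absurd ((dvd_pow_self r (Nat.succ_ne_zero n)).trans h3) h1
    rw [h2]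
    exact inferInstance

end Cfsg.Agent.S0262
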