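import Cfsg.Statements.S0263
import Cfsg.Agent.Lib.ClassicalBasic

set_option autoImplicit false
open Cfsg

namespace Cfsg.Agent.S0263

/-- `∏_{i<n} (q^n - q^i) = q^(n(n-1)/2) ∏_{i<n} (q^(n-i) - 1)` -/
theorem prod_eq (q : ℕ) (hq : 1 ≤ q) (n : ℕ) :
    ∏ i : Fin n, (q ^ n - q ^ (i : ℕ)) = q ^ (n * (n - 1) / 2) * ∏ i : Fin n, (q ^ (n - i) - 1) := by
  have h1 : ∀ i : Fin n, q ^ n - q ^ (i : ℕ) = q ^ (i : ℕ) * (q ^ (n - i) - 1) := by
    intro i
    rw [Nat.mul_sub, mul_one, ← pow_add]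
    congr 2
    have := i.2
    omega
  rw [Finset.prod_congr rfl (fun i _ => h1 i), Finset.prod_mul_distrib, Finset.prod_pow_eq_pow_sum]
  congr 2
  rw [Fin.sum_univ_eq_sum_range (fun i => i) n, Finset.sum_range_id]

/-- Sylow cardinality from a splitting of the group order. -/
theorem card_sylow_of_split {G : Type*} [Group G] [Finite G] {p : ℕ} [hp : Fact p.Prime] (P : Sylow p G) {a R : ℕ}
    (hcard : Nat.card G = p ^ a * R) (hR : ¬ p ∣ R) : Nat.card P = p ^ a := by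
  rw [P.card_eq_multiplicity, hcard]
  have hR0 : R ≠ 0 := by
    rintro rfl
    exact hR (dvd_zero p)
  rw [Nat.factorization_mul (pow_ne_zero _ hp.out.ne_zero) hR0]
  simp [Nat.Prime.factorization_pow hp.out, Nat.factorization_eq_zero_of_not_dvd hR]

/-- A Sylow p-subgroup of GL_n(q), p the characteristic, has order q^(n(n-1)/2). -/
theorem result {F : Type*} [Field F] [Fintype F] {q : ℕ} (hF : Fintype.card F = q) (p : ℕ) [Fact p.Prime] [CharP F p] (n : ℕ) (P : Sylow p (Matrix.GeneralLinearGroup (Fin n) F)) : Nat.card P = q ^ (n * (n - 1) / 2) := by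
  have hp : p.Prime := Fact.out
  obtain ⟨f, -, hq⟩ := FiniteField.card F p
  rw [hF] at hq
  have hcard : Nat.card (Matrix.GeneralLinearGroup (Fin n) F) = ∏ i : Fin n, (q ^ n - q ^ (i : ℕ)) := by
    rw [Matrix.card_GL_field, hF]
  rw [prod_eq q (by rw [hq]; exact Nat.one_le_pow _ _ hp.pos) n] at hcard
  have hR : ¬ p ∣ ∏ i : Fin n, (q ^ (n - i) - 1) := by
    rw [Prime.dvd_finset_prod_iff hp.prime]
    rintro ⟨i, -, hi⟩
    have h1 : p ∣ q ^ (n - i) := by
      rw [hq]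
      apply dvd_pow (dvd_pow_self p f.ne_zero)
      have := i.2
      omega
    have h2 : 1 ≤ q ^ (n - i) := Nat.one_le_pow _ _ (by rw [hq]; exact Nat.pow_pos hp.pos)
    have h3 : p ∣ 1 := by
      have := Nat.dvd_sub h1 hi
      rwa [Nat.sub_sub_self h2] at this
    exact hp.one_lt.ne' (Nat.dvd_one.mp h3)
  have e : q ^ (n * (n - 1) / 2) = p ^ ((f : ℕ) * (n * (n - 1) / 2)) := by
    rw [hq, pow_mul]
  rw [e] at hcard ⊢
  exact card_sylow_of_split P hcard hR

end Cfsg.Agent.S0263
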