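import Cfsg.Statements.S0264
import Cfsg.Agent.Lib.SLGen

set_option autoImplicit false
open Cfsg

namespace Cfsg.Agent.S0264

open Matrix
open scoped commutatorElement

theorem commutator_GL_T {ι : Type*} [Fintype ι] [DecidableEq ι] {F : Type*} [Field F] {i j : ι} (hij : i ≠ j) (a : F) (ha : a ≠ 0) (b : F) :
    ∃ D : GL ι F, ⁅D, Matrix.SpecialLinearGroup.toGL (Matrix.SpecialLinearGroup.transvection hij b)⁆ =
      Matrix.SpecialLinearGroup.toGL (Matrix.SpecialLinearGroup.transvection hij (b * (a - 1))) := by
  let d : ι → F := fun k => if k = i then a else 1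
  let d' : ι → F := fun k => if k = i then a⁻¹ else 1
  have h1 : Matrix.diagonal d * Matrix.diagonal d' = 1 := by
    rw [Matrix.diagonal_mul_diagonal, ← Matrix.diagonal_one]
    congr 1
    funext k
    by_cases hk : k = i <;> simp [d, d', hk, ha]
  have h2 : Matrix.diagonal d' * Matrix.diagonal d = 1 := by
    rw [Matrix.diagonal_mul_diagonal, ← Matrix.diagonal_one]
    congr 1
    funext k
    by_cases hk : k = i <;> simp [d, d', hk, ha]
  refine ⟨⟨Matrix.diagonal d, Matrix.diagonal d', h1, h2⟩, ?_⟩
  rw [commutatorElement_def, ← map_inv, Matrix.SpecialLinearGroup.transvection_inv]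
  apply Units.ext
  apply Matrix.mulVec_injective
  funext x
  ext l
  have e1 : ∀ (c : F), ((Matrix.SpecialLinearGroup.toGL (Matrix.SpecialLinearGroup.transvection hij c) : GL ι F) : Matrix ι ι F) = Matrix.transvection i j c := fun c => rfl
  have e2 : (((⟨Matrix.diagonal d, Matrix.diagonal d', h1, h2⟩ : GL ι F)⁻¹ : GL ι F) : Matrix ι ι F) = Matrix.diagonal d' := rfl
  have e3 : (((⟨Matrix.diagonal d, Matrix.diagonal d', h1, h2⟩ : GL ι F) : GL ι F) : Matrix ι ι F) = Matrix.diagonal d := rfl
  rw [Units.val_mul, Units.val_mul, Units.val_mul, e1, e1, e1, e2, e3, ← Matrix.mulVec_mulVec, ← Matrix.mulVec_mulVec, ← Matrix.mulVec_mulVec]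
  simp only [Lib.SLGen.transvection_mulVec_apply, Matrix.mulVec_diagonal, d, d']
  by_cases hi : l = i
  · subst hi
    simp [hij, hij.symm]
    field_simp
    ring
  · simp [hi]

/-- GL_n(F)' = SL_n(F) (as the kernel of det), for every field F and every n, except n = 2 over the field of two elements. -/
theorem result {F : Type*} [Field F] (n : ℕ) (h : n = 2 → ∃ a : F, a ≠ 0 ∧ a ≠ 1) : commutator (Matrix.GeneralLinearGroup (Fin n) F) = (Matrix.GeneralLinearGroup.det : Matrix.GeneralLinearGroup (Fin n) F →* Fˣ).ker := by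
  apply le_antisymm
  · rw [commutator_def, Subgroup.commutator_le]
    intro g₁ _ g₂ _
    rw [MonoidHom.mem_ker, commutatorElement_def, map_mul, map_mul, map_mul, map_inv, map_inv]
    rw [mul_comm (Matrix.GeneralLinearGroup.det g₁) (Matrix.GeneralLinearGroup.det g₂)]
    simp
  · intro g hg
    rw [MonoidHom.mem_ker] at hg
    have hdet : (g : Matrix (Fin n) (Fin n) F).det = 1 := by
      have := congrArg Units.val hg
      simpa using this
    let s : Matrix.SpecialLinearGroup (Fin n) F := ⟨(g : Matrix (Fin n) (Fin n) F), hdet⟩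
    have hs : Matrix.SpecialLinearGroup.toGL s = g := by
      apply Units.ext
      rfl
    rw [← hs]
    refine Lib.SLGen.sl_induction (fun s => Matrix.SpecialLinearGroup.toGL s ∈ commutator (GL (Fin n) F)) ?_ ?_ (by simp) s
    · intro i j hij c
      by_cases hn : n = 2
      · obtain ⟨a, ha0, ha1⟩ := h hn
        obtain ⟨D, hD⟩ := commutator_GL_T hij a ha0 (c / (a - 1))
        rw [div_mul_cancel₀ c (sub_ne_zero_of_ne ha1)] at hD
        rw [← hD]
        exact Subgroup.commutator_mem_commutator (Subgroup.mem_top _) (Subgroup.mem_top _)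
      · have hn3 : 3 ≤ n := by
          have : 0 < n := Fin.pos i
          have : (i : ℕ) ≠ j := fun h => hij (Fin.ext h)
          have := i.2
          have := j.2
          omega
        obtain ⟨k, hik, hjk⟩ := Lib.SLGen.exists_third_of_three_le hn3 i j
        obtain ⟨a, b, hab⟩ := Lib.SLGen.T_mem_commutatorSet_of_three hij hik hjk c
        rw [← hab, map_commutatorElement]
        exact Subgroup.commutator_mem_commutator (Subgroup.mem_top _) (Subgroup.mem_top _)
    · intro A B hA hB
      rw [map_mul]
      exact mul_mem hA hB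

end Cfsg.Agent.S0264
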