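import Cfsg.Statements.S0265
import Cfsg.Agent.Lib.ClassicalBasic

set_option autoImplicit false
open Cfsg

namespace Cfsg.Agent.S0265

open Matrix in
theorem card_center_GL {F : Type*} [Field F] [Fintype F] (n : ℕ) (hn : 1 ≤ n) :
    Nat.card (Subgroup.center (GL (Fin n) F)) = Fintype.card F - 1 := by
  have : Nonempty (Fin n) := ⟨⟨0, hn⟩⟩
  rw [Matrix.GeneralLinearGroup.center_eq_range_scalar]
  have hinj : Function.Injective (Matrix.GeneralLinearGroup.scalar (Fin n) : Fˣ →* GL (Fin n) F) := by
    intro a b hab
    have := congrArg (fun g : GL (Fin n) F => (g : Matrix (Fin n) (Fin n) F) ⟨0, hn⟩ ⟨0, hn⟩) hab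
    ext
    simpa using this
  rw [Nat.card_congr (MonoidHom.ofInjective hinj).symm.toEquiv]
  exact Lib.ClassicalBasic.card_units_eq

/-- |PGL_n(q)| = |SL_n(q)|: GL_n modulo its centre (the q-1 non-zero scalars) has the same order as the kernel of det. -/
theorem result {F : Type*} [Field F] [Fintype F] (n : ℕ) : Nat.card (Matrix.ProjGenLinGroup (Fin n) F) = Nat.card (Matrix.SpecialLinearGroup (Fin n) F) := by
  rcases Nat.eq_zero_or_pos n with rfl | hn
  · have h1 : Subsingleton (GL (Fin 0) F) := by
      constructor
      intro a b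
      ext i
      exact i.elim0
    have h2 : Subsingleton (Matrix.ProjGenLinGroup (Fin 0) F) :=
      (Quotient.mk''_surjective).subsingleton
    have h3 : Subsingleton (Matrix.SpecialLinearGroup (Fin 0) F) := by
      constructor
      intro a b
      ext i
      exact i.elim0
    rw [Nat.card_unique, Nat.card_unique]
  · have h1 := Lib.ClassicalBasic.card_GL_eq (F := F) n hn
    have h2 : Nat.card (GL (Fin n) F) = Nat.card (Matrix.ProjGenLinGroup (Fin n) F) * Nat.card (Subgroup.center (GL (Fin n) F)) :=
      Subgroup.card_eq_card_quotient_mul_card_subgroup _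
    rw [card_center_GL n hn] at h2
    have hq : 0 < Fintype.card F - 1 := by
      have := Fintype.one_lt_card (α := F)
      omega
    rw [h2, mul_comm] at h1
    exact Nat.eq_of_mul_eq_mul_left hq h1

end Cfsg.Agent.S0265
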