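import Cfsg.Statements.S0266
import Cfsg.Agent.Lib.ProjLine

set_option autoImplicit false
open scoped MatrixGroups
open Cfsg

namespace Cfsg.Agent.S0266

open Cfsg.Agent.Lib.ProjLine Matrix.ProjGenLinGroup
open scoped LinearAlgebra.Projectivization

theorem pgl_smul {F : Type*} [Field F] (g : GL (Fin 2) F) (x : ℙ F (Fin 2 → F)) :
    (Matrix.ProjGenLinGroup.mk g) • x = g • x := rfl

/-- PGL_2(F) is sharply 3-transitive on the projective line: it is 3-transitive and the stabiliser of three distinct points is trivial. -/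
theorem result {F : Type*} [Field F] : MulAction.IsMultiplyPretransitive (Matrix.ProjGenLinGroup (Fin 2) F) (Projectivization F (Fin 2 → F)) 3 ∧ ∀ (g : Matrix.ProjGenLinGroup (Fin 2) F) (a b c : Projectivization F (Fin 2 → F)), a ≠ b → a ≠ c → b ≠ c → g • a = a → g • b = b → g • c = c → g = 1 := by
  constructor
  · refine ⟨fun x y => ?_⟩
    have hx01 : x 0 ≠ x 1 := fun h => by simpa using x.injective h
    have hx02 : x 0 ≠ x 2 := fun h => by simpa using x.injective h
    have hx12 : x 1 ≠ x 2 := fun h => by simpa using x.injective h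
    have hy01 : y 0 ≠ y 1 := fun h => by simpa using y.injective h
    have hy02 : y 0 ≠ y 2 := fun h => by simpa using y.injective h
    have hy12 : y 1 ≠ y 2 := fun h => by simpa using y.injective h
    obtain ⟨hx, hx0, hx1, hx2⟩ := exists_gl_three _ _ _ hx01 hx02 hx12
    obtain ⟨hy, hy0, hy1, hy2⟩ := exists_gl_three _ _ _ hy01 hy02 hy12
    refine ⟨Matrix.ProjGenLinGroup.mk (hy * hx⁻¹), ?_⟩
    ext i
    rw [Function.Embedding.smul_apply, pgl_smul, mul_smul]
    fin_cases i
    · show hy • hx⁻¹ • x 0 = y 0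
      rw [← hx0, inv_smul_smul, hy0]
    · show hy • hx⁻¹ • x 1 = y 1
      rw [← hx1, inv_smul_smul, hy1]
    · show hy • hx⁻¹ • x 2 = y 2
      rw [← hx2, inv_smul_smul, hy2]
  · intro g a b c hab hac hbc ha hb hc
    induction g using Matrix.ProjGenLinGroup.induction_on with | mk g =>
    rw [pgl_smul] at ha hb hc
    obtain ⟨h, h0, h1, h2⟩ := exists_gl_three a b c hab hac hbc
    obtain ⟨u, hu⟩ := fix_scalar (h⁻¹ * g * h)
      (by rw [mul_smul, mul_smul, h0, ha, inv_smul_eq_iff, h0])
      (by rw [mul_smul, mul_smul, h1, hb, inv_smul_eq_iff, h1])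
      (by rw [mul_smul, mul_smul, h2, hc, inv_smul_eq_iff, h2])
    have h3 : Matrix.ProjGenLinGroup.mk (h⁻¹ * g * h) = 1 := by
      rw [hu, mk_scalar]
    rw [map_mul, map_mul, map_inv] at h3
    have h5 : mk h * ((mk h)⁻¹ * mk g * mk h) * (mk h)⁻¹ = 1 := by
      rw [h3]; simp
    rw [← h5]; group

end Cfsg.Agent.S0266
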