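import Cfsg.Statements.S0267
import Cfsg.Agent.Lib.ProjLine

set_option autoImplicit false
open Cfsg

namespace Cfsg.Agent.S0267

open Cfsg.Agent.Lib.ProjLine Projectivization Matrix
open scoped LinearAlgebra.Projectivization MatrixGroups

theorem sl_smul_mk {F : Type*} [Field F] (g : Matrix.SpecialLinearGroup (Fin 2) F) {v : Fin 2 → F} (hv : v ≠ 0) :
    g • mk F v hv = mk F ((g : Matrix (Fin 2) (Fin 2) F) *ᵥ v) ((smul_ne_zero_iff_ne g).mpr hv) := rfl

theorem sl_of_gl {F : Type*} [Field F] (h : GL (Fin 2) F) (s : F) (hs : s ≠ 0)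
    (hd : (h : Matrix (Fin 2) (Fin 2) F).det = s * s) :
    ∃ g : Matrix.SpecialLinearGroup (Fin 2) F, ∀ p : ℙ F (Fin 2 → F), g • p = h • p := by
  refine ⟨⟨s⁻¹ • (h : Matrix (Fin 2) (Fin 2) F), ?_⟩, ?_⟩
  · rw [Matrix.det_smul, hd, Fintype.card_fin]
    field_simp
  · intro p
    induction p using Projectivization.ind with | h v hv =>
    refine (sl_smul_mk _ hv).trans ?_
    rw [gl_smul_mk, mk_eq_mk_iff']
    refine ⟨s⁻¹, ?_⟩
    simp only [Matrix.smul_mulVec]

/-- SL_2(q) is 3-transitive on the q+1 points of the projective line if and only if q is even. -/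
theorem result {F : Type*} [Field F] [Fintype F] : MulAction.IsMultiplyPretransitive (Matrix.SpecialLinearGroup (Fin 2) F) (Projectivization F (Fin 2 → F)) 3 ↔ ringChar F = 2 := by
  classical
  constructor
  · intro h
    by_contra hchar
    obtain ⟨n, hn⟩ := FiniteField.exists_nonsquare hchar
    have hn0 : n ≠ 0 := by
      rintro rfl
      exact hn (IsSquare.zero)
    have hv : (![1, n] : Fin 2 → F) ≠ 0 := by
      intro h0
      have := congrFun h0 0
      simp at this
    let Pn : ℙ F (Fin 2 → F) := mk F ![1, n] hv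
    have h0n : P0 ≠ Pn := by
      intro h
      rw [P0, mk_eq_mk_iff'] at h
      obtain ⟨c, hc⟩ := h
      have h0 := congrFun hc 0
      have h1 := congrFun hc 1
      simp [e0] at h0 h1
      rcases h1 with h1 | h1
      · rw [h1] at h0; exact zero_ne_one h0
      · exact hn0 h1
    have h1n : P1 ≠ Pn := by
      intro h
      rw [P1, mk_eq_mk_iff'] at h
      obtain ⟨c, hc⟩ := h
      have h0 := congrFun hc 0
      have h1 := congrFun hc 1
      simp [e1] at h0 h1
      rw [h0, zero_mul] at h1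
      exact zero_ne_one h1
    let x : Fin 3 ↪ ℙ F (Fin 2 → F) := ⟨![P0, P1, P2], by
      intro i j hij
      fin_cases i <;> fin_cases j <;> simp at hij ⊢
      · exact P0_ne_P1 hij
      · exact P0_ne_P2 hij
      · exact P0_ne_P1 hij.symm
      · exact P1_ne_P2 hij
      · exact P0_ne_P2 hij.symm
      · exact P1_ne_P2 hij.symm⟩
    let y : Fin 3 ↪ ℙ F (Fin 2 → F) := ⟨![P0, P1, Pn], by
      intro i j hij
      fin_cases i <;> fin_cases j <;> simp at hij ⊢
      · exact P0_ne_P1 hij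
      · exact h0n hij
      · exact P0_ne_P1 hij.symm
      · exact h1n hij
      · exact h0n hij.symm
      · exact h1n hij.symm⟩
    obtain ⟨g, hg⟩ := h.exists_smul_eq x y
    have h0 : g • (P0 : ℙ F (Fin 2 → F)) = P0 := by
      exact congrArg (fun z : Fin 3 ↪ ℙ F (Fin 2 → F) => z 0) hg
    have h1 : g • (P1 : ℙ F (Fin 2 → F)) = P1 := by
      exact congrArg (fun z : Fin 3 ↪ ℙ F (Fin 2 → F) => z 1) hg
    have h2 : g • (P2 : ℙ F (Fin 2 → F)) = Pn := by
      exact congrArg (fun z : Fin 3 ↪ ℙ F (Fin 2 → F) => z 2) hg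
    simp only [P0, P1, P2, sl_smul_mk] at h0 h1 h2
    obtain ⟨h10, h01⟩ := fix_diag (g : Matrix (Fin 2) (Fin 2) F) _ _ h0 h1
    rw [mk_eq_mk_iff'] at h2
    obtain ⟨c, hc⟩ := h2
    have a0 := congrFun hc 0
    have a1 := congrFun hc 1
    simp [e2, Matrix.mulVec, dotProduct, Fin.sum_univ_two, h10, h01] at a0 a1
    have hdet := g.2
    rw [Matrix.det_fin_two, h10, h01] at hdet
    simp only [mul_zero, sub_zero] at hdet
    apply hn
    refine ⟨(g : Matrix (Fin 2) (Fin 2) F) 1 1, ?_⟩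
    rw [a0] at a1
    linear_combination -n * hdet + (g : Matrix (Fin 2) (Fin 2) F) 1 1 * a1
  · intro hchar
    refine ⟨fun x y => ?_⟩
    have hx01 : x 0 ≠ x 1 := fun h => by simpa using x.injective h
    have hx02 : x 0 ≠ x 2 := fun h => by simpa using x.injective h
    have hx12 : x 1 ≠ x 2 := fun h => by simpa using x.injective h
    have hy01 : y 0 ≠ y 1 := fun h => by simpa using y.injective h
    have hy02 : y 0 ≠ y 2 := fun h => by simpa using y.injective h
    have hy12 : y 1 ≠ y 2 := fun h => by simpa using y.injective h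
    obtain ⟨hx, hx0, hx1, hx2⟩ := exists_gl_three _ _ _ hx01 hx02 hx12
    obtain ⟨hy, hy0, hy1, hy2⟩ := exists_gl_three _ _ _ hy01 hy02 hy12
    obtain ⟨s, hs⟩ := FiniteField.isSquare_of_char_two hchar (((hy * hx⁻¹ : GL (Fin 2) F) : Matrix (Fin 2) (Fin 2) F).det)
    have hs0 : s ≠ 0 := by
      rintro rfl
      have := (Matrix.isUnit_iff_isUnit_det _).mp (hy * hx⁻¹ : GL (Fin 2) F).isUnit
      rw [hs] at this
      simp at this
    obtain ⟨g, hg⟩ := sl_of_gl (hy * hx⁻¹) s hs0 hs
    refine ⟨g, ?_⟩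
    ext i
    rw [Function.Embedding.smul_apply, hg, mul_smul]
    fin_cases i
    · show hy • hx⁻¹ • x 0 = y 0
      rw [← hx0, inv_smul_smul, hy0]
    · show hy • hx⁻¹ • x 1 = y 1
      rw [← hx1, inv_smul_smul, hy1]
    · show hy • hx⁻¹ • x 2 = y 2
      rw [← hx2, inv_smul_smul, hy2]

end Cfsg.Agent.S0267
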