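import Cfsg.Statements.S0268
import Mathlib

set_option autoImplicit false
open Cfsg

namespace Cfsg.Agent.S0268

/-- For q odd, -1 is the unique involution of SL_2(q). -/
theorem result {F : Type*} [Field F] [Fintype F] (hF : Odd (Fintype.card F)) (g : Matrix.SpecialLinearGroup (Fin 2) F) (h1 : g ≠ 1) (h2 : g * g = 1) : (g : Matrix (Fin 2) (Fin 2) F) = -1 := by
  have hchar : ringChar F ≠ 2 := by
    intro h
    have := FiniteField.even_card_of_char_two (F := F) h
    rw [Nat.odd_iff] at hF
    omega
  have h2F : (2 : F) ≠ 0 := Ring.two_ne_zero hchar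
  have hdet := g.2
  rw [Matrix.det_fin_two] at hdet
  have hm : (g : Matrix (Fin 2) (Fin 2) F) * g = 1 := by
    have := congrArg (fun x : Matrix.SpecialLinearGroup (Fin 2) F => (x : Matrix (Fin 2) (Fin 2) F)) h2
    simpa using this
  set a := (g : Matrix (Fin 2) (Fin 2) F) 0 0 with ha
  set b := (g : Matrix (Fin 2) (Fin 2) F) 0 1 with hb
  set c := (g : Matrix (Fin 2) (Fin 2) F) 1 0 with hc
  set d := (g : Matrix (Fin 2) (Fin 2) F) 1 1 with hd
  have e00 := congrFun (congrFun hm 0) 0
  have e01 := congrFun (congrFun hm 0) 1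
  have e10 := congrFun (congrFun hm 1) 0
  have e11 := congrFun (congrFun hm 1) 1
  simp only [Matrix.mul_apply, Fin.sum_univ_two, Matrix.one_apply_eq, Matrix.one_apply_ne (zero_ne_one' (Fin 2)), Matrix.one_apply_ne (zero_ne_one' (Fin 2)).symm, ← ha, ← hb, ← hc, ← hd] at e00 e01 e10 e11
  -- `a d - b c = 1` and `a² + b c = 1` etc: `(a + d) b = 0`, `(a + d) c = 0`, `a² = d²`
  have h3 : b * (a + d) = 0 := by linear_combination e01
  have h4 : c * (a + d) = 0 := by linear_combination e10
  have h5 : a ^ 2 + b * c = 1 := by linear_combination e00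
  have h6 : (a + d) * a = 2 := by linear_combination e00 + hdet
  have hs : a + d ≠ 0 := by
    intro h
    rw [h, zero_mul] at h6
    exact h2F h6.symm
  have hb0 : b = 0 := (mul_eq_zero.mp h3).resolve_right hs
  have hc0 : c = 0 := (mul_eq_zero.mp h4).resolve_right hs
  have ha2 : a ^ 2 = 1 := by rw [hb0] at h5; simpa using h5
  have hdet' : a * d = 1 := by
    rw [hb0] at hdet; simpa using hdet
  have had : d = a := by
    have h7 : a * a = 1 := by rw [← sq]; exact ha2
    have : a * (d - a) = 0 := by linear_combination hdet' - h7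
    have ha0 : a ≠ 0 := by
      intro h
      rw [h] at h7
      simp at h7
    exact sub_eq_zero.mp ((mul_eq_zero.mp this).resolve_left ha0)
  have hcase : (a - 1) * (a + 1) = 0 := by linear_combination ha2
  rcases mul_eq_zero.mp hcase with h8 | h8
  · exfalso
    apply h1
    have ha1 : a = 1 := sub_eq_zero.mp h8
    ext i j
    fin_cases i <;> fin_cases j <;> simp [← ha, ← hb, ← hc, ← hd, ha1, hb0, hc0, had]
  · have ha1 : a = -1 := eq_neg_of_add_eq_zero_left h8
    ext i j
    fin_cases i <;> fin_cases j <;> simp [← ha, ← hb, ← hc, ← hd, ha1, hb0, hc0, had]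

end Cfsg.Agent.S0268
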