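import Cfsg.Statements.S0275
import Cfsg.Agent.Lib.LDick6
import Cfsg.Agent.S0261

set_option autoImplicit false
open Cfsg

namespace Cfsg.Agent.S0275


open Matrix Cfsg.Agent.Lib.H1GL2 Cfsg.Agent.Lib.H1SL2 Cfsg.Agent.Lib.H1PSL2

theorem not_cyc {k : ℕ} (hk : 1 ≤ k) : ¬ IsCyclic (QuaternionGroup (2 ^ k)) := by
  intro h
  haveI : NeZero (2 ^ k) := ⟨by positivity⟩
  have h1 := IsCyclic.exponent_eq_card (α := QuaternionGroup (2 ^ k))
  rw [QuaternionGroup.exponent, Nat.card_eq_fintype_card, QuaternionGroup.card] at h1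
  have h2 : lcm (2 ^ k) 2 = 2 ^ k := by
    apply lcm_eq_left_iff _ _ (by simp) |>.2
    exact dvd_pow_self 2 (by omega)
  rw [h2] at h1
  have : 0 < 2 ^ k := by positivity
  omega


/-- If p is odd and H is a subgroup of SL_2(q), q a power of p, with more than one Sylow p-subgroup, then the Sylow 2-subgroups of H are generalised quaternion. -/
theorem result {F : Type*} [Field F] [Fintype F] (p : ℕ) [Fact p.Prime] [CharP F p] (hp : p ≠ 2) (H : Subgroup (Matrix.SpecialLinearGroup (Fin 2) F)) (hH : 1 < Nat.card (Sylow p H)) (S : Sylow 2 H) : ∃ k : ℕ, 1 ≤ k ∧ Nonempty ((S : Subgroup H) ≃* QuaternionGroup (2 ^ k)) := by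
  classical
  letI := Fintype.ofFinite (ZMod p)
  have hoddp : Odd (Fintype.card (ZMod p)) := by
    rw [ZMod.card]
    exact (Fact.out : p.Prime).odd_of_ne_two hp
  have h2F : (2 : F) ≠ 0 := by
    intro h
    have h1 : ((2 : ℕ) : F) = 0 := by exact_mod_cast h
    have h3 := (CharP.cast_eq_zero_iff F p 2).1 h1
    exact hp ((Nat.prime_dvd_prime_iff_eq Fact.out Nat.prime_two).1 h3)
  obtain ⟨K, hKH, ⟨e⟩⟩ := Cfsg.Agent.Lib.LDick.dickson hp H hH
  -- a noncyclic `2`-subgroup of `H`
  haveI : Fact (Nat.Prime 2) := ⟨Nat.prime_two⟩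
  obtain ⟨T₀⟩ : Nonempty (Sylow 2 (Matrix.SpecialLinearGroup (Fin 2) (ZMod p))) := inferInstance
  obtain ⟨k, hk, ⟨eQ⟩⟩ := Cfsg.Agent.S0261.result hoddp T₀
  have hT₀nc : ¬ IsCyclic (T₀ : Subgroup (Matrix.SpecialLinearGroup (Fin 2) (ZMod p))) := by
    intro h
    exact not_cyc hk (isCyclic_of_surjective eQ eQ.surjective)
  -- transport to `H`
  let φ : (Matrix.SpecialLinearGroup (Fin 2) (ZMod p)) →* H :=
    (Subgroup.inclusion hKH).comp e.symm.toMonoidHom
  have hφ : Function.Injective φ :=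
    (Subgroup.inclusion_injective hKH).comp e.symm.injective
  let T : Subgroup H := (T₀ : Subgroup (Matrix.SpecialLinearGroup (Fin 2) (ZMod p))).map φ
  have hTp : IsPGroup 2 T := T₀.isPGroup'.map φ
  have hS2 : IsPGroup 2 (S : Subgroup H) := S.isPGroup'
  -- `S` is not cyclic
  have hSnc : ¬ IsCyclic (S : Subgroup H) := by
    intro hc
    obtain ⟨S', hTS'⟩ := hTp.exists_le_sylow
    obtain ⟨g, hg⟩ := MulAction.exists_smul_eq H S S'
    have hc' : IsCyclic (S' : Subgroup H) := by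
      rw [← hg]
      exact isCyclic_of_surjective (Sylow.equiv S (g • S)) (Sylow.equiv S (g • S)).surjective
    have hTc : IsCyclic T := isCyclic_of_injective (Subgroup.inclusion hTS') (Subgroup.inclusion_injective hTS')
    apply hT₀nc
    exact isCyclic_of_injective ((T₀ : Subgroup (Matrix.SpecialLinearGroup (Fin 2) (ZMod p))).equivMapOfInjective φ hφ).toMonoidHom ((T₀ : Subgroup (Matrix.SpecialLinearGroup (Fin 2) (ZMod p))).equivMapOfInjective φ hφ).injective
  -- unique involution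
  have hun : ∀ x y : (S : Subgroup H), x ^ 2 = 1 → y ^ 2 = 1 → x ≠ 1 → y ≠ 1 → x = y := by
    have hm : ∀ x : (S : Subgroup H), x ^ 2 = 1 → x ≠ 1 → ((x : H) : SL2 F) = mone := by
      intro x h2 h1
      have h3 : ((x : H) : SL2 F) * ((x : H) : SL2 F) = 1 := by
        have := congrArg (fun z : (S : Subgroup H) => ((z : H) : SL2 F)) h2
        simpa [pow_two] using this
      rcases eq_one_or_mone_of_sq h2F _ h3 with h | h
      · exact absurd (Subtype.ext (Subtype.ext h)) h1
      · exact h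
    intro x y hx hy hx1 hy1
    apply Subtype.ext
    apply Subtype.ext
    rw [hm x hx hx1, hm y hy hy1]
  obtain ⟨n, ⟨eS⟩⟩ := Cfsg.Agent.Lib.H1Quat.quaternion_of_unique hS2 hSnc hun
  refine ⟨n, ?_, ⟨eS⟩⟩
  by_contra hn
  have hn0 : n = 0 := by omega
  subst hn0
  apply hSnc
  have : IsCyclic (QuaternionGroup (2 ^ 0)) := by
    rw [pow_zero]
    exact QuaternionGroup.quaternionGroup_one_isCyclic
  exact isCyclic_of_surjective eS.symm eS.symm.surjective

end Cfsg.Agent.S0275
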