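import Cfsg.Statements.S0276
import Cfsg.Agent.Lib.H1SL2Syl2
import Cfsg.Agent.Lib.H1Rigid

set_option autoImplicit false
open Cfsg

namespace Cfsg.Agent.S0276


open Matrix Cfsg.Agent.Lib.H1GL2 Cfsg.Agent.Lib.H1SL2 Cfsg.Agent.Lib.H1PSL2 Cfsg.Agent.Lib.H1PSL2P
  Cfsg.Agent.Lib.H1SL2C Cfsg.Agent.Lib.H1Torus Cfsg.Agent.Lib.H1SL2Syl2

section
variable {F : Type*} [Field F] [Fintype F]

/-- An element with `x⁴ = -1` of `SL₂` forces `2` to be a square. -/
theorem two_sq_of_order_eight (h2 : (2 : F) ≠ 0) (x : SL2 F) (hx : x ^ 4 = mone) : tr x ^ 2 = 2 := by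
  have hd := sl_det x
  set a := (x : M2 F) 0 0 with ha
  set b := (x : M2 F) 0 1 with hb
  set c := (x : M2 F) 1 0 with hc
  set d := (x : M2 F) 1 1 with hd'
  have ht : tr x = a + d := rfl
  have e : (x ^ 4 : SL2 F) = x * x * (x * x) := by
    simp only [pow_succ, pow_zero, one_mul, mul_assoc]
  have e00 : a * (a * (a * a + b * c) + b * (c * a + d * c)) + b * (c * (a * a + b * c) + d * (c * a + d * c)) = -1 := by
    have := congrArg (fun z : SL2 F => (z : M2 F) 0 0) hx
    simp only [e, sl_mul00, sl_mul01, sl_mul10, sl_mul11, mone00] at this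
    rw [← this]
    ring
  have e01 : a * (a * (a * b + b * d) + b * (c * b + d * d)) + b * (c * (a * b + b * d) + d * (c * b + d * d)) = 0 := by
    have := congrArg (fun z : SL2 F => (z : M2 F) 0 1) hx
    simp only [e, sl_mul00, sl_mul01, sl_mul10, sl_mul11, mone01] at this
    rw [← this]
    ring
  have e10 : c * (a * (a * a + b * c) + b * (c * a + d * c)) + d * (c * (a * a + b * c) + d * (c * a + d * c)) = 0 := by
    have := congrArg (fun z : SL2 F => (z : M2 F) 1 0) hx
    simp only [e, sl_mul00, sl_mul01, sl_mul10, sl_mul11, mone10] at this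
    rw [← this]
    ring
  have e11 : c * (a * (a * b + b * d) + b * (c * b + d * d)) + d * (c * (a * b + b * d) + d * (c * b + d * d)) = -1 := by
    have := congrArg (fun z : SL2 F => (z : M2 F) 1 1) hx
    simp only [e, sl_mul00, sl_mul01, sl_mul10, sl_mul11, mone11] at this
    rw [← this]
    ring
  rw [ht]
  have h4 : ((a + d) ^ 2 - 2) ^ 2 = 0 := by
    linear_combination e00 + e11 + (4 * (a + d) ^ 2 - 2 * (a * d - b * c + 1)) * hd
  have h5 : (a + d) ^ 2 - 2 = 0 := by simpa using h4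
  exact sub_eq_zero.mp h5
end


/-- For q = 3 or 5 mod 8 the Sylow 2-subgroups of PSL_2(q) are elementary abelian of order 4. -/
theorem result {F : Type*} [Field F] [Fintype F] {q : ℕ} (hF : Fintype.card F = q) (hq : q % 8 = 3 ∨ q % 8 = 5) (P : Sylow 2 (Matrix.ProjectiveSpecialLinearGroup (Fin 2) F)) : IsKleinFour (P : Subgroup (Matrix.ProjectiveSpecialLinearGroup (Fin 2) F)) := by
  classical
  subst hF
  have hq' : Fintype.card F % 2 = 1 := by omega
  have hodd : Odd (Fintype.card F) := Nat.odd_iff.2 hq'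
  have hchar : ringChar F ≠ 2 := by
    intro h
    have := FiniteField.even_card_of_char_two h
    omega
  have h2F : (2 : F) ≠ 0 := Ring.two_ne_zero hchar
  have hcard := Cfsg.Agent.Lib.H1Rigid.PSL2_card (F := F)
  have hgcd : Nat.gcd 2 (Fintype.card F - 1) = 2 := by
    apply Nat.gcd_eq_left
    omega
  rw [hgcd] at hcard
  have hsq : ¬ IsSquare (2 : F) := by
    rw [FiniteField.isSquare_two_iff]
    rintro ⟨h1, h2⟩
    omega
  -- the order
  obtain ⟨M, hMo, hM⟩ : ∃ M, M % 2 = 1 ∧ Nat.card (Matrix.ProjectiveSpecialLinearGroup (Fin 2) F) = 4 * M := by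
    obtain ⟨k, hk⟩ : ∃ k, Fintype.card F = 8 * k + 3 ∨ Fintype.card F = 8 * k + 5 := ⟨Fintype.card F / 8, by omega⟩
    rcases hk with hk | hk
    · refine ⟨(8 * k + 3) * (8 * k ^ 2 + 6 * k + 1), ?_, ?_⟩
      · rw [Nat.mul_mod]
        have h1 : (8 * k + 3) % 2 = 1 := by omega
        have h2 : (8 * k ^ 2 + 6 * k + 1) % 2 = 1 := by omega
        rw [h1, h2]
      · have h3 : (8 * k + 3) ^ 2 - 1 = 8 * (8 * k ^ 2 + 6 * k + 1) := by
          apply Nat.sub_eq_of_eq_add
          ring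
        rw [hk, h3] at hcard
        nlinarith
    · refine ⟨(8 * k + 5) * (8 * k ^ 2 + 10 * k + 3), ?_, ?_⟩
      · rw [Nat.mul_mod]
        have h1 : (8 * k + 5) % 2 = 1 := by omega
        have h2 : (8 * k ^ 2 + 10 * k + 3) % 2 = 1 := by omega
        rw [h1, h2]
      · have h3 : (8 * k + 5) ^ 2 - 1 = 8 * (8 * k ^ 2 + 10 * k + 3) := by
          apply Nat.sub_eq_of_eq_add
          ring
        rw [hk, h3] at hcard
        nlinarith
  have hP4 : Nat.card (P : Subgroup (Matrix.ProjectiveSpecialLinearGroup (Fin 2) F)) = 4 := by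
    haveI : Fact (Nat.Prime 2) := ⟨Nat.prime_two⟩
    obtain ⟨k, hk⟩ := P.isPGroup'.exists_card_eq
    have h1 : 2 ^ k ∣ 4 * M := by
      rw [← hk, ← hM]
      exact Subgroup.card_subgroup_dvd_card _
    have hc : Nat.Coprime (2 ^ k) M := by
      apply Nat.Coprime.pow_left
      rw [Nat.coprime_two_left]
      exact Nat.odd_iff.2 hMo
    have h2 : 2 ^ k ∣ 4 := hc.dvd_of_dvd_mul_right h1
    have h3 : (2 : ℕ) ^ 2 ∣ Nat.card (P : Subgroup (Matrix.ProjectiveSpecialLinearGroup (Fin 2) F)) := by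
      apply Sylow.pow_dvd_card_of_pow_dvd_card
      rw [hM]
      exact Dvd.intro _ rfl
    rw [hk] at h3 ⊢
    exact Nat.dvd_antisymm h2 h3
  refine ⟨hP4, ?_⟩
  haveI : Nontrivial (P : Subgroup (Matrix.ProjectiveSpecialLinearGroup (Fin 2) F)) := by
    apply Finite.one_lt_card_iff_nontrivial.1
    rw [hP4]
    norm_num
  rw [Monoid.exponent_eq_prime_iff Nat.prime_two]
  intro g hg
  have h4 : g ^ 4 = 1 := by
    rw [← hP4]
    exact pow_card_eq_one'
  obtain ⟨x, hx⟩ := QuotientGroup.mk'_surjective _ (g : Matrix.ProjectiveSpecialLinearGroup (Fin 2) F)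
  have hx' : pi x = (g : Matrix.ProjectiveSpecialLinearGroup (Fin 2) F) := hx
  have h5 : pi x ^ 4 = 1 := by
    rw [hx', ← Subgroup.coe_pow, h4, Subgroup.coe_one]
  have h6 : x ^ 4 = 1 := by
    rcases (pi_pow_eq_one_iff x 4).1 h5 with h | h
    · exact h
    · exfalso
      apply hsq
      exact ⟨tr x, by rw [← two_sq_of_order_eight h2F x h, pow_two]⟩
  have h7 : pi x ^ 2 = 1 := by
    rw [pi_pow_eq_one_iff]
    apply eq_one_or_mone_of_sq h2F
    rw [← pow_add]
    exact h6
  have h8 : g ^ 2 = 1 := by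
    apply Subtype.ext
    rw [Subgroup.coe_pow, Subgroup.coe_one, ← hx']
    exact h7
  haveI : Fact (Nat.Prime 2) := ⟨Nat.prime_two⟩
  exact orderOf_eq_prime h8 hg

end Cfsg.Agent.S0276
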