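import Cfsg.Statements.S0281
import Cfsg.Agent.Lib.SubfieldQ
import Cfsg.Agent.Lib.UnitE
import Cfsg.Agent.Lib.SL2Gen

set_option autoImplicit false
open Cfsg Matrix

namespace Cfsg.Agent.S0281

/-- SU_2(q) is isomorphic to SL_2(q). -/
theorem result {F K : Type*} [Field F] [Fintype F] [Field K] [Fintype K] {q : ℕ} (hF : Fintype.card F = q ^ 2) (hK : Fintype.card K = q) : Nonempty (Cfsg.SU 2 F q ≃* Matrix.SpecialLinearGroup (Fin 2) K) := by
  classical
  have hq := Cfsg.Agent.Lib.HermStd.one_lt_q hF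
  obtain ⟨ι, hι, -⟩ := Cfsg.Agent.Lib.SubfieldQ.exists_iota hF hK
  obtain ⟨a, b, ha0, hb0, hab, ha, hb⟩ := Cfsg.Agent.Lib.SUCenter.exists_pair_iso hF
  obtain ⟨θ, hθ0, hθ⟩ := Cfsg.Agent.Lib.SUCenter.exists_t hF
  have hσσ : ∀ x : F, (x ^ q) ^ q = x := Cfsg.Agent.Lib.UnitE.pow_pow_q hF
  have hadd : ∀ x y : F, (x + y) ^ q = x ^ q + y ^ q := Cfsg.Agent.Lib.UnitE.add_pow_q hF
  have hsub : ∀ x y : F, (x - y) ^ q = x ^ q - y ^ q := Cfsg.Agent.Lib.UnitE.sub_pow_q hF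
  -- a hyperbolic basis
  have hd : 1 + a * b ^ q ≠ 0 := by
    intro h0
    apply hab
    have h1 : (a - b) * b ^ q = 0 := by linear_combination h0 - hb - 1
    have h2 : b ^ q ≠ 0 := pow_ne_zero _ hb0
    exact sub_eq_zero.1 ((mul_eq_zero.1 h1).resolve_right h2)
  obtain ⟨c, hc⟩ : ∃ c : F, c ^ q * (1 + a * b ^ q) = θ :=
    ⟨(θ / (1 + a * b ^ q)) ^ q, by rw [hσσ]; field_simp⟩
  have hc0 : c ≠ 0 := by
    rintro rfl
    rw [zero_pow (by omega), zero_mul] at hc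
    exact hθ0 hc.symm
  let P : Matrix (Fin 2) (Fin 2) F := !![1, c; a, c * b]
  have hPdet : P.det = c * (b - a) := by
    rw [Matrix.det_fin_two_of]
    ring
  have hPd0 : P.det ≠ 0 := by
    rw [hPdet]
    exact mul_ne_zero hc0 (sub_ne_zero.2 hab.symm)
  have hPu : IsUnit P.det := isUnit_iff_ne_zero.2 hPd0
  have hPinv1 : P * P⁻¹ = 1 := Matrix.mul_nonsing_inv P hPu
  have hPinv2 : P⁻¹ * P = 1 := Matrix.nonsing_inv_mul P hPu
  have hPform : ∀ u v : Fin 2 → F, Cfsg.hermForm 2 F q (P *ᵥ u) (P *ᵥ v) = θ * (u 0 * v 1 ^ q - u 1 * v 0 ^ q) := by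
    intro u v
    simp only [Cfsg.hermForm, Fin.sum_univ_two, P, Matrix.mulVec, dotProduct, Matrix.of_apply, Matrix.cons_val', Matrix.cons_val_zero, Matrix.cons_val_one, Matrix.cons_val_fin_one, one_mul]
    simp only [hadd, mul_pow, hσσ]
    have h1 : a * a ^ q = -1 := ha
    have h2 : b * b ^ q = -1 := hb
    have h3 : c ^ q * (1 + a * b ^ q) = θ := hc
    have h4 : c * (1 + a ^ q * b) = -θ := by
      have := congrArg (· ^ q) hc
      simp only [mul_pow, hσσ, hadd, one_pow] at this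
      rw [hθ] at this
      exact this
    linear_combination (u 0 * v 0 ^ q) * h1 + (u 1 * c * c ^ q * v 1 ^ q) * h2 + (u 0 * v 1 ^ q) * h3 + (u 1 * v 0 ^ q) * h4
  -- the map
  have hBdet : ∀ A : Matrix.SpecialLinearGroup (Fin 2) K, ((A : Matrix (Fin 2) (Fin 2) K).map ι).det = 1 := by
    intro A
    have := (ι.map_det (A : Matrix (Fin 2) (Fin 2) K)).symm
    rw [A.2, map_one] at this
    exact this
  have hψ : ∀ (A : Matrix.SpecialLinearGroup (Fin 2) K) (u v : Fin 2 → F),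
      (((A : Matrix (Fin 2) (Fin 2) K).map ι) *ᵥ u) 0 * (((A : Matrix (Fin 2) (Fin 2) K).map ι) *ᵥ v) 1 ^ q
        - (((A : Matrix (Fin 2) (Fin 2) K).map ι) *ᵥ u) 1 * (((A : Matrix (Fin 2) (Fin 2) K).map ι) *ᵥ v) 0 ^ q = u 0 * v 1 ^ q - u 1 * v 0 ^ q := by
    intro A u v
    have hd1 := hBdet A
    rw [Matrix.det_fin_two] at hd1
    simp only [Matrix.mulVec, dotProduct, Fin.sum_univ_two, hadd, mul_pow, Matrix.map_apply, hι]
    simp only [Matrix.map_apply] at hd1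
    linear_combination (u 0 * v 1 ^ q - u 1 * v 0 ^ q) * hd1
  have hdet : ∀ A : Matrix.SpecialLinearGroup (Fin 2) K, (P * ((A : Matrix (Fin 2) (Fin 2) K).map ι) * P⁻¹).det = 1 := by
    intro A
    rw [Matrix.det_mul, Matrix.det_mul, hBdet, mul_one, ← Matrix.det_mul, hPinv1, Matrix.det_one]
  have hisom : ∀ (A : Matrix.SpecialLinearGroup (Fin 2) K) (x y : Fin 2 → F),
      Cfsg.hermForm 2 F q ((P * ((A : Matrix (Fin 2) (Fin 2) K).map ι) * P⁻¹) *ᵥ x) ((P * ((A : Matrix (Fin 2) (Fin 2) K).map ι) * P⁻¹) *ᵥ y) = Cfsg.hermForm 2 F q x y := by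
    intro A x y
    obtain ⟨u, rfl⟩ : ∃ u, x = P *ᵥ u := ⟨P⁻¹ *ᵥ x, by rw [Matrix.mulVec_mulVec, hPinv1, Matrix.one_mulVec]⟩
    obtain ⟨v, rfl⟩ : ∃ v, y = P *ᵥ v := ⟨P⁻¹ *ᵥ y, by rw [Matrix.mulVec_mulVec, hPinv1, Matrix.one_mulVec]⟩
    have e : ∀ w : Fin 2 → F, (P * ((A : Matrix (Fin 2) (Fin 2) K).map ι) * P⁻¹) *ᵥ (P *ᵥ w) = P *ᵥ (((A : Matrix (Fin 2) (Fin 2) K).map ι) *ᵥ w) := by
      intro w
      rw [Matrix.mulVec_mulVec, Matrix.mulVec_mulVec, mul_assoc, mul_assoc, hPinv2, mul_one]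
    rw [e, e, hPform, hPform, hψ]
  let Φ : Matrix.SpecialLinearGroup (Fin 2) K →* Cfsg.SU 2 F q := MonoidHom.mk'
    (fun A => ⟨⟨P * ((A : Matrix (Fin 2) (Fin 2) K).map ι) * P⁻¹, hdet A⟩, fun x y => hisom A x y⟩) (by
      intro A B
      apply Subtype.ext
      apply Subtype.ext
      show P * (((A * B : Matrix.SpecialLinearGroup (Fin 2) K) : Matrix (Fin 2) (Fin 2) K).map ι) * P⁻¹ = (P * ((A : Matrix (Fin 2) (Fin 2) K).map ι) * P⁻¹) * (P * ((B : Matrix (Fin 2) (Fin 2) K).map ι) * P⁻¹)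
      have e : (((A * B : Matrix.SpecialLinearGroup (Fin 2) K) : Matrix (Fin 2) (Fin 2) K).map ι) = ((A : Matrix (Fin 2) (Fin 2) K).map ι) * ((B : Matrix (Fin 2) (Fin 2) K).map ι) := by
        rw [Matrix.SpecialLinearGroup.coe_mul]
        exact Matrix.map_mul
      rw [e]
      calc P * (((A : Matrix (Fin 2) (Fin 2) K).map ι) * ((B : Matrix (Fin 2) (Fin 2) K).map ι)) * P⁻¹
          = P * ((A : Matrix (Fin 2) (Fin 2) K).map ι) * 1 * ((B : Matrix (Fin 2) (Fin 2) K).map ι) * P⁻¹ := by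
            simp only [mul_one, mul_assoc]
        _ = _ := by
            rw [← hPinv2]
            simp only [mul_assoc])
  have hinj : Function.Injective Φ := by
    intro A B hAB
    have h1 : P * ((A : Matrix (Fin 2) (Fin 2) K).map ι) * P⁻¹ = P * ((B : Matrix (Fin 2) (Fin 2) K).map ι) * P⁻¹ :=
      congrArg (fun x : Cfsg.SU 2 F q => ((x : Matrix.SpecialLinearGroup (Fin 2) F) : Matrix (Fin 2) (Fin 2) F)) hAB
    have h2 := congrArg (fun M => P⁻¹ * M * P) h1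
    have h3 : ∀ M : Matrix (Fin 2) (Fin 2) F, P⁻¹ * (P * M * P⁻¹) * P = M := by
      intro M
      calc P⁻¹ * (P * M * P⁻¹) * P = (P⁻¹ * P) * M * (P⁻¹ * P) := by simp only [mul_assoc]
        _ = M := by rw [hPinv2, one_mul, mul_one]
    rw [h3, h3] at h2
    apply Subtype.ext
    exact Matrix.map_injective ι.injective h2
  have hcardS : Nat.card (Cfsg.SU 2 F q) = q * (q - 1) * (q + 1) := by
    have h1 := Cfsg.Agent.Lib.SUBasic.card_GU_eq hF 2 (by norm_num)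
    rw [Cfsg.Agent.Lib.UnitBasic.card_GU hF] at h1
    simp only [Finset.prod_range_succ, Finset.prod_range_zero, one_mul] at h1
    norm_num [Nat.even_iff] at h1
    have e : q ^ 2 - 1 = (q - 1) * (q + 1) := by
      obtain ⟨r, rfl⟩ : ∃ r, q = r + 1 := ⟨q - 1, by omega⟩
      simp only [Nat.add_sub_cancel]
      have : (r + 1) ^ 2 = r * (r + 1 + 1) + 1 := by ring
      rw [this]
      simp
    rw [e] at h1
    have h2 : (q + 1) * (q * (q - 1) * (q + 1)) = (q + 1) * Nat.card (Cfsg.SU 2 F q) := by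
      rw [Nat.card_eq_fintype_card, ← h1]
      ring
    exact (Nat.eq_of_mul_eq_mul_left (by omega) h2).symm
  have hcardL : Nat.card (Matrix.SpecialLinearGroup (Fin 2) K) = q * (q - 1) * (q + 1) := by
    have := Cfsg.Agent.Lib.SL2Gen.card_SL2 (F := K)
    rw [hK] at this
    exact this
  have hbij : Function.Bijective Φ := by
    rw [Nat.bijective_iff_injective_and_card]
    exact ⟨hinj, by rw [hcardS, hcardL]⟩
  exact ⟨(MulEquiv.ofBijective Φ hbij).symm⟩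

end Cfsg.Agent.S0281
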