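import Cfsg.Statements.S0282
import Cfsg.Agent.Lib.U32c

set_option autoImplicit false
open Cfsg

namespace Cfsg.Agent.S0282

/-- PSU_3(2) is a solvable group of order 72. -/
theorem result {F : Type*} [Field F] [Fintype F] (hF : Fintype.card F = 4) : Nat.card (Cfsg.PSU 3 F 2) = 72 ∧ Group.IsSolvable (Cfsg.PSU 3 F 2) := by
  refine ⟨Cfsg.Agent.Lib.U32.card_PSU hF, ?_⟩
  obtain ⟨N, hN, h9, -, ⟨e⟩⟩ := Cfsg.Agent.Lib.U32c.main hF
  have hN3 : IsPGroup 3 N := IsPGroup.of_card (n := 2) (by rw [h9]; norm_num)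
  haveI := hN3.isNilpotent
  have hcard : Nat.card (Cfsg.PSU 3 F 2 ⧸ N) = 2 ^ 3 := by
    have h1 := Subgroup.card_eq_card_quotient_mul_card_subgroup N
    rw [Cfsg.Agent.Lib.U32.card_PSU hF, h9] at h1
    omega
  have hQ2 : IsPGroup 2 (Cfsg.PSU 3 F 2 ⧸ N) := IsPGroup.of_card hcard
  haveI := hQ2.isNilpotent
  exact solvable_of_ker_le_range N.subtype (QuotientGroup.mk' N) (by rw [QuotientGroup.ker_mk', Subgroup.range_subtype])

end Cfsg.Agent.S0282
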