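import Cfsg.Statements.S0289
import Cfsg.Agent.Lib.HypCount

set_option autoImplicit false
open Cfsg

namespace Cfsg.Agent.S0289

/-- The hyperbolic quadratic form on F^(2m), m at least 1, has q^(2m-1) + q^m - q^(m-1) zeros (that is, (q^m - 1)(q^(m-1) + 1) non-zero isotropic vectors). -/
theorem result {F : Type*} [Field F] [Fintype F] {q : ℕ} (hF : Fintype.card F = q) (m : ℕ) (hm : 1 ≤ m) : Nat.card {v : Fin m ⊕ Fin m → F // Cfsg.quadFormPlus m F v = 0} = q ^ (2 * m - 1) + q ^ m - q ^ (m - 1) := by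
  let g : (PEmpty.{1} → F) → F := fun _ => 0
  have hq : 1 ≤ q := hF ▸ Fintype.card_pos
  obtain ⟨r, rfl⟩ : ∃ r, q = r + 1 := ⟨q - 1, by omega⟩
  have key0 : Nat.card {v : (Fin 0 ⊕ Fin 0) ⊕ PEmpty.{1} → F // (∑ i : Fin 0, v (Sum.inl (Sum.inl i)) * v (Sum.inl (Sum.inr i))) + g (v ∘ Sum.inr) = 0} = 1 := by
    rw [Nat.card_eq_one_iff_unique]
    refine ⟨⟨?_⟩, ⟨⟨0, by simp [g]⟩⟩⟩
    rintro ⟨v, hv⟩ ⟨w, hw⟩
    apply Subtype.ext
    funext s
    rcases s with (i | i) | j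
    · exact i.elim0
    · exact i.elim0
    · exact j.elim
  have key : ∀ k : ℕ, Nat.card {v : (Fin (k + 1) ⊕ Fin (k + 1)) ⊕ PEmpty.{1} → F // (∑ i : Fin (k + 1), v (Sum.inl (Sum.inl i)) * v (Sum.inl (Sum.inr i))) + g (v ∘ Sum.inr) = 0} + (r + 1) ^ k = (r + 1) ^ (2 * k + 1) + (r + 1) ^ (k + 1) := by
    intro k
    induction k with
    | zero =>
      rw [Lib.HypCount.card_step, Lib.HypCount.card_ambient, hF, key0]
      simp only [Nat.add_sub_cancel, Fintype.card_pempty]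
      ring
    | succ k ih =>
      rw [Lib.HypCount.card_step, Lib.HypCount.card_ambient, hF]
      simp only [Fintype.card_pempty, Nat.add_sub_cancel]
      have e1 : (r + 1) * Nat.card {v : (Fin (k + 1) ⊕ Fin (k + 1)) ⊕ PEmpty.{1} → F // (∑ i : Fin (k + 1), v (Sum.inl (Sum.inl i)) * v (Sum.inl (Sum.inr i))) + g (v ∘ Sum.inr) = 0} + (r + 1) ^ (k + 1) = (r + 1) * (Nat.card {v : (Fin (k + 1) ⊕ Fin (k + 1)) ⊕ PEmpty.{1} → F // (∑ i : Fin (k + 1), v (Sum.inl (Sum.inl i)) * v (Sum.inl (Sum.inr i))) + g (v ∘ Sum.inr) = 0} + (r + 1) ^ k) := by ring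
      rw [add_assoc, e1, ih]
      ring
  obtain ⟨n, rfl⟩ : ∃ n, m = n + 1 := ⟨m - 1, by omega⟩
  have h1 := key n
  have h2 : Nat.card {v : Fin (n + 1) ⊕ Fin (n + 1) → F // Cfsg.quadFormPlus (n + 1) F v = 0} = Nat.card {v : (Fin (n + 1) ⊕ Fin (n + 1)) ⊕ PEmpty.{1} → F // (∑ i : Fin (n + 1), v (Sum.inl (Sum.inl i)) * v (Sum.inl (Sum.inr i))) + g (v ∘ Sum.inr) = 0} := by
    apply Nat.card_congr
    let s : Fin (n + 1) ⊕ Fin (n + 1) ≃ (Fin (n + 1) ⊕ Fin (n + 1)) ⊕ PEmpty.{1} := (Equiv.sumEmpty _ _).symm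
    refine Equiv.subtypeEquiv (Equiv.arrowCongr s (Equiv.refl F)) ?_
    intro v
    simp only [Cfsg.quadFormPlus, g, add_zero]
    rfl
  rw [h2]
  have e3 : 2 * (n + 1) - 1 = 2 * n + 1 := by omega
  simp only [Nat.add_sub_cancel]
  rw [e3]
  omega

end Cfsg.Agent.S0289
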