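import Cfsg.Statements.S0290
import Cfsg.Agent.Lib.HypCount

set_option autoImplicit false
open Cfsg

namespace Cfsg.Agent.S0290

/-- The minus-type quadratic form on F^(2m) has q^(2m-1) + q^(m-1) - q^m zeros. -/
theorem result {F : Type*} [Field F] [Fintype F] {q : ℕ} (hF : Fintype.card F = q) (m : ℕ) (hm : 1 ≤ m) (a b : F) (hab : ∀ z₁ z₂ : F, z₁ ^ 2 + a * z₁ * z₂ + b * z₂ ^ 2 = 0 → z₁ = 0 ∧ z₂ = 0) : Nat.card {v : (Fin (m - 1) ⊕ Fin (m - 1)) ⊕ Fin 2 → F // Cfsg.quadFormMinus (m - 1) F a b v = 0} = q ^ (2 * m - 1) + q ^ (m - 1) - q ^ m := by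
  obtain ⟨n, rfl⟩ : ∃ n, m = n + 1 := ⟨m - 1, by omega⟩
  change Nat.card {v : (Fin n ⊕ Fin n) ⊕ Fin 2 → F // Cfsg.quadFormMinus n F a b v = 0} = q ^ (2 * (n + 1) - 1) + q ^ n - q ^ (n + 1)
  let g : (Fin 2 → F) → F := fun w => w 0 ^ 2 + a * w 0 * w 1 + b * w 1 ^ 2
  have hform : ∀ (k : ℕ) (v : (Fin k ⊕ Fin k) ⊕ Fin 2 → F), Cfsg.quadFormMinus k F a b v = (∑ i : Fin k, v (Sum.inl (Sum.inl i)) * v (Sum.inl (Sum.inr i))) + g (v ∘ Sum.inr) := fun k v => rfl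
  have hq : 1 ≤ q := hF ▸ Fintype.card_pos
  have key : ∀ k : ℕ, Nat.card {v : (Fin k ⊕ Fin k) ⊕ Fin 2 → F // (∑ i : Fin k, v (Sum.inl (Sum.inl i)) * v (Sum.inl (Sum.inr i))) + g (v ∘ Sum.inr) = 0} + q ^ (k + 1) = q ^ (2 * k + 1) + q ^ k := by
    intro k
    induction k with
    | zero =>
      have : Nat.card {v : (Fin 0 ⊕ Fin 0) ⊕ Fin 2 → F // (∑ i : Fin 0, v (Sum.inl (Sum.inl i)) * v (Sum.inl (Sum.inr i))) + g (v ∘ Sum.inr) = 0} = 1 := by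
        rw [Nat.card_eq_one_iff_unique]
        refine ⟨⟨?_⟩, ⟨⟨0, by simp [g]⟩⟩⟩
        rintro ⟨v, hv⟩ ⟨w, hw⟩
        have key : ∀ v : (Fin 0 ⊕ Fin 0) ⊕ Fin 2 → F, (∑ i : Fin 0, v (Sum.inl (Sum.inl i)) * v (Sum.inl (Sum.inr i))) + g (v ∘ Sum.inr) = 0 → v = 0 := by
          intro v hv
          simp only [Finset.univ_eq_empty, Finset.sum_empty, zero_add, g, Function.comp] at hv
          obtain ⟨h0, h1⟩ := hab _ _ hv
          funext s
          rcases s with (i | i) | j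
          · exact i.elim0
          · exact i.elim0
          · fin_cases j
            · exact h0
            · exact h1
        apply Subtype.ext
        show v = w
        rw [key v hv, key w hw]
      rw [this]
      simp
      ring
    | succ k ih =>
      rw [Lib.HypCount.card_step, Lib.HypCount.card_ambient, hF]
      simp only [Fintype.card_fin]
      obtain ⟨r, rfl⟩ : ∃ r, q = r + 1 := ⟨q - 1, by omega⟩
      simp only [Nat.add_sub_cancel]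
      have e1 : (r + 1) * Nat.card {v : (Fin k ⊕ Fin k) ⊕ Fin 2 → F // (∑ i : Fin k, v (Sum.inl (Sum.inl i)) * v (Sum.inl (Sum.inr i))) + g (v ∘ Sum.inr) = 0} + (r + 1) ^ (k + 1 + 1) = (r + 1) * (Nat.card {v : (Fin k ⊕ Fin k) ⊕ Fin 2 → F // (∑ i : Fin k, v (Sum.inl (Sum.inl i)) * v (Sum.inl (Sum.inr i))) + g (v ∘ Sum.inr) = 0} + (r + 1) ^ (k + 1)) := by ring
      rw [add_assoc, e1, ih]
      ring
  have h1 := key n
  have h2 : Nat.card {v : (Fin n ⊕ Fin n) ⊕ Fin 2 → F // Cfsg.quadFormMinus n F a b v = 0} = Nat.card {v : (Fin n ⊕ Fin n) ⊕ Fin 2 → F // (∑ i : Fin n, v (Sum.inl (Sum.inl i)) * v (Sum.inl (Sum.inr i))) + g (v ∘ Sum.inr) = 0} := rfl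
  rw [h2]
  have e3 : 2 * (n + 1) - 1 = 2 * n + 1 := by omega
  rw [e3]
  omega

end Cfsg.Agent.S0290
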