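import Cfsg.Statements.S0291
import Cfsg.Agent.Lib.HypCount

set_option autoImplicit false
open Cfsg

namespace Cfsg.Agent.S0291

/-- For q odd, the form x_0^2 + sum_{i<m} x_i y_i on F^(2m+1) has exactly q^(2m) zeros. -/
theorem result {F : Type*} [Field F] [Fintype F] {q : ℕ} (hF : Fintype.card F = q) (hodd : Odd q) (m : ℕ) : Nat.card {v : Unit ⊕ (Fin m ⊕ Fin m) → F // Cfsg.quadFormOdd m F v = 0} = q ^ (2 * m) := by
  let g : (Unit → F) → F := fun w => w () ^ 2
  have hq : 1 ≤ q := hF ▸ Fintype.card_pos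
  have key : ∀ k : ℕ, Nat.card {v : (Fin k ⊕ Fin k) ⊕ Unit → F // (∑ i : Fin k, v (Sum.inl (Sum.inl i)) * v (Sum.inl (Sum.inr i))) + g (v ∘ Sum.inr) = 0} = q ^ (2 * k) := by
    intro k
    induction k with
    | zero =>
      have : Nat.card {v : (Fin 0 ⊕ Fin 0) ⊕ Unit → F // (∑ i : Fin 0, v (Sum.inl (Sum.inl i)) * v (Sum.inl (Sum.inr i))) + g (v ∘ Sum.inr) = 0} = 1 := by
        rw [Nat.card_eq_one_iff_unique]
        refine ⟨⟨?_⟩, ⟨⟨0, by simp [g]⟩⟩⟩
        rintro ⟨v, hv⟩ ⟨w, hw⟩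
        have key : ∀ v : (Fin 0 ⊕ Fin 0) ⊕ Unit → F, (∑ i : Fin 0, v (Sum.inl (Sum.inl i)) * v (Sum.inl (Sum.inr i))) + g (v ∘ Sum.inr) = 0 → v = 0 := by
          intro v hv
          simp only [Finset.univ_eq_empty, Finset.sum_empty, zero_add, g, Function.comp] at hv
          funext s
          rcases s with (i | i) | j
          · exact i.elim0
          · exact i.elim0
          · simpa using hv
        apply Subtype.ext
        show v = w
        rw [key v hv, key w hw]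
      rw [this]
      simp
    | succ k ih =>
      rw [Lib.HypCount.card_step, Lib.HypCount.card_ambient, hF, ih]
      simp only [Fintype.card_unit]
      obtain ⟨r, rfl⟩ : ∃ r, q = r + 1 := ⟨q - 1, by omega⟩
      simp only [Nat.add_sub_cancel]
      ring
  rw [← key m]
  apply Nat.card_congr
  let s : Unit ⊕ (Fin m ⊕ Fin m) ≃ (Fin m ⊕ Fin m) ⊕ Unit := Equiv.sumComm _ _
  refine Equiv.subtypeEquiv (Equiv.arrowCongr s (Equiv.refl F)) ?_
  intro v
  have : Cfsg.quadFormOdd m F v = (∑ i : Fin m, (Equiv.arrowCongr s (Equiv.refl F) v) (Sum.inl (Sum.inl i)) * (Equiv.arrowCongr s (Equiv.refl F) v) (Sum.inl (Sum.inr i))) + g ((Equiv.arrowCongr s (Equiv.refl F) v) ∘ Sum.inr) := by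
    simp only [Cfsg.quadFormOdd, g, Function.comp, Equiv.arrowCongr_apply, s, Equiv.refl_apply]
    simp
    ring
  rw [this]

end Cfsg.Agent.S0291
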