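import Cfsg.Statements.S0292
import Cfsg.Agent.S0286
import Cfsg.Agent.Lib.OrthCenter

set_option autoImplicit false
open Cfsg

namespace Cfsg.Agent.S0292

open Cfsg.Agent.Lib.OrthStd Cfsg.Agent.Lib.OrthStd2 Cfsg.Agent.Lib.OrthCenter Cfsg.Agent.Lib.OrthSpin3

/-- 2 |PΩ_{2m+1}(q)| = q^(m^2) prod_{i=1}^{m} (q^(2i) - 1), for q odd and m at least 3 (type B_m). -/
theorem result {F : Type*} [Field F] [Fintype F] {q : ℕ} (hF : Fintype.card F = q) (hodd : Odd q) (m : ℕ) (hm : 3 ≤ m) : 2 * Nat.card (Cfsg.POmega F (Cfsg.quadFormOdd m F)) = q ^ (m ^ 2) * ∏ i ∈ Finset.range m, (q ^ (2 * (i + 1)) - 1) := by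
  subst hF
  have hQ := quadFormOdd_nondeg (m := m) hodd
  have h2 := two_ne_zero_of_odd hodd
  have hcard : Fintype.card (Unit ⊕ (Fin m ⊕ Fin m)) = 2 * m + 1 := by
    simp only [Fintype.card_sum, Fintype.card_unit, Fintype.card_fin]
    omega
  have hO := Cfsg.Agent.S0286.result rfl hodd m
  have hi := omega_index hQ (by omega) h2
  have hc := card_center_one hQ (by omega) (fun g hg hm' => by
    exfalso
    have h1 := det_Omega g hg
    rw [hm', Matrix.det_neg, Matrix.det_one, mul_one, hcard, Odd.neg_one_pow ⟨m, rfl⟩] at h1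
    apply h2
    linear_combination -h1)
  have h1 := card_POmega_eq (Q := Cfsg.quadFormOdd m F)
  rw [hc, mul_one] at h1
  have h3 := index_Omega (Q := Cfsg.quadFormOdd m F)
  rw [hi, hO, ← h1, mul_assoc 2] at h3
  omega

end Cfsg.Agent.S0292
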