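import Cfsg.Statements.S0790
import Cfsg.Agent.Lib.OrthNeg

set_option autoImplicit false
open Cfsg

namespace Cfsg.Agent.S0790

open Cfsg.Agent.Lib.OrthNeg Cfsg.Agent.Lib.OrthStd2 Cfsg.Agent.Lib.OrthStd

variable {F : Type*} [Field F] {m : ℕ}

/-- An orthogonal basis of the hyperbolic form. -/
def vv (i : Fin m ⊕ Fin m) : Fin m ⊕ Fin m → F :=
  match i with
  | .inl i => Pi.single (.inl i) 1 + Pi.single (.inr i) 1
  | .inr i => Pi.single (.inl i) 1 - Pi.single (.inr i) 1

theorem Q_vv_inl (i : Fin m) : Cfsg.quadFormPlus m F (vv (.inl i)) = 1 := by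
  simp [Cfsg.quadFormPlus, vv, Pi.single_apply]

theorem Q_vv_inr (i : Fin m) : Cfsg.quadFormPlus m F (vv (.inr i)) = -1 := by
  simp [Cfsg.quadFormPlus, vv, Pi.single_apply]

theorem orth_vv (k l : Fin m ⊕ Fin m) (h : k ≠ l) :
    QuadraticMap.polar (Cfsg.quadFormPlus m F) (vv k) (vv l) = 0 := by
  rw [polar_plus]
  apply Finset.sum_eq_zero
  intro j _
  rcases k with k | k <;> rcases l with l | l <;>
    simp only [vv, Pi.add_apply, Pi.sub_apply, Pi.single_apply, Sum.inl.injEq, Sum.inr.injEq, reduceCtorEq, if_false] <;>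
    by_cases h1 : j = k <;> by_cases h3 : j = l <;> simp [h1, h3]
  all_goals (split_ifs <;> first | simp | (exfalso; subst_vars; simp_all))

theorem span_vv (h2 : (2 : F) ≠ 0) : Submodule.span F (Set.range (vv (F := F) (m := m))) = ⊤ := by
  rw [eq_top_iff]
  have hb := (Pi.basisFun F (Fin m ⊕ Fin m)).span_eq
  rw [← hb, Submodule.span_le]
  rintro _ ⟨k, rfl⟩
  rw [Pi.basisFun_apply]
  have h1 : ∀ i, vv (F := F) (.inl i) ∈ Submodule.span F (Set.range (vv (F := F) (m := m))) :=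
    fun i => Submodule.subset_span ⟨_, rfl⟩
  have h3 : ∀ i, vv (F := F) (.inr i) ∈ Submodule.span F (Set.range (vv (F := F) (m := m))) :=
    fun i => Submodule.subset_span ⟨_, rfl⟩
  rcases k with k | k
  · have : (Pi.single (.inl k) 1 : Fin m ⊕ Fin m → F) = (2 : F)⁻¹ • (vv (.inl k) + vv (.inr k)) := by
      simp only [vv]
      rw [show (Pi.single (.inl k) 1 : Fin m ⊕ Fin m → F) + Pi.single (.inr k) 1 + (Pi.single (.inl k) 1 - Pi.single (.inr k) 1) = (2 : F) • Pi.single (.inl k) 1 by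
        rw [two_smul]; abel]
      rw [smul_smul, inv_mul_cancel₀ h2, one_smul]
    rw [this]
    exact Submodule.smul_mem _ _ (Submodule.add_mem _ (h1 k) (h3 k))
  · have : (Pi.single (.inr k) 1 : Fin m ⊕ Fin m → F) = (2 : F)⁻¹ • (vv (.inl k) - vv (.inr k)) := by
      simp only [vv]
      rw [show (Pi.single (.inl k) 1 : Fin m ⊕ Fin m → F) + Pi.single (.inr k) 1 - (Pi.single (.inl k) 1 - Pi.single (.inr k) 1) = (2 : F) • Pi.single (.inr k) 1 by
        rw [two_smul]; abel]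
      rw [smul_smul, inv_mul_cancel₀ h2, one_smul]
    rw [this]
    exact Submodule.smul_mem _ _ (Submodule.sub_mem _ (h1 k) (h3 k))

/-- −1 ∈ Ω⁺_2m(q) iff q^m ≡ 1 (mod 4), for q odd and m ≥ 1 (so that in the other case SO⁺_2m(q) = 2 × Ω⁺_2m(q)). -/
theorem result {F : Type*} [Field F] [Fintype F] {q : ℕ} (hF : Fintype.card F = q) (hodd : Odd q) (m : ℕ) (hm : 1 ≤ m) : (∃ g : ↥(Cfsg.isometryGroup F (Cfsg.quadFormPlus m F)), g ∈ Cfsg.Omega F (Cfsg.quadFormPlus m F) ∧ ((g : Matrix.GeneralLinearGroup (Fin m ⊕ Fin m) F) : Matrix (Fin m ⊕ Fin m) (Fin m ⊕ Fin m) F) = -1) ↔ q ^ m % 4 = 1 := by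
  subst hF
  have h2 : (2 : F) ≠ 0 := two_ne_zero_of_odd hodd
  have hQ := quadFormPlus_nondeg (F := F) (m := m)
  have hv : ∀ k : Fin m ⊕ Fin m, Cfsg.quadFormPlus m F (vv k) ≠ 0 := by
    rintro (k | k)
    · rw [Q_vv_inl]; exact one_ne_zero
    · rw [Q_vv_inr]; exact neg_ne_zero.mpr one_ne_zero
  have hcard : Even (Fintype.card (Fin m ⊕ Fin m)) := by
    simp only [Fintype.card_sum, Fintype.card_fin]
    exact ⟨m, rfl⟩
  have hcard2 : 2 ≤ Fintype.card (Fin m ⊕ Fin m) := by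
    simp only [Fintype.card_sum, Fintype.card_fin]
    omega
  rw [neg_one_mem_iff hQ h2 hcard2 vv hv orth_vv (span_vv h2) hcard]
  rw [Fintype.prod_sum_type]
  simp only [Q_vv_inl, Q_vv_inr, Finset.prod_const_one, one_mul, Finset.prod_const, Finset.card_univ, Fintype.card_fin]
  have hsq := FiniteField.isSquare_neg_one_iff (F := F)
  have hq4 : Fintype.card F % 4 = 1 ∨ Fintype.card F % 4 = 3 := by
    obtain ⟨k, hk⟩ := hodd
    omega
  rcases hq4 with h1 | h3
  · have hs : IsSquare (-1 : F) := hsq.mpr (by omega)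
    have h5 : Fintype.card F ^ m % 4 = 1 := by
      rw [Nat.pow_mod, h1]
      simp
    rw [h5]
    simp only [iff_true]
    exact hs.pow m
  · have hs : ¬ IsSquare (-1 : F) := fun h => hsq.mp h h3
    rcases Nat.even_or_odd m with he | ho
    · rw [he.neg_one_pow]
      have h5 : Fintype.card F ^ m % 4 = 1 := by
        obtain ⟨k, rfl⟩ := he
        rw [← two_mul, pow_mul, Nat.pow_mod]
        have : Fintype.card F ^ 2 % 4 = 1 := by
          rw [Nat.pow_mod, h3]
        rw [this]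
        simp
      simp [h5]
    · rw [ho.neg_one_pow]
      have h5 : Fintype.card F ^ m % 4 = 3 := by
        obtain ⟨k, rfl⟩ := ho
        rw [pow_succ, pow_mul, Nat.mul_mod, Nat.pow_mod]
        have : Fintype.card F ^ 2 % 4 = 1 := by
          rw [Nat.pow_mod, h3]
        rw [this, h3]
        simp
      simp [h5, hs]

end Cfsg.Agent.S0790
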