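import Cfsg.Statements.S0791
import Cfsg.Agent.Lib.OrthNeg

set_option autoImplicit false
open Cfsg

namespace Cfsg.Agent.S0791

open Cfsg.Agent.Lib.OrthNeg Cfsg.Agent.Lib.OrthStd2 Cfsg.Agent.Lib.OrthStd

variable {F : Type*} [Field F] {k : ℕ}

/-- An orthogonal basis of the elliptic form. -/
noncomputable def vv (a : F) (i : (Fin k ⊕ Fin k) ⊕ Fin 2) : (Fin k ⊕ Fin k) ⊕ Fin 2 → F :=
  match i with
  | .inl (.inl i) => Pi.single (.inl (.inl i)) 1 + Pi.single (.inl (.inr i)) 1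
  | .inl (.inr i) => Pi.single (.inl (.inl i)) 1 - Pi.single (.inl (.inr i)) 1
  | .inr j => if j = 0 then Pi.single (.inr 0) 1 else Pi.single (.inr 1) 1 - (a / 2) • Pi.single (.inr 0) 1

theorem Q_vv_1 (a b : F) (i : Fin k) : Cfsg.quadFormMinus k F a b (vv a (.inl (.inl i))) = 1 := by
  simp [Cfsg.quadFormMinus, vv, Pi.single_apply]

theorem Q_vv_2 (a b : F) (i : Fin k) : Cfsg.quadFormMinus k F a b (vv a (.inl (.inr i))) = -1 := by
  simp [Cfsg.quadFormMinus, vv, Pi.single_apply]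

theorem Q_vv_3 (a b : F) : Cfsg.quadFormMinus k F a b (vv a (.inr 0)) = 1 := by
  simp [Cfsg.quadFormMinus, vv, Pi.single_apply]

theorem Q_vv_4 (h2 : (2 : F) ≠ 0) (a b : F) : Cfsg.quadFormMinus k F a b (vv a (.inr 1)) = b - a ^ 2 / 4 := by
  simp [Cfsg.quadFormMinus, vv, Pi.single_apply]
  have h4 : (4 : F) ≠ 0 := by
    have : (4 : F) = 2 * 2 := by norm_num
    rw [this]
    exact mul_ne_zero h2 h2
  field_simp
  ring

theorem orth_vv (h2 : (2 : F) ≠ 0) (a b : F) (p l : (Fin k ⊕ Fin k) ⊕ Fin 2) (h : p ≠ l) :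
    QuadraticMap.polar (Cfsg.quadFormMinus k F a b) (vv a p) (vv a l) = 0 := by
  rw [polar_minus]
  have hsum : ∀ (f : Fin k → F), (∀ j, f j = 0) → ∑ j, f j = 0 := fun f hf => Finset.sum_eq_zero fun j _ => hf j
  rcases p with (p | p) | p <;> rcases l with (l | l) | l
  · have hne : p ≠ l := fun e => h (by rw [e])
    simp only [vv, Pi.add_apply, Pi.single_apply, Sum.inl.injEq, reduceCtorEq, if_false, add_zero, mul_zero, zero_mul]
    apply hsum
    intro j
    simp only [Sum.inr.injEq, Sum.inl.injEq]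
    by_cases h1 : j = p <;> by_cases h3 : j = l <;> simp_all
  · simp only [vv, Pi.add_apply, Pi.sub_apply, Pi.single_apply, Sum.inl.injEq, reduceCtorEq, if_false, add_zero, mul_zero, zero_mul, sub_zero]
    apply hsum
    intro j
    simp only [Sum.inr.injEq, Sum.inl.injEq]
    by_cases h1 : j = p <;> by_cases h3 : j = l <;> simp [h1, h3]
    all_goals (try subst_vars; try simp_all)
  · fin_cases l <;> simp [vv, Pi.single_apply]
  · simp only [vv, Pi.add_apply, Pi.sub_apply, Pi.single_apply, Sum.inl.injEq, reduceCtorEq, if_false, add_zero, mul_zero, zero_mul, sub_zero]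
    apply hsum
    intro j
    simp only [Sum.inr.injEq, Sum.inl.injEq]
    by_cases h1 : j = p <;> by_cases h3 : j = l <;> simp [h1, h3]
    all_goals (try subst_vars; try simp_all)
  · have hne : p ≠ l := fun e => h (by rw [e])
    simp only [vv, Pi.sub_apply, Pi.single_apply, Sum.inl.injEq, reduceCtorEq, if_false, mul_zero, zero_mul, sub_zero, sub_self, add_zero]
    apply hsum
    intro j
    simp only [Sum.inr.injEq, Sum.inl.injEq]
    by_cases h1 : j = p <;> by_cases h3 : j = l <;> simp_all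
  · fin_cases l <;> simp [vv, Pi.single_apply]
  · fin_cases p <;> simp [vv, Pi.single_apply]
  · fin_cases p <;> simp [vv, Pi.single_apply]
  · fin_cases p <;> fin_cases l
    · exact absurd rfl h
    · simp [vv, Pi.single_apply]
      field_simp
      ring
    · simp [vv, Pi.single_apply]
      field_simp
      ring
    · exact absurd rfl h

theorem span_vv (h2 : (2 : F) ≠ 0) (a : F) : Submodule.span F (Set.range (vv (F := F) (k := k) a)) = ⊤ := by
  rw [eq_top_iff]
  have hb := (Pi.basisFun F ((Fin k ⊕ Fin k) ⊕ Fin 2)).span_eq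
  rw [← hb, Submodule.span_le]
  rintro _ ⟨p, rfl⟩
  rw [Pi.basisFun_apply]
  have hm : ∀ i, vv (F := F) (k := k) a i ∈ Submodule.span F (Set.range (vv (F := F) (k := k) a)) :=
    fun i => Submodule.subset_span ⟨_, rfl⟩
  rcases p with (p | p) | p
  · have : (Pi.single (.inl (.inl p)) 1 : (Fin k ⊕ Fin k) ⊕ Fin 2 → F) = (2 : F)⁻¹ • (vv a (.inl (.inl p)) + vv a (.inl (.inr p))) := by
      simp only [vv]
      rw [show (Pi.single (.inl (.inl p)) 1 : (Fin k ⊕ Fin k) ⊕ Fin 2 → F) + Pi.single (.inl (.inr p)) 1 + (Pi.single (.inl (.inl p)) 1 - Pi.single (.inl (.inr p)) 1) = (2 : F) • Pi.single (.inl (.inl p)) 1 by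
        rw [two_smul]; abel]
      rw [smul_smul, inv_mul_cancel₀ h2, one_smul]
    rw [this]
    exact Submodule.smul_mem _ _ (Submodule.add_mem _ (hm _) (hm _))
  · have : (Pi.single (.inl (.inr p)) 1 : (Fin k ⊕ Fin k) ⊕ Fin 2 → F) = (2 : F)⁻¹ • (vv a (.inl (.inl p)) - vv a (.inl (.inr p))) := by
      simp only [vv]
      rw [show (Pi.single (.inl (.inl p)) 1 : (Fin k ⊕ Fin k) ⊕ Fin 2 → F) + Pi.single (.inl (.inr p)) 1 - (Pi.single (.inl (.inl p)) 1 - Pi.single (.inl (.inr p)) 1) = (2 : F) • Pi.single (.inl (.inr p)) 1 by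
        rw [two_smul]; abel]
      rw [smul_smul, inv_mul_cancel₀ h2, one_smul]
    rw [this]
    exact Submodule.smul_mem _ _ (Submodule.sub_mem _ (hm _) (hm _))
  · fin_cases p
    · exact hm (.inr 0)
    · have h1 := hm (.inr 0)
      have h3 := hm (.inr 1)
      have e0 : vv (F := F) (k := k) a (.inr 0) = Pi.single (.inr 0) 1 := by simp [vv]
      have e1 : vv (F := F) (k := k) a (.inr 1) = Pi.single (.inr 1) 1 - (a / 2) • Pi.single (.inr 0) 1 := by simp [vv]
      have : (Pi.single (.inr 1) 1 : (Fin k ⊕ Fin k) ⊕ Fin 2 → F) = vv a (.inr 1) + (a / 2) • vv a (.inr 0) := by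
        rw [e0, e1]
        abel
      show (Pi.single (.inr 1) 1 : (Fin k ⊕ Fin k) ⊕ Fin 2 → F) ∈ _
      rw [this]
      exact Submodule.add_mem _ h3 (Submodule.smul_mem _ _ h1)

theorem main_case {F : Type*} [Field F] [Fintype F] {q : ℕ} (hF : Fintype.card F = q) (hodd : Odd q) (k : ℕ) (a b : F) (hab : ∀ z₁ z₂ : F, z₁ ^ 2 + a * z₁ * z₂ + b * z₂ ^ 2 = 0 → z₁ = 0 ∧ z₂ = 0) : (∃ g : ↥(Cfsg.isometryGroup F (Cfsg.quadFormMinus k F a b)), g ∈ Cfsg.Omega F (Cfsg.quadFormMinus k F a b) ∧ ((g : Matrix.GeneralLinearGroup ((Fin k ⊕ Fin k) ⊕ Fin 2) F) : Matrix ((Fin k ⊕ Fin k) ⊕ Fin 2) ((Fin k ⊕ Fin k) ⊕ Fin 2) F) = -1) ↔ q ^ (k + 1) % 4 = 3 := by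
  classical
  subst hF
  have h2 : (2 : F) ≠ 0 := two_ne_zero_of_odd hodd
  have h4 : (4 : F) ≠ 0 := by
    have : (4 : F) = 2 * 2 := by norm_num
    rw [this]
    exact mul_ne_zero h2 h2
  have hQ := quadFormMinus_nondeg (F := F) (m := k) hab
  -- the discriminant of the binary part is not a square
  have hnsq : ¬ IsSquare (a ^ 2 - 4 * b) := by
    rintro ⟨r, hr⟩
    have := hab ((-a + r) / 2) 1 (by
      field_simp
      linear_combination -hr)
    exact one_ne_zero this.2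
  have hδ0 : b - a ^ 2 / 4 ≠ 0 := by
    intro h0
    apply hnsq
    have : a ^ 2 - 4 * b = 0 := by
      field_simp at h0
      linear_combination -h0
    rw [this]
    exact IsSquare.zero
  have hv : ∀ p : (Fin k ⊕ Fin k) ⊕ Fin 2, Cfsg.quadFormMinus k F a b (vv a p) ≠ 0 := by
    rintro ((p | p) | p)
    · rw [Q_vv_1]; exact one_ne_zero
    · rw [Q_vv_2]; exact neg_ne_zero.mpr one_ne_zero
    · fin_cases p
      · show Cfsg.quadFormMinus k F a b (vv a (.inr 0)) ≠ 0
        rw [Q_vv_3]; exact one_ne_zero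
      · show Cfsg.quadFormMinus k F a b (vv a (.inr 1)) ≠ 0
        rw [Q_vv_4 h2]; exact hδ0
  have hcard : Even (Fintype.card ((Fin k ⊕ Fin k) ⊕ Fin 2)) := by
    simp only [Fintype.card_sum, Fintype.card_fin]
    exact ⟨k + 1, by ring⟩
  have hcard2 : 2 ≤ Fintype.card ((Fin k ⊕ Fin k) ⊕ Fin 2) := by
    simp only [Fintype.card_sum, Fintype.card_fin]
    omega
  rw [neg_one_mem_iff hQ h2 hcard2 (vv a) hv (orth_vv h2 a b) (span_vv h2 a) hcard]
  rw [Fintype.prod_sum_type, Fintype.prod_sum_type, Fin.prod_univ_two]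
  simp only [Q_vv_1, Q_vv_2, Q_vv_3, Q_vv_4 h2, Finset.prod_const_one, one_mul, Finset.prod_const, Finset.card_univ, Fintype.card_fin]
  -- translate into the quadratic character
  have hne1 : (-1 : F) ^ k ≠ 0 := pow_ne_zero _ (neg_ne_zero.mpr one_ne_zero)
  rw [← quadraticChar_one_iff_isSquare (mul_ne_zero hne1 hδ0), map_mul, map_pow]
  have hχ1 : quadraticChar F (-1) = 1 ∨ quadraticChar F (-1) = -1 :=
    quadraticChar_dichotomy (neg_ne_zero.mpr one_ne_zero)
  have hχδ : quadraticChar F (-1) * quadraticChar F (b - a ^ 2 / 4) = -1 := by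
    rw [← map_mul]
    have h5 : ¬ IsSquare ((-1) * (b - a ^ 2 / 4)) := by
      rintro ⟨r, hr⟩
      apply hnsq
      refine ⟨2 * r, ?_⟩
      have : a ^ 2 - 4 * b = 4 * ((-1) * (b - a ^ 2 / 4)) := by
        field_simp
        ring
      rw [this, hr]
      ring
    exact quadraticChar_neg_one_iff_not_isSquare.mpr h5
  have hsq := FiniteField.isSquare_neg_one_iff (F := F)
  have hq4 : Fintype.card F % 4 = 1 ∨ Fintype.card F % 4 = 3 := by
    obtain ⟨c, hc⟩ := hodd
    omega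
  rcases hq4 with h1 | h3
  · have hs : IsSquare (-1 : F) := hsq.mpr (by omega)
    have hc1 : quadraticChar F (-1) = 1 := (quadraticChar_one_iff_isSquare (neg_ne_zero.mpr one_ne_zero)).mpr hs
    rw [hc1, one_mul] at hχδ
    have h5 : Fintype.card F ^ (k + 1) % 4 = 1 := by
      rw [Nat.pow_mod, h1]
      simp
    rw [hc1, hχδ, h5]
    simp
  · have hs : ¬ IsSquare (-1 : F) := fun h => hsq.mp h h3
    have hc1 : quadraticChar F (-1) = -1 := quadraticChar_neg_one_iff_not_isSquare.mpr hs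
    rw [hc1] at hχδ
    have hχδ' : quadraticChar F (b - a ^ 2 / 4) = 1 := by linarith
    have hp2 : Fintype.card F ^ 2 % 4 = 1 := by
      rw [Nat.pow_mod, h3]
    rw [hc1, hχδ', mul_one]
    rcases Nat.even_or_odd k with he | ho
    · rw [he.neg_one_pow]
      have h5 : Fintype.card F ^ (k + 1) % 4 = 3 := by
        obtain ⟨c, rfl⟩ := he
        rw [← two_mul, pow_succ, pow_mul, Nat.mul_mod, Nat.pow_mod, hp2, h3]
        simp
      simp [h5]
    · rw [ho.neg_one_pow]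
      have h5 : Fintype.card F ^ (k + 1) % 4 = 1 := by
        obtain ⟨c, rfl⟩ := ho
        rw [show 2 * c + 1 + 1 = 2 * (c + 1) by ring, pow_mul, Nat.pow_mod, hp2]
        simp
      simp [h5]

/-- −1 ∈ Ω⁻_2m(q) iff q^m ≡ −1 (mod 4), for q odd and m ≥ 1; for the minus-type form quadFormMinus (m−1) with anisotropic binary part. -/
theorem result {F : Type*} [Field F] [Fintype F] {q : ℕ} (hF : Fintype.card F = q) (hodd : Odd q) (m : ℕ) (hm : 1 ≤ m) (a b : F) (hab : ∀ z₁ z₂ : F, z₁ ^ 2 + a * z₁ * z₂ + b * z₂ ^ 2 = 0 → z₁ = 0 ∧ z₂ = 0) : (∃ g : ↥(Cfsg.isometryGroup F (Cfsg.quadFormMinus (m - 1) F a b)), g ∈ Cfsg.Omega F (Cfsg.quadFormMinus (m - 1) F a b) ∧ ((g : Matrix.GeneralLinearGroup ((Fin (m - 1) ⊕ Fin (m - 1)) ⊕ Fin 2) F) : Matrix ((Fin (m - 1) ⊕ Fin (m - 1)) ⊕ Fin 2) ((Fin (m - 1) ⊕ Fin (m - 1)) ⊕ Fin 2) F) = -1) ↔ q ^ m % 4 = 3 := by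
  obtain ⟨k, rfl⟩ : ∃ k, m = k + 1 := ⟨m - 1, by omega⟩
  exact main_case hF hodd k a b hab

end Cfsg.Agent.S0791
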