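import Cfsg.Statements.S0294
import Cfsg.Agent.S0288
import Cfsg.Agent.S0791
import Cfsg.Agent.Lib.OrthCenter

set_option autoImplicit false
open Cfsg

namespace Cfsg.Agent.S0294

open Cfsg.Agent.Lib.OrthStd Cfsg.Agent.Lib.OrthStd2 Cfsg.Agent.Lib.OrthCenter Cfsg.Agent.Lib.OrthSpin3

/-- gcd(4, q^m + 1) |PΩ^-_{2m}(q)| = q^(m(m-1)) (q^m + 1) prod_{i=1}^{m-1} (q^(2i) - 1), m at least 4 (type ²D_m). -/
theorem result {F : Type*} [Field F] [Fintype F] {q : ℕ} (hF : Fintype.card F = q) (m : ℕ) (hm : 4 ≤ m) (a b : F) (hab : ∀ z₁ z₂ : F, z₁ ^ 2 + a * z₁ * z₂ + b * z₂ ^ 2 = 0 → z₁ = 0 ∧ z₂ = 0) : Nat.gcd 4 (q ^ m + 1) * Nat.card (Cfsg.POmega F (Cfsg.quadFormMinus (m - 1) F a b)) = q ^ (m * (m - 1)) * (q ^ m + 1) * ∏ i ∈ Finset.range (m - 1), (q ^ (2 * (i + 1)) - 1) := by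
  subst hF
  have hQ := quadFormMinus_nondeg (F := F) (m := m - 1) hab
  have hcard : Fintype.card ((Fin (m - 1) ⊕ Fin (m - 1)) ⊕ Fin 2) = 2 * m := by
    simp only [Fintype.card_sum, Fintype.card_fin]
    omega
  have hO := Cfsg.Agent.S0288.result (F := F) rfl m (by omega) a b hab
  have hq : 1 < Fintype.card F := Fintype.one_lt_card
  have hp1 : 1 ≤ Fintype.card F ^ m := Nat.one_le_pow _ _ (by omega)
  have h1 := card_POmega_eq (Q := Cfsg.quadFormMinus (m - 1) F a b)
  have h3 := index_Omega (Q := Cfsg.quadFormMinus (m - 1) F a b)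
  set T := Fintype.card F ^ (m * (m - 1)) * (Fintype.card F ^ m + 1) * ∏ i ∈ Finset.range (m - 1), (Fintype.card F ^ (2 * (i + 1)) - 1) with hT
  have hO' : 2 * Fintype.card F ^ (m * (m - 1)) * (Fintype.card F ^ m + 1) * ∏ i ∈ Finset.range (m - 1), (Fintype.card F ^ (2 * (i + 1)) - 1) = 2 * T := by
    rw [hT]
    ring
  rw [hO, hO'] at h3
  clear_value T
  rcases Nat.even_or_odd (Fintype.card F) with hev | hodd
  · -- even characteristic
    have h2 : (2 : F) = 0 := by
      have hchar : ringChar F = 2 := FiniteField.even_card_iff_char_two.mpr (Nat.even_iff.mp hev)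
      exact_mod_cast (ringChar.spec F 2).mpr (by rw [hchar])
    haveI : CharP F 2 := CharTwo.of_one_ne_zero_of_two_eq_zero one_ne_zero h2
    have hi := (even_main hQ (by omega) (Or.inr (by omega))).1
    have hneg : (-1 : F) = 1 := by linear_combination -h2
    have hc := card_center_one hQ (by omega) (fun g hg hm' => by
      rw [hm']
      ext i j
      simp only [Matrix.neg_apply, Matrix.one_apply]
      split_ifs
      · exact hneg
      · simp)
    rw [hc, mul_one] at h1
    rw [hi, ← h1] at h3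
    have hgcd : Nat.gcd 4 (Fintype.card F ^ m + 1) = 1 := by
      have he : Even (Fintype.card F ^ m) := hev.pow_of_ne_zero (by omega)
      have ho : Odd (Fintype.card F ^ m + 1) := he.add_one
      have : Nat.Coprime 4 (Fintype.card F ^ m + 1) := by
        have : (4 : ℕ) = 2 ^ 2 := by norm_num
        rw [this]
        exact Nat.Coprime.pow_left 2 (Nat.coprime_two_left.mpr ho)
      exact this
    rw [hgcd, one_mul]
    omega
  · -- odd characteristic
    have h2 := two_ne_zero_of_odd hodd
    have hi := omega_index hQ (by omega) h2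
    have hcrit := Cfsg.Agent.S0791.result (F := F) rfl hodd m (by omega) a b hab
    have hoddp : Odd (Fintype.card F ^ m) := hodd.pow
    by_cases hmod : Fintype.card F ^ m % 4 = 3
    · have hc := card_center_two hQ (by omega) h2 (hcrit.mpr hmod)
      rw [hc] at h1
      rw [hi, ← h1] at h3
      have hgcd : Nat.gcd 4 (Fintype.card F ^ m + 1) = 4 := by
        apply Nat.gcd_eq_left
        omega
      rw [hgcd]
      omega
    · have hc := card_center_one hQ (by omega) (fun g hg hm' => by
        exfalso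
        exact hmod (hcrit.mp ⟨g, hg, hm'⟩))
      rw [hc, mul_one] at h1
      rw [hi, ← h1] at h3
      have hgcd : Nat.gcd 4 (Fintype.card F ^ m + 1) = 2 := by
        obtain ⟨k, hk⟩ := hoddp
        have h5 : (Fintype.card F ^ m + 1) % 4 = 2 := by omega
        rw [Nat.gcd_rec, h5]
        norm_num
      rw [hgcd]
      omega

end Cfsg.Agent.S0294
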