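import Cfsg.Statements.S0298
import Cfsg.Agent.Lib.OmegaSL2
import Cfsg.Agent.Lib.OrthOrder2
import Cfsg.Agent.Lib.OrthSpin3
import Cfsg.Agent.S0242
import Cfsg.Agent.Lib.OrthStd2
import Cfsg.Agent.Lib.SL2Gen

set_option autoImplicit false
open Cfsg

namespace Cfsg.Agent.S0298


open Matrix Cfsg
open Cfsg.Agent.Lib.OmegaIso Cfsg.Agent.Lib.OmegaSL2

section

variable {F : Type*} [Field F]

/-- trace-zero matrices. -/
def S (F : Type*) [Field F] : Submodule F (Matrix (Fin 2) (Fin 2) F) := LinearMap.ker (Matrix.traceLinearMap (Fin 2) F F)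

theorem mem_S {A : Matrix (Fin 2) (Fin 2) F} : A ∈ S F ↔ A.trace = 0 := by
  rw [S, LinearMap.mem_ker]
  rfl

theorem entry_S (A : S F) : (A : Matrix (Fin 2) (Fin 2) F) 1 1 = - (A : Matrix (Fin 2) (Fin 2) F) 0 0 := by
  have := mem_S.1 A.2
  rw [Matrix.trace_fin_two] at this
  exact eq_neg_of_add_eq_zero_right this

/-- coordinates -/
noncomputable def e : S F ≃ₗ[F] (Unit ⊕ (Fin 1 ⊕ Fin 1) → F) where
  toFun A := Sum.elim (fun _ => (A : Matrix (Fin 2) (Fin 2) F) 0 0) (Sum.elim (fun _ => (A : Matrix (Fin 2) (Fin 2) F) 0 1) (fun _ => (A : Matrix (Fin 2) (Fin 2) F) 1 0))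
  map_add' A B := by
    funext i
    rcases i with i | i | i <;> rfl
  map_smul' c A := by
    funext i
    rcases i with i | i | i <;> rfl
  invFun v := ⟨!![v (Sum.inl ()), v (Sum.inr (Sum.inl 0)); v (Sum.inr (Sum.inr 0)), -v (Sum.inl ())], by
    rw [mem_S, Matrix.trace_fin_two]
    simp⟩
  left_inv A := by
    apply Subtype.ext
    ext i j
    fin_cases i <;> fin_cases j <;> simp [entry_S]
  right_inv v := by
    funext i
    rcases i with i | i | i
    · rfl
    · obtain rfl : i = 0 := Subsingleton.elim _ _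
      rfl
    · obtain rfl : i = 0 := Subsingleton.elim _ _
      rfl

theorem e_spec (A : S F) : Cfsg.quadFormOdd 1 F (e A) = - (A : Matrix (Fin 2) (Fin 2) F).det := by
  rw [Matrix.det_fin_two, entry_S]
  show (A : Matrix (Fin 2) (Fin 2) F) 0 0 ^ 2 + ∑ i : Fin 1, (A : Matrix (Fin 2) (Fin 2) F) 0 1 * (A : Matrix (Fin 2) (Fin 2) F) 1 0 = _
  simp
  ring

theorem exists_rep_S : ∃ ρ : Matrix.SpecialLinearGroup (Fin 2) F →* (S F →ₗ[F] S F),
    ∀ g A, ((ρ g A : S F) : Matrix (Fin 2) (Fin 2) F) = (g : Matrix (Fin 2) (Fin 2) F) * A * ((g⁻¹ : Matrix.SpecialLinearGroup (Fin 2) F) : Matrix (Fin 2) (Fin 2) F) := by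
  refine exists_rep (S F) (fun g : Matrix.SpecialLinearGroup (Fin 2) F => (g : Matrix (Fin 2) (Fin 2) F)) (fun g : Matrix.SpecialLinearGroup (Fin 2) F => ((g⁻¹ : Matrix.SpecialLinearGroup (Fin 2) F) : Matrix (Fin 2) (Fin 2) F)) rfl (fun _ _ => rfl) ?_ ?_ ?_
  · simp
  · intro g h
    simp
  · intro g A hA
    rw [mem_S] at hA ⊢
    rw [Matrix.trace_mul_comm, ← Matrix.mul_assoc]
    have : ((g⁻¹ : Matrix.SpecialLinearGroup (Fin 2) F) : Matrix (Fin 2) (Fin 2) F) * (g : Matrix (Fin 2) (Fin 2) F) = 1 := by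
      rw [← Matrix.SpecialLinearGroup.coe_mul, inv_mul_cancel, Matrix.SpecialLinearGroup.coe_one]
    rw [this, Matrix.one_mul, hA]

end


/-- PΩ_3(q) is isomorphic to PSL_2(q) for q odd. -/
theorem result {F : Type*} [Field F] [Fintype F] (hodd : Odd (Fintype.card F)) : Nonempty (Cfsg.POmega F (Cfsg.quadFormOdd 1 F) ≃* Matrix.ProjectiveSpecialLinearGroup (Fin 2) F) := by
  classical
  obtain ⟨ρ, hρ⟩ := exists_rep_S (F := F)
  have h2 : (2 : F) ≠ 0 := Cfsg.Agent.Lib.OrthStd.two_ne_zero_of_odd hodd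
  have hQ := Cfsg.Agent.Lib.OrthStd.quadFormOdd_nondeg (m := 1) (F := F) hodd
  have hi : (Omega F (Cfsg.quadFormOdd 1 F)).index = 4 := Cfsg.Agent.Lib.OrthSpin3.omega_index hQ (by simp) h2
  have hinv : ∀ g : Matrix.SpecialLinearGroup (Fin 2) F, (g : Matrix (Fin 2) (Fin 2) F) * ((g⁻¹ : Matrix.SpecialLinearGroup (Fin 2) F) : Matrix (Fin 2) (Fin 2) F) = 1 := by
    intro g
    rw [← Matrix.SpecialLinearGroup.coe_mul, mul_inv_cancel, Matrix.SpecialLinearGroup.coe_one]
  have hinv' : ∀ g : Matrix.SpecialLinearGroup (Fin 2) F, ((g⁻¹ : Matrix.SpecialLinearGroup (Fin 2) F) : Matrix (Fin 2) (Fin 2) F) * (g : Matrix (Fin 2) (Fin 2) F) = 1 := by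
    intro g
    rw [← Matrix.SpecialLinearGroup.coe_mul, inv_mul_cancel, Matrix.SpecialLinearGroup.coe_one]
  have hker : ρ.ker = Subgroup.center (Matrix.SpecialLinearGroup (Fin 2) F) := by
    ext g
    rw [MonoidHom.mem_ker]
    constructor
    · intro hg
      have hc : ∀ A (hA : A ∈ S F), (g : Matrix (Fin 2) (Fin 2) F) * A = A * (g : Matrix (Fin 2) (Fin 2) F) := by
        intro A hA
        have h1 : ((ρ g ⟨A, hA⟩ : S F) : Matrix (Fin 2) (Fin 2) F) = A := by
          rw [hg]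
          rfl
        rw [hρ] at h1
        show (g : Matrix (Fin 2) (Fin 2) F) * A = A * (g : Matrix (Fin 2) (Fin 2) F)
        conv_rhs => rw [← h1]
        rw [Matrix.mul_assoc _ _ (g : Matrix (Fin 2) (Fin 2) F), hinv', Matrix.mul_one]
      apply mem_center_of_comm
      · apply hc
        rw [mem_S, Matrix.trace_fin_two]
        simp
      · apply hc
        rw [mem_S, Matrix.trace_fin_two]
        simp
    · intro hg
      ext A : 1
      apply Subtype.ext
      rw [hρ, comm_of_center hg, Matrix.mul_assoc, hinv, Matrix.mul_one]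
      rfl
  have hq3 : 3 ≤ Fintype.card F := by
    obtain ⟨k, hk⟩ := hodd
    have := Fintype.one_lt_card (α := F)
    omega
  refine main (fun A : S F => - (A : Matrix (Fin 2) (Fin 2) F).det) (Cfsg.quadFormOdd 1 F) e e_spec ρ ?_ (QuotientGroup.mk' _) (QuotientGroup.mk'_surjective _) (by rw [QuotientGroup.ker_mk']) ?_ ?_ ?_ ?_
  · intro g A
    simp only [hρ, Matrix.det_mul, Matrix.SpecialLinearGroup.det_coe, one_mul, mul_one]
  · rw [QuotientGroup.ker_mk', hker]
  · exact center_PSL2 hq3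
  · intro φ g
    exact sl_mem_omega_odd hodd hi φ g
  · rw [hker, Cfsg.Agent.Lib.ClassicalBasic.card_center_SL 2 (by norm_num)]
    have h1 := Cfsg.Agent.Lib.OrthOrder2.card_odd (F := F) (m := 1) hodd
    have h3 := Subgroup.index_mul_card (Omega F (Cfsg.quadFormOdd 1 F))
    rw [hi, h1] at h3
    have h4 := Cfsg.Agent.Lib.SL2Gen.card_SL2 (F := F)
    have h5 : Nat.gcd 2 (Fintype.card F - 1) = 2 := by
      apply Nat.gcd_eq_left
      obtain ⟨k, hk⟩ := hodd
      rw [hk]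
      simp
    simp only [Finset.prod_range_one, Nat.zero_add, pow_one, mul_zero, add_zero] at h3
    rw [h5]
    unfold Cfsg.Agent.Lib.SL2Gen.SL2 at h4
    rw [h4]
    obtain ⟨k, hk⟩ : ∃ k, Fintype.card F = k + 1 := ⟨Fintype.card F - 1, by omega⟩
    rw [hk] at h3 ⊢
    simp only [Nat.add_sub_cancel] at h3 ⊢
    nlinarith

end Cfsg.Agent.S0298
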