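import Cfsg.Statements.S0299
import Cfsg.Agent.Lib.OmegaSL2
import Cfsg.Agent.Lib.OrthOrder2
import Cfsg.Agent.Lib.OrthSpin3
import Cfsg.Agent.Lib.OrthStd2
import Cfsg.Agent.Lib.SL2Gen

set_option autoImplicit false
open Cfsg

namespace Cfsg.Agent.S0299


open Matrix Cfsg
open Cfsg.Agent.Lib.OmegaIso Cfsg.Agent.Lib.OmegaSL2

section

variable {F : Type*} [Field F]

/-- coordinates -/
noncomputable def e : (⊤ : Submodule F (Matrix (Fin 2) (Fin 2) F)) ≃ₗ[F] (Fin 2 ⊕ Fin 2 → F) where
  toFun A := Sum.elim ![(A : Matrix (Fin 2) (Fin 2) F) 0 0, -(A : Matrix (Fin 2) (Fin 2) F) 0 1] ![(A : Matrix (Fin 2) (Fin 2) F) 1 1, (A : Matrix (Fin 2) (Fin 2) F) 1 0]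
  map_add' A B := by
    funext i
    rcases i with i | i <;> fin_cases i <;> simp [add_comm]
  map_smul' c A := by
    funext i
    rcases i with i | i <;> fin_cases i <;> simp
  invFun v := ⟨!![v (Sum.inl 0), -v (Sum.inl 1); v (Sum.inr 1), v (Sum.inr 0)], trivial⟩
  left_inv A := by
    apply Subtype.ext
    ext i j
    fin_cases i <;> fin_cases j <;> simp
  right_inv v := by
    funext i
    rcases i with i | i <;> fin_cases i <;> simp

theorem e_spec (A : (⊤ : Submodule F (Matrix (Fin 2) (Fin 2) F))) : Cfsg.quadFormPlus 2 F (e A) = (A : Matrix (Fin 2) (Fin 2) F).det := by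
  rw [Matrix.det_fin_two]
  show ∑ i : Fin 2, e A (Sum.inl i) * e A (Sum.inr i) = _
  simp [Fin.sum_univ_two, e]
  ring

/-- the inverse as a matrix -/
local notation "Γ" => (Matrix.SpecialLinearGroup (Fin 2) F × Matrix.SpecialLinearGroup (Fin 2) F)

theorem exists_rep_S : ∃ ρ : Γ →* ((⊤ : Submodule F (Matrix (Fin 2) (Fin 2) F)) →ₗ[F] (⊤ : Submodule F (Matrix (Fin 2) (Fin 2) F))),
    ∀ g A, ((ρ g A : (⊤ : Submodule F (Matrix (Fin 2) (Fin 2) F))) : Matrix (Fin 2) (Fin 2) F) = (g.1 : Matrix (Fin 2) (Fin 2) F) * A * ((g.2⁻¹ : Matrix.SpecialLinearGroup (Fin 2) F) : Matrix (Fin 2) (Fin 2) F) := by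
  refine exists_rep _ (fun g : Γ => (g.1 : Matrix (Fin 2) (Fin 2) F)) (fun g : Γ => ((g.2⁻¹ : Matrix.SpecialLinearGroup (Fin 2) F) : Matrix (Fin 2) (Fin 2) F)) rfl (fun _ _ => rfl) ?_ ?_ ?_
  · simp
  · intro g h
    simp
  · intro g A hA
    trivial

/-- the diagonal kernel. -/
def dd : Subgroup.center (Matrix.SpecialLinearGroup (Fin 2) F) →* Γ :=
  ((Subgroup.center (Matrix.SpecialLinearGroup (Fin 2) F)).subtype).prod ((Subgroup.center (Matrix.SpecialLinearGroup (Fin 2) F)).subtype)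

theorem dd_inj : Function.Injective (dd (F := F)) := by
  intro a b hab
  exact Subtype.ext (congrArg Prod.fst hab)

end


/-- PΩ^+_4(q) is isomorphic to PSL_2(q) x PSL_2(q) for q at least 3. -/
theorem result {F : Type*} [Field F] [Fintype F] (hF : 3 ≤ Fintype.card F) : Nonempty (Cfsg.POmega F (Cfsg.quadFormPlus 2 F) ≃* Matrix.ProjectiveSpecialLinearGroup (Fin 2) F × Matrix.ProjectiveSpecialLinearGroup (Fin 2) F) := by
  classical
  obtain ⟨ρ, hρ⟩ := exists_rep_S (F := F)
  have hQ := Cfsg.Agent.Lib.OrthStd2.quadFormPlus_nondeg (m := 2) (F := F)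
  have hinv : ∀ g : Matrix.SpecialLinearGroup (Fin 2) F, (g : Matrix (Fin 2) (Fin 2) F) * ((g⁻¹ : Matrix.SpecialLinearGroup (Fin 2) F) : Matrix (Fin 2) (Fin 2) F) = 1 := by
    intro g
    rw [← Matrix.SpecialLinearGroup.coe_mul, mul_inv_cancel, Matrix.SpecialLinearGroup.coe_one]
  have hinv' : ∀ g : Matrix.SpecialLinearGroup (Fin 2) F, ((g⁻¹ : Matrix.SpecialLinearGroup (Fin 2) F) : Matrix (Fin 2) (Fin 2) F) * (g : Matrix (Fin 2) (Fin 2) F) = 1 := by
    intro g
    rw [← Matrix.SpecialLinearGroup.coe_mul, inv_mul_cancel, Matrix.SpecialLinearGroup.coe_one]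
  have hker : ρ.ker = (dd (F := F)).range := by
    ext g
    rw [MonoidHom.mem_ker]
    constructor
    · intro hg
      have hc : ∀ A, (g.1 : Matrix (Fin 2) (Fin 2) F) * A = A * (g.2 : Matrix (Fin 2) (Fin 2) F) := by
        intro A
        have h1 : ((ρ g ⟨A, trivial⟩ : (⊤ : Submodule F (Matrix (Fin 2) (Fin 2) F))) : Matrix (Fin 2) (Fin 2) F) = A := by
          rw [hg]
          rfl
        rw [hρ] at h1
        conv_rhs => rw [← h1]
        show _ = (g.1 : Matrix (Fin 2) (Fin 2) F) * A * ((g.2⁻¹ : Matrix.SpecialLinearGroup (Fin 2) F) : Matrix (Fin 2) (Fin 2) F) * (g.2 : Matrix (Fin 2) (Fin 2) F)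
        rw [Matrix.mul_assoc _ _ (g.2 : Matrix (Fin 2) (Fin 2) F), hinv', Matrix.mul_one]
      have h12 : g.1 = g.2 := by
        have := hc 1
        rw [Matrix.mul_one, Matrix.one_mul] at this
        exact Subtype.ext this
      have hz : g.1 ∈ Subgroup.center (Matrix.SpecialLinearGroup (Fin 2) F) := by
        apply mem_center_of_comm
        · rw [hc]; rw [h12]
        · rw [hc]; rw [h12]
      refine ⟨⟨g.1, hz⟩, ?_⟩
      apply Prod.ext
      · rfl
      · exact h12
    · rintro ⟨z, rfl⟩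
      ext A : 1
      apply Subtype.ext
      rw [hρ]
      show (z.1 : Matrix (Fin 2) (Fin 2) F) * A * ((z.1⁻¹ : Matrix.SpecialLinearGroup (Fin 2) F) : Matrix (Fin 2) (Fin 2) F) = _
      rw [comm_of_center z.2, Matrix.mul_assoc, hinv, Matrix.mul_one]
      rfl
  have h3 : (hQ3 : Odd (Fintype.card F)) → (Omega F (Cfsg.quadFormPlus 2 F)).index = 4 := fun hodd =>
    Cfsg.Agent.Lib.OrthSpin3.omega_index hQ (by simp) (Cfsg.Agent.Lib.OrthStd.two_ne_zero_of_odd hodd)
  refine main (fun A : (⊤ : Submodule F (Matrix (Fin 2) (Fin 2) F)) => (A : Matrix (Fin 2) (Fin 2) F).det) (Cfsg.quadFormPlus 2 F) e e_spec ρ ?_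
    ((QuotientGroup.mk' _).prodMap (QuotientGroup.mk' _))
    (Function.Surjective.prodMap (QuotientGroup.mk'_surjective _) (QuotientGroup.mk'_surjective _)) ?_ ?_ ?_ ?_ ?_
  · intro g A
    simp only [hρ, Matrix.det_mul, Matrix.SpecialLinearGroup.det_coe, one_mul, mul_one]
  · intro g hg
    rw [MonoidHom.mem_ker] at hg
    have h1 := congrArg Prod.fst hg
    have h2 := congrArg Prod.snd hg
    have h1' : g.1 ∈ Subgroup.center (Matrix.SpecialLinearGroup (Fin 2) F) := (QuotientGroup.eq_one_iff _).1 h1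
    have h2' : g.2 ∈ Subgroup.center (Matrix.SpecialLinearGroup (Fin 2) F) := (QuotientGroup.eq_one_iff _).1 h2
    rw [Subgroup.mem_center_iff]
    intro y
    exact Prod.ext ((Subgroup.mem_center_iff.1 h1') y.1) ((Subgroup.mem_center_iff.1 h2') y.2)
  · rw [hker]
    rintro _ ⟨z, rfl⟩
    rw [MonoidHom.mem_ker]
    have hz : ((z : Matrix.SpecialLinearGroup (Fin 2) F) : Matrix.ProjectiveSpecialLinearGroup (Fin 2) F) = 1 := (QuotientGroup.eq_one_iff _).2 z.2
    exact Prod.ext hz hz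
  · rw [eq_bot_iff]
    intro x hx
    have hc := center_PSL2 (F := F) hF
    rw [Subgroup.mem_center_iff] at hx
    have h1 : x.1 ∈ Subgroup.center (Matrix.ProjectiveSpecialLinearGroup (Fin 2) F) := by
      rw [Subgroup.mem_center_iff]
      intro y
      exact congrArg Prod.fst (hx (y, 1))
    have h2 : x.2 ∈ Subgroup.center (Matrix.ProjectiveSpecialLinearGroup (Fin 2) F) := by
      rw [Subgroup.mem_center_iff]
      intro y
      exact congrArg Prod.snd (hx (1, y))
    rw [hc, Subgroup.mem_bot] at h1 h2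
    rw [Subgroup.mem_bot]
    exact Prod.ext h1 h2
  · intro φ g
    have hmem : ∀ ψ : Matrix.SpecialLinearGroup (Fin 2) F →* ↥(isometryGroup F (Cfsg.quadFormPlus 2 F)), ∀ g, ψ g ∈ Omega F (Cfsg.quadFormPlus 2 F) := by
      intro ψ g
      rcases Nat.even_or_odd (Fintype.card F) with he | ho
      · have h4 : 4 ≤ Fintype.card F := by
          obtain ⟨k, hk⟩ := he
          omega
        obtain ⟨a, ha, hsq⟩ := Cfsg.Agent.Lib.H1Rigid.exists_non_sq_one (F := F) h4
        exact mem_omega_of_perfect (Cfsg.Agent.Lib.H1Rigid.commutator_SL2_eq_top ha hsq) ψ g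
      · exact sl_mem_omega_odd ho (h3 ho) ψ g
    have h5 : g = (g.1, 1) * (1, g.2) := by simp
    rw [h5, map_mul]
    exact mul_mem (hmem (φ.comp (MonoidHom.inl _ _)) g.1) (hmem (φ.comp (MonoidHom.inr _ _)) g.2)
  · have hk1 : Nat.card ρ.ker = Nat.gcd 2 (Fintype.card F - 1) := by
      rw [hker, ← Cfsg.Agent.Lib.ClassicalBasic.card_center_SL 2 (by norm_num)]
      exact Nat.card_congr (MonoidHom.ofInjective dd_inj).toEquiv.symm
    rw [hk1, Nat.card_prod]
    have h4 := Cfsg.Agent.Lib.SL2Gen.card_SL2 (F := F)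
    unfold Cfsg.Agent.Lib.SL2Gen.SL2 at h4
    rw [h4]
    have h1 := Cfsg.Agent.Lib.OrthOrder2.card_plus (F := F) (m := 2)
    have h5 := Subgroup.index_mul_card (Omega F (Cfsg.quadFormPlus 2 F))
    rw [h1] at h5
    simp only [Finset.prod_range_succ, Finset.prod_range_zero, one_mul, Nat.zero_add, pow_zero, add_zero, pow_one, mul_one, Nat.one_add] at h5
    obtain ⟨k, hk⟩ : ∃ k, Fintype.card F = k + 1 := ⟨Fintype.card F - 1, by have := Fintype.one_lt_card (α := F); omega⟩
    have hs : (k + 1) ^ Nat.succ 1 - 1 = k * (k + 2) := by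
      apply Nat.sub_eq_of_eq_add
      simp only [Nat.succ_eq_add_one]
      ring
    rcases Nat.even_or_odd (Fintype.card F) with he | ho
    · have h6 : (Omega F (Cfsg.quadFormPlus 2 F)).index = 2 := by
        haveI : CharP F 2 := by
          have h8 : ringChar F = 2 := FiniteField.even_card_iff_char_two.2 (Nat.even_iff.1 he)
          rw [← h8]
          exact ringChar.charP F
        exact (Cfsg.Agent.Lib.OrthSpin3.even_main hQ (by simp) (Or.inl (by
          obtain ⟨k, hk⟩ := he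
          omega))).1
      have h7 : Nat.gcd 2 (Fintype.card F - 1) = 1 := by
        apply Nat.Coprime.symm
        apply Nat.Coprime.symm
        rw [Nat.coprime_two_left]
        obtain ⟨l, hl⟩ := he
        rw [hl]
        exact ⟨l - 1, by omega⟩
      rw [h6] at h5
      rw [h7]
      rw [hk] at h5 ⊢
      rw [hs] at h5
      simp only [Nat.add_sub_cancel, Nat.succ_eq_add_one, Nat.reduceAdd, mul_zero, pow_zero, mul_one] at h5 ⊢
      generalize Nat.card ↥(Omega F (quadFormPlus 2 F)) = w at h5 ⊢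
      linarith
    · have h6 := h3 ho
      have h7 : Nat.gcd 2 (Fintype.card F - 1) = 2 := by
        apply Nat.gcd_eq_left
        obtain ⟨k, hk⟩ := ho
        rw [hk]
        simp
      rw [h6] at h5
      rw [h7]
      rw [hk] at h5 ⊢
      rw [hs] at h5
      simp only [Nat.add_sub_cancel, Nat.succ_eq_add_one, Nat.reduceAdd, mul_zero, pow_zero, mul_one] at h5 ⊢
      generalize Nat.card ↥(Omega F (quadFormPlus 2 F)) = w at h5 ⊢
      linarith

end Cfsg.Agent.S0299
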