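import Cfsg.Statements.S0301
import Cfsg.Agent.Lib.OmegaSL2
import Cfsg.Agent.Lib.OrthOrder2
import Cfsg.Agent.Lib.OrthSpin3
import Cfsg.Agent.Lib.OrthStd2
import Cfsg.Agent.Lib.Alt4
import Cfsg.Agent.Lib.SympSimple
import Cfsg.Agent.Lib.SympOrder

set_option autoImplicit false
open Cfsg

namespace Cfsg.Agent.S0301


open Matrix Cfsg
open Cfsg.Agent.Lib.OmegaIso Cfsg.Agent.Lib.OmegaSL2 Cfsg.Agent.Lib.Alt4 Cfsg.Agent.Lib.SympBasic Cfsg.Agent.Lib.SympTrans Cfsg.Agent.Lib.SympGen Cfsg.Agent.Lib.SympCenter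

section

variable {F : Type*} [Field F]

local notation "M" => Matrix (Fin 4) (Fin 4) F
local notation "N" => Matrix (Fin 2 ⊕ Fin 2) (Fin 2 ⊕ Fin 2) F

/-- the reindexing -/
def τ : Fin 4 ≃ Fin 2 ⊕ Fin 2 where
  toFun := ![Sum.inl 0, Sum.inl 1, Sum.inr 0, Sum.inr 1]
  invFun := Sum.elim ![0, 1] ![2, 3]
  left_inv := by decide
  right_inv := by decide

/-- the reindexed matrix -/
def RR (g : N) : M := g.submatrix τ τ

theorem RR_mul (g h : N) : RR (g * h) = RR g * RR h := by
  unfold RR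
  rw [Matrix.submatrix_mul_equiv]

theorem RR_one : RR (1 : N) = (1 : M) := by
  unfold RR
  rw [Matrix.submatrix_one_equiv]

theorem RR_transpose (g : N) : RR g.transpose = (RR g).transpose := by
  unfold RR
  rw [Matrix.transpose_submatrix]

theorem RR_inj {g h : N} (hh : RR g = RR h) : g = h := by
  ext i j
  have := congrFun (congrFun hh (τ.symm i)) (τ.symm j)
  simpa [RR] using this

/-- the form in the new coordinates -/
def JJ (F : Type*) [Field F] : Matrix (Fin 4) (Fin 4) F := altOf 0 (-1) 0 0 (-1) 0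

theorem RR_J : RR (Matrix.J (Fin 2) F) = JJ F := by
  ext i j
  fin_cases i <;> fin_cases j <;> simp [RR, τ, JJ, altOf, Matrix.J, Matrix.fromBlocks, Matrix.one_apply]

theorem Pf_J : Pf (JJ F) = -1 := by
  rw [JJ, Pf_altOf]
  ring

/-- the symplectic Lie-type image -/
theorem RR_sp {g : N} (hg : g ∈ Matrix.symplecticGroup (Fin 2) F) : RR g * JJ F * (RR g).transpose = JJ F := by
  rw [SymplecticGroup.mem_iff] at hg
  rw [← RR_J, ← RR_transpose, ← RR_mul, ← RR_mul, hg]

theorem det_RR {g : N} (hg : g ∈ Matrix.symplecticGroup (Fin 2) F) : (RR g).det = 1 := by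
  have h1 := Pf_sandwich (RR g) (isAlt_altOf (0 : F) (-1) 0 0 (-1) 0)
  have h2 := RR_sp hg
  unfold JJ at h2
  rw [h2] at h1
  have h3 : Pf (altOf (0 : F) (-1) 0 0 (-1) 0) = -1 := Pf_J
  rw [h3] at h1
  linear_combination h1

/-- the five-dimensional subspace -/
def WW (F : Type*) [Field F] : Submodule F (Matrix (Fin 4) (Fin 4) F) where
  carrier := {A | IsAlt A ∧ A 0 2 + A 1 3 = 0}
  add_mem' := by
    rintro A B ⟨hA, hA'⟩ ⟨hB, hB'⟩
    refine ⟨?_, ?_⟩
    · apply isAlt_of
      · intro s t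
        rw [Matrix.add_apply, Matrix.add_apply, isAlt_symm hA s t, isAlt_symm hB s t]
        ring
      · intro s
        rw [Matrix.add_apply, isAlt_diag hA s, isAlt_diag hB s, add_zero]
    · simp only [Matrix.add_apply]
      linear_combination hA' + hB'
  zero_mem' := by
    refine ⟨?_, by simp⟩
    apply isAlt_of <;> simp
  smul_mem' := by
    rintro c A ⟨hA, hA'⟩
    refine ⟨isAlt_smul c hA, ?_⟩
    simp only [Matrix.smul_apply, smul_eq_mul]
    linear_combination c * hA'

/-- coordinates -/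
noncomputable def e : WW F ≃ₗ[F] (Unit ⊕ (Fin 2 ⊕ Fin 2) → F) where
  toFun A := Sum.elim (fun _ => (A : M) 0 2) (Sum.elim ![(A : M) 0 1, (A : M) 0 3] ![(A : M) 2 3, (A : M) 1 2])
  map_add' A B := by
    funext i
    rcases i with i | i | i
    · rfl
    · fin_cases i <;> simp [add_comm]
    · fin_cases i <;> simp [add_comm]
  map_smul' c A := by
    funext i
    rcases i with i | i | i
    · rfl
    · fin_cases i <;> simp
    · fin_cases i <;> simp
  invFun v := ⟨altOf (v (Sum.inr (Sum.inl 0))) (v (Sum.inl ())) (v (Sum.inr (Sum.inl 1))) (v (Sum.inr (Sum.inr 1))) (- v (Sum.inl ())) (v (Sum.inr (Sum.inr 0))), isAlt_altOf _ _ _ _ _ _, by simp [altOf]⟩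
  left_inv A := by
    apply Subtype.ext
    have h1 : (A : M) 1 3 = - (A : M) 0 2 := eq_neg_of_add_eq_zero_right A.2.2
    conv_rhs => rw [A.2.1]
    simp [h1]
  right_inv v := by
    funext i
    rcases i with i | i | i
    · simp [altOf]
    · fin_cases i <;> simp [altOf]
    · fin_cases i <;> simp [altOf]

theorem e_spec (A : WW F) : Cfsg.quadFormOdd 2 F (e A) = Pf (A : M) := by
  have h1 : (A : M) 1 3 = - (A : M) 0 2 := eq_neg_of_add_eq_zero_right A.2.2
  show e A (Sum.inl ()) ^ 2 + ∑ i : Fin 2, e A (Sum.inr (Sum.inl i)) * e A (Sum.inr (Sum.inr i)) = _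
  simp [Fin.sum_univ_two, e, Pf, h1]
  ring

theorem WW_stable {g : N} (hg : g ∈ Matrix.symplecticGroup (Fin 2) F) {A : M} (hA : A ∈ WW F) : RR g * A * (RR g).transpose ∈ WW F := by
  refine ⟨isAlt_sandwich _ hA.1, ?_⟩
  have h1 := Pf_sandwich (RR g) hA.1
  have hAJ : IsAlt (A + JJ F) := by
    have hJ : IsAlt (JJ F) := isAlt_altOf _ _ _ _ _ _
    apply isAlt_of
    · intro s t
      rw [Matrix.add_apply, Matrix.add_apply, isAlt_symm hA.1 s t, isAlt_symm hJ s t]
      ring
    · intro s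
      rw [Matrix.add_apply, isAlt_diag hA.1 s, isAlt_diag hJ s, add_zero]
  have h2 := Pf_sandwich (RR g) hAJ
  rw [mul_add, add_mul, RR_sp hg, det_RR hg, one_mul] at h2
  rw [det_RR hg, one_mul] at h1
  have h3 : ∀ B : M, Pf (B + JJ F) = Pf B + B 0 2 + B 1 3 - 1 := by
    intro B
    simp [Pf, JJ, altOf]
    ring
  rw [h3, h3] at h2
  have h4 := hA.2
  linear_combination h2 - h1 + h4

theorem exists_rep_W : ∃ ρ : Sp 2 F →* (WW F →ₗ[F] WW F),
    ∀ g A, ((ρ g A : WW F) : M) = RR (g : N) * A * (RR (g : N)).transpose := by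
  refine exists_rep (WW F) (fun g : Sp 2 F => RR (g : N)) (fun g : Sp 2 F => (RR (g : N)).transpose) ?_ ?_ ?_ ?_ ?_
  · show RR (1 : N) = _
    rw [RR_one]
  · intro g h
    show RR ((g : N) * (h : N)) = _
    rw [RR_mul]
  · show (RR (1 : N)).transpose = _
    rw [RR_one, Matrix.transpose_one]
  · intro g h
    show (RR ((g : N) * (h : N))).transpose = _
    rw [RR_mul, Matrix.transpose_mul]
  · intro g A hA
    exact WW_stable g.2 hA

end


/-- PΩ_5(q) is isomorphic to PSp_4(q) for q odd. -/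
theorem result {F : Type*} [Field F] [Fintype F] (hodd : Odd (Fintype.card F)) : Nonempty (Cfsg.POmega F (Cfsg.quadFormOdd 2 F) ≃* Cfsg.PSp 2 F) := by
  classical
  obtain ⟨ρ, hρ⟩ := exists_rep_W (F := F)
  have h2 : (2 : F) ≠ 0 := Cfsg.Agent.Lib.OrthStd.two_ne_zero_of_odd hodd
  have hQ := Cfsg.Agent.Lib.OrthStd.quadFormOdd_nondeg (m := 2) (F := F) hodd
  have hi : (Omega F (Cfsg.quadFormOdd 2 F)).index = 4 := Cfsg.Agent.Lib.OrthSpin3.omega_index hQ (by simp) h2
  have hq3 : 3 ≤ Fintype.card F := by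
    obtain ⟨k, hk⟩ := hodd
    have := Fintype.one_lt_card (α := F)
    omega
  have hker : ρ.ker = Subgroup.center (Sp 2 F) := by
    ext g
    rw [MonoidHom.mem_ker, center_eq (by norm_num)]
    constructor
    · intro hg
      have hfix : ∀ A (hA : A ∈ WW F), RR (g : Matrix (Fin 2 ⊕ Fin 2) (Fin 2 ⊕ Fin 2) F) * A * (RR (g : Matrix (Fin 2 ⊕ Fin 2) (Fin 2 ⊕ Fin 2) F)).transpose = A := by
        intro A hA
        have h1 : ((ρ g ⟨A, hA⟩ : WW F) : Matrix (Fin 4) (Fin 4) F) = A := by
          rw [hg]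
          rfl
        rwa [hρ] at h1
      have hall : ∀ A : Matrix (Fin 4) (Fin 4) F, IsAlt A → RR (g : Matrix (Fin 2 ⊕ Fin 2) (Fin 2 ⊕ Fin 2) F) * A * (RR (g : Matrix (Fin 2 ⊕ Fin 2) (Fin 2 ⊕ Fin 2) F)).transpose = A := by
        intro A hA
        have hJ : IsAlt (JJ F) := isAlt_altOf _ _ _ _ _ _
        obtain ⟨c, hc⟩ : ∃ c : F, c * 2 = A 0 2 + A 1 3 := ⟨(A 0 2 + A 1 3) / 2, div_mul_cancel₀ _ h2⟩
        have hmem : A + c • JJ F ∈ WW F := by
          refine ⟨?_, ?_⟩
          · have h3 := isAlt_smul c hJ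
            apply isAlt_of
            · intro s t
              rw [Matrix.add_apply, Matrix.add_apply, isAlt_symm hA s t, isAlt_symm h3 s t]
              ring
            · intro s
              rw [Matrix.add_apply, isAlt_diag hA s, isAlt_diag h3 s, add_zero]
          · simp [JJ, altOf]
            linear_combination -hc
        have h4 := hfix _ hmem
        rw [Matrix.mul_add, Matrix.add_mul, Matrix.mul_smul, Matrix.smul_mul, RR_sp g.2] at h4
        exact add_right_cancel h4
      rcases eq_one_or_neg_of_fix _ hall with h | h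
      · left
        apply Subtype.ext
        apply RR_inj
        rw [h, OneMemClass.coe_one, RR_one]
      · right
        apply Subtype.ext
        apply RR_inj
        rw [h]
        ext i j
        have := congrFun (congrFun (RR_one (F := F)) i) j
        simp only [RR, negOne, Matrix.submatrix_apply, Matrix.neg_apply] at this ⊢
        rw [this]
    · intro hg
      ext A : 1
      apply Subtype.ext
      rw [hρ]
      rcases hg with h | h
      · rw [h, OneMemClass.coe_one, RR_one]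
        simp
      · have : RR ((negOne : Sp 2 F) : Matrix (Fin 2 ⊕ Fin 2) (Fin 2 ⊕ Fin 2) F) = - (1 : Matrix (Fin 4) (Fin 4) F) := by
          ext i j
          have := congrFun (congrFun (RR_one (F := F)) i) j
          simp only [RR, negOne, Matrix.submatrix_apply, Matrix.neg_apply] at this ⊢
          rw [this]
        rw [h, this]
        simp
  refine main (fun A : WW F => Pf (A : Matrix (Fin 4) (Fin 4) F)) (Cfsg.quadFormOdd 2 F) e e_spec ρ ?_ (QuotientGroup.mk' _) (QuotientGroup.mk'_surjective _) (by rw [QuotientGroup.ker_mk']) ?_ ?_ ?_ ?_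
  · intro g A
    simp only [hρ]
    rw [Pf_sandwich _ A.2.1, det_RR g.2, one_mul]
  · rw [QuotientGroup.ker_mk', hker]
  · haveI := Cfsg.Agent.Lib.SympSimple.PSp_isSimple (F := F) (m := 2) (by norm_num) (fun _ => hq3)
    apply center_of_simple
    have : Group.IsPerfect (Sp 2 F) := ⟨Cfsg.Agent.Lib.SympPerfect.commutator_eq_top (Or.inr (Or.inl ⟨rfl, hq3⟩))⟩
    have : Group.IsPerfect (Cfsg.PSp 2 F) := inferInstance
    exact this.commutator_eq_top
  · intro φ g
    exact mem_omega_of_perfect (Cfsg.Agent.Lib.SympPerfect.commutator_eq_top (Or.inr (Or.inl ⟨rfl, hq3⟩))) φ g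
  · rw [hker, card_center rfl (by norm_num)]
    have h1 := Cfsg.Agent.Lib.OrthOrder2.card_odd (F := F) (m := 2) hodd
    have h3 := Subgroup.index_mul_card (Omega F (Cfsg.quadFormOdd 2 F))
    rw [hi, h1] at h3
    rw [Cfsg.Agent.Lib.SympOrder.card_Sp]
    have h5 : Nat.gcd 2 (Fintype.card F - 1) = 2 := by
      apply Nat.gcd_eq_left
      obtain ⟨k, hk⟩ := hodd
      rw [hk]
      simp
    rw [h5]
    simp only [Finset.prod_range_succ, Finset.prod_range_zero, one_mul, Nat.zero_add, pow_one, mul_zero, add_zero] at h3 ⊢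
    obtain ⟨k, hk⟩ : ∃ k, Fintype.card F = k + 1 := ⟨Fintype.card F - 1, by omega⟩
    rw [hk] at h3 ⊢
    simp only [Nat.add_sub_cancel] at h3
    have e2 : (k + 1) ^ (1 + 1) - 1 = k * (k + 2) := by
      apply Nat.sub_eq_of_eq_add
      ring
    have e2' : (k + 1) ^ (2 * (1 + 1)) - 1 = k * (k + 2) * (k ^ 2 + 2 * k + 2) := by
      apply Nat.sub_eq_of_eq_add
      ring
    have e1 : (k + 1) ^ (2 * 1) - 1 = k * (k + 2) := by
      apply Nat.sub_eq_of_eq_add
      ring
    rw [e2] at h3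
    rw [e1, e2']
    generalize Nat.card ↥(Omega F (quadFormOdd 2 F)) = w at h3 ⊢
    simp only [Nat.reduceAdd, Nat.reduceMul] at h3 ⊢
    rw [show (2 : ℕ) ^ 2 = 4 from rfl]
    nlinarith

end Cfsg.Agent.S0301
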