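import Cfsg.Statements.S0303
import Cfsg.Agent.Lib.OmegaSL2
import Cfsg.Agent.Lib.OrthOrder2
import Cfsg.Agent.Lib.OrthOrder3
import Cfsg.Agent.Lib.OrthSpin3
import Cfsg.Agent.Lib.OrthStd2
import Cfsg.Agent.Lib.FieldEmbed2
import Cfsg.Agent.Lib.Alt4
import Cfsg.Agent.Lib.UnitSimple
import Cfsg.Agent.Lib.SUBasic

set_option autoImplicit false
open Cfsg

namespace Cfsg.Agent.S0303


open Matrix Cfsg
open scoped commutatorElement
open Cfsg.Agent.Lib.OmegaIso Cfsg.Agent.Lib.OmegaSL2 Cfsg.Agent.Lib.HermStd Cfsg.Agent.Lib.FieldEmbed Cfsg.Agent.Lib.Alt4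

section

variable {F K : Type*} [Field F] [Fintype F] [Field K] [Fintype K] [Algebra F K] {q : ℕ}

local notation "M" => Matrix (Fin 4) (Fin 4) K

/-- Frobenius on matrices. -/
noncomputable def cj (hK : Fintype.card K = q ^ 2) : Matrix (Fin 4) (Fin 4) K →+* Matrix (Fin 4) (Fin 4) K := (sig hK).mapMatrix

theorem cj_apply (hK : Fintype.card K = q ^ 2) (A : M) (i j : Fin 4) : cj hK A i j = sig hK (A i j) := rfl

theorem sta_add (A B : M) : sta (A + B) = sta A + sta B := by
  ext s t
  fin_cases s <;> fin_cases t <;> simp [sta, altOf] <;> ring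

theorem sta_smul (c : F) (A : M) : sta (c • A) = c • sta A := by
  ext s t
  fin_cases s <;> fin_cases t <;> simp [sta, altOf]

theorem sig_alg (hF : Fintype.card F = q) (hK : Fintype.card K = q ^ 2) (c : F) : sig hK (algebraMap F K c) = algebraMap F K c := by
  rw [sig_apply]
  exact pow_q_alg hF c

theorem cj_smul (hF : Fintype.card F = q) (hK : Fintype.card K = q ^ 2) (c : F) (A : M) : cj hK (c • A) = c • cj hK A := by
  ext s t
  rw [cj_apply, Matrix.smul_apply, Matrix.smul_apply, Algebra.smul_def, Algebra.smul_def, map_mul, sig_alg hF, cj_apply]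

/-- The six-dimensional space. -/
noncomputable def UU (hF : Fintype.card F = q) (hK : Fintype.card K = q ^ 2) : Submodule F (Matrix (Fin 4) (Fin 4) K) where
  carrier := {A | IsAlt A ∧ cj hK (sta A) = A}
  add_mem' := by
    rintro A B ⟨hA, hA'⟩ ⟨hB, hB'⟩
    refine ⟨?_, ?_⟩
    · apply isAlt_of
      · intro s t
        rw [Matrix.add_apply, Matrix.add_apply, isAlt_symm hA s t, isAlt_symm hB s t]
        ring
      · intro s
        rw [Matrix.add_apply, isAlt_diag hA s, isAlt_diag hB s, add_zero]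
    · rw [sta_add, map_add, hA', hB']
  zero_mem' := by
    refine ⟨?_, ?_⟩
    · apply isAlt_of <;> simp
    · ext s t
      fin_cases s <;> fin_cases t <;> simp [sta, altOf, cj_apply]
  smul_mem' := by
    rintro c A ⟨hA, hA'⟩
    refine ⟨?_, ?_⟩
    · apply isAlt_of
      · intro s t
        rw [Matrix.smul_apply, Matrix.smul_apply, isAlt_symm hA s t]
        simp
      · intro s
        rw [Matrix.smul_apply, isAlt_diag hA s]
        simp
    · rw [sta_smul, cj_smul hF, hA']

/-- The parametrised elements. -/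
noncomputable def PP (hK : Fintype.card K = q ^ 2) (a b c : K) : M := altOf a b c (sig hK c) (- sig hK b) (sig hK a)

theorem PP_mem (hF : Fintype.card F = q) (hK : Fintype.card K = q ^ 2) (a b c : K) : PP hK a b c ∈ UU hF hK := by
  refine ⟨isAlt_altOf _ _ _ _ _ _, ?_⟩
  unfold PP
  ext s t
  fin_cases s <;> fin_cases t <;> simp [sta, altOf, cj_apply, sig_sig]

theorem eq_PP (hF : Fintype.card F = q) (hK : Fintype.card K = q ^ 2) {A : M} (hA : A ∈ UU hF hK) : A = PP hK (A 0 1) (A 0 2) (A 0 3) := by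
  have h1 := hA.2
  have h12 := congrFun (congrFun h1 1) 2
  have h13 := congrFun (congrFun h1 1) 3
  have h23 := congrFun (congrFun h1 2) 3
  rw [cj_apply] at h12 h13 h23
  simp [sta, altOf] at h12 h13 h23
  unfold PP
  rw [h12, h13, h23]
  exact hA.1

theorem Pf_PP (hK : Fintype.card K = q ^ 2) (a b c : K) : Pf (PP hK a b c) = a * a ^ q + b * b ^ q + c * c ^ q := by
  unfold PP
  rw [Pf_altOf, sig_apply, sig_apply, sig_apply]
  ring

/-- The linear coordinates. -/
noncomputable def LL (hF : Fintype.card F = q) (hK : Fintype.card K = q ^ 2) (T : (Fin 2 ⊕ Fin 2 → F) →ₗ[F] (Fin 2 → K)) (S₀ : (Fin 2 → F) →ₗ[F] K) :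
    ((Fin 2 ⊕ Fin 2) ⊕ Fin 2 → F) →ₗ[F] UU hF hK where
  toFun v := ⟨PP hK (T (fun i => v (Sum.inl i)) 0) (T (fun i => v (Sum.inl i)) 1) (S₀ (fun i => v (Sum.inr i))), PP_mem hF hK _ _ _⟩
  map_add' v w := by
    apply Subtype.ext
    have h1 : (fun i => (v + w) (Sum.inr i)) = (fun i => v (Sum.inr i)) + (fun i => w (Sum.inr i)) := rfl
    have h2 : (fun i => (v + w) (Sum.inl i)) = (fun i => v (Sum.inl i)) + (fun i => w (Sum.inl i)) := rfl
    rw [Submodule.coe_add]
    show PP hK _ _ _ = PP hK _ _ _ + PP hK _ _ _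
    rw [h1, h2, map_add, map_add]
    unfold PP
    ext s t
    fin_cases s <;> fin_cases t <;> simp [altOf] <;> ring
  map_smul' c v := by
    apply Subtype.ext
    have h1 : (fun i => (c • v) (Sum.inr i)) = c • (fun i => v (Sum.inr i)) := rfl
    have h2 : (fun i => (c • v) (Sum.inl i)) = c • (fun i => v (Sum.inl i)) := rfl
    rw [RingHom.id_apply, Submodule.coe_smul]
    show PP hK _ _ _ = c • PP hK _ _ _
    rw [h1, h2, map_smul, map_smul]
    unfold PP
    ext s t
    fin_cases s <;> fin_cases t <;> simp [altOf, Algebra.smul_def, sig_alg hF]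

theorem LL_coe (hF : Fintype.card F = q) (hK : Fintype.card K = q ^ 2) (T : (Fin 2 ⊕ Fin 2 → F) →ₗ[F] (Fin 2 → K)) (S₀ : (Fin 2 → F) →ₗ[F] K)
    (v : (Fin 2 ⊕ Fin 2) ⊕ Fin 2 → F) :
    ((LL hF hK T S₀ v : UU hF hK) : M) = PP hK (T (fun i => v (Sum.inl i)) 0) (T (fun i => v (Sum.inl i)) 1) (S₀ (fun i => v (Sum.inr i))) := rfl

theorem LL_Pf (hF : Fintype.card F = q) (hK : Fintype.card K = q ^ 2) (a b : F) (T : (Fin 2 ⊕ Fin 2 → F) →ₗ[F] (Fin 2 → K)) (S₀ : (Fin 2 → F) →ₗ[F] K)
    (hT : ∀ u, T u 0 * (T u 0) ^ q + T u 1 * (T u 1) ^ q = algebraMap F K (u (Sum.inl 0) * u (Sum.inr 0) + u (Sum.inl 1) * u (Sum.inr 1)))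
    (hS : ∀ z, S₀ z * (S₀ z) ^ q = algebraMap F K (z 0 ^ 2 + a * z 0 * z 1 + b * z 1 ^ 2)) (v : (Fin 2 ⊕ Fin 2) ⊕ Fin 2 → F) :
    Pf ((LL hF hK T S₀ v : UU hF hK) : M) = algebraMap F K (Cfsg.quadFormMinus 2 F a b v) := by
  rw [LL_coe, Pf_PP, hT, hS]
  show _ = algebraMap F K ((∑ i : Fin 2, v (Sum.inl (Sum.inl i)) * v (Sum.inl (Sum.inr i))) + (v (Sum.inr 0) ^ 2 + a * v (Sum.inr 0) * v (Sum.inr 1) + b * v (Sum.inr 1) ^ 2))
  simp only [Fin.sum_univ_two, map_add]

theorem LL_bij (hF : Fintype.card F = q) (hK : Fintype.card K = q ^ 2) (T : (Fin 2 ⊕ Fin 2 → F) →ₗ[F] (Fin 2 → K)) (S₀ : (Fin 2 → F) →ₗ[F] K)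
    (hTi : Function.Injective T) (hS : Function.Injective S₀) :
    Function.Bijective (LL hF hK T S₀) := by
  have hcard : Fintype.card (Fin 2 → F) = Fintype.card K := by
    rw [hK, ← hF]
    simp
  have hcard' : Fintype.card (Fin 2 ⊕ Fin 2 → F) = Fintype.card (Fin 2 → K) := by
    rw [Fintype.card_fun, Fintype.card_fun, hK, hF]
    simp
    ring
  have hsurj : Function.Surjective S₀ := ((Fintype.bijective_iff_injective_and_card S₀).2 ⟨hS, hcard⟩).2
  have hsurj' : Function.Surjective T := ((Fintype.bijective_iff_injective_and_card T).2 ⟨hTi, hcard'⟩).2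
  constructor
  · intro v w h
    have h' := congrArg (fun A : UU hF hK => (A : M)) h
    simp only [LL_coe] at h'
    have h00 := congrFun (congrFun h' 0) 1
    have h01 := congrFun (congrFun h' 0) 2
    have h11 := congrFun (congrFun h' 0) 3
    simp only [PP, altOf, Matrix.of_apply, Matrix.cons_val', Matrix.cons_val_zero, Matrix.cons_val_one, Matrix.cons_val_fin_one, Matrix.cons_val] at h00 h01 h11
    have h3 : T (fun i => v (Sum.inl i)) = T (fun i => w (Sum.inl i)) := by
      funext i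
      fin_cases i
      · exact h00
      · exact h01
    have h4 := hTi h3
    have h5 := hS h11
    funext i
    rcases i with i | i
    · exact congrFun h4 i
    · exact congrFun h5 i
  · rintro ⟨A, hA⟩
    obtain ⟨u, hu⟩ := hsurj' ![A 0 1, A 0 2]
    obtain ⟨z, hz⟩ := hsurj (A 0 3)
    refine ⟨Sum.elim u z, ?_⟩
    apply Subtype.ext
    rw [LL_coe]
    show _ = A
    have h1 : (fun i => Sum.elim u z (Sum.inl i)) = u := rfl
    have h2 : (fun i => Sum.elim u z (Sum.inr i)) = z := rfl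
    rw [h1, h2, hu, hz]
    exact (eq_PP hF hK hA).symm


/-- the matrix of an element -/
def mat (g : ↥(SU 4 K q)) : M := ((g : Matrix.SpecialLinearGroup (Fin 4) K) : M)

theorem mat_one : mat (1 : ↥(SU 4 K q)) = 1 := rfl

theorem mat_mul (g h : ↥(SU 4 K q)) : mat (g * h) = mat g * mat h := rfl

theorem det_mat (g : ↥(SU 4 K q)) : (mat g).det = 1 := (g : Matrix.SpecialLinearGroup (Fin 4) K).det_coe

theorem unit_rel (hK : Fintype.card K = q ^ 2) (g : ↥(SU 4 K q)) : (mat g).transpose * cj hK (mat g) = 1 := by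
  have h1 : Matrix.SpecialLinearGroup.toGL (g : Matrix.SpecialLinearGroup (Fin 4) K) ∈ GU 4 K q := (Cfsg.Agent.Lib.UnitBasic.mem_GU_iff _).2 g.2
  exact Cfsg.Agent.Lib.SUBasic.transpose_mul_conj hK h1

theorem UU_stable (hF : Fintype.card F = q) (hK : Fintype.card K = q ^ 2) (g : ↥(SU 4 K q)) {A : M} (hA : A ∈ UU hF hK) :
    mat g * A * (mat g).transpose ∈ UU hF hK := by
  refine ⟨isAlt_sandwich _ hA.1, ?_⟩
  have h1 := sta_sandwich (mat g) hA.1
  rw [det_mat, one_smul] at h1
  have h2 := congrArg (cj hK) h1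
  rw [map_mul, map_mul, hA.2] at h2
  have hct : ∀ B : M, cj hK B.transpose = (cj hK B).transpose := fun B => rfl
  rw [hct] at h2
  set B := sta (mat g * A * (mat g).transpose) with hB
  have h3 := unit_rel hK g
  have h4 : cj hK (mat g) * (mat g).transpose = 1 := mul_eq_one_comm.1 h3
  have h5 : (cj hK (mat g)).transpose * mat g = 1 := by
    have := congrArg Matrix.transpose h3
    rwa [Matrix.transpose_mul, Matrix.transpose_transpose, Matrix.transpose_one] at this
  have h6 : mat g * (cj hK (mat g)).transpose = 1 := mul_eq_one_comm.1 h5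
  rw [← h2]
  calc cj hK B = (mat g * (cj hK (mat g)).transpose) * cj hK B * (cj hK (mat g) * (mat g).transpose) := by
        rw [h4, h6, Matrix.one_mul, Matrix.mul_one]
    _ = mat g * ((cj hK (mat g)).transpose * cj hK B * cj hK (mat g)) * (mat g).transpose := by
        simp only [Matrix.mul_assoc]

theorem exists_rep_U (hF : Fintype.card F = q) (hK : Fintype.card K = q ^ 2) : ∃ ρ : ↥(SU 4 K q) →* (UU hF hK →ₗ[F] UU hF hK),
    ∀ g A, ((ρ g A : UU hF hK) : M) = mat g * A * (mat g).transpose := by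
  refine exists_rep (UU hF hK) (fun g : ↥(SU 4 K q) => mat g) (fun g : ↥(SU 4 K q) => (mat g).transpose) rfl (fun _ _ => rfl) ?_ ?_ ?_
  · simp [mat_one]
  · intro g h
    simp only [mat_mul, Matrix.transpose_mul]
  · intro g A hA
    exact UU_stable hF hK g hA

theorem sep_zero {D E : M} {r s : K} (h1 : D + E = 0) (h2 : r • D + s • E = 0) (hrs : r ≠ s) : D = 0 ∧ E = 0 := by
  have hE : E = -D := eq_neg_of_add_eq_zero_right h1
  subst hE
  have h3 : (r - s) • D = 0 := by
    rw [sub_smul]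
    simpa [sub_eq_add_neg] using h2
  have h4 : D = 0 := (smul_eq_zero.1 h3).resolve_left (sub_ne_zero.2 hrs)
  exact ⟨h4, by rw [h4, neg_zero]⟩

/-- fixing the real form means fixing everything. -/
theorem fix_all (hF : Fintype.card F = q) (hK : Fintype.card K = q ^ 2) (g : M) (h : ∀ A ∈ UU hF hK, g * A * g.transpose = A)
    (A : M) (hA : IsAlt A) : g * A * g.transpose = A := by
  obtain ⟨r, hr⟩ : ∃ r : K, r ≠ sig hK r := by
    by_contra hcon
    push Not at hcon
    apply sig_ne hK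
    ext x
    exact (hcon x).symm
  have key : ∀ X Y : M, (∀ c : K, c • X + sig hK c • Y ∈ UU hF hK) → g * X * g.transpose = X ∧ g * Y * g.transpose = Y := by
    intro X Y hXY
    have h1 := h _ (hXY 1)
    have h2 := h _ (hXY r)
    simp only [map_one, one_smul] at h1
    rw [Matrix.mul_add, Matrix.add_mul] at h1 h2
    rw [Matrix.mul_smul, Matrix.smul_mul, Matrix.mul_smul, Matrix.smul_mul] at h2
    have := sep_zero (D := g * X * g.transpose - X) (E := g * Y * g.transpose - Y) (r := r) (s := sig hK r)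
      (by rw [sub_add_sub_comm, h1, sub_self]) (by rw [smul_sub, smul_sub, sub_add_sub_comm, h2, sub_self]) hr
    exact ⟨sub_eq_zero.1 this.1, sub_eq_zero.1 this.2⟩
  have k1 := key (altOf 1 0 0 0 0 0) (altOf 0 0 0 0 0 1) (fun c => by
    have := PP_mem hF hK c 0 0
    convert this using 1
    ext s t
    fin_cases s <;> fin_cases t <;> simp [PP, altOf])
  have k2 := key (altOf 0 1 0 0 0 0) (altOf 0 0 0 0 (-1) 0) (fun c => by
    have := PP_mem hF hK 0 c 0
    convert this using 1
    ext s t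
    fin_cases s <;> fin_cases t <;> simp [PP, altOf])
  have k3 := key (altOf 0 0 1 0 0 0) (altOf 0 0 0 1 0 0) (fun c => by
    have := PP_mem hF hK 0 0 c
    convert this using 1
    ext s t
    fin_cases s <;> fin_cases t <;> simp [PP, altOf])
  have hdec : A = A 0 1 • altOf 1 0 0 0 0 0 + A 0 2 • altOf 0 1 0 0 0 0 + A 0 3 • altOf 0 0 1 0 0 0 + A 1 2 • altOf 0 0 0 1 0 0 + (- A 1 3) • altOf 0 0 0 0 (-1) 0 + A 2 3 • altOf 0 0 0 0 0 1 := by
    conv_lhs => rw [hA]
    ext s t
    fin_cases s <;> fin_cases t <;> simp [altOf]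
  rw [hdec]
  simp only [Matrix.mul_add, Matrix.add_mul, Matrix.mul_smul, Matrix.smul_mul]
  rw [k1.1, k1.2, k2.1, k2.2, k3.1, k3.2]

/-- the central element -/
noncomputable def negS (hK : Fintype.card K = q ^ 2) : ↥(SU 4 K q) :=
  ⟨⟨-1, by rw [Matrix.det_neg]; simp; norm_num⟩, fun u v => by
    show Cfsg.hermForm 4 K q ((-1 : M) *ᵥ u) ((-1 : M) *ᵥ v) = _
    simp only [Matrix.neg_mulVec, Matrix.one_mulVec]
    simp only [Cfsg.hermForm, Pi.neg_apply]
    apply Finset.sum_congr rfl
    intro i _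
    have : (-v i) ^ q = - (v i) ^ q := by
      rw [← sig_apply hK, map_neg, sig_apply]
    rw [this]
    ring⟩

theorem mat_negS (hK : Fintype.card K = q ^ 2) : mat (negS hK) = -1 := rfl

theorem SU_perfect (hK : Fintype.card K = q ^ 2) : commutator ↥(SU 4 K q) = ⊤ := by
  rw [eq_top_iff, ← Cfsg.Agent.Lib.UnitGen2.T1_eq_top hK 4 (by norm_num) (by norm_num), Cfsg.Agent.Lib.UnitE.T1, Subgroup.closure_le]
  rintro A ⟨v, c, hv, hA⟩
  obtain ⟨B, C, e⟩ := Cfsg.Agent.Lib.UnitGen2.tv_commutator hK (Cfsg.Agent.Lib.UnitGen.hasTriple hK 1) A hv hA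
  have : A = ⁅B, C⁆ := by
    rw [← e, commutatorElement_def]
  rw [this]
  exact Subgroup.commutator_mem_commutator (Subgroup.mem_top _) (Subgroup.mem_top _)

theorem center_PSU (hK : Fintype.card K = q ^ 2) : Subgroup.center (Cfsg.PSU 4 K q) = ⊥ := by
  haveI := Cfsg.Agent.Lib.UnitSimple.PSU_isSimple (n := 4) hK (by norm_num) (by norm_num)
  apply center_of_simple
  have : Group.IsPerfect ↥(SU 4 K q) := ⟨SU_perfect hK⟩
  have : Group.IsPerfect (Cfsg.PSU 4 K q) := inferInstance
  exact this.commutator_eq_top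

/-- The main statement with a given algebra structure. -/
theorem main_alg (hF : Fintype.card F = q) (hK : Fintype.card K = q ^ 2) (a b : F)
    (hab : ∀ z₁ z₂ : F, z₁ ^ 2 + a * z₁ * z₂ + b * z₂ ^ 2 = 0 → z₁ = 0 ∧ z₂ = 0) :
    Nonempty (Cfsg.POmega F (Cfsg.quadFormMinus 2 F a b) ≃* Cfsg.PSU 4 K q) := by
  classical
  have hq : 2 ≤ q := by
    rw [← hF]
    exact Fintype.one_lt_card
  obtain ⟨S₀, hS₀, hS⟩ := Cfsg.Agent.Lib.FieldEmbed2.exists_norm_block hF hK a b hab
  obtain ⟨T, hTi, hT⟩ := Cfsg.Agent.Lib.FieldEmbed2.exists_block hF hK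
  obtain ⟨ρ, hρ⟩ := exists_rep_U (F := F) (K := K) hF hK
  have hQ := Cfsg.Agent.Lib.OrthStd2.quadFormMinus_nondeg (m := 2) hab
  let e : UU hF hK ≃ₗ[F] ((Fin 2 ⊕ Fin 2) ⊕ Fin 2 → F) := (LinearEquiv.ofBijective (LL hF hK T S₀) (LL_bij hF hK T S₀ hTi hS₀)).symm
  have he : ∀ A : UU hF hK, Pf (A : M) = algebraMap F K (Cfsg.quadFormMinus 2 F a b (e A)) := by
    intro A
    have : LL hF hK T S₀ (e A) = A := (LinearEquiv.ofBijective (LL hF hK T S₀) (LL_bij hF hK T S₀ hTi hS₀)).apply_symm_apply A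
    conv_lhs => rw [← this]
    rw [LL_Pf hF hK a b T S₀ hT hS]
  have hkey : ∀ g : ↥(SU 4 K q), g ∈ ρ.ker ↔ (mat g = 1 ∨ mat g = -1) := by
    intro g
    rw [MonoidHom.mem_ker]
    constructor
    · intro hg
      apply eq_one_or_neg_of_fix
      apply fix_all hF hK
      intro A hA
      have h1 : ((ρ g ⟨A, hA⟩ : UU hF hK) : M) = A := by
        rw [hg]
        rfl
      rwa [hρ] at h1
    · intro hg
      ext A : 1
      apply Subtype.ext
      rw [hρ]
      rcases hg with hg | hg <;> simp [hg]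
  have hmat : ∀ x y : ↥(SU 4 K q), mat x = mat y → x = y := fun x y h => Subtype.ext (Subtype.ext h)
  have hcen : ∀ g : ↥(SU 4 K q), g ∈ ρ.ker → g ∈ Subgroup.center ↥(SU 4 K q) := by
    intro g hg
    rw [Subgroup.mem_center_iff]
    intro y
    apply hmat
    rw [mat_mul, mat_mul]
    rcases (hkey g).1 hg with h | h <;> rw [h] <;> simp
  obtain ⟨k, rfl⟩ : ∃ k, q = k + 1 := ⟨q - 1, by omega⟩
  have hk1 : 1 ≤ k := by omega
  have hO := Cfsg.Agent.Lib.OrthOrder3.card_minus (k := 2) hab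
  rw [hF] at hO
  have h5 := Subgroup.index_mul_card (Omega F (Cfsg.quadFormMinus 2 F a b))
  rw [hO] at h5
  have hSU : Nat.card ↥(SU 4 K (k + 1)) = (k + 1) ^ 6 * (k * (k + 2)) * ((k + 1) ^ 3 + 1) * (k * (k + 2) * (k ^ 2 + 2 * k + 2)) := by
    have h1 := Cfsg.Agent.Lib.SUBasic.card_GU_eq hK 4 (by norm_num)
    rw [Cfsg.Agent.Lib.UnitBasic.card_GU hK] at h1
    simp only [Finset.prod_range_succ, Finset.prod_range_zero, one_mul] at h1
    norm_num [Nat.even_iff] at h1
    have e2 : (k + 1) ^ 2 - 1 = k * (k + 2) := by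
      apply Nat.sub_eq_of_eq_add
      ring
    have e4 : (k + 1) ^ 4 - 1 = k * (k + 2) * (k ^ 2 + 2 * k + 2) := by
      apply Nat.sub_eq_of_eq_add
      ring
    rw [e2, e4] at h1
    apply Nat.eq_of_mul_eq_mul_left (by omega : 0 < k + 1 + 1)
    rw [Nat.card_eq_fintype_card, ← h1]
    ring
  have hOX : 2 * (k + 1 + 1) * ∏ r ∈ Finset.range 2, (((k + 1) ^ (r + 1) - 1) * ((k + 1) ^ (r + 2) + 1) * (k + 1) ^ (2 * r + 2)) =
      2 * ((k + 1) ^ 6 * (k * (k + 2)) * ((k + 1) ^ 3 + 1) * (k * (k + 2) * (k ^ 2 + 2 * k + 2))) := by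
    simp only [Finset.prod_range_succ, Finset.prod_range_zero, one_mul]
    have e1 : (k + 1) ^ (0 + 1) - 1 = k := by simp
    have e2 : (k + 1) ^ (1 + 1) - 1 = k * (k + 2) := by
      apply Nat.sub_eq_of_eq_add
      ring
    rw [e1, e2]
    ring
  rw [hOX] at h5
  refine main (fun A : UU hF hK => Cfsg.quadFormMinus 2 F a b (e A)) (Cfsg.quadFormMinus 2 F a b) e (fun _ => rfl) ρ ?_ (QuotientGroup.mk' _) (QuotientGroup.mk'_surjective _) (by rw [QuotientGroup.ker_mk']) ?_ (center_PSU hK) ?_ ?_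
  · intro g A
    apply (algebraMap F K).injective
    rw [← he, ← he, hρ, Pf_sandwich _ A.2.1, det_mat, one_mul]
  · rw [QuotientGroup.ker_mk']
    exact hcen
  · intro φ g
    exact mem_omega_of_perfect (SU_perfect hK) φ g
  · rcases Nat.even_or_odd (Fintype.card F) with he' | ho
    · have h2 : (2 : F) = 0 := by
        have hchar : ringChar F = 2 := FiniteField.even_card_iff_char_two.mpr (Nat.even_iff.mp he')
        exact_mod_cast (ringChar.spec F 2).mpr (by rw [hchar])
      haveI : CharP F 2 := CharTwo.of_one_ne_zero_of_two_eq_zero one_ne_zero h2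
      have h6 : (Omega F (Cfsg.quadFormMinus 2 F a b)).index = 2 :=
        (Cfsg.Agent.Lib.OrthSpin3.even_main hQ (by simp) (Or.inr (by simp))).1
      have hn1 : (-1 : M) = 1 := by
        have h2' : (2 : K) = 0 := by
          rw [← map_ofNat (algebraMap F K) 2, h2, map_zero]
        have : (-1 : K) = 1 := by linear_combination -h2'
        ext i j
        rw [Matrix.neg_apply, Matrix.one_apply]
        split_ifs <;> simp [this]
      have h7 : Nat.card ρ.ker = 1 := by
        apply card_one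
        intro g
        rw [hkey, hn1, or_self]
        constructor
        · intro h
          exact hmat _ _ (by rw [h, mat_one])
        · intro h
          rw [h]
          rfl
      rw [h7, hSU, one_mul]
      rw [h6] at h5
      omega
    · have h2 := Cfsg.Agent.Lib.OrthStd.two_ne_zero_of_odd ho
      have h6 : (Omega F (Cfsg.quadFormMinus 2 F a b)).index = 4 :=
        Cfsg.Agent.Lib.OrthSpin3.omega_index hQ (by simp) h2
      have h7 : Nat.card ρ.ker = 2 := by
        apply card_two _ (negS hK)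
        · intro g
          rw [hkey]
          constructor
          · rintro (h | h)
            · exact Or.inl (hmat _ _ (by rw [h, mat_one]))
            · exact Or.inr (hmat _ _ (by rw [h, mat_negS]))
          · rintro (h | h)
            · rw [h]
              exact Or.inl rfl
            · rw [h]
              exact Or.inr rfl
        · intro hs
          have h8 := congrFun (congrFun (congrArg mat hs) 0) 0
          rw [mat_negS, mat_one] at h8
          have h9 : (-1 : K) = 1 := by simpa using h8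
          apply h2
          apply (algebraMap F K).injective
          simp only [map_ofNat, map_zero]
          linear_combination -h9
      rw [h7, hSU]
      rw [h6] at h5
      omega

end


/-- PΩ^-_6(q) is isomorphic to PSU_4(q). -/
theorem result {F K : Type*} [Field F] [Fintype F] [Field K] [Fintype K] {q : ℕ} (hF : Fintype.card F = q) (hK : Fintype.card K = q ^ 2) (a b : F) (hab : ∀ z₁ z₂ : F, z₁ ^ 2 + a * z₁ * z₂ + b * z₂ ^ 2 = 0 → z₁ = 0 ∧ z₂ = 0) : Nonempty (Cfsg.POmega F (Cfsg.quadFormMinus 2 F a b) ≃* Cfsg.PSU 4 K q) := by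
  obtain ⟨ι, -, -⟩ := Cfsg.Agent.Lib.SubfieldQ.exists_iota hK hF
  letI : Algebra F K := ι.toAlgebra
  exact main_alg hF hK a b hab

end Cfsg.Agent.S0303
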