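import Cfsg.Statements.S0304
import Cfsg.Agent.Lib.SpGL

set_option autoImplicit false
open Cfsg

namespace Cfsg.Agent.S0304


open Matrix Cfsg.Agent.Lib.SympBasic Cfsg.Agent.Lib.SpGL Sum

section

variable {F : Type*} [Field F] {m : ℕ}

theorem qp_add [CharP F 2] (u w : Fin m ⊕ Fin m → F) :
    quadFormPlus m F (u + w) = quadFormPlus m F u + quadFormPlus m F w + sympForm m F u w := by
  rw [sympForm_apply]
  unfold quadFormPlus
  rw [← Finset.sum_add_distrib, ← Finset.sum_add_distrib]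
  refine Finset.sum_congr rfl fun i _ => ?_
  simp only [Pi.add_apply]
  linear_combination (u (inl i) * w (inr i)) * (CharTwo.two_eq_zero : (2 : F) = 0)

theorem qp_smul (c : F) (w : Fin m ⊕ Fin m → F) : quadFormPlus m F (c • w) = c ^ 2 * quadFormPlus m F w := by
  unfold quadFormPlus
  rw [Finset.mul_sum]
  refine Finset.sum_congr rfl fun i _ => ?_
  simp only [Pi.smul_apply, smul_eq_mul]
  ring

theorem qf_elim (t : Unit → F) (w : Fin m ⊕ Fin m → F) :
    quadFormOdd m F (Sum.elim t w) = t () ^ 2 + quadFormPlus m F w := rfl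

theorem sq_add [CharP F 2] (a b : F) : (a + b) ^ 2 = a ^ 2 + b ^ 2 := by
  linear_combination (a * b) * (CharTwo.two_eq_zero : (2 : F) = 0)

theorem sq_inj [CharP F 2] {a b : F} (h : a ^ 2 = b ^ 2) : a = b := by
  have h1 : (a + b) ^ 2 = 0 := by
    rw [sq_add, h]
    linear_combination (b ^ 2) * (CharTwo.two_eq_zero : (2 : F) = 0)
  have h2 : a + b = 0 := by simpa using h1
  exact CharTwo.add_eq_zero.1 h2

local notation "Mx" => Matrix (Unit ⊕ (Fin m ⊕ Fin m)) (Unit ⊕ (Fin m ⊕ Fin m)) F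

theorem mul_elim (M : Mx) (t : Unit → F) (w : Fin m ⊕ Fin m → F) :
    M *ᵥ (Sum.elim t w) = Sum.elim (M.toBlocks₁₁ *ᵥ t + M.toBlocks₁₂ *ᵥ w) (M.toBlocks₂₁ *ᵥ t + M.toBlocks₂₂ *ᵥ w) := by
  conv_lhs => rw [← Matrix.fromBlocks_toBlocks M, Matrix.fromBlocks_mulVec]
  rfl

/-- The first column of an isometry. -/
theorem first_col [CharP F 2] {g : Matrix.GeneralLinearGroup (Unit ⊕ (Fin m ⊕ Fin m)) F} (hg : g ∈ isometryGroup F (quadFormOdd m F)) :
    (g : Mx).toBlocks₂₁ = 0 ∧ (g : Mx).toBlocks₁₁ = 1 := by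
  have hQ : ∀ v, quadFormOdd m F ((g : Mx) *ᵥ v) = quadFormOdd m F v := fun v => hg v v
  obtain ⟨M, hM⟩ : ∃ M : Mx, M = g := ⟨_, rfl⟩
  rw [← hM] at hQ ⊢
  let e₀ : Unit ⊕ (Fin m ⊕ Fin m) → F := Sum.elim (fun _ => 1) 0
  obtain ⟨d₀, hd₀⟩ : ∃ d₀ : F, d₀ = (M *ᵥ e₀) (inl ()) := ⟨_, rfl⟩
  obtain ⟨wd, hwd⟩ : ∃ wd : Fin m ⊕ Fin m → F, wd = fun x => (M *ᵥ e₀) (inr x) := ⟨_, rfl⟩
  have hd : M *ᵥ e₀ = Sum.elim (fun _ => d₀) wd := by
    ext i
    rcases i with i | i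
    · cases i
      simp [hd₀]
    · simp [hwd]
  have hQd : d₀ ^ 2 + quadFormPlus m F wd = 1 := by
    have := hQ e₀
    rw [hd, qf_elim, qf_elim] at this
    rw [this]
    simp [quadFormPlus]
  have hsymp : ∀ y : Fin m ⊕ Fin m → F, sympForm m F y wd = 0 := by
    intro y
    -- choose a preimage
    obtain ⟨v, hv⟩ : ∃ v, M *ᵥ v = Sum.elim (fun _ => 0) y := by
      refine ⟨(g⁻¹ : Matrix.GeneralLinearGroup (Unit ⊕ (Fin m ⊕ Fin m)) F).1 *ᵥ (Sum.elim (fun _ => 0) y), ?_⟩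
      rw [hM, Matrix.mulVec_mulVec]
      have : (g : Mx) * ((g⁻¹ : Matrix.GeneralLinearGroup (Unit ⊕ (Fin m ⊕ Fin m)) F) : Mx) = 1 := by
        rw [← Units.val_mul, mul_inv_cancel, Units.val_one]
      rw [this, Matrix.one_mulVec]
    have h1 := hQ (v + e₀)
    rw [Matrix.mulVec_add, hv, hd] at h1
    have h2 := hQ v
    rw [hv] at h2
    have e1 : (Sum.elim (fun _ => (0 : F)) y + Sum.elim (fun _ => d₀) wd : Unit ⊕ (Fin m ⊕ Fin m) → F) = Sum.elim (fun _ => d₀) (y + wd) := by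
      ext i
      rcases i with i | i
      · simp
      · simp
    rw [e1, qf_elim, qp_add] at h1
    rw [qf_elim] at h2
    have e2 : quadFormOdd m F (v + e₀) = quadFormOdd m F v + 1 := by
      have hv2 : v = Sum.elim (fun x => v (inl x)) (fun x => v (inr x)) := by
        ext i
        rcases i with i | i
        · rfl
        · rfl
      rw [hv2]
      have e3 : (Sum.elim (fun x => v (inl x)) (fun x => v (inr x)) + e₀) = Sum.elim (fun x => v (inl x) + 1) (fun x => v (inr x)) := by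
        ext i
        rcases i with i | i
        · simp [e₀]
        · simp [e₀]
      rw [e3, qf_elim, qf_elim, sq_add]
      ring
    rw [e2, ← h2] at h1
    have e4 : (0 : F) ^ 2 = 0 := by simp
    rw [e4] at h1
    linear_combination h1 - hQd
  have hwd0 : wd = 0 := by
    by_contra h0
    obtain ⟨y, hy⟩ := (symp_nondeg wd h0).1
    exact hy (hsymp y)
  have hd1 : d₀ = 1 := by
    rw [hwd0] at hQd
    have : quadFormPlus m F (0 : Fin m ⊕ Fin m → F) = 0 := by simp [quadFormPlus]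
    rw [this, add_zero] at hQd
    apply sq_inj
    rw [hQd]
    simp
  have hdM : M *ᵥ e₀ = e₀ := by
    rw [hd, hwd0, hd1]
  have hbl := mul_elim M (fun _ => 1) 0
  rw [show (Sum.elim (fun _ => 1) 0 : Unit ⊕ (Fin m ⊕ Fin m) → F) = e₀ from rfl, hdM] at hbl
  constructor
  · ext i j
    have h1 := congrFun hbl (inr i)
    simp only [Sum.elim_inr, Matrix.mulVec_zero, add_zero, e₀] at h1
    cases j
    simp only [Matrix.mulVec, dotProduct] at h1
    simpa using h1.symm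
  · ext i j
    have h1 := congrFun hbl (inl i)
    simp only [Sum.elim_inl, Matrix.mulVec_zero, add_zero, e₀] at h1
    cases j
    cases i
    simp only [Matrix.mulVec, dotProduct] at h1
    simpa using h1.symm

end


/-- In characteristic 2, O_{2m+1}(q) is isomorphic to Sp_{2m}(q). -/
theorem result {F : Type*} [Field F] [Fintype F] [CharP F 2] (m : ℕ) : Nonempty (Cfsg.isometryGroup F (Cfsg.quadFormOdd m F) ≃* Matrix.symplecticGroup (Fin m) F) := by
  classical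
  have hfc := fun (g : ↥(isometryGroup F (quadFormOdd m F))) => first_col g.2
  have hmem : ∀ g : ↥(isometryGroup F (quadFormOdd m F)), ((g.1 : Matrix.GeneralLinearGroup (Unit ⊕ (Fin m ⊕ Fin m)) F) : Matrix (Unit ⊕ (Fin m ⊕ Fin m)) (Unit ⊕ (Fin m ⊕ Fin m)) F).toBlocks₂₂ ∈ Matrix.symplecticGroup (Fin m) F := by
    intro g
    obtain ⟨M, hM⟩ : ∃ M : Matrix (Unit ⊕ (Fin m ⊕ Fin m)) (Unit ⊕ (Fin m ⊕ Fin m)) F, M = ((g.1 : Matrix.GeneralLinearGroup (Unit ⊕ (Fin m ⊕ Fin m)) F) : Matrix (Unit ⊕ (Fin m ⊕ Fin m)) (Unit ⊕ (Fin m ⊕ Fin m)) F) := ⟨_, rfl⟩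
    rw [← hM]
    have hC : M.toBlocks₂₁ = 0 := by rw [hM]; exact (hfc g).1
    have hQ : ∀ v, quadFormOdd m F (M *ᵥ v) = quadFormOdd m F v := fun v => by rw [hM]; exact g.2 v v
    have hq : ∀ w : Fin m ⊕ Fin m → F, (M.toBlocks₁₂ *ᵥ w) () ^ 2 + quadFormPlus m F (M.toBlocks₂₂ *ᵥ w) = quadFormPlus m F w := by
      intro w
      have h1 := hQ (Sum.elim 0 w)
      rw [mul_elim, hC, qf_elim, qf_elim] at h1
      simpa [Matrix.mulVec_zero] using h1
    apply (preserves_iff_mem _).1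
    intro u w
    have h1 := hq (u + w)
    have h2 := hq u
    have h3 := hq w
    rw [Matrix.mulVec_add, Matrix.mulVec_add, Pi.add_apply, sq_add, qp_add, qp_add] at h1
    linear_combination h1 - h2 - h3
  have hmul : ∀ a b : ↥(isometryGroup F (quadFormOdd m F)), ((a * b).1.1 : Matrix (Unit ⊕ (Fin m ⊕ Fin m)) (Unit ⊕ (Fin m ⊕ Fin m)) F).toBlocks₂₂ = (a.1.1 : Matrix (Unit ⊕ (Fin m ⊕ Fin m)) (Unit ⊕ (Fin m ⊕ Fin m)) F).toBlocks₂₂ * (b.1.1 : Matrix (Unit ⊕ (Fin m ⊕ Fin m)) (Unit ⊕ (Fin m ⊕ Fin m)) F).toBlocks₂₂ := by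
    intro a b
    have e1 : ((a * b).1.1) = a.1.1 * b.1.1 := rfl
    have e2 := Matrix.fromBlocks_toBlocks (a.1.1 : Matrix (Unit ⊕ (Fin m ⊕ Fin m)) (Unit ⊕ (Fin m ⊕ Fin m)) F)
    have e3 := Matrix.fromBlocks_toBlocks (b.1.1 : Matrix (Unit ⊕ (Fin m ⊕ Fin m)) (Unit ⊕ (Fin m ⊕ Fin m)) F)
    rw [e1, ← e2, ← e3, Matrix.fromBlocks_multiply, (hfc a).1]
    simp [Matrix.toBlocks_fromBlocks₂₂]
  let φ : ↥(isometryGroup F (quadFormOdd m F)) →* ↥(Matrix.symplecticGroup (Fin m) F) :=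
    { toFun := fun g => ⟨_, hmem g⟩
      map_one' := by
        apply Subtype.ext
        ext i j
        simp [Matrix.toBlocks₂₂, Matrix.one_apply]
      map_mul' := fun a b => by
        apply Subtype.ext
        exact hmul a b }
  have hφ : ∀ g, ((φ g : ↥(Matrix.symplecticGroup (Fin m) F)) : Matrix (Fin m ⊕ Fin m) (Fin m ⊕ Fin m) F) = (g.1.1 : Matrix (Unit ⊕ (Fin m ⊕ Fin m)) (Unit ⊕ (Fin m ⊕ Fin m)) F).toBlocks₂₂ := fun _ => rfl
  have hinj : Function.Injective φ := by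
    intro a b hab
    have hD : (a.1.1 : Matrix (Unit ⊕ (Fin m ⊕ Fin m)) (Unit ⊕ (Fin m ⊕ Fin m)) F).toBlocks₂₂ = (b.1.1 : Matrix (Unit ⊕ (Fin m ⊕ Fin m)) (Unit ⊕ (Fin m ⊕ Fin m)) F).toBlocks₂₂ := by
      rw [← hφ, ← hφ, hab]
    have hB : (a.1.1 : Matrix (Unit ⊕ (Fin m ⊕ Fin m)) (Unit ⊕ (Fin m ⊕ Fin m)) F).toBlocks₁₂ = (b.1.1 : Matrix (Unit ⊕ (Fin m ⊕ Fin m)) (Unit ⊕ (Fin m ⊕ Fin m)) F).toBlocks₁₂ := by
      have hq : ∀ (g : ↥(isometryGroup F (quadFormOdd m F))) (w : Fin m ⊕ Fin m → F), ((g.1.1 : Matrix (Unit ⊕ (Fin m ⊕ Fin m)) (Unit ⊕ (Fin m ⊕ Fin m)) F).toBlocks₁₂ *ᵥ w) () ^ 2 + quadFormPlus m F ((g.1.1 : Matrix (Unit ⊕ (Fin m ⊕ Fin m)) (Unit ⊕ (Fin m ⊕ Fin m)) F).toBlocks₂₂ *ᵥ w) = quadFormPlus m F w := by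
        intro g w
        have h1 := g.2 (Sum.elim 0 w) (Sum.elim 0 w)
        have h2 : quadFormOdd m F (((g.1 : Matrix.GeneralLinearGroup (Unit ⊕ (Fin m ⊕ Fin m)) F) : Matrix (Unit ⊕ (Fin m ⊕ Fin m)) (Unit ⊕ (Fin m ⊕ Fin m)) F) *ᵥ (Sum.elim 0 w)) = quadFormOdd m F (Sum.elim 0 w) := h1
        rw [mul_elim, (hfc g).1, qf_elim, qf_elim] at h2
        simpa [Matrix.mulVec_zero] using h2
      ext i j
      cases i
      have h1 := hq a (Pi.single j 1)
      have h2 := hq b (Pi.single j 1)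
      rw [hD] at h1
      have h3 : ((a.1.1 : Matrix (Unit ⊕ (Fin m ⊕ Fin m)) (Unit ⊕ (Fin m ⊕ Fin m)) F).toBlocks₁₂ *ᵥ (Pi.single j 1)) () ^ 2 = ((b.1.1 : Matrix (Unit ⊕ (Fin m ⊕ Fin m)) (Unit ⊕ (Fin m ⊕ Fin m)) F).toBlocks₁₂ *ᵥ (Pi.single j 1)) () ^ 2 := by
        linear_combination h1 - h2
      have h4 := sq_inj h3
      simpa [Matrix.mulVec_single_one] using h4
    apply Subtype.ext
    apply Units.ext
    rw [← Matrix.fromBlocks_toBlocks (a.1.1 : Matrix (Unit ⊕ (Fin m ⊕ Fin m)) (Unit ⊕ (Fin m ⊕ Fin m)) F), ← Matrix.fromBlocks_toBlocks (b.1.1 : Matrix (Unit ⊕ (Fin m ⊕ Fin m)) (Unit ⊕ (Fin m ⊕ Fin m)) F), hD, hB, (hfc a).1, (hfc a).2, (hfc b).1, (hfc b).2]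
  have hsurj : Function.Surjective φ := by
    rintro ⟨h, hh⟩
    have hpres := (preserves_iff_mem _).2 hh
    have hroot : ∀ x : F, ∃ y : F, y ^ 2 = x := by
      intro x
      obtain ⟨y, hy⟩ : IsSquare x := FiniteField.isSquare_of_char_two (CharP.ringChar_of_prime_eq_zero Nat.prime_two (by exact_mod_cast (CharTwo.two_eq_zero : (2 : F) = 0))) x
      exact ⟨y, by rw [hy]; ring⟩
    choose r hr using hroot
    let f : (Fin m ⊕ Fin m → F) → F := fun w => quadFormPlus m F w + quadFormPlus m F (h *ᵥ w)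
    have hfadd : ∀ u w, f (u + w) = f u + f w := by
      intro u w
      simp only [f]
      rw [qp_add, Matrix.mulVec_add, qp_add, hpres]
      have h2 : (2 : F) = 0 := CharTwo.two_eq_zero
      linear_combination (sympForm m F u w) * h2
    have hfsmul : ∀ (c : F) w, f (c • w) = c ^ 2 * f w := by
      intro c w
      simp only [f]
      rw [qp_smul, Matrix.mulVec_smul, qp_smul]
      ring
    have hfsum : ∀ (s : Finset (Fin m ⊕ Fin m)) (g : Fin m ⊕ Fin m → Fin m ⊕ Fin m → F), f (∑ j ∈ s, g j) = ∑ j ∈ s, f (g j) := by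
      intro s g
      classical
      induction s using Finset.induction_on with
      | empty =>
        simp only [Finset.sum_empty]
        simp [f, quadFormPlus]
      | insert a s ha ih =>
        rw [Finset.sum_insert ha, Finset.sum_insert ha, hfadd, ih]
    let lam : Fin m ⊕ Fin m → F := fun j => r (f (Pi.single j 1))
    have hlam : ∀ w : Fin m ⊕ Fin m → F, (lam ⬝ᵥ w) ^ 2 = f w := by
      intro w
      have e1 : w = ∑ j, w j • (Pi.single j 1 : Fin m ⊕ Fin m → F) := by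
        funext i
        simp [Finset.sum_apply, Pi.single_apply]
      have e2 : ∀ (s : Finset (Fin m ⊕ Fin m)) (g : Fin m ⊕ Fin m → F), (∑ j ∈ s, g j) ^ 2 = ∑ j ∈ s, (g j) ^ 2 := by
        intro s g
        classical
        induction s using Finset.induction_on with
        | empty => simp
        | insert a s ha ih => rw [Finset.sum_insert ha, Finset.sum_insert ha, sq_add, ih]
      conv_rhs => rw [e1]
      rw [hfsum]
      simp only [dotProduct, e2, hfsmul, mul_pow, lam, hr]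
      refine Finset.sum_congr rfl fun j _ => ?_
      ring
    let B : Matrix Unit (Fin m ⊕ Fin m) F := fun _ j => lam j
    have hB : ∀ w, (B *ᵥ w) () = lam ⬝ᵥ w := fun w => rfl
    let M : Matrix (Unit ⊕ (Fin m ⊕ Fin m)) (Unit ⊕ (Fin m ⊕ Fin m)) F := Matrix.fromBlocks 1 B 0 h
    have hdet : M.det ≠ 0 := by
      rw [Matrix.det_fromBlocks_zero₂₁]
      simp only [Matrix.det_one, one_mul]
      have := SymplecticGroup.symplectic_det hh
      exact this.ne_zero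
    let g : Matrix.GeneralLinearGroup (Unit ⊕ (Fin m ⊕ Fin m)) F := Matrix.GeneralLinearGroup.mkOfDetNeZero M hdet
    have hgM : (g : Matrix (Unit ⊕ (Fin m ⊕ Fin m)) (Unit ⊕ (Fin m ⊕ Fin m)) F) = M := rfl
    have hgmem : g ∈ isometryGroup F (quadFormOdd m F) := by
      intro v _
      show quadFormOdd m F ((g : Matrix (Unit ⊕ (Fin m ⊕ Fin m)) (Unit ⊕ (Fin m ⊕ Fin m)) F) *ᵥ v) = quadFormOdd m F v
      rw [hgM]
      have hv : v = Sum.elim (fun x => v (inl x)) (fun x => v (inr x)) := by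
        ext i
        rcases i with i | i
        · rfl
        · rfl
      rw [hv, Matrix.fromBlocks_mulVec]
      rw [qf_elim, qf_elim]
      simp only [Function.comp_def, Sum.elim_inl, Sum.elim_inr, Matrix.zero_mulVec, zero_add, Matrix.one_mulVec]
      rw [Pi.add_apply, sq_add, hB, hlam]
      simp only [f]
      have h2 : (2 : F) = 0 := CharTwo.two_eq_zero
      linear_combination (quadFormPlus m F (h *ᵥ fun x => v (inr x))) * h2
    refine ⟨⟨g, hgmem⟩, ?_⟩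
    apply Subtype.ext
    rw [hφ]
    show (M).toBlocks₂₂ = h
    exact Matrix.toBlocks_fromBlocks₂₂ _ _ _ _
  exact ⟨MulEquiv.ofBijective φ ⟨hinj, hsurj⟩⟩

end Cfsg.Agent.S0304
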