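import Cfsg.Statements.S0305
import Mathlib

set_option autoImplicit false
open Cfsg

namespace Cfsg.Agent.S0305

open Matrix

variable {F : Type*} [Field F]

abbrev A := Fin 1 ⊕ Fin 1
abbrev x0 : A := .inl 0
abbrev y0 : A := .inr 0

theorem Q_eq (v : A → F) : quadFormPlus 1 F v = v x0 * v y0 := by simp [quadFormPlus]

/-- `2 × 2` matrix indexed by `A`. -/
def m2 (a b c d : F) : Matrix A A F :=
  Matrix.of fun i j => Sum.elim (fun _ => Sum.elim (fun _ => a) (fun _ => b) j)
    (fun _ => Sum.elim (fun _ => c) (fun _ => d) j) i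

@[simp] theorem m2_xx (a b c d : F) : m2 a b c d (.inl 0) (.inl 0) = a := rfl
@[simp] theorem m2_xy (a b c d : F) : m2 a b c d (.inl 0) (.inr 0) = b := rfl
@[simp] theorem m2_yx (a b c d : F) : m2 a b c d (.inr 0) (.inl 0) = c := rfl
@[simp] theorem m2_yy (a b c d : F) : m2 a b c d (.inr 0) (.inr 0) = d := rfl

theorem m2_mul (a b c d a' b' c' d' : F) :
    m2 a b c d * m2 a' b' c' d' = m2 (a * a' + b * c') (a * b' + b * d') (c * a' + d * c') (c * b' + d * d') := by
  ext i j
  rcases i with i | i <;> rcases j with j | j <;> fin_cases i <;> fin_cases j <;>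
    simp [Matrix.mul_apply, Fintype.sum_sum_type]

theorem m2_one : (m2 1 0 0 1 : Matrix A A F) = 1 := by
  ext i j
  rcases i with i | i <;> rcases j with j | j <;> fin_cases i <;> fin_cases j <;> simp

theorem m2_mulVec (a b c d : F) (u : A → F) :
    (m2 a b c d *ᵥ u) = Sum.elim (fun _ => a * u x0 + b * u y0) (fun _ => c * u x0 + d * u y0) := by
  ext i
  rcases i with i | i <;> fin_cases i <;>
    simp [Matrix.mulVec, dotProduct, Fintype.sum_sum_type]

def dg (t : Fˣ) : GL A F where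
  val := m2 (t : F) 0 0 ((t⁻¹ : Fˣ) : F)
  inv := m2 ((t⁻¹ : Fˣ) : F) 0 0 (t : F)
  val_inv := by rw [m2_mul, ← m2_one]; simp
  inv_val := by rw [m2_mul, ← m2_one]; simp

def tw : GL A F where
  val := m2 0 1 1 0
  inv := m2 0 1 1 0
  val_inv := by rw [m2_mul, ← m2_one]; simp
  inv_val := by rw [m2_mul, ← m2_one]; simp

theorem dg_mul (a b : Fˣ) : dg a * dg b = dg (a * b) := by
  apply Units.ext
  show m2 _ _ _ _ * m2 _ _ _ _ = m2 _ _ _ _
  rw [m2_mul]; simp [mul_comm]

theorem dg_tw (a : Fˣ) : dg a * tw = tw * dg a⁻¹ := by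
  apply Units.ext
  show m2 _ _ _ _ * m2 _ _ _ _ = m2 _ _ _ _ * m2 _ _ _ _
  rw [m2_mul, m2_mul]; simp

theorem tw_tw : (tw : GL A F) * tw = 1 := by
  apply Units.ext
  show m2 _ _ _ _ * m2 _ _ _ _ = 1
  rw [m2_mul, ← m2_one]; simp

theorem dg_inj {a b : Fˣ} (h : dg a = dg b) : a = b := by
  have := congrArg (fun g : GL A F => g.1 x0 x0) h
  exact Units.ext (by simpa [dg] using this)

theorem tw_dg_val (a : Fˣ) : ((tw : GL A F) * dg a).1 = m2 0 ((a⁻¹ : Fˣ) : F) (a : F) 0 := by
  show m2 _ _ _ _ * m2 _ _ _ _ = _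
  rw [m2_mul]; simp

theorem dg_mem (t : Fˣ) : dg t ∈ isometryGroup F (quadFormPlus 1 F) := by
  intro u _
  show quadFormPlus 1 F (m2 _ _ _ _ *ᵥ u) = quadFormPlus 1 F u
  rw [Q_eq, Q_eq, m2_mulVec]
  simp
  field_simp

theorem tw_mem : tw ∈ isometryGroup F (quadFormPlus 1 F) := by
  intro u _
  show quadFormPlus 1 F (m2 _ _ _ _ *ᵥ u) = quadFormPlus 1 F u
  rw [Q_eq, Q_eq, m2_mulVec]
  simp [mul_comm]

theorem mem_form (g : GL A F) (hg : g ∈ isometryGroup F (quadFormPlus 1 F)) :
    (∃ t, g = dg t) ∨ (∃ t, g = tw * dg t) := by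
  have hm : g.1 = m2 (g.1 x0 x0) (g.1 x0 y0) (g.1 y0 x0) (g.1 y0 y0) := by
    ext i j
    rcases i with i | i <;> rcases j with j | j <;> fin_cases i <;> fin_cases j <;> rfl
  set a := g.1 x0 x0
  set b := g.1 x0 y0
  set c := g.1 y0 x0
  set d := g.1 y0 y0
  have hQ : ∀ u : A → F, (a * u x0 + b * u y0) * (c * u x0 + d * u y0) = u x0 * u y0 := by
    intro u
    have := hg u 0
    simp only at this
    rw [Units.coeHom_apply, hm, m2_mulVec, Q_eq, Q_eq] at this
    simpa using this
  have h1 := hQ (Sum.elim (fun _ => 1) (fun _ => 0))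
  have h2 := hQ (Sum.elim (fun _ => 0) (fun _ => 1))
  have h3 := hQ (Sum.elim (fun _ => 1) (fun _ => 1))
  simp only [Sum.elim_inl, Sum.elim_inr, mul_one, mul_zero, add_zero, zero_add] at h1 h2 h3
  have h4 : a * d + b * c = 1 := by linear_combination h3 - h1 - h2
  by_cases ha : a = 0
  · have hbc : b * c = 1 := by rw [ha] at h4; simpa using h4
    have hb : b ≠ 0 := left_ne_zero_of_mul_eq_one hbc
    have hd : d = 0 := (mul_eq_zero.1 h2).resolve_left hb
    right
    have hc : c ≠ 0 := right_ne_zero_of_mul_eq_one hbc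
    refine ⟨Units.mk0 c hc, ?_⟩
    apply Units.ext
    rw [tw_dg_val, hm, ha, hd]
    congr 1
    simp
    field_simp
    linear_combination hbc
  · have hc : c = 0 := (mul_eq_zero.1 h1).resolve_left ha
    have had : a * d = 1 := by rw [hc] at h4; simpa using h4
    have hd : d ≠ 0 := right_ne_zero_of_mul_eq_one had
    have hb : b = 0 := (mul_eq_zero.1 h2).resolve_right hd
    left
    refine ⟨Units.mk0 a ha, ?_⟩
    apply Units.ext
    show g.1 = m2 _ _ _ _
    rw [hm, hb, hc]
    congr 1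
    simp
    field_simp
    linear_combination had

/-- map from the dihedral group -/
noncomputable def f0 (n : ℕ) (ψ : Multiplicative (ZMod n) ≃* Fˣ) : DihedralGroup n →* GL A F :=
  MonoidHom.mk' (fun x => match x with
    | .r i => dg (ψ (Multiplicative.ofAdd i))
    | .sr i => tw * dg (ψ (Multiplicative.ofAdd i)))
  (by
    have hadd : ∀ i j : ZMod n, ψ (Multiplicative.ofAdd (i + j)) =
        ψ (Multiplicative.ofAdd i) * ψ (Multiplicative.ofAdd j) := by
      intro i j; rw [ofAdd_add, map_mul]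
    have hsub : ∀ i j : ZMod n, ψ (Multiplicative.ofAdd (j - i)) =
        (ψ (Multiplicative.ofAdd i))⁻¹ * ψ (Multiplicative.ofAdd j) := by
      intro i j; rw [ofAdd_sub, map_div, div_eq_inv_mul]
    rintro (i | i) (j | j)
    · simp only [DihedralGroup.r_mul_r, hadd, dg_mul]
    · simp only [DihedralGroup.r_mul_sr, hsub]
      rw [← mul_assoc, dg_tw, mul_assoc, dg_mul]
    · simp only [DihedralGroup.sr_mul_r, hadd]
      rw [mul_assoc, dg_mul]
    · simp only [DihedralGroup.sr_mul_sr, hsub]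
      have := dg_tw (ψ (Multiplicative.ofAdd i))
      calc dg ((ψ (Multiplicative.ofAdd i))⁻¹ * ψ (Multiplicative.ofAdd j))
          = (tw * tw) * (dg (ψ (Multiplicative.ofAdd i))⁻¹ * dg (ψ (Multiplicative.ofAdd j))) := by
            rw [tw_tw, one_mul, dg_mul]
        _ = tw * (tw * dg (ψ (Multiplicative.ofAdd i))⁻¹) * dg (ψ (Multiplicative.ofAdd j)) := by
            group
        _ = _ := by rw [← this]; group)

theorem f0_inj (n : ℕ) (ψ : Multiplicative (ZMod n) ≃* Fˣ) : Function.Injective (f0 n ψ) := by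
  have hne : ∀ a b : Fˣ, (dg a : GL A F) ≠ tw * dg b := by
    intro a b h
    have := congrArg (fun g : GL A F => g.1 x0 x0) h
    simp only [tw_dg_val] at this
    simp [dg] at this
  rintro (i | i) (j | j) h
  · have := ψ.injective (dg_inj h)
    rw [Multiplicative.ofAdd.apply_eq_iff_eq] at this
    rw [this]
  · exact absurd h (hne _ _)
  · exact absurd h.symm (hne _ _)
  · have h' : dg (ψ (Multiplicative.ofAdd i)) = dg (ψ (Multiplicative.ofAdd j)) := mul_left_cancel h
    have := ψ.injective (dg_inj h')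
    rw [Multiplicative.ofAdd.apply_eq_iff_eq] at this
    rw [this]

theorem f0_range (n : ℕ) (ψ : Multiplicative (ZMod n) ≃* Fˣ) :
    (f0 n ψ).range = isometryGroup F (quadFormPlus 1 F) := by
  ext g
  constructor
  · rintro ⟨x, rfl⟩
    rcases x with i | i
    · exact dg_mem _
    · exact Subgroup.mul_mem _ tw_mem (dg_mem _)
  · intro hg
    rcases mem_form g hg with ⟨t, rfl⟩ | ⟨t, rfl⟩
    · refine ⟨.r (Multiplicative.toAdd (ψ.symm t)), ?_⟩
      show dg (ψ (Multiplicative.ofAdd (Multiplicative.toAdd (ψ.symm t)))) = _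
      simp
    · refine ⟨.sr (Multiplicative.toAdd (ψ.symm t)), ?_⟩
      show tw * dg (ψ (Multiplicative.ofAdd (Multiplicative.toAdd (ψ.symm t)))) = _
      simp

/-- GO^+_2(q) is dihedral of order 2(q-1). -/
theorem result {F : Type*} [Field F] [Fintype F] {q : ℕ} (hF : Fintype.card F = q) : Nonempty (Cfsg.isometryGroup F (Cfsg.quadFormPlus 1 F) ≃* DihedralGroup (q - 1)) := by
  have hq : q - 1 = Nat.card Fˣ := by
    classical
    rw [Nat.card_eq_fintype_card, Fintype.card_units, hF]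
  rw [hq]
  let ψ := zmodCyclicMulEquiv (inferInstance : IsCyclic Fˣ)
  exact ⟨((MonoidHom.ofInjective (f0_inj _ ψ)).trans (MulEquiv.subgroupCongr (f0_range _ ψ))).symm⟩

end Cfsg.Agent.S0305
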