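import Cfsg.Statements.S0307
import Mathlib

set_option autoImplicit false
open Cfsg

namespace Cfsg.Agent.S0307

open Matrix

/-- The map `Fˣ → Z/d` for `d ∣ q - 1`: surjective with kernel the `d`-th powers. -/
theorem exists_units_hom {F : Type*} [Field F] [Fintype F] (d : ℕ) (hd : d ∣ Fintype.card F - 1) :
    ∃ φ : Fˣ →* Multiplicative (ZMod d), Function.Surjective φ ∧ ∀ x : Fˣ, φ x = 1 ↔ ∃ y : Fˣ, y ^ d = x := by
  classical
  obtain ⟨ζ, hζ⟩ := IsCyclic.exists_generator (α := Fˣ)
  have hcard : Nat.card Fˣ = Fintype.card F - 1 := by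
    rw [Nat.card_eq_fintype_card, Fintype.card_units]
  have horder : orderOf ζ = Fintype.card F - 1 := by
    rw [orderOf_eq_card_of_forall_mem_zpowers hζ, hcard]
  -- define the hom by `ζ^k ↦ k mod d`
  have hpow : (Multiplicative.ofAdd (1 : ZMod d)) ^ (Fintype.card F - 1) = 1 := by
    rw [← ofAdd_nsmul, nsmul_one]
    have : ((Fintype.card F - 1 : ℕ) : ZMod d) = 0 := (ZMod.natCast_eq_zero_iff _ _).mpr hd
    rw [this]; rfl
  let φ : Fˣ →* Multiplicative (ZMod d) :=
    monoidHomOfForallMemZpowers hζ (g' := Multiplicative.ofAdd (1 : ZMod d)) (by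
      rw [horder]
      exact orderOf_dvd_of_pow_eq_one hpow)
  have hφ : φ ζ = Multiplicative.ofAdd (1 : ZMod d) := monoidHomOfForallMemZpowers_apply_gen hζ _
  have hφpow : ∀ k : ℕ, φ (ζ ^ k) = Multiplicative.ofAdd ((k : ZMod d)) := by
    intro k
    rw [map_pow, hφ, ← ofAdd_nsmul, nsmul_one]
  refine ⟨φ, ?_, ?_⟩
  · intro z
    have hz : ∃ k : ℕ, (k : ZMod d) = Multiplicative.toAdd z := by
      rcases Nat.eq_zero_or_pos d with rfl | hdpos
      · -- d = 0 impossible since q - 1 > 0
        have := Fintype.one_lt_card (α := F)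
        rw [zero_dvd_iff] at hd
        omega
      · haveI : NeZero d := ⟨hdpos.ne'⟩
        exact ⟨(Multiplicative.toAdd z).val, by simp⟩
    obtain ⟨k, hk⟩ := hz
    refine ⟨ζ ^ k, ?_⟩
    rw [hφpow, hk]
    rfl
  · intro x
    obtain ⟨k, hk⟩ := (mem_powers_iff_mem_zpowers.mpr (hζ x))
    subst hk
    rw [hφpow]
    constructor
    · intro h
      have h' : ((k : ℕ) : ZMod d) = 0 := by
        simpa using h
      rw [ZMod.natCast_eq_zero_iff] at h'
      obtain ⟨c, rfl⟩ := h'
      exact ⟨ζ ^ c, by rw [← pow_mul, mul_comm]⟩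
    · rintro ⟨y, hy⟩
      obtain ⟨l, rfl⟩ := (mem_powers_iff_mem_zpowers.mpr (hζ y))
      rw [← pow_mul] at hy
      have h1 : (l * d) ≡ k [MOD orderOf ζ] := (pow_eq_pow_iff_modEq).mp hy
      rw [horder] at h1
      have h2 : ((l * d : ℕ) : ZMod d) = (k : ZMod d) := by
        exact (ZMod.natCast_eq_natCast_iff _ _ _).mpr (h1.of_dvd hd)
      have h3 : (k : ZMod d) = 0 := by
        rw [← h2]; simp
      rw [h3]; rfl

/-- PSL_n(q) is normal in PGL_n(q) with cyclic quotient of order gcd(n, q-1): the image of the natural map PSL_n → PGL_n is the kernel of a surjective homomorphism onto the cyclic group of that order. -/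
theorem result {F : Type*} [Field F] [Fintype F] {q : ℕ} (hF : Fintype.card F = q) (n : ℕ) (hn : 1 ≤ n) : ∃ g : Matrix.ProjGenLinGroup (Fin n) F →* Multiplicative (ZMod (Nat.gcd n (q - 1))), Function.Surjective g ∧ g.ker = (Matrix.ProjectiveSpecialLinearGroup.toPGL : Matrix.ProjectiveSpecialLinearGroup (Fin n) F →* Matrix.ProjGenLinGroup (Fin n) F).range := by
  subst hF
  have hne : Nonempty (Fin n) := ⟨⟨0, hn⟩⟩
  set d := Nat.gcd n (Fintype.card F - 1) with hd
  obtain ⟨φ, hφs, hφ⟩ := exists_units_hom (F := F) d (Nat.gcd_dvd_right _ _)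
  have hpowers : ∀ x : Fˣ, (∃ y : Fˣ, y ^ d = x) ↔ ∃ y : Fˣ, y ^ n = x := by
    classical
    intro x
    -- use a generator and gcd
    obtain ⟨ζ, hζ⟩ := IsCyclic.exists_generator (α := Fˣ)
    have hcard : Nat.card Fˣ = Fintype.card F - 1 := by
      rw [Nat.card_eq_fintype_card, Fintype.card_units]
    have hO : ∀ z : Fˣ, z ^ (Fintype.card F - 1) = 1 := fun z => by
      rw [← hcard]; exact pow_card_eq_one'
    constructor
    · rintro ⟨y, rfl⟩
      refine ⟨y ^ (Nat.gcdA n (Fintype.card F - 1)), ?_⟩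
      have h : (d : ℤ) = n * Nat.gcdA n (Fintype.card F - 1) + (Fintype.card F - 1 : ℕ) * Nat.gcdB n (Fintype.card F - 1) := by
        rw [hd]; exact Nat.gcd_eq_gcd_ab n (Fintype.card F - 1)
      have h1 : y ^ ((Fintype.card F - 1 : ℕ) : ℤ) = 1 := by
        rw [zpow_natCast]; exact hO y
      rw [← zpow_natCast y d, h, _root_.zpow_add, _root_.zpow_mul y ((Fintype.card F - 1 : ℕ) : ℤ), h1, _root_.one_zpow, mul_one, mul_comm, _root_.zpow_mul, zpow_natCast]
    · rintro ⟨y, rfl⟩
      obtain ⟨c, hc⟩ : d ∣ n := Nat.gcd_dvd_left _ _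
      exact ⟨y ^ c, by rw [← pow_mul, mul_comm, ← hc]⟩
  -- the homomorphism on GL
  let G : GL (Fin n) F →* Multiplicative (ZMod d) := φ.comp Matrix.GeneralLinearGroup.det
  have hG : G.comp (Matrix.GeneralLinearGroup.scalar (Fin n)) = 1 := by
    refine MonoidHom.ext fun u => ?_
    simp only [G, MonoidHom.comp_apply, Matrix.GeneralLinearGroup.det_scalar, MonoidHom.one_apply, Fintype.card_fin]
    rw [hφ]
    exact (hpowers _).mpr ⟨u, rfl⟩
  refine ⟨Matrix.ProjGenLinGroup.lift G hG, ?_, ?_⟩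
  · intro z
    obtain ⟨x, rfl⟩ := hφs z
    obtain ⟨g, rfl⟩ := Matrix.GeneralLinearGroup.det_surjective (n := Fin n) x
    exact ⟨Matrix.ProjGenLinGroup.mk g, rfl⟩
  · ext z
    induction z using Matrix.ProjGenLinGroup.induction_on with
    | mk g =>
      rw [MonoidHom.mem_ker, Matrix.ProjGenLinGroup.lift_mk]
      simp only [G, MonoidHom.comp_apply]
      rw [hφ, hpowers]
      constructor
      · rintro ⟨y, hy⟩
        -- g / y is in SL
        have hdet : Matrix.GeneralLinearGroup.det (g * Matrix.GeneralLinearGroup.scalar (Fin n) y⁻¹) = 1 := by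
          rw [map_mul, Matrix.GeneralLinearGroup.det_scalar, Fintype.card_fin, ← hy, inv_pow, mul_inv_cancel]
        have hdet' : ((g * Matrix.GeneralLinearGroup.scalar (Fin n) y⁻¹ : GL (Fin n) F) : Matrix (Fin n) (Fin n) F).det = 1 := by
          have := congrArg Units.val hdet
          simpa using this
        let s : Matrix.SpecialLinearGroup (Fin n) F := ⟨((g * Matrix.GeneralLinearGroup.scalar (Fin n) y⁻¹ : GL (Fin n) F) : Matrix (Fin n) (Fin n) F), hdet'⟩
        refine ⟨QuotientGroup.mk s, ?_⟩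
        rw [Matrix.ProjectiveSpecialLinearGroup.toPGL_mk, Matrix.ProjGenLinGroup.mk_eq_mk_iff]
        refine ⟨y, ?_⟩
        apply Units.ext
        have h5 : ((Matrix.GeneralLinearGroup.scalar (Fin n) y⁻¹ * Matrix.GeneralLinearGroup.scalar (Fin n) y : GL (Fin n) F) : Matrix (Fin n) (Fin n) F) = 1 := by
          rw [← map_mul, inv_mul_cancel, map_one]; rfl
        change ((g * Matrix.GeneralLinearGroup.scalar (Fin n) y⁻¹ : GL (Fin n) F) : Matrix (Fin n) (Fin n) F) * ((Matrix.GeneralLinearGroup.scalar (Fin n) y : GL (Fin n) F) : Matrix (Fin n) (Fin n) F) = g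
        rw [Units.val_mul, mul_assoc, ← Units.val_mul, h5, mul_one]
      · rintro ⟨w, hw⟩
        induction w using QuotientGroup.induction_on with
        | H s =>
          rw [Matrix.ProjectiveSpecialLinearGroup.toPGL_mk, Matrix.ProjGenLinGroup.mk_eq_mk_iff] at hw
          obtain ⟨u, hu⟩ := hw
          refine ⟨u, ?_⟩
          have := congrArg Matrix.GeneralLinearGroup.det hu
          rw [map_mul, Matrix.GeneralLinearGroup.det_scalar, Fintype.card_fin] at this
          rw [← this]
          have h1 : Matrix.GeneralLinearGroup.det (Matrix.SpecialLinearGroup.toGL s) = 1 := by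
            ext
            simp
          rw [h1, one_mul]

end Cfsg.Agent.S0307
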