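import Cfsg.Statements.S0309
import Cfsg.Agent.Lib.BNPair

set_option autoImplicit false
open Cfsg

namespace Cfsg.Agent.S0309

/-- Bruhat decomposition, uniqueness part: for `n, n' ∈ N` the double cosets `B n B` and `B n' B` coincide
exactly when `n` and `n'` have the same image in `W = N / (B ⊓ N)`. -/
theorem result {G : Type*} [Group G] (P : Cfsg.BNPair G) {n n' : G}
    (hn : n ∈ P.N) (hn' : n' ∈ P.N) :
    DoubleCoset.doubleCoset n (P.B : Set G) P.B = DoubleCoset.doubleCoset n' (P.B : Set G) P.B ↔ n⁻¹ * n' ∈ P.B := by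
  rw [Cfsg.Agent.Lib.BNPair.C_eq_doubleCoset, Cfsg.Agent.Lib.BNPair.C_eq_doubleCoset]
  constructor
  · intro h
    have h1 : Cfsg.Agent.Lib.BNPair.mk P ⟨n, hn⟩ = Cfsg.Agent.Lib.BNPair.mk P ⟨n', hn'⟩ :=
      Cfsg.Agent.Lib.BNPair.eq_of_mem_Cw (Cfsg.Agent.Lib.BNPair.rep_mem_Cw ⟨n, hn⟩)
        (Cfsg.Agent.Lib.BNPair.mem_Cw_mk.2 (h ▸ Cfsg.Agent.Lib.BNPair.self_mem_C n))
    exact Cfsg.Agent.Lib.BNPair.mk_eq_mk_iff.1 h1
  · intro h
    have e : n' = n * (n⁻¹ * n') := by group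
    rw [e, Cfsg.Agent.Lib.BNPair.C_mul_right h]

end Cfsg.Agent.S0309
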