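import Cfsg.Statements.S0323

set_option autoImplicit false
open scoped Pointwise
open Cfsg

namespace Cfsg.Agent.S0323


variable {G Ω : Type*} [Group G] [MulAction G Ω]

lemma mem_stab_pair {x y : Ω} {g : G} :
    g ∈ MulAction.stabilizer G ({x, y} : Set Ω) ↔
      (g • x = x ∧ g • y = y) ∨ (g • x = y ∧ g • y = x) := by
  rw [MulAction.mem_stabilizer_iff]
  have : g • ({x, y} : Set Ω) = {g • x, g • y} := by
    show (fun a => g • a) '' ({x, y} : Set Ω) = _
    rw [Set.image_pair]
  rw [this, Set.pair_eq_pair_iff]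

/-- A doubly transitive action on a set with at least three points yields a (B,N)-pair of rank one:
`B` is the stabiliser of a point `x`, `N` the setwise stabiliser of a pair `{x, y}`. -/
theorem result {G Ω : Type*} [Group G] [MulAction G Ω]
    (h2 : MulAction.IsMultiplyPretransitive G Ω 2) {x y z : Ω} (hxy : x ≠ y) (hyz : y ≠ z) (hxz : x ≠ z) :
    ∃ P : Cfsg.BNPair G, P.B = MulAction.stabilizer G x ∧
      P.N = MulAction.stabilizer G ({x, y} : Set Ω) ∧ P.rank = 1 := by
  rw [MulAction.is_two_pretransitive_iff] at h2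
  obtain ⟨t, ht1, ht2⟩ := h2 hxy hxy.symm
  -- Every element is in B ∪ B t B.
  have hB_or : ∀ g : G, g • x = x ∨ ∃ b b' : G, b • x = x ∧ b' • x = x ∧ g = b * t * b' := by
    intro g
    by_cases hg : g • x = x
    · exact Or.inl hg
    · right
      -- b fixes x and sends y to g • x
      obtain ⟨b, hb1, hb2⟩ := h2 hxy (c := x) (d := g • x) (Ne.symm hg)
      refine ⟨b, (b * t)⁻¹ * g, hb1, ?_, by group⟩
      rw [mul_smul, inv_smul_eq_iff, mul_smul, ht1, hb2]
  let Bs := MulAction.stabilizer G x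
  let Ns := MulAction.stabilizer G ({x, y} : Set Ω)
  have htN : t ∈ Ns := mem_stab_pair.2 (Or.inr ⟨ht1, ht2⟩)
  have hdc : ∀ {n g : G}, g ∈ DoubleCoset.doubleCoset n (Bs : Set G) Bs ↔
      ∃ u ∈ Bs, ∃ v ∈ Bs, g = u * n * v := by
    intro n g
    rw [DoubleCoset.mem_doubleCoset]
    rfl
  refine ⟨{ B := Bs, N := Ns, S := {t}, sup_eq_top := ?_, conj_mem := ?_, subset := ?_, sq_mem := ?_, inj := ?_,
            closure_sup := ?_, mul_mem_union := ?_, conj_ne := ?_ }, rfl, rfl, ?_⟩
  · rw [eq_top_iff]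
    intro g _
    rcases hB_or g with h | ⟨b, b', hb, hb', rfl⟩
    · exact (le_sup_left : Bs ≤ Bs ⊔ Ns) h
    · have h1 : b ∈ Bs ⊔ Ns := (le_sup_left : Bs ≤ Bs ⊔ Ns) hb
      have h2' : t ∈ Bs ⊔ Ns := (le_sup_right : Ns ≤ Bs ⊔ Ns) htN
      have h3 : b' ∈ Bs ⊔ Ns := (le_sup_left : Bs ≤ Bs ⊔ Ns) hb'
      exact Subgroup.mul_mem _ (Subgroup.mul_mem _ h1 h2') h3
  · rintro n hn h ⟨hh1, hh2⟩
    have hhx : h • x = x := hh1
    have hhy : h • y = y := by
      rcases mem_stab_pair.1 hh2 with h3 | h3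
      · exact h3.2
      · exact absurd (hhx.symm.trans h3.1) hxy
    show (n * h * n⁻¹) • x = x
    rw [mul_smul, mul_smul, smul_eq_iff_eq_inv_smul]
    rcases mem_stab_pair.1 hn with h3 | h3
    · have : n⁻¹ • x = x := by rw [inv_smul_eq_iff, h3.1]
      rw [this, hhx]
    · have : n⁻¹ • x = y := by rw [inv_smul_eq_iff, h3.2]
      rw [this, hhy]
  · intro s hs
    rw [show s = t from hs]
    exact htN
  · intro s hs
    rw [show s = t from hs]
    show (t * t) • x = x
    rw [mul_smul, ht1, ht2]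
  · intro s hs s' hs' _
    rw [show s = t from hs, show s' = t from hs']
  · apply le_antisymm
    · refine sup_le ?_ inf_le_right
      rw [Subgroup.closure_le]
      intro s hs
      rw [show s = t from hs]
      exact htN
    · intro n hn
      rcases mem_stab_pair.1 hn with h3 | h3
      · refine (le_sup_right : Bs ⊓ Ns ≤ _) ⟨h3.1, hn⟩
      · have h4 : t * n ∈ Bs ⊓ Ns := by
          refine ⟨?_, Subgroup.mul_mem _ htN hn⟩
          show (t * n) • x = x
          rw [mul_smul, h3.1, ht2]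
        have e : n = t⁻¹ * (t * n) := by group
        rw [e]
        refine Subgroup.mul_mem _ (Subgroup.inv_mem _ ?_) ((le_sup_right : Bs ⊓ Ns ≤ _) h4)
        exact (le_sup_left : Subgroup.closure {t} ≤ _) (Subgroup.subset_closure rfl)
  · intro s hs n hn b hb
    rw [show s = t from hs]
    rw [Set.mem_union, hdc, hdc]
    rcases mem_stab_pair.1 hn with h3 | h3
    · -- n ∈ B
      left
      have hnB : n ∈ Bs := h3.1
      exact ⟨1, Bs.one_mem, n⁻¹ * b * n, Bs.mul_mem (Bs.mul_mem (Bs.inv_mem hnB) hb) hnB, by group⟩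
    · -- t n ∈ B, n ∉ B
      have htn : t * n ∈ Bs := by
        show (t * n) • x = x
        rw [mul_smul, h3.1, ht2]
      have hnt : n⁻¹ * t ∈ Bs := by
        show (n⁻¹ * t) • x = x
        rw [mul_smul, ht1, inv_smul_eq_iff, h3.1]
      rcases hB_or (t * b * t⁻¹) with h4 | ⟨u, v, hu, hv, h4⟩
      · left
        have h5 : t * b * t⁻¹ ∈ Bs := h4
        exact ⟨t * b * t⁻¹, h5, 1, Bs.one_mem, by group⟩
      · right
        have e1 : t * b * n = (t * b * t⁻¹) * (t * n) := by group
        refine ⟨u, hu, (n⁻¹ * t) * v * (t * n), Bs.mul_mem (Bs.mul_mem hnt hv) htn, ?_⟩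
        rw [e1, h4]
        group
  · intro s hs himg
    rw [show s = t from hs] at himg
    -- all of B fixes y, contradicting transitivity on the rest
    obtain ⟨b, hb1, hb2⟩ := h2 hxy (c := x) (d := z) hxz
    have hbB : b ∈ Bs := hb1
    have : t * b * t ∈ (Bs : Set G) := by
      rw [← himg]
      exact ⟨b, hbB, rfl⟩
    have h5 : (t * b * t) • x = x := this
    rw [mul_smul, mul_smul, ht1, hb2] at h5
    -- t • z = x = t • y
    have h6 : t • z = t • y := h5.trans ht2.symm
    exact hyz (smul_left_cancel t h6).symm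
  · show Nat.card ({t} : Set G) = 1
    simp

end Cfsg.Agent.S0323
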