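import Cfsg.Statements.S0335
import Cfsg.Agent.Lib.SzH

set_option autoImplicit false
open Cfsg

namespace Cfsg.Agent.S0335

/-- The Suzuki–Tits point set is an ovoid: any three distinct points of it are projectively independent
(no line of projective 3-space meets it in more than two points). -/
theorem result {F : Type*} [Field F] [Fintype F] {m : ℕ} (hm : 1 ≤ m)
    (hF : Fintype.card F = 2 ^ (2 * m + 1)) (p : Fin 3 ↪ Cfsg.suzukiOvoid F m) :
    Projectivization.Independent (fun i => (p i : Projectivization F (Fin 4 → F))) := by
  obtain ⟨_, θ, H, hov, h⟩ := Cfsg.Agent.Lib.SzG.setup hm hF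
  exact Cfsg.Agent.Lib.SzH.thm_indep hm hF p

end Cfsg.Agent.S0335
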