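import Cfsg.Statements.S0351

-- import your own Cfsg.Agent.* helpers here

set_option autoImplicit false
open Cfsg

namespace Cfsg.Agent.S0351

/-- Derived design: removing a point p from the blocks through p of an S(t+1, k+1, v) yields an S(t, k, v-1) on the points other than p. -/
theorem result {α : Type*} [Fintype α] [DecidableEq α] {t k : ℕ} {B : Set (Finset α)} (hB : Cfsg.IsSteinerSystem (t + 1) (k + 1) B) (p : α) : Cfsg.IsSteinerSystem t k {b' : Finset {a : α // a ≠ p} | ∃ b ∈ B, p ∈ b ∧ b' = Finset.subtype (fun a => a ≠ p) b} := by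
  classical
  constructor
  · rintro b' ⟨b, hb, hp, rfl⟩
    rw [Finset.card_subtype]
    have h1 : b.filter (fun a => a ≠ p) = b.erase p := by
      ext a; simp [and_comm]
    rw [h1, Finset.card_erase_of_mem hp, hB.1 b hb]
    rfl
  · intro s hs
    set S : Finset α := insert p (s.map (Function.Embedding.subtype _)) with hS
    have hnot : p ∉ s.map (Function.Embedding.subtype (fun a => a ≠ p)) := by
      simp
    have hcard : S.card = t + 1 := by
      rw [hS, Finset.card_insert_of_notMem hnot, Finset.card_map, hs]
    obtain ⟨b, ⟨hb, hSb⟩, huniq⟩ := hB.2 S hcard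
    have hpb : p ∈ b := hSb (Finset.mem_insert_self _ _)
    refine ⟨Finset.subtype (fun a => a ≠ p) b, ⟨⟨b, hb, hpb, rfl⟩, ?_⟩, ?_⟩
    · intro a ha
      rw [Finset.mem_subtype]
      apply hSb
      rw [hS]
      apply Finset.mem_insert_of_mem
      exact Finset.mem_map.2 ⟨a, ha, rfl⟩
    · rintro b' ⟨⟨c, hc, hpc, rfl⟩, hsb⟩
      have : c = b := by
        apply huniq c
        refine ⟨hc, ?_⟩
        rw [hS, Finset.insert_subset_iff]
        refine ⟨hpc, ?_⟩
        intro a ha
        obtain ⟨x, hx, rfl⟩ := Finset.mem_map.1 ha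
        have := hsb hx
        rwa [Finset.mem_subtype] at this
      rw [this]

end Cfsg.Agent.S0351
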