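import Cfsg.Statements.S0352
import Cfsg.Agent.Lib.SteinerCases
-- import your own Cfsg.Agent.* helpers here

set_option autoImplicit false
open Cfsg

namespace Cfsg.Agent.S0352

/-- In a Steiner system S(5, 8, 24), two distinct blocks intersect in 0, 2 or 4 points. -/
theorem result {α : Type*} [Fintype α] [DecidableEq α] (hα : Fintype.card α = 24) {B : Set (Finset α)} (hB : Cfsg.IsSteinerSystem 5 8 B) {b c : Finset α} (hb : b ∈ B) (hc : c ∈ B) (hbc : b ≠ c) : (b ∩ c).card = 0 ∨ (b ∩ c).card = 2 ∨ (b ∩ c).card = 4 := by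
  have hf := SteinerCount.hf24 hα hB hb
  have hle := SteinerCount.inter_le hB (c := c) hb
  have h8 : (b ∩ c).card ≠ 8 := fun h => hbc (SteinerCount.eq_of_inter_card hB hb hc h)
  have hno := fun h0 => SteinerCount.no_meet b _ hf hc h0
  rw [hB.1 b hb] at hno
  generalize (b ∩ c).card = i at *
  interval_cases i
  · simp
  · exact (hno (by decide)).elim
  · simp
  · exact (hno (by decide)).elim
  · simp
  · exact (hno (by decide)).elim
  · exact (hno (by decide)).elim
  · exact (hno (by decide)).elim
  · exact absurd rfl h8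

end Cfsg.Agent.S0352
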