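import Cfsg.Statements.S0353
import Cfsg.Agent.S0352
-- import your own Cfsg.Agent.* helpers here

set_option autoImplicit false
open Cfsg

namespace Cfsg.Agent.S0353


theorem aux52 {α : Type*} [Fintype α] [DecidableEq α] (hα : Fintype.card α = 24) {B : Set (Finset α)} (hB : Cfsg.IsSteinerSystem 5 8 B) {b c : Finset α} (hb : b ∈ B) (hc : c ∈ B) (hbc : b ≠ c) : (b ∩ c).card = 0 ∨ (b ∩ c).card = 2 ∨ (b ∩ c).card = 4 := Cfsg.Agent.S0352.result hα hB hb hc hbc

/-- No set of size 4 meets every block of `S(5,8,24)` evenly. -/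
theorem aux_no_even {α : Type*} [Fintype α] [DecidableEq α] (hα : Fintype.card α = 24) {B : Set (Finset α)} (hB : Cfsg.IsSteinerSystem 5 8 B) (w : Finset α) (hw : w.card = 4) (hev : ∀ z ∈ B, (w ∩ z).card % 2 = 0) : False := by
  -- a point outside `w`
  have h1 : ∃ y, y ∉ w := by
    by_contra h
    push Not at h
    have : w = Finset.univ := Finset.eq_univ_iff_forall.2 h
    rw [this, Finset.card_univ, hα] at hw
    omega
  obtain ⟨y, hy⟩ := h1
  have hc5 : (insert y w).card = 5 := by rw [Finset.card_insert_of_notMem hy, hw]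
  obtain ⟨f, ⟨hf, hwf⟩, huniq⟩ := hB.2 _ hc5
  have h2 : ∃ y', y' ∉ f := by
    by_contra h
    push Not at h
    have : f = Finset.univ := Finset.eq_univ_iff_forall.2 h
    have h3 := hB.1 f hf
    rw [this, Finset.card_univ, hα] at h3
    omega
  obtain ⟨y', hy'⟩ := h2
  -- three points of `w`
  obtain ⟨W, hWw, hW⟩ := Finset.exists_subset_card_eq (s := w) (n := 3) (by omega)
  have hyf : y ∈ f := hwf (Finset.mem_insert_self _ _)
  have hyy : y' ≠ y := fun h => hy' (h ▸ hyf)
  have hy'w : y' ∉ w := fun h => hy' (hwf (Finset.mem_insert_of_mem h))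
  have hyW : y ∉ W := fun h => hy (hWw h)
  have hy'W : y' ∉ W := fun h => hy'w (hWw h)
  have hc : (insert y' (insert y W)).card = 5 := by
    rw [Finset.card_insert_of_notMem, Finset.card_insert_of_notMem hyW, hW]
    rw [Finset.mem_insert]
    tauto
  obtain ⟨g, ⟨hg, hWg⟩, -⟩ := hB.2 _ hc
  rw [Finset.insert_subset_iff, Finset.insert_subset_iff] at hWg
  have h3 : 3 ≤ (w ∩ g).card := by
    rw [← hW]
    exact Finset.card_le_card (Finset.subset_inter hWw hWg.2.2)
  have h4 : (w ∩ g).card ≤ 4 := by
    rw [← hw]; exact Finset.card_le_card Finset.inter_subset_left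
  have h5 := hev g hg
  have h6 : (w ∩ g).card = 4 := by omega
  have h7 : w ∩ g = w := Finset.eq_of_subset_of_card_le Finset.inter_subset_left (by rw [h6, hw])
  have hwg : w ⊆ g := by
    rw [← h7]; exact Finset.inter_subset_right
  have hgf : g = f := huniq g ⟨hg, Finset.insert_subset hWg.2.1 hwg⟩
  exact hy' (hgf ▸ hWg.1)


/-- In an S(5, 8, 24), the symmetric difference of two blocks meeting in four points is a block. -/
theorem result {α : Type*} [Fintype α] [DecidableEq α] (hα : Fintype.card α = 24) {B : Set (Finset α)} (hB : Cfsg.IsSteinerSystem 5 8 B) {b c : Finset α} (hb : b ∈ B) (hc : c ∈ B) (h4 : (b ∩ c).card = 4) : symmDiff b c ∈ B := by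
  have heven : ∀ x ∈ B, ∀ y ∈ B, (x ∩ y).card % 2 = 0 := by
    intro x hx y hy
    by_cases hxy : x = y
    · subst hxy
      rw [Finset.inter_self, hB.1 x hx]
    · have := aux52 hα hB hx hy hxy
      omega
  have hd : (symmDiff b c).card = 8 := by
    have := SteinerCount.card_symmDiff_eq b c
    rw [h4, hB.1 b hb, hB.1 c hc] at this
    omega
  -- every block meets `d` evenly
  have hdeven : ∀ z ∈ B, (symmDiff b c ∩ z).card % 2 = 0 := by
    intro z hz
    have := SteinerCount.card_symmDiff_inter b c z
    have h1 := heven b hb z hz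
    have h2 := heven c hc z hz
    omega
  obtain ⟨P, hPd, hP⟩ := Finset.exists_subset_card_eq (s := symmDiff b c) (n := 5) (by omega)
  obtain ⟨e, ⟨he, hPe⟩, -⟩ := hB.2 P hP
  have h5 : 5 ≤ (symmDiff b c ∩ e).card := by
    rw [← hP]
    exact Finset.card_le_card (Finset.subset_inter hPd hPe)
  have h8 : (symmDiff b c ∩ e).card ≤ 8 := by
    rw [← hd]; exact Finset.card_le_card Finset.inter_subset_left
  have hev := hdeven e he
  have hcase : (symmDiff b c ∩ e).card = 6 ∨ (symmDiff b c ∩ e).card = 8 := by omega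
  rcases hcase with h6 | h8'
  · exfalso
    -- `w = d Δ e` has weight 4 and meets every block evenly
    have hw : (symmDiff (symmDiff b c) e).card = 4 := by
      have := SteinerCount.card_symmDiff_eq (symmDiff b c) e
      rw [h6, hd, hB.1 e he] at this
      omega
    have hweven : ∀ z ∈ B, (symmDiff (symmDiff b c) e ∩ z).card % 2 = 0 := by
      intro z hz
      have := SteinerCount.card_symmDiff_inter (symmDiff b c) e z
      have h1 := hdeven z hz
      have h2 := heven e he z hz
      omega
    exact aux_no_even hα hB _ hw hweven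
  · have h1 : symmDiff b c ∩ e = symmDiff b c := Finset.eq_of_subset_of_card_le Finset.inter_subset_left (by rw [h8', hd])
    have h2 : symmDiff b c ∩ e = e := Finset.eq_of_subset_of_card_le Finset.inter_subset_right (by rw [h8', hB.1 e he])
    rw [← h1, h2]
    exact he

end Cfsg.Agent.S0353
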