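import Cfsg.Statements.S0354
import Cfsg.Agent.Lib.SteinerCases
-- import your own Cfsg.Agent.* helpers here

set_option autoImplicit false
open Cfsg

namespace Cfsg.Agent.S0354

/-- In an S(5, 8, 24), each block is disjoint from exactly 30 blocks. -/
theorem result {α : Type*} [Fintype α] [DecidableEq α] (hα : Fintype.card α = 24) {B : Set (Finset α)} (hB : Cfsg.IsSteinerSystem 5 8 B) {b : Finset α} (hb : b ∈ B) : {c : Finset α | c ∈ B ∧ Disjoint b c}.ncard = 30 := by
  have hf := SteinerCount.hf24 hα hB hb
  have h := SteinerCount.exact_count_g (B := B) b _ hf (Finset.empty_subset b)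
  rw [hB.1 b hb] at h
  have h2 : {c : Finset α | c ∈ B ∧ Disjoint b c} = {c : Finset α | c ∈ B ∧ b ∩ c = ∅} := by
    ext c
    simp [Finset.disjoint_iff_inter_eq_empty]
  rw [h2, h, Finset.card_empty]
  decide

end Cfsg.Agent.S0354
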