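import Cfsg.Statements.S0357
import Cfsg.Agent.Lib.SteinerCases
-- import your own Cfsg.Agent.* helpers here

set_option autoImplicit false
open Cfsg

namespace Cfsg.Agent.S0357

/-- In a Steiner system S(5, 6, 12), the complement of every block is again a block. -/
theorem result {α : Type*} [Fintype α] [DecidableEq α] (hα : Fintype.card α = 12) {B : Set (Finset α)} (hB : Cfsg.IsSteinerSystem 5 6 B) {b : Finset α} (hb : b ∈ B) : bᶜ ∈ B := by
  have hf := SteinerCount.hf12 hα hB hb
  have h := SteinerCount.exact_count_g (B := B) b _ hf (Finset.empty_subset b)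
  rw [hB.1 b hb] at h
  rw [Finset.card_empty] at h
  have h1 : SteinerCount.g (SteinerCount.seqOf [132, 66, 30, 12, 4]) (6 - 0) 0 = 1 := by
    decide
  rw [h1, Set.ncard_eq_one] at h
  obtain ⟨c, hc⟩ := h
  have hcm : c ∈ ({c} : Set (Finset α)) := rfl
  rw [← hc] at hcm
  have hsub : c ⊆ bᶜ := by
    intro a ha
    rw [Finset.mem_compl]
    intro hab
    have : a ∈ b ∩ c := Finset.mem_inter.2 ⟨hab, ha⟩
    rw [hcm.2] at this
    simp at this
  have hcard : bᶜ.card ≤ c.card := by
    rw [Finset.card_compl, hα, hB.1 b hb, hB.1 c hcm.1]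
  rw [← Finset.eq_of_subset_of_card_le hsub hcard]
  exact hcm.1

end Cfsg.Agent.S0357
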