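import Cfsg.Statements.S0369
import Cfsg.Agent.Lib.GolayCount

set_option autoImplicit false
set_option linter.unusedSimpArgs false
set_option linter.unusedVariables false
open Cfsg

namespace Cfsg.Agent.S0369
open Cfsg.Agent.Lib
open scoped Pointwise
open Cfsg.Agent.Lib.GolayBasic Cfsg.Agent.Lib.GolayCode Cfsg.Agent.Lib.GolayPerm Cfsg.Agent.Lib.GolayOrder Cfsg.Agent.Lib.GolayFacts Cfsg.Agent.Lib.GolayM23 Cfsg.Agent.Lib.GolayChain Cfsg.Agent.Lib.GolayM12 Cfsg.Agent.Lib.GolayCount Cfsg.Agent.Lib.GolayTools



/-- The group of the length-24 code coincides with the automorphism group of its octad system. -/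
theorem result : Cfsg.M24 = Cfsg.setSystemAut Cfsg.octads := by
  ext g
  obtain ⟨pp, h⟩ := exists_rep g
  constructor
  · intro hg
    show g • octads = octads
    apply Set.eq_of_subset_of_ncard_le
    · rintro _ ⟨o, ho, rfl⟩
      exact M24_smul_octad hg ho
    · rw [Set.ncard_smul_set]
    · exact Set.toFinite _
  · intro hg
    have hg' : g • octads = octads := hg
    rw [mem_M24_iff h]
    intro i hi
    have hr : ∀ i < 12, pc (row i) = 8 := by decide +kernel
    have h1 : GolayBasic.setOf (row i) ∈ octads :=
      (setOf_mem_octads (row_inCode hi).1).2 ⟨row_inCode hi, hr i hi⟩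
    have h2 : g • GolayBasic.setOf (row i) ∈ g • octads := Set.smul_mem_smul_set h1
    rw [hg', smul_setOf h, setOf_mem_octads (img_lt h _)] at h2
    exact h2.1

end Cfsg.Agent.S0369
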