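import Cfsg.Statements.S0371
import Cfsg.Agent.Lib.GolayCount

set_option autoImplicit false
set_option linter.unusedSimpArgs false
set_option linter.unusedVariables false
open Cfsg

namespace Cfsg.Agent.S0371
open Cfsg.Agent.Lib
open scoped Pointwise
open Cfsg.Agent.Lib.GolayBasic Cfsg.Agent.Lib.GolayCode Cfsg.Agent.Lib.GolayPerm Cfsg.Agent.Lib.GolayOrder Cfsg.Agent.Lib.GolayFacts Cfsg.Agent.Lib.GolayM23 Cfsg.Agent.Lib.GolayChain Cfsg.Agent.Lib.GolayM12 Cfsg.Agent.Lib.GolayCount Cfsg.Agent.Lib.GolayTools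

/-- packed multiplication -/
def mulPP (k : ℕ) : ℕ := pack (fun i => if i < 23 then (k * i) % 23 else 23) 24

theorem check : ∀ r : ZMod 23, r ≠ 0 → inM24B (mulPP (r * r).val) = true := by decide +kernel


/-- Multiplication by a nonzero square residue modulo 23, fixing the extra point, lies in the group of the length-24 code. -/
theorem result (u : (ZMod 23)ˣ) (hu : IsSquare u) : Equiv.optionCongr (Units.mulLeft u) ∈ Cfsg.M24 := by
  haveI : Fact (Nat.Prime 23) := ⟨by norm_num⟩
  obtain ⟨r, hr⟩ := hu
  have hk : ((u : ZMod 23)) = (r : ZMod 23) * (r : ZMod 23) := by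
    rw [hr]; rfl
  set k := ((r : ZMod 23) * (r : ZMod 23)).val with hkdef
  have hr0 : (r : ZMod 23) ≠ 0 := r.ne_zero
  have hrep : Rep (Equiv.optionCongr (Units.mulLeft u)) (mulPP k) := by
    intro p
    rw [mulPP, ap_pack _ _ _ (idx_lt p)]
    cases p with
    | none => rfl
    | some x =>
      have hxlt : x.val < 23 := x.val_lt
      show ((u : ZMod 23) * x).val = (if idx (some x) < 23 then k * idx (some x) % 23 else 23) % 32
      rw [if_pos (show idx (some x) < 23 from hxlt)]
      show ((u : ZMod 23) * x).val = (k * x.val % 23) % 32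
      rw [hk, ZMod.val_mul, ← hkdef]
      have h1 : (k * x.val) % 23 < 23 := Nat.mod_lt _ (by norm_num)
      omega
  exact mem_M24_of_check hrep (check (r : ZMod 23) hr0)

end Cfsg.Agent.S0371
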