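import Cfsg.Statements.S0382
import Cfsg.Agent.Lib.GolayM12

set_option autoImplicit false
set_option linter.unusedSimpArgs false
set_option linter.unusedVariables false
open scoped Pointwise
open Cfsg

namespace Cfsg.Agent.S0382
open Cfsg.Agent.Lib.GolayBasic Cfsg.Agent.Lib.GolayCode Cfsg.Agent.Lib.GolayPerm Cfsg.Agent.Lib.GolayOrder Cfsg.Agent.Lib.GolayFacts Cfsg.Agent.Lib.GolayM23 Cfsg.Agent.Lib.GolayChain Cfsg.Agent.Lib.GolayM12



/-- A dodecad stabiliser in the group of the length-24 code has order 95040 = 2^6·3^3·5·11. -/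
theorem result (d : Finset Cfsg.GolayPt) (hd : d ∈ Cfsg.dodecads) : Nat.card (MulAction.stabilizer Cfsg.M24 d) = 95040 := by
  exact card_stab_dod hd

end Cfsg.Agent.S0382
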