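import Cfsg.Statements.S0384
import Cfsg.Agent.Lib.GolayCount

set_option autoImplicit false
set_option linter.unusedSimpArgs false
set_option linter.unusedVariables false
open scoped Pointwise
open Cfsg

namespace Cfsg.Agent.S0384
open Cfsg.Agent.Lib
open scoped Pointwise
open Cfsg.Agent.Lib.GolayBasic Cfsg.Agent.Lib.GolayCode Cfsg.Agent.Lib.GolayPerm Cfsg.Agent.Lib.GolayOrder Cfsg.Agent.Lib.GolayFacts Cfsg.Agent.Lib.GolayM23 Cfsg.Agent.Lib.GolayChain Cfsg.Agent.Lib.GolayM12 Cfsg.Agent.Lib.GolayCount Cfsg.Agent.Lib.GolayTools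



/-- A dodecad stabiliser is sharply 5-transitive on the dodecad. -/
theorem result (d : Finset Cfsg.GolayPt) (hd : d ∈ Cfsg.dodecads) (x y : Fin 5 ↪ Cfsg.GolayPt) (hx : ∀ i, x i ∈ d) (hy : ∀ i, y i ∈ d) : ∃! g : MulAction.stabilizer Cfsg.M24 d, ∀ i, ((g : Cfsg.M24) : Equiv.Perm Cfsg.GolayPt) (x i) = y i := by
  obtain ⟨w, hw, rfl⟩ := exists_smul_D0 hd
  let ex : (Fin 5 ↪ GolayPt) → ℕ → GolayPt := fun u i => if h : i < 5 then w⁻¹ (u ⟨i, h⟩) else none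
  have hmem : ∀ (u : Fin 5 ↪ GolayPt), (∀ i, u i ∈ w • GolayBasic.setOf D0) →
      ∀ i < 5, ex u i ∈ GolayBasic.setOf D0 := by
    intro u hu i hi
    simp only [ex, hi, dif_pos]
    have := Finset.smul_mem_smul_finset (a := w⁻¹) (hu ⟨i, hi⟩)
    rw [inv_smul_smul] at this
    exact this
  have hinj : ∀ (u : Fin 5 ↪ GolayPt), ∀ i < 5, ∀ j < i, ex u i ≠ ex u j := by
    intro u i hi j hj he
    simp only [ex, hi, dif_pos, show j < 5 by omega] at he
    have h2 := u.injective (w⁻¹.injective he)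
    simp only [Fin.mk.injEq] at h2
    omega
  have hex : ∀ u i, ex u i.1 = w⁻¹ (u i) := by
    intro u i
    simp only [ex, i.2, dif_pos]
  obtain ⟨g, hg, hgm⟩ := exists_move12 (ex x) (ex y) (le_refl 5) (hmem x hx) (hmem y hy) (hinj x) (hinj y)
  have hstab : ∀ g ∈ H12, w * g * w⁻¹ ∈ M24 ∧ (w * g * w⁻¹) • (w • GolayBasic.setOf D0) = w • GolayBasic.setOf D0 := by
    intro g hg
    refine ⟨M24.mul_mem (M24.mul_mem hw hg.1) (M24.inv_mem hw), ?_⟩
    have : g • GolayBasic.setOf D0 = GolayBasic.setOf D0 := hg.2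
    rw [mul_smul, mul_smul, inv_smul_smul, this]
  have hgg := hstab g hg
  refine ⟨⟨⟨w * g * w⁻¹, hgg.1⟩, hgg.2⟩, ?_, ?_⟩
  · intro i
    have h1 := hgm i.1 i.2
    rw [hex, hex] at h1
    show w (g (w⁻¹ (x i))) = y i
    rw [h1]
    simp
  · rintro ⟨⟨g', hg'M⟩, hg's⟩ hg'm
    have hg's' : g' • (w • GolayBasic.setOf D0) = w • GolayBasic.setOf D0 := hg's
    -- conjugate back
    have hh : w⁻¹ * g' * w ∈ H12 := by
      refine ⟨?_, ?_⟩
      · exact M24.mul_mem (M24.mul_mem (M24.inv_mem hw) hg'M) hw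
      · show (w⁻¹ * g' * w) • GolayBasic.setOf D0 = GolayBasic.setOf D0
        rw [mul_smul, mul_smul, hg's', inv_smul_smul]
    have h3 : ∀ i < 5, (g⁻¹ * (w⁻¹ * g' * w)) (ex x i) = ex x i := by
      intro i hi
      have h4 := hgm i hi
      have h5 := hg'm ⟨i, hi⟩
      have h6 : ex x i = w⁻¹ (x ⟨i, hi⟩) := hex x ⟨i, hi⟩
      have h7 : ex y i = w⁻¹ (y ⟨i, hi⟩) := hex y ⟨i, hi⟩
      simp only [Equiv.Perm.mul_apply]
      rw [h6]
      have h8 : w (w⁻¹ (x ⟨i, hi⟩)) = x ⟨i, hi⟩ := by simp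
      rw [h8]
      have h9 : g' (x ⟨i, hi⟩) = y ⟨i, hi⟩ := h5
      rw [h9, ← h7, ← h4, h6]
      simp
    obtain ⟨t, ht, htm⟩ := exists_tuple12 (ex x) (le_refl 5) (hmem x hx) (hinj x)
    have h10 : t⁻¹ * (g⁻¹ * (w⁻¹ * g' * w)) * t ∈ FixC H12 ch12.b 5 := by
      refine mem_FixC.2 ⟨H12.mul_mem (H12.mul_mem (H12.inv_mem ht) (H12.mul_mem (H12.inv_mem hg) hh)) ht, fun j hj => ?_⟩
      simp only [Equiv.Perm.mul_apply]
      rw [htm j hj]
      have := h3 j hj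
      simp only [Equiv.Perm.mul_apply] at this
      rw [this, ← htm j hj]
      simp
    rw [F5_bot, Subgroup.mem_bot] at h10
    have h11 : g⁻¹ * (w⁻¹ * g' * w) = 1 := by
      have : t * (t⁻¹ * (g⁻¹ * (w⁻¹ * g' * w)) * t) * t⁻¹ = 1 := by rw [h10]; simp
      simpa [mul_assoc] using this
    have h12 : w⁻¹ * g' * w = g := inv_mul_eq_one.1 h11 |>.symm
    apply Subtype.ext
    apply Subtype.ext
    show g' = w * g * w⁻¹
    rw [← h12]
    group

end Cfsg.Agent.S0384
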