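import Cfsg.Statements.S0385
import Cfsg.Agent.Lib.GolayCount

set_option autoImplicit false
set_option linter.unusedSimpArgs false
set_option linter.unusedVariables false
open Cfsg

namespace Cfsg.Agent.S0385
open Cfsg.Agent.Lib
open scoped Pointwise
open Cfsg.Agent.Lib.GolayBasic Cfsg.Agent.Lib.GolayCode Cfsg.Agent.Lib.GolayPerm Cfsg.Agent.Lib.GolayOrder Cfsg.Agent.Lib.GolayFacts Cfsg.Agent.Lib.GolayM23 Cfsg.Agent.Lib.GolayChain Cfsg.Agent.Lib.GolayM12 Cfsg.Agent.Lib.GolayCount Cfsg.Agent.Lib.GolayTools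



/-- The 6-point intersections of octads with a fixed dodecad form a Steiner system S(5, 6, 12) on the dodecad. -/
theorem result (d : Finset Cfsg.GolayPt) (hd : d ∈ Cfsg.dodecads) : Cfsg.IsSteinerSystem 5 6 {h : Finset {p : Cfsg.GolayPt // p ∈ d} | ∃ o ∈ Cfsg.octads, (o ∩ d).card = 6 ∧ h = Finset.subtype (fun p => p ∈ d) o} := by
  classical
  constructor
  · rintro h ⟨o, ho, h6, rfl⟩
    rw [Finset.card_subtype, Finset.filter_mem_eq_inter, h6]
  · intro s hs
    let s' : Finset GolayPt := s.map (Function.Embedding.subtype _)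
    have hs' : s'.card = 5 := by simp [s', hs]
    have hs'd : s' ⊆ d := by
      intro p hp
      simp only [s', Finset.mem_map, Function.Embedding.subtype_apply, Subtype.exists, exists_and_right, exists_eq_right] at hp
      exact hp.1
    obtain ⟨o, ⟨ho, hso⟩, huniq⟩ := steiner.2 s' hs'
    have hcard : (o ∩ d).card = 6 := by
      have h5 : 5 ≤ (o ∩ d).card := by
        rw [← hs']
        exact Finset.card_le_card (Finset.subset_inter hso hs'd)
      rcases octad_dodecad_inter ho hd with h | h | h <;> omega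
    refine ⟨Finset.subtype (fun p => p ∈ d) o, ⟨⟨o, ho, hcard, rfl⟩, ?_⟩, ?_⟩
    · intro p hp
      rw [Finset.mem_subtype]
      apply hso
      simp only [s', Finset.mem_map]
      exact ⟨p, hp, rfl⟩
    · rintro b ⟨⟨o', ho', h6', rfl⟩, hsb⟩
      have : s' ⊆ o' := by
        intro p hp
        simp only [s', Finset.mem_map] at hp
        obtain ⟨q, hq, rfl⟩ := hp
        have := hsb hq
        rwa [Finset.mem_subtype] at this
      rw [huniq o' ⟨ho', this⟩]

end Cfsg.Agent.S0385
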