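import Cfsg.Statements.S0386
import Cfsg.Agent.Lib.GolayCount

set_option autoImplicit false
set_option linter.unusedSimpArgs false
set_option linter.unusedVariables false
open Cfsg

namespace Cfsg.Agent.S0386
open Cfsg.Agent.Lib
open scoped Pointwise
open Cfsg.Agent.Lib.GolayBasic Cfsg.Agent.Lib.GolayCode Cfsg.Agent.Lib.GolayPerm Cfsg.Agent.Lib.GolayOrder Cfsg.Agent.Lib.GolayFacts Cfsg.Agent.Lib.GolayM23 Cfsg.Agent.Lib.GolayChain Cfsg.Agent.Lib.GolayM12 Cfsg.Agent.Lib.GolayCount Cfsg.Agent.Lib.GolayTools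



/-- For a fixed dodecad, 132 octads meet it in 6 points, 132 in 2 points and 495 in 4 points. -/
theorem result (d : Finset Cfsg.GolayPt) (hd : d ∈ Cfsg.dodecads) : {o : Finset Cfsg.GolayPt | o ∈ Cfsg.octads ∧ (o ∩ d).card = 6}.ncard = 132 ∧ {o : Finset Cfsg.GolayPt | o ∈ Cfsg.octads ∧ (o ∩ d).card = 2}.ncard = 132 ∧ {o : Finset Cfsg.GolayPt | o ∈ Cfsg.octads ∧ (o ∩ d).card = 4}.ncard = 495 := by
  obtain ⟨w, hw, rfl⟩ := exists_smul_D0 hd
  have key : ∀ k, {o : Finset GolayPt | o ∈ octads ∧ (o ∩ w • GolayBasic.setOf D0).card = k}.ncard =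
      countBelow (fun i => Nat.beq (pc (Nat.land (octAt i) D0)) k) 759 := by
    intro k
    rw [ncard_sep_smul w (octads_smul hw) (octads_smul' hw)
      (fun o => (o ∩ GolayBasic.setOf D0).card = k) (fun o => (o ∩ w • GolayBasic.setOf D0).card = k)
      (fun o => by rw [card_smul_inter])]
    apply ncard_octads_sep
    intro i hi
    rw [card_setOf_inter]
    exact ⟨fun h => by rw [← h]; exact Nat.beq_refl _, fun h => Nat.eq_of_beq_eq_true h⟩
  rw [key, key, key]
  decide +kernel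

end Cfsg.Agent.S0386
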