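import Cfsg.Statements.S0424
import Cfsg.Agent.Lib.SuzPC

set_option autoImplicit false
open Cfsg

namespace Cfsg.Agent.S0424
open Cfsg.Agent.Lib.PChain Cfsg.Agent.Lib.PermChain Cfsg.Agent.Lib.PermChain2 Cfsg.Agent.Lib.SuzPD

theorem card0 : Nat.card (KK dD 0) = 448345497600 := by
  have h := (cert.card (r := 5) (j := 0) (by decide +kernel)).2
  rw [h]
  decide +kernel

theorem card1 : Nat.card (KK dD 1) = 251596800 := by
  have h := (cert.card (r := 4) (j := 1) (by decide +kernel)).2
  rw [h]
  decide +kernel

theorem hN : 0 < dD.N := by decide +kernel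
theorem hN1 : 1 < dD.N := by decide +kernel
theorem hk : 0 < dD.k := by decide +kernel
theorem hb0 : dD.B.getD 0 0 = 0 := by decide +kernel
theorem hlen : 0 < dD.B.length := by decide +kernel

theorem simpleG : IsSimpleGroup (KK dD 0) :=
  simple (S := sS) (p := 11) (e := 1) cert hk hb0 hlen hN sT sF sR sV sD hN1 (by norm_num)
    (by simpa using sP) (by rw [card1]; norm_num)

theorem trans : MulAction.IsPretransitive (KK dD 0) (Fin dD.N) :=
  pretrans cert hk hb0 hlen hN sT

theorem stab : Nat.card (MulAction.stabilizer (KK dD 0) (⟨0, hN⟩ : Fin dD.N)) = 251596800 := by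
  rw [stab_card cert hk hb0 hlen hN, card1]

/-- Existence of a simple group of order 448345497600. -/
theorem result : ∃ (G : Type) (_ : Group G), Cfsg.IsSuz G :=
  ⟨KK dD 0, inferInstance, simpleG, card0⟩

end Cfsg.Agent.S0424
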