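import Cfsg.Statements.S0427
import Mathlib
import Cfsg.Agent.Lib.S322Graph

set_option autoImplicit false
open Cfsg Cfsg.Agent.Lib.S322Graph

namespace Cfsg.Agent.S0427

/-- The block graph (adjacent = disjoint) of an S(3, 6, 22) is strongly regular with parameters (77, 16, 0, 4). -/
theorem result {α : Type*} [Fintype α] (hα : Fintype.card α = 22) {B : Set (Finset α)} (hB : Cfsg.IsSteinerSystem 3 6 B) [Fintype B] [DecidableRel (Cfsg.blockGraph B).Adj] : (Cfsg.blockGraph B).IsSRGWith 77 16 0 4 := by
  classical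
  have hne : ∀ c ∈ B, c.Nonempty := fun c hc => by
    rw [← Finset.card_pos, hB.1 c hc]
    norm_num
  have hadj : ∀ u w : B, (Cfsg.blockGraph B).Adj u w ↔ Disjoint (u : Finset α) (w : Finset α) := by
    intro u w
    rw [Cfsg.blockGraph, SimpleGraph.fromRel_adj]
    constructor
    · rintro ⟨-, h | h⟩
      · exact h
      · exact h.symm
    · intro h
      refine ⟨?_, Or.inl h⟩
      rintro rfl
      rw [disjoint_self] at h
      have h1 := hne _ u.2
      rw [h] at h1
      simp at h1
  have hcard : ∀ (S : Set B) [Fintype S], Fintype.card S = (Subtype.val '' S).ncard := by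
    intro S _
    rw [Set.ncard_image_of_injective _ Subtype.val_injective, ← Nat.card_eq_fintype_card, Nat.card_coe_set_eq]
  have hcommon : ∀ v w : B, Subtype.val '' ((Cfsg.blockGraph B).commonNeighbors v w) =
      ↑((bf B).filter (fun c => Disjoint c (v : Finset α) ∧ Disjoint c (w : Finset α))) := by
    intro v w
    ext c
    simp only [Set.mem_image, SimpleGraph.mem_commonNeighbors, Finset.coe_filter, mem_bf, Set.mem_setOf_eq]
    constructor
    · rintro ⟨u, ⟨hu1, hu2⟩, rfl⟩
      exact ⟨u.2, ((hadj _ _).1 hu1).symm, ((hadj _ _).1 hu2).symm⟩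
    · rintro ⟨hc, h1, h2⟩
      exact ⟨⟨c, hc⟩, ⟨(hadj _ _).2 h1.symm, (hadj _ _).2 h2.symm⟩, rfl⟩
  refine ⟨?_, ?_, ?_, ?_⟩
  · have h : Fintype.card B = B.ncard := by rw [← Nat.card_eq_fintype_card, Nat.card_coe_set_eq]
    rw [h, ← card_bf hα hB, ← Set.ncard_coe_finset]
    congr 1
    ext c
    simp [mem_bf]
  · intro v
    rw [← SimpleGraph.card_neighborSet_eq_degree, hcard]
    have e : Subtype.val '' ((Cfsg.blockGraph B).neighborSet v) = ↑((bf B).filter (fun c => Disjoint (v : Finset α) c)) := by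
      ext c
      simp only [Set.mem_image, SimpleGraph.mem_neighborSet, Finset.coe_filter, mem_bf, Set.mem_setOf_eq]
      constructor
      · rintro ⟨u, hu, rfl⟩
        exact ⟨u.2, (hadj _ _).1 hu⟩
      · rintro ⟨hc, h⟩
        exact ⟨⟨c, hc⟩, (hadj _ _).2 h, rfl⟩
    rw [e, Set.ncard_coe_finset, disj_count hα hB v.2]
  · intro v w hvw
    have hd := (hadj _ _).1 hvw
    have hv : (v : Finset α) ≠ w := fun h => hvw.ne (Subtype.ext h)
    rw [hcard, hcommon, Set.ncard_coe_finset, two_disj hα hB v.2 w.2 hv, Finset.disjoint_iff_inter_eq_empty.1 hd]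
    simp
  · intro v w hvw hnadj
    have hv : (v : Finset α) ≠ w := fun h => hvw (Subtype.ext h)
    rw [hcard, hcommon, Set.ncard_coe_finset, two_disj hα hB v.2 w.2 hv]
    rcases inter02 hα hB v.2 w.2 hv with h | h
    · exfalso
      apply hnadj
      rw [hadj, Finset.disjoint_iff_inter_eq_empty]
      exact Finset.card_eq_zero.1 h
    · rw [h]

end Cfsg.Agent.S0427
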