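import Cfsg.Statements.S0428
import Mathlib
import Cfsg.Agent.Lib.S322Graph

set_option autoImplicit false
open Cfsg Cfsg.Agent.Lib.S322Graph

namespace Cfsg.Agent.S0428

theorem ncard_eq_sum {γ : Type*} [Fintype γ] (T : Set γ) [DecidablePred (· ∈ T)] : T.ncard = ∑ x, if x ∈ T then 1 else 0 := by
  rw [← Finset.card_filter, ← Set.ncard_coe_finset]
  congr 1
  ext x
  simp


/-- The point-block graph of an S(3, 6, 22) is strongly regular with parameters (100, 22, 0, 6). -/
theorem result {α : Type*} [Fintype α] (hα : Fintype.card α = 22) {B : Set (Finset α)} (hB : Cfsg.IsSteinerSystem 3 6 B) [Fintype B] [DecidableRel (Cfsg.pointBlockGraph B).Adj] : (Cfsg.pointBlockGraph B).IsSRGWith 100 22 0 6 := by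
  classical
  let G := Cfsg.pointBlockGraph B
  have A1 : ∀ a, G.Adj none (some (Sum.inl a)) := fun a => by
    simp [G, Cfsg.pointBlockGraph, SimpleGraph.fromRel_adj, Cfsg.pointBlockRel]
  have A2 : ¬ G.Adj none none := G.irrefl
  have A3 : ∀ b, ¬ G.Adj none (some (Sum.inr b)) := fun b => by
    simp [G, Cfsg.pointBlockGraph, SimpleGraph.fromRel_adj, Cfsg.pointBlockRel]
  have A5 : ∀ a a', ¬ G.Adj (some (Sum.inl a)) (some (Sum.inl a')) := fun a a' => by
    simp [G, Cfsg.pointBlockGraph, SimpleGraph.fromRel_adj, Cfsg.pointBlockRel]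
  have A6 : ∀ (a : α) (b : B), G.Adj (some (Sum.inl a)) (some (Sum.inr b)) ↔ a ∈ (b : Finset α) := fun a b => by
    simp [G, Cfsg.pointBlockGraph, SimpleGraph.fromRel_adj, Cfsg.pointBlockRel]
  have hne : ∀ c ∈ B, c.Nonempty := fun c hc => by
    rw [← Finset.card_pos, hB.1 c hc]
    norm_num
  have A9 : ∀ b c : B, G.Adj (some (Sum.inr b)) (some (Sum.inr c)) ↔ Disjoint (b : Finset α) (c : Finset α) := fun b c => by
    simp only [G, Cfsg.pointBlockGraph, SimpleGraph.fromRel_adj, Cfsg.pointBlockRel]
    constructor
    · rintro ⟨-, h | h⟩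
      · exact h
      · exact h.symm
    · intro h
      refine ⟨?_, Or.inl h⟩
      intro heq
      have h0 : b = c := by simpa using heq
      subst h0
      rw [disjoint_self] at h
      have h1 := hne _ b.2
      rw [h] at h1
      simp at h1
  have A4 : ∀ a, G.Adj (some (Sum.inl a)) none := fun a => (A1 a).symm
  have A7 : ∀ b, ¬ G.Adj (some (Sum.inr b)) none := fun b h => A3 b h.symm
  have A8 : ∀ (b : B) (a : α), G.Adj (some (Sum.inr b)) (some (Sum.inl a)) ↔ a ∈ (b : Finset α) := fun b a =>
    ⟨fun h => (A6 a b).1 h.symm, fun h => ((A6 a b).2 h).symm⟩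
  -- counting a subset of the vertices
  have hsplit : ∀ (S : Set (Option (α ⊕ B))) [Fintype S], Fintype.card S = (if none ∈ S then 1 else 0) +
      {a : α | some (Sum.inl a) ∈ S}.ncard + {b : B | some (Sum.inr b) ∈ S}.ncard := by
    intro S _
    rw [← Nat.card_eq_fintype_card, Nat.card_coe_set_eq, ncard_eq_sum S, ncard_eq_sum, ncard_eq_sum, Fintype.sum_option, Fintype.sum_sum_type]
    simp only [Set.mem_setOf_eq]
    ring
  have hα' : Set.ncard (Set.univ : Set α) = 22 := by
    rw [Set.ncard_univ, Nat.card_eq_fintype_card, hα]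
  have hpts : ∀ X : Finset α, {a : α | a ∈ X}.ncard = X.card := by
    intro X
    rw [← Set.ncard_coe_finset]
    rfl
  have hblk : ∀ (P : Finset α → Prop), {b : B | P (b : Finset α)}.ncard = ((bf B).filter P).card := by
    intro P
    rw [← Set.ncard_coe_finset, ← Set.ncard_image_of_injective _ Subtype.val_injective]
    congr 1
    ext c
    simp only [Set.mem_image, Set.mem_setOf_eq, Finset.coe_filter, mem_bf]
    constructor
    · rintro ⟨u, hu, rfl⟩
      exact ⟨u.2, hu⟩
    · rintro ⟨hc, h⟩
      exact ⟨⟨c, hc⟩, h, rfl⟩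
  have hcommon : ∀ (x y : Option (α ⊕ B)) [Fintype (G.commonNeighbors x y)], Fintype.card (G.commonNeighbors x y) =
      (if G.Adj x none ∧ G.Adj y none then 1 else 0) + {a : α | G.Adj x (some (Sum.inl a)) ∧ G.Adj y (some (Sum.inl a))}.ncard +
        {b : B | G.Adj x (some (Sum.inr b)) ∧ G.Adj y (some (Sum.inr b))}.ncard := by
    intro x y _
    rw [hsplit]
    simp only [SimpleGraph.mem_commonNeighbors]
  have hnbr : ∀ (x : Option (α ⊕ B)) [Fintype (G.neighborSet x)], Fintype.card (G.neighborSet x) =
      (if G.Adj x none then 1 else 0) + {a : α | G.Adj x (some (Sum.inl a))}.ncard +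
        {b : B | G.Adj x (some (Sum.inr b))}.ncard := by
    intro x _
    rw [hsplit]
    simp only [SimpleGraph.mem_neighborSet]
  have hcommon_symm : ∀ (x y : Option (α ⊕ B)), (G.commonNeighbors x y) = (G.commonNeighbors y x) := by
    intro x y
    exact SimpleGraph.commonNeighbors_symm G x y
  refine ⟨?_, ?_, ?_, ?_⟩
  · rw [Fintype.card_option, Fintype.card_sum, hα]
    have h : Fintype.card B = B.ncard := by rw [← Nat.card_eq_fintype_card, Nat.card_coe_set_eq]
    have h77 : B.ncard = 77 := by
      rw [← card_bf hα hB, ← Set.ncard_coe_finset]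
      congr 1
      ext c
      simp [mem_bf]
    rw [h, h77]
  · intro x
    rw [← SimpleGraph.card_neighborSet_eq_degree, hnbr]
    rcases x with _ | a | b
    · simp only [A2, A1, A3, if_false, Set.setOf_true, Set.setOf_false, Set.ncard_empty, hα']
    · have e : ∀ c : B, G.Adj (some (Sum.inl a)) (some (Sum.inr c)) ↔ a ∈ (c : Finset α) := A6 a
      simp only [A4, A5, if_true, Set.setOf_false, Set.ncard_empty, e]
      have h1 : {c : B | a ∈ (c : Finset α)}.ncard = 21 := by
        rw [hblk (fun c => a ∈ c)]
        convert lam1 hα hB a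
      rw [h1]
    · simp only [A7, A8, A9, if_false]
      have h1 : {c : B | Disjoint (b : Finset α) (c : Finset α)}.ncard = 16 := by
        rw [hblk (fun c => Disjoint (b : Finset α) c)]
        convert disj_count hα hB b.2
      rw [hpts, hB.1 _ b.2, h1]
  · -- adjacent vertices have no common neighbours
    have key : ∀ (x y : Option (α ⊕ B)) [Fintype (G.commonNeighbors x y)], G.Adj x y →
        (∃ a, x = none ∧ y = some (Sum.inl a)) ∨ (∃ a b, x = some (Sum.inl a) ∧ y = some (Sum.inr b)) ∨
        (∃ b c, x = some (Sum.inr b) ∧ y = some (Sum.inr c)) → Fintype.card (G.commonNeighbors x y) = 0 := by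
      intro x y _ hxy hc
      rw [hcommon]
      rcases hc with ⟨a, rfl, rfl⟩ | ⟨a, b, rfl, rfl⟩ | ⟨b, c, rfl, rfl⟩
      · simp only [A2, A5, A3, false_and, and_false, if_false, Set.setOf_false, Set.ncard_empty]
      · have ha : a ∈ (b : Finset α) := (A6 a b).1 hxy
        have e : ∀ d : B, (a ∈ (d : Finset α) ∧ Disjoint (b : Finset α) (d : Finset α)) ↔ False := by
          intro d
          simp only [iff_false, not_and]
          intro had hd
          exact Finset.disjoint_left.1 hd ha had
        simp only [A7, A5, A6, A9, e, false_and, and_false, if_false, Set.setOf_false, Set.ncard_empty]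
      · have hd : Disjoint (b : Finset α) (c : Finset α) := (A9 b c).1 hxy
        have hbc : (b : Finset α) ≠ c := by
          intro h
          have h0 : b = c := Subtype.ext h
          exact G.ne_of_adj hxy (by rw [h0])
        have e : ∀ a : α, (a ∈ (b : Finset α) ∧ a ∈ (c : Finset α)) ↔ False := by
          intro a
          simp only [iff_false, not_and]
          exact fun h1 h2 => Finset.disjoint_left.1 hd h1 h2
        have e2 : {d : B | Disjoint (b : Finset α) (d : Finset α) ∧ Disjoint (c : Finset α) (d : Finset α)}.ncard = 0 := by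
          rw [hblk (fun d => Disjoint (b : Finset α) d ∧ Disjoint (c : Finset α) d)]
          have := two_disj hα hB b.2 c.2 hbc
          rw [Finset.disjoint_iff_inter_eq_empty.1 hd] at this
          simp only [disjoint_comm (b := (b : Finset α)), disjoint_comm (b := (c : Finset α))] at this ⊢
          simpa using this
        simp only [A7, A8, e, false_and, and_false, if_false, Set.setOf_false, Set.ncard_empty, A9, e2]
    intro x y hxy
    rcases x with _ | a | b <;> rcases y with _ | a' | b'
    · exact absurd hxy A2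
    · exact key _ _ hxy (Or.inl ⟨_, rfl, rfl⟩)
    · exact absurd hxy (A3 _)
    · rw [Fintype.card_congr (Equiv.setCongr (hcommon_symm _ _))]
      exact key _ _ hxy.symm (Or.inl ⟨_, rfl, rfl⟩)
    · exact absurd hxy (A5 _ _)
    · exact key _ _ hxy (Or.inr (Or.inl ⟨_, _, rfl, rfl⟩))
    · exact absurd hxy (A7 _)
    · rw [Fintype.card_congr (Equiv.setCongr (hcommon_symm _ _))]
      exact key _ _ hxy.symm (Or.inr (Or.inl ⟨_, _, rfl, rfl⟩))
    · exact key _ _ hxy (Or.inr (Or.inr ⟨_, _, rfl, rfl⟩))
  · -- non-adjacent vertices have six common neighbours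
    have key : ∀ (x y : Option (α ⊕ B)) [Fintype (G.commonNeighbors x y)], x ≠ y → ¬ G.Adj x y →
        (∃ b, x = none ∧ y = some (Sum.inr b)) ∨ (∃ a a', x = some (Sum.inl a) ∧ y = some (Sum.inl a')) ∨
        (∃ a b, x = some (Sum.inl a) ∧ y = some (Sum.inr b)) ∨
        (∃ b c, x = some (Sum.inr b) ∧ y = some (Sum.inr c)) → Fintype.card (G.commonNeighbors x y) = 6 := by
      intro x y _ hne' hxy hc
      rw [hcommon]
      rcases hc with ⟨b, rfl, rfl⟩ | ⟨a, a', rfl, rfl⟩ | ⟨a, b, rfl, rfl⟩ | ⟨b, c, rfl, rfl⟩
      · simp only [A2, A1, A8, A3, false_and, and_false, true_and, if_false, Set.setOf_false, Set.ncard_empty]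
        rw [hpts, hB.1 _ b.2]
      · have ha : a ≠ a' := fun h => hne' (by rw [h])
        simp only [A4, A5, A6, and_self, if_true, false_and, Set.setOf_false, Set.ncard_empty]
        have h1 : {c : B | a ∈ (c : Finset α) ∧ a' ∈ (c : Finset α)}.ncard = 5 := by
          rw [hblk (fun c => a ∈ c ∧ a' ∈ c)]
          convert lam2 hα hB ha
        rw [h1]
      · have ha : a ∉ (b : Finset α) := fun h => hxy ((A6 a b).2 h)
        simp only [A4, A7, A5, A6, A9, and_false, false_and, if_false, Set.setOf_false, Set.ncard_empty]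
        rw [hblk (fun c => a ∈ c ∧ Disjoint (b : Finset α) c)]
        have := point_disj hα hB b.2 ha
        simp only [disjoint_comm (a := (b : Finset α))]
        simpa [disjoint_comm] using this
      · have hbc : (b : Finset α) ≠ c := by
          intro h
          have h0 : b = c := Subtype.ext h
          exact hne' (by rw [h0])
        have hnd : ¬ Disjoint (b : Finset α) (c : Finset α) := fun h => hxy ((A9 b c).2 h)
        have hi : ((b : Finset α) ∩ c).card = 2 := by
          rcases inter02 hα hB b.2 c.2 hbc with h | h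
          · exact absurd (Finset.disjoint_iff_inter_eq_empty.2 (Finset.card_eq_zero.1 h)) hnd
          · exact h
        have e1 : {a : α | a ∈ (b : Finset α) ∧ a ∈ (c : Finset α)}.ncard = 2 := by
          rw [← hi, ← Set.ncard_coe_finset]
          congr 1
          ext a
          simp
        have e2 : {d : B | Disjoint (b : Finset α) (d : Finset α) ∧ Disjoint (c : Finset α) (d : Finset α)}.ncard = 4 := by
          rw [hblk (fun d => Disjoint (b : Finset α) d ∧ Disjoint (c : Finset α) d)]
          have := two_disj hα hB b.2 c.2 hbc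
          rw [hi] at this
          have e3 : ∀ d : Finset α, (Disjoint (b : Finset α) d ∧ Disjoint (c : Finset α) d) ↔ (Disjoint d (b : Finset α) ∧ Disjoint d (c : Finset α)) :=
            fun d => by rw [disjoint_comm, @disjoint_comm _ _ _ (c : Finset α)]
          simp only [e3]
          convert this
        simp only [A7, A8, A9, and_self, false_and, and_false, if_false, e1, e2]
    intro x y hxy hn
    rcases x with _ | a | b <;> rcases y with _ | a' | b'
    · exact absurd rfl hxy
    · exact absurd (A1 _) hn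
    · exact key _ _ hxy hn (Or.inl ⟨_, rfl, rfl⟩)
    · exact absurd (A4 _) hn
    · exact key _ _ hxy hn (Or.inr (Or.inl ⟨_, _, rfl, rfl⟩))
    · exact key _ _ hxy hn (Or.inr (Or.inr (Or.inl ⟨_, _, rfl, rfl⟩)))
    · rw [Fintype.card_congr (Equiv.setCongr (hcommon_symm _ _))]
      exact key _ _ hxy.symm (fun h => hn h.symm) (Or.inl ⟨_, rfl, rfl⟩)
    · rw [Fintype.card_congr (Equiv.setCongr (hcommon_symm _ _))]
      exact key _ _ hxy.symm (fun h => hn h.symm) (Or.inr (Or.inr (Or.inl ⟨_, _, rfl, rfl⟩)))
    · exact key _ _ hxy hn (Or.inr (Or.inr (Or.inr ⟨_, _, rfl, rfl⟩)))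

end Cfsg.Agent.S0428
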