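import Cfsg.Statements.S0432
import Cfsg.Agent.Lib.LeechBasic
-- import your own Cfsg.Agent.* helpers here

set_option autoImplicit false
open Cfsg

namespace Cfsg.Agent.S0432

open scoped Pointwise


/-- Coordinate permutations from the code's group preserve the lattice. -/
theorem result (σ : Equiv.Perm Cfsg.GolayPt) (hσ : σ ∈ Cfsg.M24) (x : Cfsg.GolayPt → ℤ) (hx : x ∈ Cfsg.leechLattice) : (fun i => x (σ i)) ∈ Cfsg.leechLattice := by
  rw [LeechBasic.mem_lattice] at hx ⊢
  obtain ⟨m, A, hA, h4, hs⟩ := LeechBasic.dec hx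
  have hσ' : σ⁻¹ ∈ Cfsg.M24 := inv_mem hσ
  have hsm : σ⁻¹ • (supports (golayCode : Set (GolayPt → ZMod 2))) = supports (golayCode : Set (GolayPt → ZMod 2)) := hσ'
  have hA' : LeechBasic.Cd (σ⁻¹ • A) := by
    show σ⁻¹ • A ∈ supports (golayCode : Set (GolayPt → ZMod 2))
    rw [← hsm]
    exact Set.smul_mem_smul_set hA
  refine LeechBasic.mk _ m (σ⁻¹ • A) hA' ?_ ?_
  · intro i
    have := h4 (σ i)
    have h2 : LeechBasic.ind (σ⁻¹ • A) i = LeechBasic.ind A (σ i) := by
      unfold LeechBasic.ind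
      have : i ∈ σ⁻¹ • A ↔ σ i ∈ A := by
        rw [Finset.mem_smul_finset]
        constructor
        · rintro ⟨a, ha, rfl⟩
          simpa using ha
        · intro h
          exact ⟨σ i, h, by simp⟩
      simp [this]
    rw [h2]
    exact this
  · rw [Equiv.sum_comp σ x]
    exact hs

end Cfsg.Agent.S0432
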