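import Cfsg.Statements.S0433
import Cfsg.Agent.Lib.LeechBasic
-- import your own Cfsg.Agent.* helpers here

set_option autoImplicit false
open Cfsg

namespace Cfsg.Agent.S0433

/-- Sign changes on the support of a codeword preserve the lattice. -/
theorem result (c : Finset Cfsg.GolayPt) (hc : c ∈ Cfsg.supports (Cfsg.golayCode : Set (Cfsg.GolayPt → ZMod 2))) (x : Cfsg.GolayPt → ℤ) (hx : x ∈ Cfsg.leechLattice) : (fun i => if i ∈ c then -x i else x i) ∈ Cfsg.leechLattice := by
  rw [LeechBasic.mem_lattice] at hx ⊢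
  obtain ⟨m, A, hA, h4, hs⟩ := LeechBasic.dec hx
  -- the sum over the code word is divisible by 4
  have hsum4 : (∑ i ∈ c, x i) % 4 = 0 := by
    have h1 : (∑ i ∈ c, x i) ≡ ∑ i ∈ c, (m + 2 * LeechBasic.ind A i) [ZMOD 4] :=
      Int.ModEq.sum (fun i _ => h4 i)
    have h2 : ∑ i ∈ c, (m + 2 * LeechBasic.ind A i) = c.card * m + 2 * ((A ∩ c).card : ℤ) := by
      rw [Finset.sum_add_distrib, ← Finset.mul_sum, Finset.sum_const, nsmul_eq_mul]
      congr 2
      unfold LeechBasic.ind
      rw [Finset.sum_boole]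
      congr 2
      ext i
      simp [and_comm]
    rw [h2] at h1
    have h3 := LeechBasic.cd_card hc
    have h5 := LeechBasic.cd_inter hA hc
    have h6 : (c.card : ℤ) * m % 4 = 0 := by
      have : (4 : ℤ) ∣ c.card := by
        have : 4 ∣ c.card := Nat.dvd_of_mod_eq_zero h3
        exact_mod_cast this
      exact Int.emod_eq_zero_of_dvd (Dvd.dvd.mul_right this m)
    unfold Int.ModEq at h1
    omega
  have hsum' : ∑ i, (if i ∈ c then -x i else x i) = ∑ i, x i - 2 * ∑ i ∈ c, x i := by
    have h1 : ∀ i, (if i ∈ c then -x i else x i) = x i - 2 * (if i ∈ c then x i else 0) := by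
      intro i; split_ifs <;> ring
    simp only [h1, Finset.sum_sub_distrib, ← Finset.mul_sum]
    rw [Finset.sum_ite_mem, Finset.univ_inter]
  by_cases hm : m % 2 = 0
  · refine LeechBasic.mk _ m A hA ?_ ?_
    · intro i
      have h1 := h4 i
      unfold Int.ModEq at h1 ⊢
      unfold LeechBasic.ind at h1 ⊢
      split_ifs at h1 ⊢ <;> omega
    · rw [hsum']
      unfold Int.ModEq at hs ⊢
      omega
  · refine LeechBasic.mk _ m (symmDiff A c) (LeechBasic.cd_symmDiff hA hc) ?_ ?_
    · intro i
      have h1 := h4 i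
      unfold Int.ModEq at h1 ⊢
      unfold LeechBasic.ind at h1 ⊢
      simp only [Finset.mem_symmDiff]
      by_cases ha : i ∈ A <;> by_cases hc' : i ∈ c <;> simp only [ha, hc', if_true, if_false] at h1 ⊢ <;>
        simp <;> omega
    · rw [hsum']
      unfold Int.ModEq at hs ⊢
      omega

end Cfsg.Agent.S0433
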