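import Cfsg.Statements.S0439

set_option autoImplicit false
open Cfsg

namespace Cfsg.Agent.S0439

open Equiv Equiv.Perm

theorem prod_swaps {n : ℕ} {a b c d : Fin n} (hab : a ≠ b) (hcd : c ≠ d) :
    (swap a b * swap c d) ^ 2 = 1 ∨ (swap a b * swap c d) ^ 3 = 1 := by
  have three : ∀ {x y z : Fin n}, x ≠ y → x ≠ z → y ≠ z → (swap x y * swap x z) ^ 3 = 1 := by
    intro x y z h1 h2 h3
    have := (isThreeCycle_swap_mul_swap_same h1 h2 h3).orderOf
    rw [← this]
    exact pow_orderOf_eq_one _
  have sq : (swap a b : Perm (Fin n)) * swap a b = 1 := swap_mul_self a b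
  by_cases h1 : a = c
  · subst h1
    by_cases h2 : b = d
    · subst h2
      left
      rw [pow_two, sq, one_mul]
    · right
      exact three hab hcd h2
  by_cases h2 : a = d
  · subst h2
    by_cases h3 : b = c
    · subst h3
      left
      rw [swap_comm b a, pow_two, sq, one_mul]
    · right
      rw [swap_comm c a]
      exact three hab (Ne.symm hcd) h3
  by_cases h3 : b = c
  · subst h3
    right
    rw [swap_comm a b]
    exact three (Ne.symm hab) hcd (fun h => h2 h)
  by_cases h4 : b = d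
  · subst h4
    right
    rw [swap_comm a b, swap_comm c b]
    exact three (Ne.symm hab) (Ne.symm hcd) h1
  left
  have hdis : Disjoint (swap a b) (swap c d) :=
    disjoint_swap_swap (by simp [*])
  rw [hdis.commute.mul_pow, pow_two, pow_two, sq, swap_mul_self, one_mul]

/-- In the symmetric group of degree n ≥ 2, the set of transpositions is a conjugacy class of 3-transpositions which generates the group. -/
theorem result (n : ℕ) (hn : 2 ≤ n) : Cfsg.IsThreeTranspositionClass {σ : Equiv.Perm (Fin n) | σ.IsSwap} := by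
  refine ⟨⟨?_, ?_⟩, ?_, closure_isSwap⟩
  · intro σ hσ
    exact IsSwap.orderOf hσ
  · rintro _ ⟨a, b, hab, rfl⟩ _ ⟨c, d, hcd, rfl⟩
    exact prod_swaps hab hcd
  · have h01 : (⟨0, by omega⟩ : Fin n) ≠ ⟨1, by omega⟩ := by simp [Fin.ext_iff]
    refine ⟨swap ⟨0, by omega⟩ ⟨1, by omega⟩, ⟨_, _, h01, rfl⟩, ?_⟩
    ext σ
    show IsSwap σ ↔ IsConj _ σ
    constructor
    · rintro ⟨a, b, hab, rfl⟩
      exact isConj_swap h01 hab
    · intro h
      obtain ⟨g, rfl⟩ := isConj_iff.mp h
      exact ⟨g ⟨0, by omega⟩, g ⟨1, by omega⟩, fun h => h01 (g.injective h), (swap_apply_apply g _ _).symm⟩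

end Cfsg.Agent.S0439
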