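import Cfsg.Statements.S0442
import Mathlib.Tactic.Group

set_option autoImplicit false
open Cfsg

namespace Cfsg.Agent.S0442

theorem semi {G : Type*} [Group G] {a c : G} (ha : a * a = 1) (hc : c * c = 1) (n : ℕ) :
    a * (a * c) ^ n = ((a * c)⁻¹) ^ n * a := by
  have hainv : a⁻¹ = a := inv_eq_of_mul_eq_one_left ha
  have hcinv : c⁻¹ = c := inv_eq_of_mul_eq_one_left hc
  have h : SemiconjBy a (a * c) ((a * c)⁻¹) := by
    show a * (a * c) = (a * c)⁻¹ * a
    rw [mul_inv_rev, hainv, hcinv, mul_assoc, ha, mul_one, ← mul_assoc, ha, one_mul]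
  exact (h.pow_right n).eq

/-- A standard trick for producing elements of an involution centraliser: for an involution a and an element g, let b be the conjugate g⁻¹ * a * g. If a * b has odd order 2m + 1 then g * (a * b) ^ m commutes with a; if a * b has even order 2m then (a * b) ^ m and (a * (g * a * g⁻¹)) ^ m commute with a. -/
theorem result {G : Type*} [Group G] (a g : G) (ha : orderOf a = 2) : (∀ m : ℕ, orderOf (a * (g⁻¹ * a * g)) = 2 * m + 1 → Commute (g * (a * (g⁻¹ * a * g)) ^ m) a) ∧ (∀ m : ℕ, orderOf (a * (g⁻¹ * a * g)) = 2 * m → Commute ((a * (g⁻¹ * a * g)) ^ m) a ∧ Commute ((a * (g * a * g⁻¹)) ^ m) a) := by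
  have haa : a * a = 1 := by
    have := pow_orderOf_eq_one a
    rwa [ha, pow_two] at this
  have hbb : (g⁻¹ * a * g) * (g⁻¹ * a * g) = 1 := by
    have : (g⁻¹ * a * g) * (g⁻¹ * a * g) = g⁻¹ * (a * a) * g := by group
    rw [this, haa]; group
  have hcc : (g * a * g⁻¹) * (g * a * g⁻¹) = 1 := by
    have : (g * a * g⁻¹) * (g * a * g⁻¹) = g * (a * a) * g⁻¹ := by group
    rw [this, haa]; group
  have hainv : a⁻¹ = a := inv_eq_of_mul_eq_one_left haa
  constructor
  · intro m hm
    set b := g⁻¹ * a * g with hb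
    set y := a * b with hy
    show g * y ^ m * a = a * (g * y ^ m)
    have h1 : a * y ^ m = (y⁻¹) ^ m * a := semi haa hbb m
    have h2 : y ^ (2 * m + 1) = 1 := by rw [← hm]; exact pow_orderOf_eq_one y
    have h3 : (y⁻¹) ^ m = y ^ (m + 1) := by
      rw [inv_pow, inv_eq_iff_mul_eq_one, ← pow_add, show m + (m + 1) = 2 * m + 1 by ring]
      exact h2
    have h4 : y ^ m * a = a * (y⁻¹) ^ m := by
      have h5 : (y⁻¹) ^ m = a * y ^ m * a := by
        rw [h1, mul_assoc, haa, mul_one]
      rw [h5, ← mul_assoc, ← mul_assoc, haa, one_mul]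
    have h6 : a * g = g * b := by
      rw [hb]; group
    have h7 : b = a * y := by
      rw [hy, ← mul_assoc, haa, one_mul]
    calc g * y ^ m * a = g * (y ^ m * a) := mul_assoc _ _ _
      _ = g * (a * y ^ (m + 1)) := by rw [h4, h3]
      _ = g * (a * y * y ^ m) := by rw [pow_succ' y m, mul_assoc a y (y ^ m)]
      _ = g * (b * y ^ m) := by rw [← h7]
      _ = g * b * y ^ m := by rw [mul_assoc g b]
      _ = a * g * y ^ m := by rw [h6]
      _ = a * (g * y ^ m) := mul_assoc _ _ _
  · intro m hm
    constructor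
    · set b := g⁻¹ * a * g with hb
      set y := a * b with hy
      show y ^ m * a = a * y ^ m
      have h1 : a * y ^ m = (y⁻¹) ^ m * a := semi haa hbb m
      have h2 : y ^ (2 * m) = 1 := by rw [← hm]; exact pow_orderOf_eq_one y
      have h3 : (y⁻¹) ^ m = y ^ m := by
        rw [inv_pow, inv_eq_iff_mul_eq_one, ← pow_add, show m + m = 2 * m by ring]
        exact h2
      rw [h1, h3]
    · set c := g * a * g⁻¹ with hc
      set z := a * c with hz
      show z ^ m * a = a * z ^ m
      have h1 : a * z ^ m = (z⁻¹) ^ m * a := semi haa hcc m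
      have hord : orderOf z = 2 * m := by
        rw [← hm]
        have hcinv : c⁻¹ = c := inv_eq_of_mul_eq_one_left hcc
        have hconj : g * (a * (g⁻¹ * a * g)) * g⁻¹ = z⁻¹ := by
          rw [hz, mul_inv_rev, hcinv, hainv, hc]
          group
        have hsemi : SemiconjBy g (a * (g⁻¹ * a * g)) z⁻¹ := by
          show g * (a * (g⁻¹ * a * g)) = z⁻¹ * g
          rw [← hconj]
          group
        have := hsemi.orderOf_eq
        rw [orderOf_inv] at this
        exact this.symm
      have h2 : z ^ (2 * m) = 1 := by rw [← hord]; exact pow_orderOf_eq_one z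
      have h3 : (z⁻¹) ^ m = z ^ m := by
        rw [inv_pow, inv_eq_iff_mul_eq_one, ← pow_add, show m + m = 2 * m by ring]
        exact h2
      rw [h1, h3]

end Cfsg.Agent.S0442
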