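import Cfsg.Statements.S0443
import Mathlib.Tactic.Group

set_option autoImplicit false
open Cfsg

namespace Cfsg.Agent.S0443

/-- Two definitions of a 2-central involution agree: an element t of order 2 of a finite group lies in the centre of some Sylow 2-subgroup if and only if its centraliser contains some Sylow 2-subgroup. -/
theorem result {G : Type*} [Group G] [Finite G] (t : G) (ht : orderOf t = 2) : Cfsg.IsTwoCentralInvolution t ↔ ∃ P : Sylow 2 G, (P : Subgroup G) ≤ Subgroup.centralizer ({t} : Set G) := by
  constructor
  · rintro ⟨_, P, _, hP⟩
    refine ⟨P, fun x hx => ?_⟩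
    rw [Subgroup.mem_centralizer_iff]
    intro y hy
    rw [Set.mem_singleton_iff.mp hy]
    exact (hP x hx).symm
  · rintro ⟨P, hP⟩
    refine ⟨ht, P, ?_, fun x hx => ?_⟩
    · have hpz : IsPGroup 2 (Subgroup.zpowers t) := by
        refine IsPGroup.of_card (n := 1) ?_
        rw [Nat.card_zpowers, ht, pow_one]
      have hle : Subgroup.zpowers t ≤ Subgroup.normalizer ((P : Subgroup G) : Set G) := by
        rw [Subgroup.zpowers_le, Subgroup.mem_normalizer_iff]
        intro h
        have hcomm : ∀ x ∈ (P : Subgroup G), t * x * t⁻¹ = x := by
          intro x hx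
          have := Subgroup.mem_centralizer_iff.mp (hP hx) t (Set.mem_singleton t)
          rw [this, mul_inv_cancel_right]
        constructor
        · intro hh
          rw [hcomm h hh]; exact hh
        · intro hh
          have h1 : t⁻¹ * (t * h * t⁻¹) * t = h := by group
          have h2 := hcomm _ hh
          have h3 : t * h * t⁻¹ ∈ (P : Subgroup G) := hh
          have h4 : t⁻¹ * (t * h * t⁻¹) * t = t * h * t⁻¹ := by
            have h5 := Subgroup.mem_centralizer_iff.mp (hP hh) t (Set.mem_singleton t)
            rw [mul_assoc, ← h5]
            group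
          rw [h1] at h4
          rw [h4]; exact hh
      have hs : IsPGroup 2 ((P : Subgroup G) ⊔ Subgroup.zpowers t : Subgroup G) :=
        IsPGroup.to_sup_of_normal_left' P.isPGroup' hpz hle
      have heq := P.is_maximal' hs le_sup_left
      have : t ∈ (P : Subgroup G) ⊔ Subgroup.zpowers t :=
        Subgroup.mem_sup_right (Subgroup.mem_zpowers t)
      rw [heq] at this
      exact this
    · have := Subgroup.mem_centralizer_iff.mp (hP hx) t (Set.mem_singleton t)
      exact this.symm

end Cfsg.Agent.S0443
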