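import Cfsg.Statements.S0444

set_option autoImplicit false
set_option linter.unusedSimpArgs false
open Cfsg

namespace Cfsg.Agent.S0444

abbrev s0 : Equiv.Perm (Fin 3) := Equiv.swap 0 1
abbrev s1 : Equiv.Perm (Fin 3) := Equiv.swap 1 2

theorem all_perm (σ : Equiv.Perm (Fin 3)) :
    σ = 1 ∨ σ = s0 ∨ σ = s1 ∨ σ = s0 * s1 ∨ σ = s1 * s0 ∨ σ = s0 * s1 * s0 := by
  revert σ; decide

/-- Two members of a set of 3-transpositions which do not commute generate a subgroup isomorphic to the symmetric group on three letters. -/
theorem result {G : Type*} [Group G] {E : Set G} (hE : Cfsg.IsThreeTranspositionSet E) {d e : G} (hd : d ∈ E) (he : e ∈ E) (h : ¬ Commute d e) : Nonempty (Subgroup.closure ({d, e} : Set G) ≃* Equiv.Perm (Fin 3)) := by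
  classical
  have inv2 : ∀ x ∈ E, x * x = 1 := by
    intro x hx
    have := pow_orderOf_eq_one x
    rw [hE.1 x hx, pow_two] at this
    exact this
  have dd := inv2 d hd
  have ee := inv2 e he
  have dd' : ∀ x, d * (d * x) = x := fun x => by rw [← mul_assoc, dd, one_mul]
  have ee' : ∀ x, e * (e * x) = x := fun x => by rw [← mul_assoc, ee, one_mul]
  have ddi : d⁻¹ = d := inv_eq_of_mul_eq_one_left dd
  have eei : e⁻¹ = e := inv_eq_of_mul_eq_one_left ee
  have o3 : (d * e) ^ 3 = 1 := by
    rcases hE.2 d hd e he with h2 | h3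
    · exfalso
      apply h
      rw [pow_two] at h2
      have : d * e = (d * e)⁻¹ := eq_inv_of_mul_eq_one_left h2
      rw [mul_inv_rev, ddi, eei] at this
      exact this
    · exact h3
  -- braid
  have ede : e * (d * e) = d * (e * d) := by
    have h4 : d * (e * (d * (e * (d * e)))) = 1 := by
      simpa [pow_succ, mul_assoc] using o3
    have h5 : e * (d * (e * (d * e))) = d := by
      have := congrArg (fun z => d * z) h4
      simpa [dd', mul_one] using this
    have h6 : d * (e * (d * e)) = e * d := by
      have := congrArg (fun z => e * z) h5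
      simpa [ee'] using this
    have h7 : e * (d * e) = d * (e * d) := by
      have := congrArg (fun z => d * z) h6
      simpa [dd'] using this
    exact h7
  have ede' : ∀ x, e * (d * (e * x)) = d * (e * (d * x)) := fun x => by
    have : e * (d * (e * x)) = (e * (d * e)) * x := by simp only [mul_assoc]
    rw [this, ede]; simp only [mul_assoc]
  have dede : d * (e * (d * e)) = e * d := by
    rw [ede, dd']
  have dede' : ∀ x, d * (e * (d * (e * x))) = e * (d * x) := fun x => by
    have : d * (e * (d * (e * x))) = (d * (e * (d * e))) * x := by simp only [mul_assoc]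
    rw [this, dede]; simp only [mul_assoc]
  let f : Equiv.Perm (Fin 3) → G := fun σ =>
    if σ = 1 then 1 else if σ = s0 then d else if σ = s1 then e else if σ = s0 * s1 then d * e
    else if σ = s1 * s0 then e * d else d * e * d
  have f1 : f 1 = 1 := if_pos rfl
  have fs0 : f s0 = d := by
    show (if s0 = 1 then 1 else if s0 = s0 then d else _) = d
    rw [if_neg (by decide), if_pos rfl]
  have fs1 : f s1 = e := by
    show (if s1 = 1 then 1 else if s1 = s0 then d else if s1 = s1 then e else _) = e
    rw [if_neg (by decide), if_neg (by decide), if_pos rfl]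
  have fs01 : f (s0 * s1) = d * e := by
    show (if (s0 * s1) = 1 then 1 else if (s0 * s1) = s0 then d else if (s0 * s1) = s1 then e else if (s0 * s1) = s0 * s1 then d * e else _) = d * e
    rw [if_neg (by decide), if_neg (by decide), if_neg (by decide), if_pos rfl]
  have fs10 : f (s1 * s0) = e * d := by
    show (if (s1 * s0) = 1 then 1 else if (s1 * s0) = s0 then d else if (s1 * s0) = s1 then e else if (s1 * s0) = s0 * s1 then d * e else if (s1 * s0) = s1 * s0 then e * d else _) = e * d
    rw [if_neg (by decide), if_neg (by decide), if_neg (by decide), if_neg (by decide), if_pos rfl]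
  have fs010 : f (s0 * s1 * s0) = d * e * d := by
    show (if (s0 * s1 * s0) = 1 then 1 else if (s0 * s1 * s0) = s0 then d else if (s0 * s1 * s0) = s1 then e else if (s0 * s1 * s0) = s0 * s1 then d * e else if (s0 * s1 * s0) = s1 * s0 then e * d else d * e * d) = d * e * d
    rw [if_neg (by decide), if_neg (by decide), if_neg (by decide), if_neg (by decide), if_neg (by decide)]
  have fmul : ∀ σ τ, f (σ * τ) = f σ * f τ := by
    intro σ τ
    rcases all_perm σ with rfl | rfl | rfl | rfl | rfl | rfl <;>
      rcases all_perm τ with rfl | rfl | rfl | rfl | rfl | rfl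
    · rw [show f ((1) * (1)) = f (1) from congrArg f (by decide)]; simp only [f1, fs0, fs1, fs01, fs10, fs010] <;> simp only [mul_assoc, mul_one, one_mul, dd, ee, dd', ee', ede, ede', dede, dede']
    · rw [show f ((1) * (s0)) = f (s0) from congrArg f (by decide)]; simp only [f1, fs0, fs1, fs01, fs10, fs010] <;> simp only [mul_assoc, mul_one, one_mul, dd, ee, dd', ee', ede, ede', dede, dede']
    · rw [show f ((1) * (s1)) = f (s1) from congrArg f (by decide)]; simp only [f1, fs0, fs1, fs01, fs10, fs010] <;> simp only [mul_assoc, mul_one, one_mul, dd, ee, dd', ee', ede, ede', dede, dede']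
    · rw [show f ((1) * (s0 * s1)) = f (s0 * s1) from congrArg f (by decide)]; simp only [f1, fs0, fs1, fs01, fs10, fs010] <;> simp only [mul_assoc, mul_one, one_mul, dd, ee, dd', ee', ede, ede', dede, dede']
    · rw [show f ((1) * (s1 * s0)) = f (s1 * s0) from congrArg f (by decide)]; simp only [f1, fs0, fs1, fs01, fs10, fs010] <;> simp only [mul_assoc, mul_one, one_mul, dd, ee, dd', ee', ede, ede', dede, dede']
    · rw [show f ((1) * (s0 * s1 * s0)) = f (s0 * s1 * s0) from congrArg f (by decide)]; simp only [f1, fs0, fs1, fs01, fs10, fs010] <;> simp only [mul_assoc, mul_one, one_mul, dd, ee, dd', ee', ede, ede', dede, dede']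
    · rw [show f ((s0) * (1)) = f (s0) from congrArg f (by decide)]; simp only [f1, fs0, fs1, fs01, fs10, fs010] <;> simp only [mul_assoc, mul_one, one_mul, dd, ee, dd', ee', ede, ede', dede, dede']
    · rw [show f ((s0) * (s0)) = f (1) from congrArg f (by decide)]; simp only [f1, fs0, fs1, fs01, fs10, fs010] <;> simp only [mul_assoc, mul_one, one_mul, dd, ee, dd', ee', ede, ede', dede, dede']
    · rw [show f ((s0) * (s1)) = f (s0 * s1) from congrArg f (by decide)]; simp only [f1, fs0, fs1, fs01, fs10, fs010] <;> simp only [mul_assoc, mul_one, one_mul, dd, ee, dd', ee', ede, ede', dede, dede']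
    · rw [show f ((s0) * (s0 * s1)) = f (s1) from congrArg f (by decide)]; simp only [f1, fs0, fs1, fs01, fs10, fs010] <;> simp only [mul_assoc, mul_one, one_mul, dd, ee, dd', ee', ede, ede', dede, dede']
    · rw [show f ((s0) * (s1 * s0)) = f (s0 * s1 * s0) from congrArg f (by decide)]; simp only [f1, fs0, fs1, fs01, fs10, fs010] <;> simp only [mul_assoc, mul_one, one_mul, dd, ee, dd', ee', ede, ede', dede, dede']
    · rw [show f ((s0) * (s0 * s1 * s0)) = f (s1 * s0) from congrArg f (by decide)]; simp only [f1, fs0, fs1, fs01, fs10, fs010] <;> simp only [mul_assoc, mul_one, one_mul, dd, ee, dd', ee', ede, ede', dede, dede']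
    · rw [show f ((s1) * (1)) = f (s1) from congrArg f (by decide)]; simp only [f1, fs0, fs1, fs01, fs10, fs010] <;> simp only [mul_assoc, mul_one, one_mul, dd, ee, dd', ee', ede, ede', dede, dede']
    · rw [show f ((s1) * (s0)) = f (s1 * s0) from congrArg f (by decide)]; simp only [f1, fs0, fs1, fs01, fs10, fs010] <;> simp only [mul_assoc, mul_one, one_mul, dd, ee, dd', ee', ede, ede', dede, dede']
    · rw [show f ((s1) * (s1)) = f (1) from congrArg f (by decide)]; simp only [f1, fs0, fs1, fs01, fs10, fs010] <;> simp only [mul_assoc, mul_one, one_mul, dd, ee, dd', ee', ede, ede', dede, dede']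
    · rw [show f ((s1) * (s0 * s1)) = f (s0 * s1 * s0) from congrArg f (by decide)]; simp only [f1, fs0, fs1, fs01, fs10, fs010] <;> simp only [mul_assoc, mul_one, one_mul, dd, ee, dd', ee', ede, ede', dede, dede']
    · rw [show f ((s1) * (s1 * s0)) = f (s0) from congrArg f (by decide)]; simp only [f1, fs0, fs1, fs01, fs10, fs010] <;> simp only [mul_assoc, mul_one, one_mul, dd, ee, dd', ee', ede, ede', dede, dede']
    · rw [show f ((s1) * (s0 * s1 * s0)) = f (s0 * s1) from congrArg f (by decide)]; simp only [f1, fs0, fs1, fs01, fs10, fs010] <;> simp only [mul_assoc, mul_one, one_mul, dd, ee, dd', ee', ede, ede', dede, dede']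
    · rw [show f ((s0 * s1) * (1)) = f (s0 * s1) from congrArg f (by decide)]; simp only [f1, fs0, fs1, fs01, fs10, fs010] <;> simp only [mul_assoc, mul_one, one_mul, dd, ee, dd', ee', ede, ede', dede, dede']
    · rw [show f ((s0 * s1) * (s0)) = f (s0 * s1 * s0) from congrArg f (by decide)]; simp only [f1, fs0, fs1, fs01, fs10, fs010] <;> simp only [mul_assoc, mul_one, one_mul, dd, ee, dd', ee', ede, ede', dede, dede']
    · rw [show f ((s0 * s1) * (s1)) = f (s0) from congrArg f (by decide)]; simp only [f1, fs0, fs1, fs01, fs10, fs010] <;> simp only [mul_assoc, mul_one, one_mul, dd, ee, dd', ee', ede, ede', dede, dede']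
    · rw [show f ((s0 * s1) * (s0 * s1)) = f (s1 * s0) from congrArg f (by decide)]; simp only [f1, fs0, fs1, fs01, fs10, fs010] <;> simp only [mul_assoc, mul_one, one_mul, dd, ee, dd', ee', ede, ede', dede, dede']
    · rw [show f ((s0 * s1) * (s1 * s0)) = f (1) from congrArg f (by decide)]; simp only [f1, fs0, fs1, fs01, fs10, fs010] <;> simp only [mul_assoc, mul_one, one_mul, dd, ee, dd', ee', ede, ede', dede, dede']
    · rw [show f ((s0 * s1) * (s0 * s1 * s0)) = f (s1) from congrArg f (by decide)]; simp only [f1, fs0, fs1, fs01, fs10, fs010] <;> simp only [mul_assoc, mul_one, one_mul, dd, ee, dd', ee', ede, ede', dede, dede']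
    · rw [show f ((s1 * s0) * (1)) = f (s1 * s0) from congrArg f (by decide)]; simp only [f1, fs0, fs1, fs01, fs10, fs010] <;> simp only [mul_assoc, mul_one, one_mul, dd, ee, dd', ee', ede, ede', dede, dede']
    · rw [show f ((s1 * s0) * (s0)) = f (s1) from congrArg f (by decide)]; simp only [f1, fs0, fs1, fs01, fs10, fs010] <;> simp only [mul_assoc, mul_one, one_mul, dd, ee, dd', ee', ede, ede', dede, dede']
    · rw [show f ((s1 * s0) * (s1)) = f (s0 * s1 * s0) from congrArg f (by decide)]; simp only [f1, fs0, fs1, fs01, fs10, fs010] <;> simp only [mul_assoc, mul_one, one_mul, dd, ee, dd', ee', ede, ede', dede, dede']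
    · rw [show f ((s1 * s0) * (s0 * s1)) = f (1) from congrArg f (by decide)]; simp only [f1, fs0, fs1, fs01, fs10, fs010] <;> simp only [mul_assoc, mul_one, one_mul, dd, ee, dd', ee', ede, ede', dede, dede']
    · rw [show f ((s1 * s0) * (s1 * s0)) = f (s0 * s1) from congrArg f (by decide)]; simp only [f1, fs0, fs1, fs01, fs10, fs010] <;> simp only [mul_assoc, mul_one, one_mul, dd, ee, dd', ee', ede, ede', dede, dede']
    · rw [show f ((s1 * s0) * (s0 * s1 * s0)) = f (s0) from congrArg f (by decide)]; simp only [f1, fs0, fs1, fs01, fs10, fs010] <;> simp only [mul_assoc, mul_one, one_mul, dd, ee, dd', ee', ede, ede', dede, dede']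
    · rw [show f ((s0 * s1 * s0) * (1)) = f (s0 * s1 * s0) from congrArg f (by decide)]; simp only [f1, fs0, fs1, fs01, fs10, fs010] <;> simp only [mul_assoc, mul_one, one_mul, dd, ee, dd', ee', ede, ede', dede, dede']
    · rw [show f ((s0 * s1 * s0) * (s0)) = f (s0 * s1) from congrArg f (by decide)]; simp only [f1, fs0, fs1, fs01, fs10, fs010] <;> simp only [mul_assoc, mul_one, one_mul, dd, ee, dd', ee', ede, ede', dede, dede']
    · rw [show f ((s0 * s1 * s0) * (s1)) = f (s1 * s0) from congrArg f (by decide)]; simp only [f1, fs0, fs1, fs01, fs10, fs010] <;> simp only [mul_assoc, mul_one, one_mul, dd, ee, dd', ee', ede, ede', dede, dede']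
    · rw [show f ((s0 * s1 * s0) * (s0 * s1)) = f (s0) from congrArg f (by decide)]; simp only [f1, fs0, fs1, fs01, fs10, fs010] <;> simp only [mul_assoc, mul_one, one_mul, dd, ee, dd', ee', ede, ede', dede, dede']
    · rw [show f ((s0 * s1 * s0) * (s1 * s0)) = f (s1) from congrArg f (by decide)]; simp only [f1, fs0, fs1, fs01, fs10, fs010] <;> simp only [mul_assoc, mul_one, one_mul, dd, ee, dd', ee', ede, ede', dede, dede']
    · rw [show f ((s0 * s1 * s0) * (s0 * s1 * s0)) = f (1) from congrArg f (by decide)]; simp only [f1, fs0, fs1, fs01, fs10, fs010] <;> simp only [mul_assoc, mul_one, one_mul, dd, ee, dd', ee', ede, ede', dede, dede']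
  let F : Equiv.Perm (Fin 3) →* G := { toFun := f, map_one' := f1, map_mul' := fmul }
  have hd1 : d ≠ 1 := by
    intro h0; have := hE.1 d hd; rw [h0, orderOf_one] at this; omega
  have he1 : e ≠ 1 := by
    intro h0; have := hE.1 e he; rw [h0, orderOf_one] at this; omega
  have hde : d * e ≠ 1 := by
    intro h0
    have h1 : d = e⁻¹ := eq_inv_of_mul_eq_one_left h0
    rw [eei] at h1
    apply h; rw [h1]
  have hed : e * d ≠ 1 := by
    intro h0
    have h1 : e = d⁻¹ := eq_inv_of_mul_eq_one_left h0
    rw [ddi] at h1
    apply h; rw [h1]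
  have hded : d * e * d ≠ 1 := by
    intro h0
    apply he1
    have h1 : d * (d * e * d) * d = d * 1 * d := by rw [h0]
    have h2 : d * (d * e * d) * d = e := by
      simp only [mul_assoc, dd, mul_one]
      rw [← mul_assoc, dd, one_mul]
    rw [h2, mul_one, dd] at h1
    exact h1
  have hinj : Function.Injective F := by
    rw [injective_iff_map_eq_one]
    intro σ hσ
    have hσ' : f σ = 1 := hσ
    rcases all_perm σ with rfl | rfl | rfl | rfl | rfl | rfl
    · rfl
    · rw [fs0] at hσ'; exact absurd hσ' hd1
    · rw [fs1] at hσ'; exact absurd hσ' he1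
    · rw [fs01] at hσ'; exact absurd hσ' hde
    · rw [fs10] at hσ'; exact absurd hσ' hed
    · rw [fs010] at hσ'; exact absurd hσ' hded
  have mem_d : d ∈ Subgroup.closure ({d, e} : Set G) := Subgroup.subset_closure (by simp)
  have mem_e : e ∈ Subgroup.closure ({d, e} : Set G) := Subgroup.subset_closure (by simp)
  have hrange : F.range = Subgroup.closure ({d, e} : Set G) := by
    apply le_antisymm
    · rintro _ ⟨σ, rfl⟩
      show f σ ∈ _
      rcases all_perm σ with rfl | rfl | rfl | rfl | rfl | rfl
      · rw [f1]; exact one_mem _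
      · rw [fs0]; exact mem_d
      · rw [fs1]; exact mem_e
      · rw [fs01]; exact mul_mem mem_d mem_e
      · rw [fs10]; exact mul_mem mem_e mem_d
      · rw [fs010]; exact mul_mem (mul_mem mem_d mem_e) mem_d
    · rw [Subgroup.closure_le]
      rintro x (rfl | rfl)
      · exact ⟨s0, fs0⟩
      · exact ⟨s1, fs1⟩
  exact ⟨((MonoidHom.ofInjective hinj).trans (MulEquiv.subgroupCongr hrange)).symm⟩

end Cfsg.Agent.S0444
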