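import Cfsg.Statements.S0445
-- helpers below

set_option autoImplicit false
open Cfsg

namespace Cfsg.Agent.S0445


/-- The shape of the matrices commuting with the transvection. -/
def mk (a : Fin 4 → ZMod 2) (b : Fin 3 → ZMod 2) (c : Matrix (Fin 3) (Fin 3) (ZMod 2)) :
    Matrix (Fin 5) (Fin 5) (ZMod 2) :=
  !![1, a 0, a 1, a 2, a 3;
     0, 1, 0, 0, 0;
     0, b 0, c 0 0, c 0 1, c 0 2;
     0, b 1, c 1 0, c 1 1, c 1 2;
     0, b 2, c 2 0, c 2 1, c 2 2]

theorem det_col {n : ℕ} (M : Matrix (Fin (n+1)) (Fin (n+1)) (ZMod 2)) (h0 : ∀ i : Fin n, M i.succ 0 = 0)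
    (h1 : M 0 0 = 1) : M.det = (M.submatrix Fin.succ Fin.succ).det := by
  rw [Matrix.det_succ_column_zero, Fin.sum_univ_succ]
  simp [h0, h1]

theorem det_row {n : ℕ} (M : Matrix (Fin (n+1)) (Fin (n+1)) (ZMod 2)) (h0 : ∀ i : Fin n, M 0 i.succ = 0)
    (h1 : M 0 0 = 1) : M.det = (M.submatrix Fin.succ Fin.succ).det := by
  rw [Matrix.det_succ_row_zero, Fin.sum_univ_succ]
  simp [h0, h1]

theorem det_mk (a : Fin 4 → ZMod 2) (b : Fin 3 → ZMod 2) (c : Matrix (Fin 3) (Fin 3) (ZMod 2)) :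
    (mk a b c).det = c.det := by
  rw [det_col _ (by intro i; fin_cases i <;> rfl) rfl,
    det_row _ (by intro i; fin_cases i <;> rfl) rfl]
  congr 1
  ext i j
  fin_cases i <;> fin_cases j <;> rfl

theorem card_c : Nat.card {c : Matrix (Fin 3) (Fin 3) (ZMod 2) // c.det = 1} = 168 := by
  have e : {c : Matrix (Fin 3) (Fin 3) (ZMod 2) // c.det = 1} ≃
      {v : Fin 9 → ZMod 2 // v 0 * v 4 * v 8 - v 0 * v 5 * v 7 - v 1 * v 3 * v 8 + v 1 * v 5 * v 6 + v 2 * v 3 * v 7 - v 2 * v 4 * v 6 = 1} := by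
    refine ⟨fun c => ⟨![c.1 0 0, c.1 0 1, c.1 0 2, c.1 1 0, c.1 1 1, c.1 1 2, c.1 2 0, c.1 2 1, c.1 2 2], ?_⟩,
      fun v => ⟨!![v.1 0, v.1 1, v.1 2; v.1 3, v.1 4, v.1 5; v.1 6, v.1 7, v.1 8], ?_⟩, ?_, ?_⟩
    · have := c.2
      rw [Matrix.det_fin_three] at this
      exact this
    · have := v.2
      rw [Matrix.det_fin_three]
      exact this
    · intro c; ext i j; fin_cases i <;> fin_cases j <;> rfl
    · intro v; ext i; fin_cases i <;> rfl
  rw [Nat.card_congr e, Nat.card_eq_fintype_card]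
  decide +kernel

/-- The map to the centraliser. -/
noncomputable def Phi {s : Matrix.SpecialLinearGroup (Fin 5) (ZMod 2)}
    (hc : ∀ g : Matrix.SpecialLinearGroup (Fin 5) (ZMod 2),
      g ∈ Subgroup.centralizer ({s} : Set (Matrix.SpecialLinearGroup (Fin 5) (ZMod 2))) ↔
        (g : Matrix (Fin 5) (Fin 5) (ZMod 2)) * Matrix.single 0 1 1 =
          Matrix.single 0 1 1 * (g : Matrix (Fin 5) (Fin 5) (ZMod 2)))
    (x : (Fin 4 → ZMod 2) × (Fin 3 → ZMod 2) × {c : Matrix (Fin 3) (Fin 3) (ZMod 2) // c.det = 1}) :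
    Subgroup.centralizer ({s} : Set (Matrix.SpecialLinearGroup (Fin 5) (ZMod 2))) :=
  ⟨⟨mk x.1 x.2.1 x.2.2.1, by rw [det_mk]; exact x.2.2.2⟩, (hc _).2 (by
    ext i j
    fin_cases i <;> fin_cases j <;> simp [mk, Matrix.mul_apply, Matrix.single_apply])⟩

theorem Phi_inj {s : Matrix.SpecialLinearGroup (Fin 5) (ZMod 2)}
    (hc : ∀ g : Matrix.SpecialLinearGroup (Fin 5) (ZMod 2),
      g ∈ Subgroup.centralizer ({s} : Set (Matrix.SpecialLinearGroup (Fin 5) (ZMod 2))) ↔
        (g : Matrix (Fin 5) (Fin 5) (ZMod 2)) * Matrix.single 0 1 1 =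
          Matrix.single 0 1 1 * (g : Matrix (Fin 5) (Fin 5) (ZMod 2))) :
    Function.Injective (Phi hc) := by
  rintro ⟨a, b, c, hc1⟩ ⟨a', b', c', hc1'⟩ h
  have h1 : mk a b c = mk a' b' c' := congrArg (fun x : Subgroup.centralizer ({s} : Set (Matrix.SpecialLinearGroup (Fin 5) (ZMod 2))) => ((x : Matrix.SpecialLinearGroup (Fin 5) (ZMod 2)) : Matrix (Fin 5) (Fin 5) (ZMod 2))) h
  have e : ∀ i j, mk a b c i j = mk a' b' c' i j := fun i j => by rw [h1]
  have ha : a = a' := by
    ext i; fin_cases i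
    · exact e 0 1
    · exact e 0 2
    · exact e 0 3
    · exact e 0 4
  have hb : b = b' := by
    ext i; fin_cases i
    · exact e 2 1
    · exact e 3 1
    · exact e 4 1
  have hcc : c = c' := by
    ext i j
    fin_cases i <;> fin_cases j
    · exact e 2 2
    · exact e 2 3
    · exact e 2 4
    · exact e 3 2
    · exact e 3 3
    · exact e 3 4
    · exact e 4 2
    · exact e 4 3
    · exact e 4 4
  subst ha hb hcc
  rfl

theorem Phi_surj {s : Matrix.SpecialLinearGroup (Fin 5) (ZMod 2)}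
    (hc : ∀ g : Matrix.SpecialLinearGroup (Fin 5) (ZMod 2),
      g ∈ Subgroup.centralizer ({s} : Set (Matrix.SpecialLinearGroup (Fin 5) (ZMod 2))) ↔
        (g : Matrix (Fin 5) (Fin 5) (ZMod 2)) * Matrix.single 0 1 1 =
          Matrix.single 0 1 1 * (g : Matrix (Fin 5) (Fin 5) (ZMod 2))) :
    Function.Surjective (Phi hc) := by
  rintro ⟨g, hg⟩
  have h := (hc g).1 hg
  have r : ∀ i j, (if 1 = j then (g : Matrix (Fin 5) (Fin 5) (ZMod 2)) i 0 else 0)
      = (if 0 = i then (g : Matrix (Fin 5) (Fin 5) (ZMod 2)) 1 j else 0) := by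
    intro i j
    have := congrFun (congrFun h i) j
    simp only [Matrix.mul_apply, Matrix.single_apply] at this
    simpa [Fin.sum_univ_succ] using this
  set G : Matrix (Fin 5) (Fin 5) (ZMod 2) := (g : Matrix (Fin 5) (Fin 5) (ZMod 2)) with hG
  have h10 : G 1 0 = 0 := by simpa using r 1 1
  have h20 : G 2 0 = 0 := by simpa using r 2 1
  have h30 : G 3 0 = 0 := by simpa using r 3 1
  have h40 : G 4 0 = 0 := by simpa using r 4 1
  have h12 : G 1 2 = 0 := by simpa using (r 0 2).symm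
  have h13 : G 1 3 = 0 := by simpa using (r 0 3).symm
  have h14 : G 1 4 = 0 := by simpa using (r 0 4).symm
  have h10' : G 1 0 = 0 := h10
  have h0011 : G 0 0 = G 1 1 := by simpa using r 0 1
  have hd : G.det = 1 := g.2
  have z2 : ∀ x : ZMod 2, x ≠ 0 → x = 1 := by decide
  have h00 : G 0 0 = 1 := by
    apply z2
    intro h0
    have : G.det = 0 := by
      apply Matrix.det_eq_zero_of_column_eq_zero 0
      intro i; fin_cases i
      · exact h0
      · exact h10
      · exact h20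
      · exact h30
      · exact h40
    rw [hd] at this
    exact one_ne_zero this
  have h11 : G 1 1 = 1 := by rw [← h0011]; exact h00
  let a : Fin 4 → ZMod 2 := ![G 0 1, G 0 2, G 0 3, G 0 4]
  let b : Fin 3 → ZMod 2 := ![G 2 1, G 3 1, G 4 1]
  let c : Matrix (Fin 3) (Fin 3) (ZMod 2) := !![G 2 2, G 2 3, G 2 4; G 3 2, G 3 3, G 3 4; G 4 2, G 4 3, G 4 4]
  have hm : mk a b c = G := by
    ext i j
    fin_cases i <;> fin_cases j <;> first
      | rfl
      | exact h00.symm
      | exact h10.symm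
      | exact h20.symm
      | exact h30.symm
      | exact h40.symm
      | exact h11.symm
      | exact h12.symm
      | exact h13.symm
      | exact h14.symm
  have hdet : c.det = 1 := by rw [← det_mk a b c, hm, hd]
  refine ⟨(a, b, ⟨c, hdet⟩), ?_⟩
  apply Subtype.ext
  apply Subtype.ext
  exact hm

/-- In the special linear group of dimension 5 over the field with two elements, the centraliser of a transvection has order 21504 = 2 ^ 7 · 168 (it is an extension of an extraspecial group of order 2 ^ 7 by the simple group of order 168). -/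
theorem result (s : Matrix.SpecialLinearGroup (Fin 5) (ZMod 2)) (hs : (s : Matrix (Fin 5) (Fin 5) (ZMod 2)) = Matrix.transvection 0 1 1) : Nat.card (Subgroup.centralizer ({s} : Set (Matrix.SpecialLinearGroup (Fin 5) (ZMod 2)))) = 21504 := by
  classical
  have hc : ∀ g : Matrix.SpecialLinearGroup (Fin 5) (ZMod 2),
      g ∈ Subgroup.centralizer ({s} : Set (Matrix.SpecialLinearGroup (Fin 5) (ZMod 2))) ↔
        (g : Matrix (Fin 5) (Fin 5) (ZMod 2)) * Matrix.single 0 1 1 =
          Matrix.single 0 1 1 * (g : Matrix (Fin 5) (Fin 5) (ZMod 2)) := by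
    intro g
    rw [Subgroup.mem_centralizer_singleton_iff]
    constructor
    · intro h
      have h2 := congrArg (fun x : Matrix.SpecialLinearGroup (Fin 5) (ZMod 2) =>
        (x : Matrix (Fin 5) (Fin 5) (ZMod 2))) h
      simp only [Matrix.SpecialLinearGroup.coe_mul, hs, Matrix.transvection, mul_add, add_mul,
        mul_one, one_mul] at h2
      exact add_left_cancel h2
    · intro h
      apply Subtype.ext
      simp only [Matrix.SpecialLinearGroup.coe_mul, hs, Matrix.transvection, mul_add, add_mul,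
        mul_one, one_mul]
      rw [h]
  have : Nat.card (Subgroup.centralizer ({s} : Set (Matrix.SpecialLinearGroup (Fin 5) (ZMod 2))))
      = Nat.card ((Fin 4 → ZMod 2) × (Fin 3 → ZMod 2) × {c : Matrix (Fin 3) (Fin 3) (ZMod 2) // c.det = 1}) := by
    symm
    exact Nat.card_eq_of_bijective (Phi hc) ⟨Phi_inj hc, Phi_surj hc⟩
  rw [this, Nat.card_prod, Nat.card_prod, card_c]
  simp

end Cfsg.Agent.S0445
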