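import Cfsg.Statements.S0446

set_option autoImplicit false
open Cfsg

namespace Cfsg.Agent.S0446

/-- Every finite group of even order contains a 2-central involution, i.e. an element of order 2 in the centre of some Sylow 2-subgroup. -/
theorem result {G : Type*} [Group G] [Finite G] (h : Even (Nat.card G)) : ∃ t : G, Cfsg.IsTwoCentralInvolution t := by
  haveI : Fact (Nat.Prime 2) := ⟨Nat.prime_two⟩
  obtain ⟨P⟩ : Nonempty (Sylow 2 G) := inferInstance
  have hdvd : 2 ∣ Nat.card G := even_iff_two_dvd.mp h
  have hcardP : 2 ∣ Nat.card P := by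
    rw [P.card_eq_multiplicity]
    have hne : Nat.card G ≠ 0 := Nat.card_pos.ne'
    have hf : (Nat.card G).factorization 2 ≠ 0 := by
      have := (Nat.Prime.dvd_iff_one_le_factorization Nat.prime_two hne).mp hdvd
      omega
    exact dvd_pow_self 2 hf
  haveI : Nontrivial P := by
    by_contra hnt
    rw [not_nontrivial_iff_subsingleton] at hnt
    have : Nat.card P = 1 := Nat.card_of_subsingleton (1 : P)
    rw [this] at hcardP
    exact absurd hcardP (by norm_num)
  have hnt : Nontrivial (Subgroup.center P) := P.isPGroup'.center_nontrivial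
  have hc2 : 2 ∣ Nat.card (Subgroup.center P) := by
    have hpg : IsPGroup 2 (Subgroup.center P) := by
      exact P.isPGroup'.to_subgroup _
    obtain ⟨n, hn⟩ := IsPGroup.iff_card.mp hpg
    rw [hn]
    have hn0 : n ≠ 0 := by
      rintro rfl
      have : Nat.card (Subgroup.center P) = 1 := by simpa using hn
      have := (Nat.card_eq_one_iff_unique.mp this).1
      exact not_subsingleton _ this
    exact dvd_pow_self 2 hn0
  obtain ⟨x, hx⟩ := exists_prime_orderOf_dvd_card' 2 hc2
  refine ⟨((x : P) : G), ?_, P, (x : P).2, ?_⟩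
  · rw [Subgroup.orderOf_coe, Subgroup.orderOf_coe, hx]
  · intro y hy
    have hcomm := Subgroup.mem_center_iff.mp x.2 ⟨y, hy⟩
    have := congrArg (fun z : P => (z : G)) hcomm
    exact this

end Cfsg.Agent.S0446
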