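import Cfsg.Statements.S0458
import Cfsg.Agent.Lib.J3PC

set_option autoImplicit false
open Cfsg

namespace Cfsg.Agent.S0458
open Cfsg.Agent.Lib.PChain Cfsg.Agent.Lib.PermChain Cfsg.Agent.Lib.PermChain2 Cfsg.Agent.Lib.J3PD

theorem card0 : Nat.card (KK dD 0) = 50232960 := by
  have h := (cert.card (r := 3) (j := 0) (by decide +kernel)).2
  rw [h]
  decide +kernel

theorem card1 : Nat.card (KK dD 1) = 8160 := by
  have h := (cert.card (r := 2) (j := 1) (by decide +kernel)).2
  rw [h]
  decide +kernel

theorem prime19 : Nat.Prime 19 := by norm_num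

theorem hN : 0 < dD.N := by decide +kernel
theorem hN1 : 1 < dD.N := by decide +kernel
theorem hk : 0 < dD.k := by decide +kernel
theorem hb0 : dD.B.getD 0 0 = 0 := by decide +kernel
theorem hlen : 0 < dD.B.length := by decide +kernel

theorem simpleJ3 : IsSimpleGroup (KK dD 0) :=
  simple (S := sS) (p := 19) (e := 1) cert hk hb0 hlen hN sT sF sR sV sD hN1 prime19
    (by simpa using sP) (by rw [card1]; norm_num)

theorem trans : MulAction.IsPretransitive (KK dD 0) (Fin dD.N) :=
  pretrans cert hk hb0 hlen hN sT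

theorem stab : Nat.card (MulAction.stabilizer (KK dD 0) (⟨0, hN⟩ : Fin dD.N)) = 8160 := by
  rw [stab_card cert hk hb0 hlen hN, card1]

/-- Janko's third group exists as a transitive permutation group of degree 6156 with point stabiliser of order 8160: a simple group of order 50232960. -/
theorem result : ∃ H : Subgroup (Equiv.Perm (Fin 6156)), Cfsg.IsJ3 H ∧ MulAction.IsPretransitive H (Fin 6156) ∧ Nat.card (MulAction.stabilizer H (0 : Fin 6156)) = 8160 :=
  ⟨KK dD 0, ⟨simpleJ3, card0⟩, trans, stab⟩

end Cfsg.Agent.S0458
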