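import Cfsg.Statements.S0459
import Cfsg.Agent.Lib.RuPC
import Cfsg.Agent.Lib.RuTC
import Cfsg.Agent.Lib.PermChain3

set_option autoImplicit false
open Cfsg

namespace Cfsg.Agent.S0459

open Cfsg.Agent.Lib.PChain Cfsg.Agent.Lib.PermChain Cfsg.Agent.Lib.PermChain2 Cfsg.Agent.Lib.PermChain3

noncomputable abbrev dH : PD := Cfsg.Agent.Lib.RuPD.dD
noncomputable abbrev dV : PD := Cfsg.Agent.Lib.RuTD.dD

theorem cH : Cert dH := Cfsg.Agent.Lib.RuPD.cert
theorem cV : Cert dV := Cfsg.Agent.Lib.RuTD.cert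

section ru

theorem card0 : Nat.card (KK dH 0) = 145926144000 := by
  have h := (cH.card (r := 5) (j := 0) (by decide +kernel)).2
  rw [h]
  decide +kernel

theorem card1 : Nat.card (KK dH 1) = 35942400 := by
  have h := (cH.card (r := 4) (j := 1) (by decide +kernel)).2
  rw [h]
  decide +kernel

theorem hN : 0 < dH.N := by decide +kernel
theorem hN1 : 1 < dH.N := by decide +kernel
theorem hk : 0 < dH.k := by decide +kernel
theorem hb0 : dH.B.getD 0 0 = 0 := by decide +kernel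
theorem hlen : 0 < dH.B.length := by decide +kernel

theorem simpleG : IsSimpleGroup (KK dH 0) :=
  simple (S := Cfsg.Agent.Lib.RuPD.sS) (p := 29) (e := 1) cH hk hb0 hlen hN Cfsg.Agent.Lib.RuPD.sT Cfsg.Agent.Lib.RuPD.sF
    Cfsg.Agent.Lib.RuPD.sR Cfsg.Agent.Lib.RuPD.sV Cfsg.Agent.Lib.RuPD.sD hN1 (by norm_num)
    (by simpa using Cfsg.Agent.Lib.RuPD.sP) (by rw [card1]; norm_num)

theorem trans : MulAction.IsPretransitive (KK dH 0) (Fin dH.N) :=
  pretrans cH hk hb0 hlen hN Cfsg.Agent.Lib.RuPD.sT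

theorem stab : Nat.card (MulAction.stabilizer (KK dH 0) (⟨0, hN⟩ : Fin dH.N)) = 35942400 := by
  rw [stab_card cH hk hb0 hlen hN, card1]

end ru

section tits

theorem vN : 0 < dV.N := by decide +kernel
theorem vN1 : 1 < dV.N := by decide +kernel
theorem vk : 0 < dV.k := by decide +kernel
theorem vb0 : dV.B.getD 0 0 = 0 := by decide +kernel
theorem vlen : 0 < dV.B.length := by decide +kernel

theorem vcard0 : Nat.card (KK dV 0) = 17971200 := by
  have h := (cV.card (r := 4) (j := 0) (by decide +kernel)).2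
  rw [h]
  decide +kernel

theorem vcard1 : Nat.card (KK dV 1) = 10240 := by
  have h := (cV.card (r := 3) (j := 1) (by decide +kernel)).2
  rw [h]
  decide +kernel

theorem simpleV : IsSimpleGroup (KK dV 0) :=
  simple (S := Cfsg.Agent.Lib.RuTD.sS) (p := 13) (e := 1) cV vk vb0 vlen vN Cfsg.Agent.Lib.RuTD.sT Cfsg.Agent.Lib.RuTD.sF
    Cfsg.Agent.Lib.RuTD.sR Cfsg.Agent.Lib.RuTD.sV Cfsg.Agent.Lib.RuTD.sD vN1 (by norm_num)
    (by simpa using Cfsg.Agent.Lib.RuTD.sP) (by rw [vcard1]; norm_num)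

end tits

section generators

/-- the words in the letters of the point stabiliser -/
def wH (x : ℕ) : List ℕ := cond (Nat.beq x 0) [3, 3, 15, 15, 15, 3, 3] [2, 15, 14]

/-- the generators on the points of the group -/
noncomputable def τ (x : ℕ) : Equiv.Perm (Fin dH.N) := evW dH (wH x)

/-- the generators on the shifted orbit -/
noncomputable def ρ (x : ℕ) : Equiv.Perm (Fin dV.N) := gp dV x

theorem pv_gp {D : PD} (hL : lettersOK D) (x : ℕ) {p : ℕ} (hp : p < D.N) : pv (gp D x) p = letter D x p := by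
  simp only [pv, dif_pos hp]
  exact gp_inv_apply hL x ⟨p, hp⟩

theorem pv_evW {D : PD} (hL : lettersOK D) (w : List ℕ) {p : ℕ} (hp : p < D.N) : pv (evW D w) p = walk D p w := by
  simp only [pv, dif_pos hp]
  exact evW_inv_apply hL w ⟨p, hp⟩

theorem chk0 : allR (fun p => Nat.beq (walk dH (Nat.add 1 p) (wH 0)) (Nat.add 1 (letter dV 0 p))) 0 1755 = true := by decide +kernel
theorem chk1 : allR (fun p => Nat.beq (walk dH (Nat.add 1 p) (wH 1)) (Nat.add 1 (letter dV 1 p))) 0 1755 = true := by decide +kernel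

theorem eH : dH.N = 4060 := by decide +kernel
theorem eV : dV.N = 1755 := by decide +kernel
theorem vlt0 : dV.lt 0 = 0 := by decide +kernel
theorem vlt1 : dV.lt 1 = 2 := by decide +kernel

theorem cases2 {x : ℕ} (h : x ∈ Set.Ico 0 2) : x = 0 ∨ x = 1 := by
  have := h.2
  omega

/-- the group of the compatible pairs -/
noncomputable def RelG : Subgroup (Equiv.Perm (Fin dH.N) × Equiv.Perm (Fin dV.N)) where
  carrier := {t | ∀ p, p < dV.N → pv t.1 (1 + p) = 1 + pv t.2 p}
  mul_mem' := by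
    rintro ⟨σ, ρ⟩ ⟨σ', ρ'⟩ h1 h2 p hp
    have hp' : p < 1755 := by rw [eV] at hp; exact hp
    have hpn : 1 + p < dH.N := by rw [eH]; omega
    show pv (σ * σ') (1 + p) = 1 + pv (ρ * ρ') p
    rw [pv_mul' _ _ hpn, pv_mul' _ _ hp, h1 p hp, h2 _ (pv_lt ρ hp)]
  one_mem' := by
    intro p hp
    show pv 1 (1 + p) = 1 + pv 1 p
    rw [pv_one, pv_one]
  inv_mem' := by
    rintro ⟨σ, ρ⟩ h1 p hp
    have hp' : p < 1755 := by rw [eV] at hp; exact hp
    show pv σ⁻¹ (1 + p) = 1 + pv ρ⁻¹ p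
    have h3 := h1 _ (pv_lt ρ⁻¹ hp)
    rw [pv_inv' ρ hp] at h3
    have h5 := pv_lt ρ⁻¹ hp
    have h6 : pv ρ⁻¹ p < 1755 := lt_of_lt_of_eq h5 eV
    have h4 := pv_inv σ (b := 1 + pv ρ⁻¹ p) (by rw [eH]; omega)
    have h7 : pv σ (1 + pv ρ⁻¹ p) = 1 + p := h3
    rw [h7] at h4
    exact h4

/-- the generating pairs -/
noncomputable def gen2 (x : ℕ) : Equiv.Perm (Fin dH.N) × Equiv.Perm (Fin dV.N) := (τ x, ρ x)

/-- the group of the pairs -/
noncomputable def Γ : Subgroup (Equiv.Perm (Fin dH.N) × Equiv.Perm (Fin dV.N)) :=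
  Subgroup.closure (gen2 '' Set.Ico 0 2)

theorem gen_rel {x : ℕ} (hx : x ∈ Set.Ico 0 2) : gen2 x ∈ RelG := by
  intro p hp
  have hp' : p < 1755 := by rw [eV] at hp; exact hp
  have hpn : 1 + p < dH.N := by rw [eH]; omega
  show pv (τ x) (1 + p) = 1 + pv (ρ x) p
  rw [τ, ρ, pv_evW cH.letters _ hpn, pv_gp cV.letters x hp]
  rcases cases2 hx with rfl | rfl
  · simpa using allR_spec chk0 p (Nat.zero_le _) hp'
  · simpa using allR_spec chk1 p (Nat.zero_le _) hp'

theorem Γ_le : Γ ≤ RelG := by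
  refine (Subgroup.closure_le _).2 ?_
  rintro _ ⟨x, hx, rfl⟩
  exact gen_rel hx

/-- the subgroup of the point stabiliser -/
noncomputable def N0 : Subgroup (Equiv.Perm (Fin dH.N)) := Subgroup.closure (τ '' Set.Ico 0 2)

theorem map2 : Γ.map (MonoidHom.fst _ _) = N0 := by
  unfold Γ
  rw [MonoidHom.map_closure, Set.image_image]
  rfl

theorem map3 : Γ.map (MonoidHom.snd _ _) = KK dV 0 := by
  unfold Γ
  rw [MonoidHom.map_closure, Set.image_image]
  show Subgroup.closure _ = Subgroup.closure (gp dV '' Set.Ico (dV.lt 0) (dV.lt 1))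
  rw [vlt0, vlt1]
  rfl

theorem N0_le1 : N0 ≤ KK dH 1 := by
  refine (Subgroup.closure_le _).2 ?_
  rintro _ ⟨x, hx, rfl⟩
  refine evW_mem cH.letters ?_
  rcases cases2 hx with rfl | rfl <;> decide +kernel

theorem hinj2 : ∀ g ∈ Γ, (MonoidHom.fst _ _ : _ →* Equiv.Perm (Fin dH.N)) g = 1 → g = 1 := by
  rintro ⟨t, r⟩ hg h
  have h1 : t = 1 := h
  subst h1
  have hb := Γ_le hg
  have hr : r = 1 := by
    apply ext_pv
    intro p hp
    have h3 : pv (1 : Equiv.Perm (Fin dH.N)) (1 + p) = 1 + pv r p := hb p hp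
    rw [pv_one] at h3
    rw [pv_one]
    omega
  subst hr
  rfl

theorem hinj3 : ∀ g ∈ Γ, (MonoidHom.snd _ _ : _ →* Equiv.Perm (Fin dV.N)) g = 1 → g = 1 := by
  rintro ⟨t, r⟩ hg h
  have h1 : r = 1 := h
  subst h1
  have hb := Γ_le hg
  have ht : t ∈ N0 := by
    rw [← map2]
    exact ⟨_, hg, rfl⟩
  have ht1 : t = 1 := by
    refine fix_base_trivial cH (by intro j hj; have : j < 5 := hj; decide +revert) 4 1 (by decide +kernel) t (N0_le1 ht) ?_
    intro i h3 hi
    have hi' : i < 5 := hi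
    have h4 : ∀ i, 1 ≤ i → i < 5 → 1 ≤ lget i dH.B ∧ lget i dH.B - 1 < dV.N := by decide +kernel
    obtain ⟨h5, h6⟩ := h4 i h3 hi'
    have h7 := hb _ h6
    have h8 : 1 + (lget i dH.B - 1) = lget i dH.B := by omega
    rw [h8] at h7
    rw [h7]
    have h9 : pv (1 : Equiv.Perm (Fin dV.N)) (lget i dH.B - 1) = lget i dH.B - 1 := pv_one _
    rw [h9, h8]
  subst ht1
  rfl

/-- isomorphism with the subgroup of the point stabiliser -/
noncomputable def e2 : Γ ≃* N0 := equivOfInj _ Γ N0 hinj2 map2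

/-- isomorphism with the group on the orbit -/
noncomputable def e3 : Γ ≃* KK dV 0 := equivOfInj _ Γ (KK dV 0) hinj3 map3

end generators

section final

theorem K1_le : KK dH 1 ≤ KK dH 0 := KK_incl cH.letters cH.hw hk

/-- the subgroup of the stabiliser -/
noncomputable def N1 : Subgroup (MulAction.stabilizer (KK dH 0) (⟨0, hN⟩ : Fin dH.N)) :=
  (N0.subgroupOf (KK dH 0)).subgroupOf (MulAction.stabilizer (KK dH 0) (⟨0, hN⟩ : Fin dH.N))

/-- the subgroup of the stabiliser is the group of the generators -/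
noncomputable def eN1 : N1 ≃* N0 where
  toFun s := ⟨s.1.1.1, s.2⟩
  invFun n := ⟨⟨⟨n.1, K1_le (N0_le1 n.2)⟩, K1_fix cH hk hb0 hN (N0_le1 n.2)⟩, n.2⟩
  left_inv _ := rfl
  right_inv _ := rfl
  map_mul' _ _ := rfl

/-- the subgroup of the stabiliser and the group on the orbit -/
noncomputable def eN1V : N1 ≃* KK dV 0 := eN1.trans (e2.symm.trans e3)

theorem titsN1 : Cfsg.IsTits N1 := by
  refine ⟨?_, ?_⟩
  · haveI := simpleV
    exact eN1V.isSimpleGroup
  · rw [Nat.card_congr eN1V.toEquiv, vcard0]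

end final


/-- The Rudvalis group exists as a transitive permutation group of degree 4060: simple of order 145926144000, with point stabiliser of order 35942400 containing a simple subgroup of order 17971200 (the order of the Tits group). -/
theorem result : ∃ H : Subgroup (Equiv.Perm (Fin 4060)), Cfsg.IsRu H ∧ MulAction.IsPretransitive H (Fin 4060) ∧ Nat.card (MulAction.stabilizer H (0 : Fin 4060)) = 35942400 ∧ ∃ T : Subgroup (MulAction.stabilizer H (0 : Fin 4060)), Cfsg.IsTits T :=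
  ⟨KK dH 0, ⟨simpleG, card0⟩, trans, stab, N1, titsN1⟩

end Cfsg.Agent.S0459
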