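import Cfsg.Statements.S0462
import Cfsg.Agent.Lib.HePC
import Cfsg.Agent.Lib.HeNC
import Cfsg.Agent.Lib.SpVC
import Cfsg.Agent.Lib.F4Sp
import Cfsg.Agent.Lib.PermChain3

set_option autoImplicit false
set_option linter.unusedVariables false
open Cfsg

namespace Cfsg.Agent.S0462
open Cfsg.Agent.Lib.PChain Cfsg.Agent.Lib.PermChain Cfsg.Agent.Lib.PermChain2 Cfsg.Agent.Lib.PermChain3
open Cfsg.Agent.Lib.F4Sp

noncomputable abbrev dH : PD := Cfsg.Agent.Lib.HePD.dD
noncomputable abbrev dN : PD := Cfsg.Agent.Lib.HeND.dD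
noncomputable abbrev dV : PD := Cfsg.Agent.Lib.SpVD.dD

theorem cH : Cert dH := Cfsg.Agent.Lib.HePD.cert
theorem cN : Cert dN := Cfsg.Agent.Lib.HeND.cert
theorem cV : Cert dV := Cfsg.Agent.Lib.SpVD.cert

section he

theorem card0 : Nat.card (KK dH 0) = 4030387200 := by
  have h := (cH.card (r := 5) (j := 0) (by decide +kernel)).2
  rw [h]
  decide +kernel

theorem card1 : Nat.card (KK dH 1) = 1958400 := by
  have h := (cH.card (r := 4) (j := 1) (by decide +kernel)).2
  rw [h]
  decide +kernel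

theorem hN : 0 < dH.N := by decide +kernel
theorem hN1 : 1 < dH.N := by decide +kernel
theorem hk : 0 < dH.k := by decide +kernel
theorem hb0 : dH.B.getD 0 0 = 0 := by decide +kernel
theorem hlen : 0 < dH.B.length := by decide +kernel

theorem simpleG : IsSimpleGroup (KK dH 0) :=
  simple (S := Cfsg.Agent.Lib.HePD.sS) (p := 7) (e := 1) cH hk hb0 hlen hN Cfsg.Agent.Lib.HePD.sT Cfsg.Agent.Lib.HePD.sF
    Cfsg.Agent.Lib.HePD.sR Cfsg.Agent.Lib.HePD.sV Cfsg.Agent.Lib.HePD.sD hN1 (by norm_num)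
    (by simpa using Cfsg.Agent.Lib.HePD.sP) (by rw [card1]; norm_num)

theorem trans : MulAction.IsPretransitive (KK dH 0) (Fin dH.N) :=
  pretrans cH hk hb0 hlen hN Cfsg.Agent.Lib.HePD.sT

theorem stab : Nat.card (MulAction.stabilizer (KK dH 0) (⟨0, hN⟩ : Fin dH.N)) = 1958400 := by
  rw [stab_card cH hk hb0 hlen hN, card1]

end he

section generators

/-- the words in the letters of the point stabiliser -/
def wH (x : ℕ) : List ℕ := cond (Nat.beq x 0) [2] [3, 3]

/-- the generators on the points of the group -/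
noncomputable def τ (x : ℕ) : Equiv.Perm (Fin dH.N) := evW dH (wH x)

/-- the generators on the vectors -/
noncomputable def ρ (x : ℕ) : Equiv.Perm (Fin dV.N) := gp dV x

/-- the generators on the two blocks -/
noncomputable def σ (x : ℕ) : Equiv.Perm (Fin dN.N) := gp dN x

theorem hsum : dN.N = dH.N + dV.N := by decide +kernel

theorem pv_gp {D : PD} (hL : lettersOK D) (x : ℕ) {p : ℕ} (hp : p < D.N) : pv (gp D x) p = letter D x p := by
  simp only [pv, dif_pos hp]
  exact gp_inv_apply hL x ⟨p, hp⟩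

theorem pv_evW {D : PD} (hL : lettersOK D) (w : List ℕ) {p : ℕ} (hp : p < D.N) : pv (evW D w) p = walk D p w := by
  simp only [pv, dif_pos hp]
  exact evW_inv_apply hL w ⟨p, hp⟩

theorem chk10 : allR (fun p => Nat.beq (letter dN 0 p) (walk dH p (wH 0))) 0 2058 = true := by decide +kernel
theorem chk11 : allR (fun p => Nat.beq (letter dN 1 p) (walk dH p (wH 1))) 0 2058 = true := by decide +kernel
theorem chk20 : allR (fun p => Nat.beq (letter dN 0 (2058 + p)) (2058 + letter dV 0 p)) 0 256 = true := by decide +kernel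
theorem chk21 : allR (fun p => Nat.beq (letter dN 1 (2058 + p)) (2058 + letter dV 1 p)) 0 256 = true := by decide +kernel

theorem eH : dH.N = 2058 := by decide +kernel
theorem eV : dV.N = 256 := by decide +kernel
theorem eN : dN.N = 2314 := by decide +kernel
theorem lt0 : dN.lt 0 = 0 := by decide +kernel
theorem lt1 : dN.lt 1 = 2 := by decide +kernel
theorem vlt0 : dV.lt 0 = 0 := by decide +kernel
theorem vlt1 : dV.lt 1 = 2 := by decide +kernel

theorem cases2 {x : ℕ} (h : x ∈ Set.Ico 0 2) : x = 0 ∨ x = 1 := by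
  have := h.2
  omega

theorem block_gen {x : ℕ} (hx : x ∈ Set.Ico 0 2) : Block (σ x) (τ x) (ρ x) := by
  refine ⟨fun p hp => ?_, fun p hp => ?_⟩
  · rw [σ, τ, pv_gp cN.letters x (by rw [hsum]; omega), pv_evW cH.letters _ hp]
    have hp' : p < 2058 := by rw [eH] at hp; exact hp
    rcases cases2 hx with rfl | rfl
    · simpa using allR_spec chk10 p (Nat.zero_le _) hp'
    · simpa using allR_spec chk11 p (Nat.zero_le _) hp'
  · rw [σ, ρ, pv_gp cN.letters x (by rw [hsum]; omega), pv_gp cV.letters x hp, eH]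
    have hp' : p < 256 := by rw [eV] at hp; exact hp
    rcases cases2 hx with rfl | rfl
    · simpa using allR_spec chk20 p (Nat.zero_le _) hp'
    · simpa using allR_spec chk21 p (Nat.zero_le _) hp'

/-- the triples -/
noncomputable def gen3 (x : ℕ) : Equiv.Perm (Fin dN.N) × Equiv.Perm (Fin dH.N) × Equiv.Perm (Fin dV.N) :=
  (σ x, τ x, ρ x)

/-- the group of the triples -/
noncomputable def Γ : Subgroup (Equiv.Perm (Fin dN.N) × Equiv.Perm (Fin dH.N) × Equiv.Perm (Fin dV.N)) :=
  Subgroup.closure (gen3 '' Set.Ico 0 2)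

theorem Γ_le : Γ ≤ BlockG dN.N dH.N dV.N hsum := by
  refine (Subgroup.closure_le _).2 ?_
  rintro _ ⟨x, hx, rfl⟩
  exact block_gen hx

/-- the first projection -/
noncomputable def f1 : (Equiv.Perm (Fin dN.N) × Equiv.Perm (Fin dH.N) × Equiv.Perm (Fin dV.N)) →* Equiv.Perm (Fin dN.N) :=
  MonoidHom.fst _ _

/-- the second projection -/
noncomputable def f2 : (Equiv.Perm (Fin dN.N) × Equiv.Perm (Fin dH.N) × Equiv.Perm (Fin dV.N)) →* Equiv.Perm (Fin dH.N) :=
  (MonoidHom.fst _ _).comp (MonoidHom.snd _ _)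

/-- the third projection -/
noncomputable def f3 : (Equiv.Perm (Fin dN.N) × Equiv.Perm (Fin dH.N) × Equiv.Perm (Fin dV.N)) →* Equiv.Perm (Fin dV.N) :=
  (MonoidHom.snd _ _).comp (MonoidHom.snd _ _)

/-- the subgroup of the point stabiliser -/
noncomputable def N0 : Subgroup (Equiv.Perm (Fin dH.N)) := Subgroup.closure (τ '' Set.Ico 0 2)

theorem map1 : Γ.map f1 = KK dN 0 := by
  unfold Γ
  rw [MonoidHom.map_closure, Set.image_image]
  show Subgroup.closure _ = Subgroup.closure (gp dN '' Set.Ico (dN.lt 0) (dN.lt 1))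
  rw [lt0, lt1]
  rfl

theorem map2 : Γ.map f2 = N0 := by
  unfold Γ
  rw [MonoidHom.map_closure, Set.image_image]
  rfl

theorem map3 : Γ.map f3 = KK dV 0 := by
  unfold Γ
  rw [MonoidHom.map_closure, Set.image_image]
  show Subgroup.closure _ = Subgroup.closure (gp dV '' Set.Ico (dV.lt 0) (dV.lt 1))
  rw [vlt0, vlt1]
  rfl

theorem hinj1 : ∀ g ∈ Γ, f1 g = 1 → g = 1 := by
  rintro ⟨s, t, r⟩ hg h
  have h1 : s = 1 := h
  subst h1
  obtain ⟨h2, h3⟩ := block_one_left hsum (Γ_le hg)
  subst h2 h3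
  rfl

/-- isomorphism with the group on the two blocks -/
noncomputable def e1 : Γ ≃* KK dN 0 := equivOfInj f1 Γ (KK dN 0) hinj1 map1

theorem cardN : Nat.card (KK dN 0) = 979200 := by
  have h := (cN.card (r := 3) (j := 0) (by decide +kernel)).2
  rw [h]
  decide +kernel

theorem cardV : Nat.card (KK dV 0) = 979200 := by
  have h := (cV.card (r := 4) (j := 0) (by decide +kernel)).2
  rw [h]
  decide +kernel

theorem cardΓ : Nat.card Γ = 979200 := by
  rw [Nat.card_congr e1.toEquiv, cardN]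

theorem hinj2 : ∀ g ∈ Γ, f2 g = 1 → g = 1 := by
  rintro ⟨s, t, r⟩ hg h
  have h1 : t = 1 := h
  subst h1
  have hb := Γ_le hg
  have hs : s ∈ KK dN 0 := by
    rw [← map1]
    exact ⟨_, hg, rfl⟩
  have hs1 : s = 1 := by
    refine fix_base_trivial cN (by intro j hj; have : j < 3 := hj; decide +revert) 3 0 (by decide +kernel) s hs ?_
    intro i _ hi
    have hi' : i < 3 := hi
    have h3 : lget i dN.B < dH.N := by
      interval_cases i <;> decide +kernel
    rw [hb.1 _ h3, pv_one]
  subst hs1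
  obtain ⟨h2, h3⟩ := block_one_left hsum hb
  subst h3
  rfl

/-- isomorphism with the subgroup of the point stabiliser -/
noncomputable def e2 : Γ ≃* N0 := equivOfInj f2 Γ N0 hinj2 map2

theorem hinj3 : ∀ g ∈ Γ, f3 g = 1 → g = 1 := by
  classical
  haveI : Finite Γ := Nat.finite_of_card_ne_zero (by rw [cardΓ]; norm_num)
  haveI : Finite (KK dV 0) := Nat.finite_of_card_ne_zero (by rw [cardV]; norm_num)
  let f : Γ → KK dV 0 := fun g => ⟨f3 g.1, by rw [← map3]; exact ⟨g.1, g.2, rfl⟩⟩
  have hs : Function.Surjective f := by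
    rintro ⟨y, hy⟩
    rw [← map3] at hy
    obtain ⟨g, hg, rfl⟩ := hy
    exact ⟨⟨g, hg⟩, rfl⟩
  have hb := (Nat.bijective_iff_surjective_and_card f).2 ⟨hs, by rw [cardΓ, cardV]⟩
  intro g hg h1
  have h2 : f ⟨g, hg⟩ = f ⟨1, one_mem _⟩ := by
    apply Subtype.ext
    show f3 g = f3 1
    rw [h1, map_one]
  have h3 := hb.1 h2
  exact congrArg Subtype.val h3

/-- isomorphism with the group on the vectors -/
noncomputable def e3 : Γ ≃* KK dV 0 := equivOfInj f3 Γ (KK dV 0) hinj3 map3

end generators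

section matrices

/-- the first matrix -/
def M1E : Matrix I4 I4 F4 := fun i j => dig 0xce7da78b (4 * pos4 i + pos4 j)

/-- the second matrix -/
def M2E : Matrix I4 I4 F4 := fun i j => dig 0xd76e3df6 (4 * pos4 i + pos4 j)

theorem M1mem : M1E ∈ Matrix.symplecticGroup (Fin 2) F4 := SymplecticGroup.mem_iff.2 (by decide +kernel)
theorem M2mem : M2E ∈ Matrix.symplecticGroup (Fin 2) F4 := SymplecticGroup.mem_iff.2 (by decide +kernel)

theorem chkM1 : ∀ p : Fin 256, letter dV 0 p = idxOf (M1E.mulVec (vecOf p)) := by decide +kernel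
theorem chkM2 : ∀ p : Fin 256, letter dV 1 p = idxOf (M2E.mulVec (vecOf p)) := by decide +kernel

/-- the action on the numbered vectors -/
noncomputable def alpha' : Sp4 →* Equiv.Perm (Fin dV.N) := alpha

theorem alpha'_inj : Function.Injective alpha' := alpha_inj

theorem gp_range {x : ℕ} {M : Sp4} (h : ∀ p : Fin 256, letter dV x p = idxOf (M.1.mulVec (vecOf p))) :
    gp dV x ∈ alpha'.range := by
  have h1 : (gp dV x)⁻¹ = alpha' M := by
    ext p
    have h2 := gp_inv_apply cV.letters x p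
    rw [h2]
    exact h p
  have h3 : gp dV x = alpha' M⁻¹ := by
    rw [map_inv, ← h1, inv_inv]
  rw [h3]
  exact ⟨_, rfl⟩

theorem KV_le : KK dV 0 ≤ alpha'.range := by
  refine (Subgroup.closure_le _).2 ?_
  rintro _ ⟨x, ⟨h1, h2⟩, rfl⟩
  have h1' : 0 ≤ x := Nat.zero_le _
  have h2' : x < 2 := by
    have h3 : x < dV.lt 1 := h2
    rw [vlt1] at h3
    exact h3
  rcases cases2 ⟨h1', h2'⟩ with rfl | rfl
  · exact gp_range (M := ⟨M1E, M1mem⟩) chkM1
  · exact gp_range (M := ⟨M2E, M2mem⟩) chkM2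

theorem KV_eq : KK dV 0 = alpha'.range := by
  haveI : Finite (Equiv.Perm (Fin dV.N)) := inferInstance
  apply Subgroup.eq_of_le_of_card_ge KV_le
  rw [cardV, ← Nat.card_congr (MonoidHom.ofInjective alpha'_inj).toEquiv]
  exact card_Sp4_le

/-- isomorphism with the symplectic group -/
noncomputable def e4 : Sp4 ≃* KK dV 0 :=
  (MonoidHom.ofInjective alpha'_inj).trans (MulEquiv.subgroupCongr KV_eq.symm)

end matrices

section final

theorem N0_le1 : N0 ≤ KK dH 1 := by
  refine (Subgroup.closure_le _).2 ?_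
  rintro _ ⟨x, hx, rfl⟩
  refine evW_mem cH.letters ?_
  rcases cases2 hx with rfl | rfl <;> decide +kernel

theorem K1_le : KK dH 1 ≤ KK dH 0 := KK_incl cH.letters cH.hw hk

/-- the subgroup of the stabiliser -/
noncomputable def N1 : Subgroup (MulAction.stabilizer (KK dH 0) (⟨0, hN⟩ : Fin dH.N)) :=
  (N0.subgroupOf (KK dH 0)).subgroupOf (MulAction.stabilizer (KK dH 0) (⟨0, hN⟩ : Fin dH.N))

/-- the subgroup of the stabiliser is the group of the generators -/
noncomputable def eN1 : N1 ≃* N0 where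
  toFun s := ⟨s.1.1.1, s.2⟩
  invFun n := ⟨⟨⟨n.1, K1_le (N0_le1 n.2)⟩, K1_fix cH hk hb0 hN (N0_le1 n.2)⟩, n.2⟩
  left_inv _ := rfl
  right_inv _ := rfl
  map_mul' _ _ := rfl

theorem cardN1 : Nat.card N1 = 979200 := by
  rw [Nat.card_congr eN1.toEquiv, ← Nat.card_congr e2.toEquiv, cardΓ]

theorem indexN1 : N1.index = 2 := by
  have h := Subgroup.card_mul_index N1
  rw [cardN1, stab] at h
  omega

/-- the subgroup of the stabiliser is the symplectic group -/
noncomputable def eN1S : N1 ≃* Sp4 := eN1.trans (e2.symm.trans (e3.trans e4.symm))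

end final

/-- The Held group exists as a transitive permutation group of degree 2058: simple of order 4030387200, with point stabiliser containing, with index 2, a copy of the 4-dimensional symplectic group over the field with four elements. -/
theorem result : ∃ H : Subgroup (Equiv.Perm (Fin 2058)), Cfsg.IsHe H ∧ MulAction.IsPretransitive H (Fin 2058) ∧ ∃ (F : Type) (_ : Field F) (_ : Fintype F), Fintype.card F = 4 ∧ ∃ N : Subgroup (MulAction.stabilizer H (0 : Fin 2058)), N.index = 2 ∧ Nonempty (N ≃* Matrix.symplecticGroup (Fin 2) F) :=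
  ⟨KK dH 0, ⟨simpleG, card0⟩, trans, F4, instField, instFintype, card_F4, N1, indexN1, ⟨eN1S⟩⟩

end Cfsg.Agent.S0462
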