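import Cfsg.Statements.S0471
import Cfsg.Agent.Lib.Fi22X

set_option autoImplicit false
open Cfsg

namespace Cfsg.Agent.S0471
open Cfsg.Agent.Lib.PChain Cfsg.Agent.Lib.PermChain Cfsg.Agent.Lib.PermChain2 Cfsg.Agent.Lib.Fi22X Cfsg.Agent.Lib.FischerKit

/-- The Fischer group of order 64561751654400 exists as a 3-transposition group: a simple group of that order generated by a conjugacy class of 3510 3-transpositions, the centraliser of each being a non-split double cover of PSU(6, 2). -/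
theorem result : ∃ (G : Type) (_ : Group G) (_ : Finite G), Cfsg.IsFi22 G ∧ ∃ D : Set G, Cfsg.IsThreeTranspositionClass D ∧ Nat.card D = 3510 ∧ ∀ d ∈ D, ∃ (F : Type) (_ : Field F) (_ : Fintype F), Fintype.card F = 4 ∧ Cfsg.IsNonsplitDoubleCover (Subgroup.centralizer ({d} : Set G)) (Cfsg.PSU 6 F 2) := by
  obtain ⟨t, h1, h2, h3⟩ := class_main
  haveI := finite_K0 cF
  refine ⟨KK dF 0, inferInstance, inferInstance, ⟨simpleG, card0⟩, conjugatesOf t, h1, h2, ?_⟩
  intro d hd
  obtain ⟨e⟩ := h3 d hd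
  exact ⟨Cfsg.Agent.Lib.F4Sp.F4, Cfsg.Agent.Lib.F4Sp.instField, Cfsg.Agent.Lib.F4Sp.instFintype, Cfsg.Agent.Lib.F4Sp.card_F4,
    (NS.congr e.symm ns_main).toIs⟩

end Cfsg.Agent.S0471
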