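import Cfsg.Statements.S0481
import Cfsg.Agent.S0443

set_option autoImplicit false
open Cfsg

namespace Cfsg.Agent.S0481

/-- Large extraspecial subgroups: let z be an involution of a finite group G whose centraliser C contains a normal 2-subgroup Q with centre of order 2 and all squares central, such that every element of G centralising Q lies in Q. Then C contains a Sylow 2-subgroup of G, and any involution of G whose centraliser contains a Sylow 2-subgroup of G is conjugate to z. -/
theorem result {G : Type*} [Group G] [Finite G] (z : G) (hz : orderOf z = 2) (Q : Subgroup G) (hQC : Q ≤ Subgroup.centralizer ({z} : Set G)) (hQn : ∀ g ∈ Subgroup.centralizer ({z} : Set G), ∀ q ∈ Q, g * q * g⁻¹ ∈ Q) (hQ2 : IsPGroup 2 Q) (hZ : Nat.card (Subgroup.center Q) = 2) (hsq : ∀ x : Q, x ^ 2 ∈ Subgroup.center Q) (hlarge : Subgroup.centralizer (Q : Set G) ≤ Q) : (∃ P : Sylow 2 G, (P : Subgroup G) ≤ Subgroup.centralizer ({z} : Set G)) ∧ ∀ u : G, orderOf u = 2 → (∃ P : Sylow 2 G, (P : Subgroup G) ≤ Subgroup.centralizer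 ({u} : Set G)) → IsConj z u := by
  have : Fact (Nat.Prime 2) := ⟨Nat.prime_two⟩
  have hz1 : z ≠ 1 := by
    intro h; rw [h, orderOf_one] at hz; omega
  have hzc : z ∈ Subgroup.centralizer (Q : Set G) := by
    rw [Subgroup.mem_centralizer_iff]
    intro q hq
    have := Subgroup.mem_centralizer_iff.mp (hQC hq) z (Set.mem_singleton z)
    exact this.symm
  have hzQ : z ∈ Q := hlarge hzc
  -- the central elements of Q
  have hcen : ∀ w : G, w ∈ Subgroup.centralizer (Q : Set G) → w ≠ 1 → w = z := by
    intro w hw hw1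
    have hwQ : w ∈ Q := hlarge hw
    have hwc : (⟨w, hwQ⟩ : Q) ∈ Subgroup.center Q := by
      rw [Subgroup.mem_center_iff]
      rintro ⟨q, hq⟩
      apply Subtype.ext
      exact (Subgroup.mem_centralizer_iff.mp hw q hq)
    have hzc' : (⟨z, hzQ⟩ : Q) ∈ Subgroup.center Q := by
      rw [Subgroup.mem_center_iff]
      rintro ⟨q, hq⟩
      apply Subtype.ext
      exact (Subgroup.mem_centralizer_iff.mp hzc q hq)
    obtain ⟨y, -, huniq⟩ := (Nat.card_eq_two_iff' (1 : Subgroup.center Q)).mp hZ
    have h1 := huniq ⟨⟨w, hwQ⟩, hwc⟩ (by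
      intro h; apply hw1
      exact congrArg (fun x : Subgroup.center Q => ((x : Q) : G)) h)
    have h2 := huniq ⟨⟨z, hzQ⟩, hzc'⟩ (by
      intro h; apply hz1
      exact congrArg (fun x : Subgroup.center Q => ((x : Q) : G)) h)
    have h3 := h1.trans h2.symm
    exact congrArg (fun x : Subgroup.center Q => ((x : Q) : G)) h3
  obtain ⟨S, hQS⟩ := hQ2.exists_le_sylow
  -- central elements of S
  have hcenS : ∀ w : G, (∀ s ∈ (S : Subgroup G), s * w = w * s) → w ≠ 1 → w = z := by
    intro w hw hw1
    refine hcen w ?_ hw1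
    rw [Subgroup.mem_centralizer_iff]
    intro q hq
    exact hw q (hQS hq)
  have hzS : z ∈ (S : Subgroup G) := hQS hzQ
  have : Nontrivial (S : Subgroup G) := by
    refine ⟨⟨⟨z, hzS⟩, 1, ?_⟩⟩
    intro h
    apply hz1
    exact congrArg Subtype.val h
  have hnt : Nontrivial (Subgroup.center (S : Subgroup G)) := S.isPGroup'.center_nontrivial
  obtain ⟨x, hx⟩ := exists_ne (1 : Subgroup.center (S : Subgroup G))
  have hx1 : ((x : (S : Subgroup G)) : G) ≠ 1 := by
    intro h
    apply hx
    apply Subtype.ext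
    apply Subtype.ext
    exact h
  have hxc : ∀ s ∈ (S : Subgroup G), s * ((x : (S : Subgroup G)) : G) = ((x : (S : Subgroup G)) : G) * s := by
    intro s hs
    have := Subgroup.mem_center_iff.mp x.2 ⟨s, hs⟩
    exact congrArg Subtype.val this
  have hxz := hcenS _ hxc hx1
  have hzcS : ∀ s ∈ (S : Subgroup G), s * z = z * s := by
    rw [← hxz]; exact hxc
  refine ⟨⟨S, ?_⟩, ?_⟩
  · intro s hs
    rw [Subgroup.mem_centralizer_iff]
    intro y hy
    rw [Set.mem_singleton_iff.mp hy]
    exact (hzcS s hs).symm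
  · rintro u hu hP
    obtain ⟨-, P, huP, hcP⟩ := (Cfsg.Agent.S0443.result u hu).mpr hP
    obtain ⟨g, hg⟩ := MulAction.exists_smul_eq G S P
    have hu1 : u ≠ 1 := by
      intro h; rw [h, orderOf_one] at hu; omega
    have hmem : ∀ s ∈ (S : Subgroup G), g * s * g⁻¹ ∈ (P : Subgroup G) := by
      intro s hs
      rw [← hg]
      exact ⟨s, hs, rfl⟩
    have hw : g⁻¹ * u * g = z := by
      apply hcenS
      · intro s hs
        have h1 := hcP _ (hmem s hs)
        have h2 : g * (s * (g⁻¹ * u * g)) = g * ((g⁻¹ * u * g) * s) := by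
          calc g * (s * (g⁻¹ * u * g)) = (g * s * g⁻¹) * u * g := by simp only [mul_assoc]
            _ = u * (g * s * g⁻¹) * g := by rw [h1]
            _ = g * ((g⁻¹ * u * g) * s) := by simp only [mul_assoc, mul_inv_cancel_left, inv_mul_cancel, mul_one]
        exact mul_left_cancel h2
      · intro h
        apply hu1
        have : g * (g⁻¹ * u * g) * g⁻¹ = g * 1 * g⁻¹ := by rw [h]
        simpa [mul_assoc] using this
    rw [isConj_iff]
    refine ⟨g, ?_⟩
    rw [← hw]
    simp [mul_assoc]

end Cfsg.Agent.S0481
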