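import Cfsg.Statements.S0493
import Cfsg.Agent.Lib.H1Small2
import Cfsg.Agent.Lib.CharGal

set_option autoImplicit false
open Cfsg

namespace Cfsg.Agent.S0493


theorem tbl (n : ℕ) (h0 : n ≠ 0) (h1 : n ≤ 100) : (n = 30 ∨ n = 42 ∨ n = 60 ∨ n = 66 ∨ n = 70 ∨ n = 78 ∨ n = 84 ∨ n = 90) ∨
    ∃ p q a b : ℕ, p.Prime ∧ q.Prime ∧ n = p ^ a * q ^ b := by
  have h2 : 1 ≤ n := Nat.pos_of_ne_zero h0
  interval_cases n
  · exact Or.inr ⟨2,3,0,0,by norm_num,by norm_num,by norm_num⟩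
  · exact Or.inr ⟨2,3,1,0,by norm_num,by norm_num,by norm_num⟩
  · exact Or.inr ⟨3,2,1,0,by norm_num,by norm_num,by norm_num⟩
  · exact Or.inr ⟨2,3,2,0,by norm_num,by norm_num,by norm_num⟩
  · exact Or.inr ⟨5,2,1,0,by norm_num,by norm_num,by norm_num⟩
  · exact Or.inr ⟨2,3,1,1,by norm_num,by norm_num,by norm_num⟩
  · exact Or.inr ⟨7,2,1,0,by norm_num,by norm_num,by norm_num⟩
  · exact Or.inr ⟨2,3,3,0,by norm_num,by norm_num,by norm_num⟩
  · exact Or.inr ⟨3,2,2,0,by norm_num,by norm_num,by norm_num⟩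
  · exact Or.inr ⟨2,5,1,1,by norm_num,by norm_num,by norm_num⟩
  · exact Or.inr ⟨11,2,1,0,by norm_num,by norm_num,by norm_num⟩
  · exact Or.inr ⟨2,3,2,1,by norm_num,by norm_num,by norm_num⟩
  · exact Or.inr ⟨13,2,1,0,by norm_num,by norm_num,by norm_num⟩
  · exact Or.inr ⟨2,7,1,1,by norm_num,by norm_num,by norm_num⟩
  · exact Or.inr ⟨3,5,1,1,by norm_num,by norm_num,by norm_num⟩
  · exact Or.inr ⟨2,3,4,0,by norm_num,by norm_num,by norm_num⟩
  · exact Or.inr ⟨17,2,1,0,by norm_num,by norm_num,by norm_num⟩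
  · exact Or.inr ⟨2,3,1,2,by norm_num,by norm_num,by norm_num⟩
  · exact Or.inr ⟨19,2,1,0,by norm_num,by norm_num,by norm_num⟩
  · exact Or.inr ⟨2,5,2,1,by norm_num,by norm_num,by norm_num⟩
  · exact Or.inr ⟨3,7,1,1,by norm_num,by norm_num,by norm_num⟩
  · exact Or.inr ⟨2,11,1,1,by norm_num,by norm_num,by norm_num⟩
  · exact Or.inr ⟨23,2,1,0,by norm_num,by norm_num,by norm_num⟩
  · exact Or.inr ⟨2,3,3,1,by norm_num,by norm_num,by norm_num⟩
  · exact Or.inr ⟨5,2,2,0,by norm_num,by norm_num,by norm_num⟩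
  · exact Or.inr ⟨2,13,1,1,by norm_num,by norm_num,by norm_num⟩
  · exact Or.inr ⟨3,2,3,0,by norm_num,by norm_num,by norm_num⟩
  · exact Or.inr ⟨2,7,2,1,by norm_num,by norm_num,by norm_num⟩
  · exact Or.inr ⟨29,2,1,0,by norm_num,by norm_num,by norm_num⟩
  · simp
  · exact Or.inr ⟨31,2,1,0,by norm_num,by norm_num,by norm_num⟩
  · exact Or.inr ⟨2,3,5,0,by norm_num,by norm_num,by norm_num⟩
  · exact Or.inr ⟨3,11,1,1,by norm_num,by norm_num,by norm_num⟩
  · exact Or.inr ⟨2,17,1,1,by norm_num,by norm_num,by norm_num⟩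
  · exact Or.inr ⟨5,7,1,1,by norm_num,by norm_num,by norm_num⟩
  · exact Or.inr ⟨2,3,2,2,by norm_num,by norm_num,by norm_num⟩
  · exact Or.inr ⟨37,2,1,0,by norm_num,by norm_num,by norm_num⟩
  · exact Or.inr ⟨2,19,1,1,by norm_num,by norm_num,by norm_num⟩
  · exact Or.inr ⟨3,13,1,1,by norm_num,by norm_num,by norm_num⟩
  · exact Or.inr ⟨2,5,3,1,by norm_num,by norm_num,by norm_num⟩
  · exact Or.inr ⟨41,2,1,0,by norm_num,by norm_num,by norm_num⟩
  · simp
  · exact Or.inr ⟨43,2,1,0,by norm_num,by norm_num,by norm_num⟩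
  · exact Or.inr ⟨2,11,2,1,by norm_num,by norm_num,by norm_num⟩
  · exact Or.inr ⟨3,5,2,1,by norm_num,by norm_num,by norm_num⟩
  · exact Or.inr ⟨2,23,1,1,by norm_num,by norm_num,by norm_num⟩
  · exact Or.inr ⟨47,2,1,0,by norm_num,by norm_num,by norm_num⟩
  · exact Or.inr ⟨2,3,4,1,by norm_num,by norm_num,by norm_num⟩
  · exact Or.inr ⟨7,2,2,0,by norm_num,by norm_num,by norm_num⟩
  · exact Or.inr ⟨2,5,1,2,by norm_num,by norm_num,by norm_num⟩
  · exact Or.inr ⟨3,17,1,1,by norm_num,by norm_num,by norm_num⟩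
  · exact Or.inr ⟨2,13,2,1,by norm_num,by norm_num,by norm_num⟩
  · exact Or.inr ⟨53,2,1,0,by norm_num,by norm_num,by norm_num⟩
  · exact Or.inr ⟨2,3,1,3,by norm_num,by norm_num,by norm_num⟩
  · exact Or.inr ⟨5,11,1,1,by norm_num,by norm_num,by norm_num⟩
  · exact Or.inr ⟨2,7,3,1,by norm_num,by norm_num,by norm_num⟩
  · exact Or.inr ⟨3,19,1,1,by norm_num,by norm_num,by norm_num⟩
  · exact Or.inr ⟨2,29,1,1,by norm_num,by norm_num,by norm_num⟩
  · exact Or.inr ⟨59,2,1,0,by norm_num,by norm_num,by norm_num⟩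
  · simp
  · exact Or.inr ⟨61,2,1,0,by norm_num,by norm_num,by norm_num⟩
  · exact Or.inr ⟨2,31,1,1,by norm_num,by norm_num,by norm_num⟩
  · exact Or.inr ⟨3,7,2,1,by norm_num,by norm_num,by norm_num⟩
  · exact Or.inr ⟨2,3,6,0,by norm_num,by norm_num,by norm_num⟩
  · exact Or.inr ⟨5,13,1,1,by norm_num,by norm_num,by norm_num⟩
  · simp
  · exact Or.inr ⟨67,2,1,0,by norm_num,by norm_num,by norm_num⟩
  · exact Or.inr ⟨2,17,2,1,by norm_num,by norm_num,by norm_num⟩
  · exact Or.inr ⟨3,23,1,1,by norm_num,by norm_num,by norm_num⟩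
  · simp
  · exact Or.inr ⟨71,2,1,0,by norm_num,by norm_num,by norm_num⟩
  · exact Or.inr ⟨2,3,3,2,by norm_num,by norm_num,by norm_num⟩
  · exact Or.inr ⟨73,2,1,0,by norm_num,by norm_num,by norm_num⟩
  · exact Or.inr ⟨2,37,1,1,by norm_num,by norm_num,by norm_num⟩
  · exact Or.inr ⟨3,5,1,2,by norm_num,by norm_num,by norm_num⟩
  · exact Or.inr ⟨2,19,2,1,by norm_num,by norm_num,by norm_num⟩
  · exact Or.inr ⟨7,11,1,1,by norm_num,by norm_num,by norm_num⟩
  · simp
  · exact Or.inr ⟨79,2,1,0,by norm_num,by norm_num,by norm_num⟩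
  · exact Or.inr ⟨2,5,4,1,by norm_num,by norm_num,by norm_num⟩
  · exact Or.inr ⟨3,2,4,0,by norm_num,by norm_num,by norm_num⟩
  · exact Or.inr ⟨2,41,1,1,by norm_num,by norm_num,by norm_num⟩
  · exact Or.inr ⟨83,2,1,0,by norm_num,by norm_num,by norm_num⟩
  · simp
  · exact Or.inr ⟨5,17,1,1,by norm_num,by norm_num,by norm_num⟩
  · exact Or.inr ⟨2,43,1,1,by norm_num,by norm_num,by norm_num⟩
  · exact Or.inr ⟨3,29,1,1,by norm_num,by norm_num,by norm_num⟩
  · exact Or.inr ⟨2,11,3,1,by norm_num,by norm_num,by norm_num⟩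
  · exact Or.inr ⟨89,2,1,0,by norm_num,by norm_num,by norm_num⟩
  · simp
  · exact Or.inr ⟨7,13,1,1,by norm_num,by norm_num,by norm_num⟩
  · exact Or.inr ⟨2,23,2,1,by norm_num,by norm_num,by norm_num⟩
  · exact Or.inr ⟨3,31,1,1,by norm_num,by norm_num,by norm_num⟩
  · exact Or.inr ⟨2,47,1,1,by norm_num,by norm_num,by norm_num⟩
  · exact Or.inr ⟨5,19,1,1,by norm_num,by norm_num,by norm_num⟩
  · exact Or.inr ⟨2,3,5,1,by norm_num,by norm_num,by norm_num⟩
  · exact Or.inr ⟨97,2,1,0,by norm_num,by norm_num,by norm_num⟩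
  · exact Or.inr ⟨2,7,1,2,by norm_num,by norm_num,by norm_num⟩
  · exact Or.inr ⟨3,11,2,1,by norm_num,by norm_num,by norm_num⟩
  · exact Or.inr ⟨2,5,2,2,by norm_num,by norm_num,by norm_num⟩

/-- A finite simple group of order at most 100 that is not cyclic has order 60. -/
theorem result {G : Type*} [Group G] [Finite G] [IsSimpleGroup G]
    (hG : ¬ IsCyclic G) (h : Nat.card G ≤ 100) : Nat.card G = 60 := by
  classical
  have hnc : ¬ IsMulCommutative G := by
    intro hc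
    letI : CommGroup G := { (inferInstance : Group G) with mul_comm := hc.is_comm.comm }
    exact hG (IsSimpleGroup.isCyclic)
  have hpos : Nat.card G ≠ 0 := Nat.card_pos.ne'
  have hns : ¬ Group.IsSolvable G := by
    intro hs
    exact hnc ⟨⟨IsSimpleGroup.comm_iff_isSolvable.mpr hs⟩⟩
  rcases tbl _ hpos h with h3 | ⟨p, q, a, b, hp, hq, h3⟩
  · have key : ∀ (m : ℕ), Nat.card G = 2 * m → ¬ 2 ∣ m → False := by
      intro m hm h2m
      haveI : Fact (Nat.Prime 2) := ⟨Nat.prime_two⟩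
      obtain ⟨P⟩ : Nonempty (Sylow 2 G) := inferInstance
      have hmin : (Nat.card G).minFac = 2 := by
        rw [hm]
        exact (Nat.minFac_eq_two_iff _).mpr (dvd_mul_right 2 m)
      apply Cfsg.Agent.Lib.H1Small.not_isCyclic_sylow_minFac hnc hmin P
      obtain ⟨h4, _⟩ := Cfsg.Agent.Lib.H1Small.sylow_data 1 m (by simpa using hm) h2m P
      rw [pow_one] at h4
      exact isCyclic_of_prime_card h4
    rcases h3 with h3 | h3 | h3 | h3 | h3 | h3 | h3 | h3
    · exact (key 15 (by omega) (by norm_num)).elim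
    · exact (key 21 (by omega) (by norm_num)).elim
    · exact h3
    · exact (key 33 (by omega) (by norm_num)).elim
    · exact (key 35 (by omega) (by norm_num)).elim
    · exact (key 39 (by omega) (by norm_num)).elim
    · exfalso
      haveI : Fact (Nat.Prime 7) := ⟨by norm_num⟩
      obtain ⟨P⟩ : Nonempty (Sylow 7 G) := inferInstance
      obtain ⟨h4, h5, h6, _⟩ := Cfsg.Agent.Lib.H1Small.sylow_data 1 12 (by omega) (by norm_num) P
      have h7 : Nat.card (Sylow 7 G) = 1 := by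
        have h8 : Nat.card (Sylow 7 G) ≤ 12 := Nat.le_of_dvd (by norm_num) h5
        interval_cases Nat.card (Sylow 7 G) <;> omega
      exact Cfsg.Agent.Lib.H1Small.sylow_card_ne_one P (by rw [h4]; norm_num) (by rw [h4, h3]; norm_num) h7
    · exact (key 45 (by omega) (by norm_num)).elim
  · exact absurd (Cfsg.Agent.Lib.CharGal.solvable_of_card_pq p q a b hp hq h3) hns

end Cfsg.Agent.S0493
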