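import Cfsg.Statements.S0499
import Cfsg.Agent.Lib.PNilp

set_option autoImplicit false
open Cfsg

namespace Cfsg.Agent.S0499


theorem aut_prime {Q : Type*} [Group Q] [Finite Q] (hQ : Nat.card Q ∣ 8) (α : MulAut Q) {r : ℕ} (hr : r.Prime) (hr2 : r ≠ 2)
    (hα : orderOf α = r) : (r = 3 ∧ 4 ∣ Nat.card Q) ∨ (r = 7 ∧ Nat.card Q = 8) := by
  classical
  haveI : Fact r.Prime := ⟨hr⟩
  have hα1 : α ≠ 1 := by
    rintro rfl
    rw [orderOf_one] at hα
    exact hr.ne_one hα.symm
  have hAp : IsPGroup r (Subgroup.zpowers α) := by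
    apply IsPGroup.of_card (n := 1)
    rw [Nat.card_zpowers, hα, pow_one]
  have hmod := hAp.card_modEq_card_fixedPoints Q
  let F : Subgroup Q :=
    { carrier := {q | α q = q}
      one_mem' := map_one α
      mul_mem' := fun {a b} ha hb => by
        show α (a * b) = a * b
        rw [map_mul, show α a = a from ha, show α b = b from hb]
      inv_mem' := fun {a} ha => by
        show α a⁻¹ = a⁻¹
        rw [map_inv, show α a = a from ha] }
  have hfix : Nat.card (MulAction.fixedPoints (Subgroup.zpowers α) Q) = Nat.card F := by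
    apply Nat.card_congr
    apply Equiv.subtypeEquivRight
    intro q
    constructor
    · intro h
      exact h ⟨α, Subgroup.mem_zpowers α⟩
    · rintro h ⟨β, hβ⟩
      obtain ⟨k, rfl⟩ := Subgroup.mem_zpowers_iff.mp hβ
      have hq : α q = q := h
      show (α ^ k) q = q
      have key : ∀ n : ℕ, (α ^ n) q = q := by
        intro n
        induction n with
        | zero => rfl
        | succ n ih => rw [pow_succ, MulAut.mul_apply, hq, ih]
      rcases k with n | n
      · simpa using key n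
      · have h1 : (α ^ (n + 1)) q = q := key (n + 1)
        rw [zpow_negSucc, MulAut.inv_def, MulEquiv.symm_apply_eq]
        exact h1.symm
  rw [hfix] at hmod
  have hFd : Nat.card F ∣ Nat.card Q := Subgroup.card_subgroup_dvd_card F
  have hFne : Nat.card F ≠ Nat.card Q := by
    intro h
    apply hα1
    have htop : F = ⊤ := Subgroup.eq_top_of_card_eq F h
    ext q
    have : q ∈ F := by rw [htop]; trivial
    exact this
  have h8 : Nat.card Q ≤ 8 := Nat.le_of_dvd (by norm_num) hQ
  have hFp : 0 < Nat.card F := Nat.card_pos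
  have hle : Nat.card F ≤ Nat.card Q := Nat.le_of_dvd Nat.card_pos hFd
  have hdvd : r ∣ Nat.card Q - Nat.card F := (Nat.modEq_iff_dvd' hle).mp hmod.symm
  have hrle : ∀ m, r ∣ m → m = 3 ∨ m = 7 ∨ m = 1 ∨ m = 2 ∨ m = 4 ∨ m = 6 → True := fun _ _ _ => trivial
  generalize hq : Nat.card Q = q at *
  generalize hf : Nat.card F = f at *
  have hp3 : r ∣ 3 → r = 3 := fun h => (Nat.prime_dvd_prime_iff_eq hr (by norm_num)).mp h
  have hp7 : r ∣ 7 → r = 7 := fun h => (Nat.prime_dvd_prime_iff_eq hr (by norm_num)).mp h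
  have hp1 : ¬ r ∣ 1 := hr.one_lt.ne' ∘ Nat.dvd_one.mp
  have hp2 : ¬ r ∣ 2 := fun h => hr2 ((Nat.prime_dvd_prime_iff_eq hr (by norm_num)).mp h)
  have hp4 : ¬ r ∣ 4 := fun h => hp2 (hr.dvd_of_dvd_pow (show r ∣ 2 ^ 2 from h))
  have hp6 : r ∣ 6 → r = 3 := fun h => by
    rcases (Nat.Prime.dvd_mul hr).mp (show r ∣ 2 * 3 from h) with h1 | h1
    · exact absurd h1 hp2
    · exact hp3 h1
  interval_cases q <;> first | (exfalso; revert hQ; norm_num; done) | skip
  all_goals interval_cases f <;> first | (exfalso; revert hFd; norm_num; done) | (exact absurd rfl hFne) | skip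
  all_goals simp at hdvd
  all_goals first
    | exact absurd hdvd hp1
    | exact absurd hdvd hr.ne_one
    | exact absurd hdvd hp2
    | exact absurd hdvd hp4
    | (left; exact ⟨hp3 hdvd, by norm_num⟩)
    | (left; exact ⟨hp6 hdvd, by norm_num⟩)
    | (right; exact ⟨hp7 hdvd, rfl⟩)

/-- A non-abelian finite simple group of even order has order divisible by 12, 16 or 56. -/
theorem result {G : Type*} [Group G] [Finite G] [IsSimpleGroup G]
    (hG : ¬ IsMulCommutative G) (h2 : Even (Nat.card G)) :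
    12 ∣ Nat.card G ∨ 16 ∣ Nat.card G ∨ 56 ∣ Nat.card G := by
  classical
  by_contra hcon
  push Not at hcon
  obtain ⟨h12, h16, h56⟩ := hcon
  haveI : Fact (Nat.Prime 2) := ⟨Nat.prime_two⟩
  obtain ⟨P⟩ : Nonempty (Sylow 2 G) := inferInstance
  have hPd : Nat.card (P : Subgroup G) ∣ Nat.card G := Subgroup.card_subgroup_dvd_card _
  obtain ⟨a, ha⟩ := IsPGroup.iff_card.mp P.isPGroup'
  have ha3 : a ≤ 3 := by
    by_contra h
    apply h16
    rw [ha] at hPd
    exact (pow_dvd_pow 2 (show 4 ≤ a by omega)).trans hPd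
  have hP8 : Nat.card (P : Subgroup G) ∣ 8 := by
    rw [ha]
    exact pow_dvd_pow 2 ha3
  have hyp : ∀ Q : Subgroup G, Q ≤ (P : Subgroup G) → ∀ g ∈ Subgroup.normalizer (Q : Set G),
      Nat.Coprime (orderOf g) 2 → g ∈ Subgroup.centralizer (Q : Set G) := by
    intro Q hQ g hg hc
    by_contra hnc
    have hQ8 : Nat.card Q ∣ 8 := (Subgroup.card_dvd_of_le hQ).trans hP8
    let α₀ : MulAut Q := Q.normalizerMonoidHom ⟨g, hg⟩
    have hα₀ : α₀ ≠ 1 := by
      intro h
      have h1 : (⟨g, hg⟩ : Subgroup.normalizer (Q : Set G)) ∈ Q.normalizerMonoidHom.ker := h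
      rw [Subgroup.normalizerMonoidHom_ker] at h1
      exact hnc h1
    have hord : orderOf α₀ ∣ orderOf g := by
      have h1 := orderOf_map_dvd Q.normalizerMonoidHom (⟨g, hg⟩ : Subgroup.normalizer (Q : Set G))
      rwa [Subgroup.orderOf_mk] at h1
    have hord1 : orderOf α₀ ≠ 1 := fun h => hα₀ (orderOf_eq_one_iff.mp h)
    have hrp := Nat.minFac_prime hord1
    set r := (orderOf α₀).minFac with hr
    have hrd : r ∣ orderOf α₀ := Nat.minFac_dvd _
    have hrg : r ∣ Nat.card G := (hrd.trans hord).trans (orderOf_dvd_natCard g)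
    have hr2 : r ≠ 2 := by
      intro h
      have : 2 ∣ orderOf g := h ▸ (hrd.trans hord)
      exact absurd (Nat.dvd_gcd this (dvd_refl 2)) (by rw [hc]; norm_num)
    have hpos : 0 < orderOf α₀ := orderOf_pos α₀
    have hordr : orderOf (α₀ ^ (orderOf α₀ / r)) = r := orderOf_pow_orderOf_div hpos.ne' hrd
    have hQG : Nat.card Q ∣ Nat.card G := Subgroup.card_subgroup_dvd_card Q
    rcases aut_prime hQ8 _ hrp hr2 hordr with ⟨h1, h2⟩ | ⟨h1, h2⟩
    · apply h12
      rw [h1] at hrg
      have h4 : 4 ∣ Nat.card G := h2.trans hQG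
      exact (Nat.Coprime.mul_dvd_of_dvd_of_dvd (by norm_num : Nat.Coprime 3 4) hrg h4)
    · apply h56
      rw [h1] at hrg
      have h4 : 8 ∣ Nat.card G := h2 ▸ hQG
      exact (Nat.Coprime.mul_dvd_of_dvd_of_dvd (by norm_num : Nat.Coprime 7 8) hrg h4)
  obtain ⟨P', N, hN, hcomp⟩ := Cfsg.Agent.Lib.PNilp.hasNormalPComplement_of_automizer P hyp
  have hcard := hcomp.card_mul
  rcases hN.eq_bot_or_eq_top with rfl | rfl
  · -- G is a 2-group
    rw [Subgroup.card_bot, one_mul] at hcard
    have htop : (P' : Subgroup G) = ⊤ := Subgroup.eq_top_of_card_eq _ hcard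
    have hpg : IsPGroup 2 G := by
      have := P'.isPGroup'
      rw [htop] at this
      intro g
      obtain ⟨k, hk⟩ := this ⟨g, trivial⟩
      exact ⟨k, by simpa using congrArg Subtype.val hk⟩
    haveI : Nontrivial G := IsSimpleGroup.toNontrivial
    have hcn := hpg.center_nontrivial
    have hc : Subgroup.center G = ⊤ := by
      rcases (inferInstance : (Subgroup.center G).Normal).eq_bot_or_eq_top with h | h
      · exact absurd h ((Subgroup.nontrivial_iff_ne_bot _).mp hcn)
      · exact h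
    apply hG
    exact ⟨⟨fun a b => (Subgroup.mem_center_iff.mp (by rw [hc]; trivial : a ∈ Subgroup.center G) b).symm⟩⟩
  · rw [Subgroup.card_top] at hcard
    have h1 : Nat.card (P' : Subgroup G) = 1 := by
      have hpos : 0 < Nat.card G := Nat.card_pos
      nlinarith [Nat.card_pos (α := (P' : Subgroup G))]
    obtain ⟨m, hm⟩ := h2
    have h3 : 2 ∣ Nat.card G := ⟨m, by omega⟩
    have h4 := P'.card_eq_multiplicity
    rw [h1] at h4
    have h5 : (Nat.card G).factorization 2 = 0 := by
      have h6 := Nat.pow_right_injective (le_refl 2) (h4.symm.trans (pow_zero 2).symm)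
      exact h6
    have h7 := Nat.Prime.factorization_pos_of_dvd Nat.prime_two Nat.card_pos.ne' h3
    omega

end Cfsg.Agent.S0499
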