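import Cfsg.Statements.S0514
import Cfsg.Agent.Lib.PNilp
import Cfsg.Agent.Lib.H1Small

set_option autoImplicit false
open Cfsg

namespace Cfsg.Agent.S0514


section
variable {X : Type*} [Group X]

theorem K1 (A : Subgroup X) [Finite A] [IsCyclic A] {e : ℕ} (hA : Nat.card A = 2 ^ e) {g : X}
    (hg : g ∈ Subgroup.normalizer (A : Set X)) (hodd : Odd (orderOf g)) : g ∈ Subgroup.centralizer (A : Set X) := by
  let α : MulAut A := A.normalizerMonoidHom ⟨g, hg⟩
  have h1 : orderOf α ∣ orderOf g := by
    have h := orderOf_map_dvd A.normalizerMonoidHom (⟨g, hg⟩ : Subgroup.normalizer (A : Set X))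
    rwa [Subgroup.orderOf_mk] at h
  have h2 : orderOf α ∣ Nat.card (MulAut A) := orderOf_dvd_natCard α
  rw [IsCyclic.card_mulAut, hA] at h2
  have h3 : Nat.Coprime (orderOf g) (Nat.totient (2 ^ e)) := by
    rcases Nat.eq_zero_or_pos e with rfl | he
    · rw [pow_zero, Nat.totient_one]
      exact Nat.coprime_one_right _
    · rw [Nat.totient_prime_pow Nat.prime_two he]
      rw [show (2 - 1 : ℕ) = 1 from rfl, mul_one]
      exact Nat.Coprime.pow_right _ (Nat.coprime_two_right.mpr hodd)
  have h4 : orderOf α = 1 := Nat.eq_one_of_dvd_coprimes h3 h1 h2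
  have h5 : α = 1 := orderOf_eq_one_iff.mp h4
  have h6 : (⟨g, hg⟩ : Subgroup.normalizer (A : Set X)) ∈ A.normalizerMonoidHom.ker := h5
  rw [Subgroup.normalizerMonoidHom_ker] at h6
  exact h6

theorem conj_pow_mem (P : Subgroup X) {g : X} (h : ∀ y ∈ P, g * y * g⁻¹ ∈ P) (k : ℕ) :
    ∀ y ∈ P, g ^ k * y * (g ^ k)⁻¹ ∈ P := by
  induction k with
  | zero => intro y hy; simpa using hy
  | succ k ih =>
    intro y hy
    have e : g ^ (k + 1) * y * (g ^ (k + 1))⁻¹ = g * (g ^ k * y * (g ^ k)⁻¹) * g⁻¹ := by
      rw [pow_succ']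
      group
    rw [e]
    exact h _ (ih y hy)

theorem conj_inv_mem (P : Subgroup X) {g : X} (h : ∀ y ∈ P, g * y * g⁻¹ ∈ P) (hg : 0 < orderOf g) :
    ∀ y ∈ P, g⁻¹ * y * g ∈ P := by
  intro y hy
  have h1 := conj_pow_mem P h (orderOf g - 1) y hy
  have e : g ^ (orderOf g - 1) = g⁻¹ := by
    rw [eq_inv_iff_mul_eq_one, ← pow_succ, Nat.sub_add_cancel hg, pow_orderOf_eq_one]
  rw [e, inv_inv] at h1
  exact h1

/-- The abstract form: a subgroup with a cyclic subgroup of index at most two outside of which all elements are involutions. -/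
theorem K2 [Finite X] (T R : Subgroup X) (hRT : R ≤ T) [IsCyclic R] (hR2 : IsPGroup 2 R)
    (hsq : ∀ y ∈ T, y ∉ R → y * y = 1) (hdiv : ∀ y ∈ T, ∀ y' ∈ T, y ∉ R → y' ∉ R → y * y' ∈ R)
    {g t : X} (hgT : ∀ y ∈ T, g * y * g⁻¹ ∈ T) (hodd : Odd (orderOf g)) (ht : t ∈ T) (hgt : g * t = t * g) (ht1 : t ≠ 1) :
    ∀ y ∈ T, g * y * g⁻¹ = y := by
  classical
  have hgpos : 0 < orderOf g := orderOf_pos g
  have hinv := conj_inv_mem T hgT hgpos
  by_cases hA : ∃ x ∈ R, x * x ≠ 1
  · -- R has an element of order at least four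
    obtain ⟨x, hxR, hx⟩ := hA
    obtain ⟨⟨x₀, hx₀⟩, hgen⟩ := IsCyclic.exists_generator (α := R)
    have hpow : ∀ y ∈ R, ∃ k : ℤ, y = x₀ ^ k := by
      intro y hy
      obtain ⟨k, hk⟩ := Subgroup.mem_zpowers_iff.mp (hgen ⟨y, hy⟩)
      refine ⟨k, ?_⟩
      have := congrArg Subtype.val hk
      simpa using this.symm
    have hx₀ : x₀ * x₀ ≠ 1 := by
      intro h
      obtain ⟨k, rfl⟩ := hpow x hxR
      apply hx
      have hc : x₀ ^ k * x₀ ^ k = (x₀ * x₀) ^ k := by
        rw [← zpow_add, ← two_mul, zpow_mul, ← sq]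
        simp [sq]
      rw [hc, h, one_zpow]
    have hconjx : g * x₀ * g⁻¹ ∈ R := by
      by_contra hn
      have h1 := hsq _ (hgT x₀ (hRT ‹_›)) hn
      apply hx₀
      have e : (g * x₀ * g⁻¹) * (g * x₀ * g⁻¹) = g * (x₀ * x₀) * g⁻¹ := by group
      rw [e] at h1
      have h2 := congrArg (fun z => g⁻¹ * z * g) h1
      simpa [mul_assoc] using h2
    have hcR : ∀ y ∈ R, g * y * g⁻¹ ∈ R := by
      intro y hy
      obtain ⟨k, rfl⟩ := hpow y hy
      have e : g * x₀ ^ k * g⁻¹ = (g * x₀ * g⁻¹) ^ k := by
        simp [conj_zpow]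
      rw [e]
      exact R.zpow_mem hconjx k
    have hcR' := conj_inv_mem R hcR hgpos
    have hN : g ∈ Subgroup.normalizer (R : Set X) := by
      rw [Subgroup.mem_normalizer_iff]
      intro y
      constructor
      · exact hcR y
      · intro h
        have := hcR' _ h
        simpa [mul_assoc] using this
    obtain ⟨e, he⟩ := IsPGroup.iff_card.mp hR2
    have hC := K1 R he hN hodd
    have hcomm : ∀ y ∈ R, g * y * g⁻¹ = y := by
      intro y hy
      rw [Subgroup.mem_centralizer_iff] at hC
      have := hC y hy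
      rw [← this]
      simp
    intro s hs
    by_cases hsR : s ∈ R
    · exact hcomm s hsR
    · have hb : g * s * g⁻¹ ∈ T := hgT s hs
      have hbR : g * s * g⁻¹ ∉ R := by
        intro h
        apply hsR
        have := hcR' _ h
        simpa [mul_assoc] using this
      have hy := hdiv s hs _ hb hsR hbR
      obtain ⟨y, hyd⟩ : ∃ y, y = s * (g * s * g⁻¹) := ⟨_, rfl⟩
      rw [← hyd] at hy
      have hss := hsq s hs hsR
      have hbv : g * s * g⁻¹ = s * y := by
        rw [hyd, ← mul_assoc, hss, one_mul]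
      have hk : ∀ k : ℕ, g ^ k * s * (g ^ k)⁻¹ = s * y ^ k := by
        intro k
        induction k with
        | zero => simp
        | succ k ih =>
          have e1 : g ^ (k + 1) * s * (g ^ (k + 1))⁻¹ = g * (g ^ k * s * (g ^ k)⁻¹) * g⁻¹ := by
            rw [pow_succ']
            group
          rw [e1, ih]
          have e2 : g * (s * y ^ k) * g⁻¹ = (g * s * g⁻¹) * (g * y ^ k * g⁻¹) := by group
          rw [e2, hbv, hcomm _ (R.pow_mem hy k), mul_assoc, ← pow_succ']
      have h1 := hk (orderOf g)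
      rw [pow_orderOf_eq_one] at h1
      simp only [one_mul, inv_one, mul_one] at h1
      have h2 : y ^ orderOf g = 1 := by
        have := mul_left_cancel (a := s) (b := 1) (c := y ^ orderOf g) (by rw [mul_one]; exact h1)
        exact this.symm
      obtain ⟨k, hk2⟩ := hR2 ⟨y, hy⟩
      have h3 : y ^ 2 ^ k = 1 := by
        have := congrArg Subtype.val hk2
        simpa using this
      have h4 : Nat.Coprime (orderOf g) (2 ^ k) := Nat.Coprime.pow_right _ (Nat.coprime_two_right.mpr hodd)
      have h5 : y = 1 := by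
        have h6 := (pow_gcd_eq_one (a := y)).mpr ⟨h2, h3⟩
        rw [h4] at h6
        simpa using h6
      rw [hbv, h5, mul_one]
  · push Not at hA
    -- all elements of T are involutions and T is small
    have hallsq : ∀ y ∈ T, y * y = 1 := by
      intro y hy
      by_cases h : y ∈ R
      · exact hA y h
      · exact hsq y hy h
    -- |R| ≤ 2
    have hRc : Nat.card R ≤ 2 := by
      obtain ⟨⟨x₀, hx₀⟩, hgen⟩ := IsCyclic.exists_generator (α := R)
      have h1 : orderOf (⟨x₀, hx₀⟩ : R) = Nat.card R := orderOf_eq_card_of_forall_mem_zpowers hgen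
      have h2 : (⟨x₀, hx₀⟩ : R) ^ 2 = 1 := by
        apply Subtype.ext
        simpa [sq] using hA x₀ hx₀
      rw [← h1]
      exact orderOf_le_of_pow_eq_one (by norm_num) h2
    have hTc : Nat.card T ≤ 4 := by
      by_cases hs : ∃ s ∈ T, s ∉ R
      · obtain ⟨s, hs, hsR⟩ := hs
        have h1 : Nat.card T ≤ Nat.card (R × Bool) := by
          apply Nat.card_le_card_of_injective (fun y : T => if h : (y : X) ∈ R then ((⟨y, h⟩ : R), false) else ((⟨s * y, hdiv s hs y y.2 hsR h⟩ : R), true))
          rintro ⟨a, ha⟩ ⟨b, hb⟩ e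
          apply Subtype.ext
          by_cases h1 : a ∈ R <;> by_cases h2 : b ∈ R <;> simp only [h1, h2, dite_true, dite_false, Prod.mk.injEq] at e
          · have := congrArg Subtype.val e.1
            exact this
          · simp at e
          · simp at e
          · have := congrArg Subtype.val e.1
            exact mul_left_cancel this
        rw [Nat.card_prod, Nat.card_eq_fintype_card (α := Bool), Fintype.card_bool] at h1
        omega
      · push Not at hs
        have h1 : T ≤ R := hs
        have h2 : Nat.card T ≤ Nat.card R := Subgroup.card_le_of_le h1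
        omega
    intro a ha
    by_cases ha1 : a = 1
    · subst ha1; simp
    by_cases hat : a = t
    · subst hat
      rw [hgt]
      simp
    -- a, t commute
    have hcomm : ∀ u ∈ T, ∀ v ∈ T, u * v = v * u := by
      intro u hu v hv
      have h1 := hallsq _ (T.mul_mem hu hv)
      have h2 := mul_eq_one_iff_eq_inv.mp h1
      rw [mul_inv_rev, inv_eq_of_mul_eq_one_left (hallsq v hv), inv_eq_of_mul_eq_one_left (hallsq u hu)] at h2
      exact h2
    have hb := hgT a ha
    obtain ⟨b, hbd⟩ : ∃ b, b = g * a * g⁻¹ := ⟨_, rfl⟩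
    rw [← hbd] at hb
    have hb1 : b ≠ 1 := by
      rw [hbd]
      intro h
      apply ha1
      have := congrArg (fun z => g⁻¹ * z * g) h
      simpa [mul_assoc] using this
    have hbt : b ≠ t := by
      rw [hbd]
      intro h
      apply hat
      have e : g * t * g⁻¹ = t := by rw [hgt]; simp
      have := congrArg (fun z => g⁻¹ * z * g) (h.trans e.symm)
      simpa [mul_assoc] using this
    have hcases : b = a ∨ b = a * t := by
      by_contra hn
      push Not at hn
      have hsub : (({1, t, a, a * t, b} : Finset X) : Set X) ⊆ (T : Set X) := by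
        intro z hz
        simp only [Finset.coe_insert, Finset.coe_singleton, Set.mem_insert_iff, Set.mem_singleton_iff] at hz
        rcases hz with rfl | rfl | rfl | rfl | rfl
        · exact T.one_mem
        · exact ht
        · exact ha
        · exact T.mul_mem ha ht
        · exact hb
      have hne1 : a * t ≠ 1 := by
        intro h
        apply hat
        have := mul_eq_one_iff_eq_inv.mp h
        rw [this, inv_eq_of_mul_eq_one_left (hallsq t ht)]
      have hne2 : a * t ≠ t := by
        intro h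
        apply ha1
        exact mul_right_cancel (b := t) (by rw [h, one_mul])
      have hne3 : a * t ≠ a := by
        intro h
        apply ht1
        exact mul_left_cancel (a := a) (by rw [h, mul_one])
      have hcard5 : ({1, t, a, a * t, b} : Finset X).card = 5 := by
        rw [Finset.card_insert_of_notMem, Finset.card_insert_of_notMem, Finset.card_insert_of_notMem, Finset.card_insert_of_notMem, Finset.card_singleton]
        · simp only [Finset.mem_singleton]; exact fun h => hn.2 h.symm
        · simp only [Finset.mem_insert, Finset.mem_singleton, not_or]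
          exact ⟨fun h => hne3 h.symm, fun h => hn.1 h.symm⟩
        · simp only [Finset.mem_insert, Finset.mem_singleton, not_or]
          exact ⟨fun h => hat h.symm, fun h => hne2 h.symm, fun h => hbt h.symm⟩
        · simp only [Finset.mem_insert, Finset.mem_singleton, not_or]
          exact ⟨fun h => ht1 h.symm, fun h => ha1 h.symm, fun h => hne1 h.symm, fun h => hb1 h.symm⟩
      have h1 : (({1, t, a, a * t, b} : Finset X) : Set X).ncard ≤ (T : Set X).ncard := Set.ncard_le_ncard hsub (Set.toFinite _)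
      rw [Set.ncard_coe_finset, hcard5, ← Nat.card_coe_set_eq] at h1
      have : Nat.card (T : Set X) = Nat.card T := rfl
      omega
    have h2 : g * g * a * (g * g)⁻¹ = a := by
      rcases hcases with h | h
      · have e : g * g * a * (g * g)⁻¹ = g * (g * a * g⁻¹) * g⁻¹ := by group
        rw [e, ← hbd, h, ← hbd, h]
      · have e : g * g * a * (g * g)⁻¹ = g * (g * a * g⁻¹) * g⁻¹ := by group
        rw [e, ← hbd, h]
        have e2 : g * (a * t) * g⁻¹ = (g * a * g⁻¹) * (g * t * g⁻¹) := by group
        have e3 : g * t * g⁻¹ = t := by rw [hgt]; simp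
        rw [e2, ← hbd, h, e3, mul_assoc, hallsq t ht, mul_one]
    -- g is a power of g²
    obtain ⟨k, hk⟩ := hodd
    have h3 : g = (g * g) ^ (k + 1) := by
      rw [← sq, ← pow_mul]
      have : 2 * (k + 1) = orderOf g + 1 := by omega
      rw [this, pow_succ, pow_orderOf_eq_one, one_mul]
    have h4 : ∀ n : ℕ, (g * g) ^ n * a * ((g * g) ^ n)⁻¹ = a := by
      intro n
      induction n with
      | zero => simp
      | succ n ih =>
        have e : (g * g) ^ (n + 1) * a * ((g * g) ^ (n + 1))⁻¹ = (g * g) ^ n * (g * g * a * (g * g)⁻¹) * ((g * g) ^ n)⁻¹ := by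
          rw [pow_succ]
          group
        rw [e, h2, ih]
    have h5 := h4 (k + 1)
    rw [← h3] at h5
    exact h5

open DihedralGroup in
/-- The dihedral form. -/
theorem K3 [Finite X] {n : ℕ} [NeZero n] (ι : DihedralGroup n →* X) (T : Subgroup X) (hT : T ≤ ι.range) (hT2 : IsPGroup 2 T)
    {g t : X} (hgT : ∀ y ∈ T, g * y * g⁻¹ ∈ T) (hodd : Odd (orderOf g)) (ht : t ∈ T) (hgt : g * t = t * g) (ht1 : t ≠ 1) :
    ∀ y ∈ T, g * y * g⁻¹ = y := by
  classical
  set Z : Subgroup X := Subgroup.zpowers (ι (r 1)) with hZ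
  have hrZ : ∀ i : ZMod n, ι (r i) ∈ Z := by
    intro i
    obtain ⟨k, rfl⟩ := ZMod.natCast_zmod_surjective i
    have : (r (k : ZMod n) : DihedralGroup n) = (r 1) ^ k := by
      rw [r_one_pow]
    rw [this, map_pow]
    exact Subgroup.pow_mem _ (Subgroup.mem_zpowers _) k
  haveI : IsCyclic (T ⊓ Z : Subgroup X) := Subgroup.isCyclic_of_le (H' := Z) inf_le_right
  refine K2 T (T ⊓ Z) inf_le_left (hT2.to_le inf_le_left) ?_ ?_ hgT hodd ht hgt ht1
  · intro y hy hn
    obtain ⟨d, rfl⟩ := hT hy
    rcases d with i | i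
    · exact absurd ⟨hy, hrZ i⟩ hn
    · rw [← map_mul, sr_mul_self, map_one]
  · intro y hy y' hy' hn hn'
    refine ⟨T.mul_mem hy hy', ?_⟩
    obtain ⟨d, rfl⟩ := hT hy
    obtain ⟨d', rfl⟩ := hT hy'
    rcases d with i | i
    · exact absurd ⟨hy, hrZ i⟩ hn
    · rcases d' with j | j
      · exact absurd ⟨hy', hrZ j⟩ hn'
      · rw [← map_mul, sr_mul_sr]
        exact hrZ _

end

/-- In a finite group whose Sylow 2-subgroups are dihedral of order at least 4, the centralizer of any involution has a
normal subgroup of odd order whose index in the centralizer is a power of 2. -/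
theorem result {X : Type*} [Group X] [Finite X]
    (S : Sylow 2 X) (n : ℕ) (hn : 2 ≤ n) (hS : Nonempty ((S : Subgroup X) ≃* DihedralGroup n)) (t : X)
    (ht : orderOf t = 2) :
    ∃ N : Subgroup (Subgroup.centralizer ({t} : Set X)), N.Normal ∧ Odd (Nat.card N) ∧ ∃ k : ℕ, N.index = 2 ^ k := by
  classical
  haveI : NeZero n := ⟨by omega⟩
  haveI : Fact (Nat.Prime 2) := ⟨Nat.prime_two⟩
  obtain ⟨e⟩ := hS
  set C := Subgroup.centralizer ({t} : Set X) with hC
  have hth : t ∈ C := by
    rw [hC, Subgroup.mem_centralizer_singleton_iff]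
  obtain ⟨P⟩ : Nonempty (Sylow 2 C) := inferInstance
  have hkey : ∀ Q : Subgroup C, Q ≤ (P : Subgroup C) → ∀ g ∈ Subgroup.normalizer (Q : Set C),
      Nat.Coprime (orderOf g) 2 → g ∈ Subgroup.centralizer (Q : Set C) := by
    intro Q hQ g hg hc
    have ht1 : t ≠ 1 := by
      rintro rfl
      rw [orderOf_one] at ht
      omega
    let tt : C := ⟨t, hth⟩
    have htc : ∀ c : C, c * tt = tt * c := by
      intro c
      apply Subtype.ext
      exact Subgroup.mem_centralizer_singleton_iff.mp c.2
    have hZn : (Subgroup.zpowers tt).Normal := by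
      constructor
      intro z hz c
      obtain ⟨k, rfl⟩ := Subgroup.mem_zpowers_iff.mp hz
      have : Commute c (tt ^ k) := Commute.zpow_right (htc c) k
      rw [this.eq]
      simp
    have hZ2 : IsPGroup 2 (Subgroup.zpowers tt) := by
      apply IsPGroup.of_card (n := 1)
      rw [Nat.card_zpowers, pow_one, Subgroup.orderOf_mk]
      exact ht
    have hQ2 : IsPGroup 2 Q := P.isPGroup'.to_le hQ
    have hTc2 : IsPGroup 2 (Q ⊔ Subgroup.zpowers tt : Subgroup C) := hQ2.to_sup_of_normal_right hZ2
    set Tc : Subgroup C := Q ⊔ Subgroup.zpowers tt with hTc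
    set T : Subgroup X := Tc.map C.subtype with hT
    have hT2 : IsPGroup 2 T := hTc2.map C.subtype
    obtain ⟨S', hS'⟩ := hT2.exists_le_sylow
    obtain ⟨x, rfl⟩ := MulAction.exists_smul_eq X S S'
    let ι : DihedralGroup n →* X := ((MulAut.conj x).toMonoidHom.comp (S : Subgroup X).subtype).comp e.symm.toMonoidHom
    have hιr : T ≤ ι.range := by
      intro y hy
      have h1 : x⁻¹ * y * x ∈ (S : Subgroup X) := (Cfsg.Agent.Lib.H1Small.mem_smul_sylow S x y).mp (hS' hy)
      refine ⟨e ⟨_, h1⟩, ?_⟩
      simp [ι, MulAut.conj_apply, mul_assoc]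
    have hgTc : Tc ≤ Tc.comap (MulAut.conj g).toMonoidHom := by
      refine sup_le ?_ ?_
      · intro a ha
        have h1 := (Subgroup.mem_normalizer_iff.mp hg a).mp ha
        exact Subgroup.mem_sup_left h1
      · rw [Subgroup.zpowers_le]
        have h1 : (MulAut.conj g).toMonoidHom tt = tt := by
          show g * tt * g⁻¹ = tt
          rw [htc g]
          simp
        show (MulAut.conj g).toMonoidHom tt ∈ Tc
        rw [h1]
        exact Subgroup.mem_sup_right (Subgroup.mem_zpowers tt)
    have hgT : ∀ y ∈ T, (g : X) * y * (g : X)⁻¹ ∈ T := by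
      rintro y ⟨z, hz, rfl⟩
      exact ⟨_, hgTc hz, rfl⟩
    have hodd : Odd (orderOf (g : X)) := by
      rw [Subgroup.orderOf_coe]
      exact Nat.coprime_two_right.mp hc
    have hgt : (g : X) * t = t * g := Subgroup.mem_centralizer_singleton_iff.mp g.2
    have htT : t ∈ T := ⟨tt, Subgroup.mem_sup_right (Subgroup.mem_zpowers tt), rfl⟩
    have hres := K3 ι T hιr hT2 hgT hodd htT hgt ht1
    rw [Subgroup.mem_centralizer_iff]
    intro a ha
    have h1 := hres (a : C) ⟨a, Subgroup.mem_sup_left ha, rfl⟩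
    apply Subtype.ext
    push_cast
    have h2 : (g : X) * (a : C) = ((a : C) : X) * g := by
      calc (g : X) * (a : C) = ((g : X) * (a : C) * (g : X)⁻¹) * g := by group
        _ = _ := by rw [h1]
    exact h2.symm
  obtain ⟨P', N, hN, hcomp⟩ := Cfsg.Agent.Lib.PNilp.hasNormalPComplement_of_automizer P hkey
  refine ⟨N, hN, ?_, ?_⟩
  · exact Nat.coprime_two_right.mp (Cfsg.Agent.Lib.PNilp.coprime_card_of_isComplement P' N hcomp)
  · obtain ⟨k, hk⟩ := IsPGroup.iff_card.mp P'.isPGroup'
    exact ⟨k, by rw [Cfsg.Agent.Lib.PNilp.index_eq_card_of_isComplement P' N hcomp]; exact hk⟩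

end Cfsg.Agent.S0514
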