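import Cfsg.Statements.S0519
import Cfsg.Agent.Lib.H1TwoClass
import Cfsg.Agent.Lib.PGrp8

set_option autoImplicit false
open Cfsg

namespace Cfsg.Agent.S0519

/-- Let P be a finite p-group in which every abelian normal subgroup is cyclic, but which has a non-cyclic abelian
subgroup. Then p = 2 and P is generalized quaternion, dihedral of order at least 16, or quasi-dihedral. -/
theorem result {P : Type*} [Group P] [Finite P] (p : ℕ) [Fact p.Prime]
    (hP : IsPGroup p P) (hn : ∀ A : Subgroup P, A.Normal → IsMulCommutative A → IsCyclic A)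
    (hm : ∃ B : Subgroup P, IsMulCommutative B ∧ ¬ IsCyclic B) :
    p = 2 ∧ ((∃ n : ℕ, Nonempty (P ≃* QuaternionGroup n)) ∨ (∃ n : ℕ, 8 ≤ n ∧ Nonempty (P ≃* DihedralGroup n)) ∨
      Cfsg.IsQuasiDihedral P) := by
  classical
  have hnc : ¬ IsCyclic P := by
    intro hc
    obtain ⟨B, hBc, hBn⟩ := hm
    exact hBn inferInstance
  have hp2 : p = 2 := by
    by_contra hne
    obtain ⟨A, hAn, hAe, hAc⟩ := Cfsg.Agent.Lib.PGrp.exists_elem_sq_of_noncyclic hne hP hnc
    haveI hcyc := hn A hAn hAe.1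
    obtain ⟨g, hg⟩ := IsCyclic.exists_generator (α := A)
    have h1 : orderOf g = p ^ 2 := by
      rw [orderOf_eq_card_of_forall_mem_zpowers hg, hAc]
    have h2 : g ^ p = 1 := Subtype.ext (hAe.2 g g.2)
    have h3 := orderOf_dvd_of_pow_eq_one h2
    rw [h1] at h3
    have hpp := (Fact.out : p.Prime)
    have h4 := Nat.le_of_dvd hpp.pos h3
    have h5 : p * 2 ≤ p * p := Nat.mul_le_mul_left p hpp.two_le
    rw [sq] at h4
    have h6 := hpp.pos
    omega
  subst hp2
  refine ⟨rfl, ?_⟩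
  rcases Cfsg.Agent.Lib.H1TwoClass.two_class hP hnc hn with ⟨k, -, h⟩ | ⟨k, hk, h⟩ | h
  · exact Or.inl ⟨_, h⟩
  · refine Or.inr (Or.inl ⟨2 ^ k, ?_, h⟩)
    calc 8 = 2 ^ 3 := by norm_num
      _ ≤ 2 ^ k := Nat.pow_le_pow_right (by norm_num) hk
  · exact Or.inr (Or.inr h)

end Cfsg.Agent.S0519
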