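import Cfsg.Statements.S0534
import Cfsg.Agent.Lib.H1Super2
import Cfsg.Agent.Lib.H1Hall

set_option autoImplicit false
open Cfsg

namespace Cfsg.Agent.S0534

/-- Let G be a finite solvable group and A a finite abelian group such that every prime dividing the order of A divides the order of G and, for each prime p dividing the order of G, the exponent of p in the order of A is one less than its exponent in the order of G. Then G × A has a subgroup of every order dividing its order. -/
theorem result {G A : Type*} [Group G] [CommGroup A] [Finite G] [Finite A] [Group.IsSolvable G] (hA : ∀ p : ℕ, p.Prime → p ∣ Nat.card A → p ∣ Nat.card G) (hexp : ∀ p : ℕ, p.Prime → p ∣ Nat.card G → (Nat.card A).factorization p + 1 = (Nat.card G).factorization p) : Cfsg.HasSubgroupOfEveryOrder (G × A) := by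
  classical
  intro d hd
  rw [Nat.card_prod] at hd
  have hg0 : Nat.card G ≠ 0 := Nat.card_pos.ne'
  have ha0 : Nat.card A ≠ 0 := Nat.card_pos.ne'
  have hd0 : d ≠ 0 := by
    rintro rfl
    rw [zero_dvd_iff] at hd
    exact (mul_ne_zero hg0 ha0) hd
  let g := Nat.card G
  let f₁ : ℕ →₀ ℕ := g.factorization.filter (fun p => g.factorization p ≤ d.factorization p)
  let f₂ : ℕ →₀ ℕ := g.factorization.filter (fun p => ¬ g.factorization p ≤ d.factorization p)
  have hprime : ∀ f : ℕ →₀ ℕ, f ≤ g.factorization → ∀ p ∈ f.support, p.Prime := by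
    intro f hf p hp
    have h1 : g.factorization p ≠ 0 := by
      intro h0
      have h2 := hf p
      rw [h0] at h2
      exact (Finsupp.mem_support_iff.mp hp) (Nat.le_zero.mp h2)
    exact Nat.prime_of_mem_primeFactors (Nat.support_factorization g ▸ Finsupp.mem_support_iff.mpr h1)
  have hf₁ : f₁ ≤ g.factorization := fun p => by
    simp only [f₁, Finsupp.filter_apply]
    split_ifs <;> simp
  have hf₂ : f₂ ≤ g.factorization := fun p => by
    simp only [f₂, Finsupp.filter_apply]
    split_ifs <;> simp
  let m := f₁.prod (· ^ ·)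
  let n := f₂.prod (· ^ ·)
  have hm : m.factorization = f₁ := Nat.prod_pow_factorization_eq_self (hprime f₁ hf₁)
  have hn : n.factorization = f₂ := Nat.prod_pow_factorization_eq_self (hprime f₂ hf₂)
  have hm0 : m ≠ 0 := by
    apply Finset.prod_ne_zero_iff.mpr
    intro p hp
    exact pow_ne_zero _ (hprime f₁ hf₁ p hp).ne_zero
  have hn0 : n ≠ 0 := by
    apply Finset.prod_ne_zero_iff.mpr
    intro p hp
    exact pow_ne_zero _ (hprime f₂ hf₂ p hp).ne_zero
  have hmn : g = m * n := by
    apply Nat.eq_of_factorization_eq hg0 (mul_ne_zero hm0 hn0)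
    intro p
    rw [Nat.factorization_mul hm0 hn0, Finsupp.add_apply, hm, hn]
    simp only [f₁, f₂, Finsupp.filter_apply]
    by_cases h : g.factorization p ≤ d.factorization p <;> simp [h] <;> rfl
  have hcop : m.Coprime n := by
    apply Nat.coprime_of_dvd
    intro p hp hpm hpn
    have h1 : 0 < m.factorization p := hp.factorization_pos_of_dvd hm0 hpm
    have h2 : 0 < n.factorization p := hp.factorization_pos_of_dvd hn0 hpn
    rw [hm] at h1
    rw [hn] at h2
    simp only [f₁, f₂, Finsupp.filter_apply] at h1 h2
    split_ifs at h1 h2 <;> simp_all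
  obtain ⟨H, hH⟩ := Cfsg.Agent.Lib.H1Hall.hall_exists m n hmn hcop
  have hfd : d.factorization ≤ g.factorization + (Nat.card A).factorization := by
    rw [← Nat.factorization_mul hg0 ha0]
    exact (Nat.factorization_le_iff_dvd hd0 (mul_ne_zero hg0 ha0)).mpr hd
  have hmd : m ∣ d := by
    rw [← Nat.factorization_le_iff_dvd hm0 hd0, hm]
    intro p
    simp only [f₁, Finsupp.filter_apply]
    split_ifs with h
    · exact h
    · exact Nat.zero_le _
  have hb0 : d / m ≠ 0 := by
    intro h0
    have := Nat.mul_div_cancel' hmd
    rw [h0, mul_zero] at this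
    exact hd0 this.symm
  have hb : d / m ∣ Nat.card A := by
    rw [← Nat.factorization_le_iff_dvd hb0 ha0, Nat.factorization_div hmd, hm]
    intro p
    rw [Finsupp.tsub_apply]
    have h1 := hfd p
    rw [Finsupp.add_apply] at h1
    simp only [f₁, Finsupp.filter_apply]
    by_cases hpg : p.Prime ∧ p ∣ g
    · have h2 := hexp p hpg.1 hpg.2
      change (Nat.card A).factorization p + 1 = g.factorization p at h2
      split_ifs with h <;> omega
    · have h3 : g.factorization p = 0 := by
        by_cases hp : p.Prime
        · exact Nat.factorization_eq_zero_of_not_dvd (fun h => hpg ⟨hp, h⟩)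
        · exact Nat.factorization_eq_zero_of_not_prime _ hp
      have h4 : (Nat.card A).factorization p = 0 := by
        by_cases hp : p.Prime
        · exact Nat.factorization_eq_zero_of_not_dvd (fun h => hpg ⟨hp, hA p hp h⟩)
        · exact Nat.factorization_eq_zero_of_not_prime _ hp
      split_ifs with h <;> omega
  have hAss : Cfsg.IsSupersolvable A :=
    Cfsg.Agent.Lib.H1Super.isSS_of_isNilpotent inferInstance
  obtain ⟨B, hB⟩ := Cfsg.Agent.Lib.H1Super.hasSubgroupOfEveryOrder_aux _ A rfl hAss _ hb
  refine ⟨H.prod B, ?_⟩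
  rw [Nat.card_congr (Subgroup.prodEquiv H B).toEquiv, Nat.card_prod, hH, hB]
  exact Nat.mul_div_cancel' hmd

end Cfsg.Agent.S0534
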