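import Cfsg.Statements.S0535
import Cfsg.Agent.S0019
import Cfsg.Agent.Lib.H1Hall2

set_option autoImplicit false
open Cfsg

namespace Cfsg.Agent.S0535

universe u

theorem allHyp_subgroup {G : Type*} [Group G]
    (h : ∀ H : Subgroup G, H ≠ ⊥ → ∀ p : ℕ, p.Prime → p ∣ Nat.card H →
      ∃ K : Subgroup H, K ≠ ⊤ ∧ ∃ k : ℕ, K.index = p ^ k) (L : Subgroup G) :
    ∀ H : Subgroup L, H ≠ ⊥ → ∀ p : ℕ, p.Prime → p ∣ Nat.card H →
      ∃ K : Subgroup H, K ≠ ⊤ ∧ ∃ k : ℕ, K.index = p ^ k := by
  intro H hH p hp hd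
  let e : H ≃* H.map L.subtype := H.equivMapOfInjective L.subtype L.subtype_injective
  have hH' : H.map L.subtype ≠ ⊥ := by
    intro h0
    rw [Subgroup.map_eq_bot_iff_of_injective _ L.subtype_injective] at h0
    exact hH h0
  obtain ⟨K', hK', k, hk⟩ := h _ hH' p hp (by rw [← Nat.card_congr e.toEquiv]; exact hd)
  have hs : Function.Surjective e.toMonoidHom := e.surjective
  refine ⟨K'.comap e.toMonoidHom, ?_, k, ?_⟩
  · intro h0
    apply hK'
    rw [← Subgroup.map_comap_eq_self_of_surjective hs K', h0, ← MonoidHom.range_eq_map]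
    exact MonoidHom.range_eq_top.mpr hs
  · rw [Subgroup.index_comap_of_surjective _ hs, hk]

theorem solvable_aux : ∀ (n : ℕ) (G : Type u) [Group G] [Finite G], Nat.card G = n →
    (∀ H : Subgroup G, H ≠ ⊥ → ∀ p : ℕ, p.Prime → p ∣ Nat.card H →
      ∃ K : Subgroup H, K ≠ ⊤ ∧ ∃ k : ℕ, K.index = p ^ k) → Group.IsSolvable G := by
  intro n
  induction n using Nat.strong_induction_on with
  | _ n ih =>
    intro G _ _ hn h
    by_cases h3 : ∃ p q r : ℕ, p.Prime ∧ q.Prime ∧ r.Prime ∧ p ≠ q ∧ p ≠ r ∧ q ≠ r ∧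
        p ∣ Nat.card G ∧ q ∣ Nat.card G ∧ r ∣ Nat.card G
    · obtain ⟨p, q, r, hp, hq, hr, hpq, hpr, hqr, hpd, hqd, hrd⟩ := h3
      have key : ∀ s : ℕ, s.Prime → s ∣ Nat.card G → ∃ S : Subgroup G, Group.IsSolvable S ∧
          ∃ k : ℕ, S.index = s ^ k := by
        intro s hs hsd
        have hnt : (⊤ : Subgroup G) ≠ ⊥ := by
          intro h0
          have h1 : Nat.card (⊤ : Subgroup G) = 1 := by rw [h0]; simp
          rw [Subgroup.card_top] at h1
          rw [h1] at hsd
          exact hs.one_lt.ne' (Nat.dvd_one.mp hsd)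
        obtain ⟨K, hK, k, hk⟩ := h ⊤ hnt s hs (by rwa [Subgroup.card_top])
        let S : Subgroup G := K.map (⊤ : Subgroup G).subtype
        have hSc : Nat.card S = Nat.card K := Subgroup.card_map_of_injective (Subgroup.subtype_injective _)
        have hSi : S.index = s ^ k := by
          have e1 := S.index_mul_card
          have e2 := K.index_mul_card
          rw [Subgroup.card_top, hk, ← hSc, ← e1] at e2
          exact (Nat.eq_of_mul_eq_mul_right Nat.card_pos e2).symm
        have hSne : S ≠ ⊤ := by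
          intro e
          have h1 : Nat.card S = Nat.card G := by rw [e, Subgroup.card_top]
          apply hK
          apply Subgroup.eq_top_of_card_eq
          rw [← hSc, h1, Subgroup.card_top]
        have hlt : Nat.card S < n := by
          rw [← hn, ← Subgroup.card_top (G := G)]
          exact Cfsg.Agent.Lib.H1SZ.card_lt_of_lt (lt_top_iff_ne_top.mpr hSne)
        exact ⟨S, ih _ hlt S rfl (allHyp_subgroup h S), k, hSi⟩
      obtain ⟨A, hA, a, ha⟩ := key p hp hpd
      obtain ⟨B, hB, b, hb⟩ := key q hq hqd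
      obtain ⟨C, hC, c, hc⟩ := key r hr hrd
      have hcop : ∀ s t : ℕ, s.Prime → t.Prime → s ≠ t → ∀ u v : ℕ, (s ^ u).Coprime (t ^ v) := by
        intro s t hs ht hst u v
        exact Nat.Coprime.pow _ _ ((Nat.coprime_primes hs ht).mpr hst)
      refine Cfsg.Agent.S0019.result A B C hA hB hC ?_ ?_ ?_
      · exact Cfsg.Agent.Lib.H1Hall2.mul_eq_of_coprime (by rw [ha, hb]; exact hcop _ _ hp hq hpq _ _)
      · exact Cfsg.Agent.Lib.H1Hall2.mul_eq_of_coprime (by rw [ha, hc]; exact hcop _ _ hp hr hpr _ _)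
      · rw [hb, hc]
        exact hcop _ _ hq hr hqr _ _
    · obtain ⟨p, q, a, b, hp, hq, hc⟩ := Cfsg.Agent.Lib.H1Hall2.exists_two_primes _ Nat.card_pos.ne' h3
      exact Cfsg.Agent.Lib.CharGal.solvable_of_card_pq p q a b hp hq hc

/-- Suppose that for every nontrivial subgroup H of a finite group and every prime p dividing the order of H there is a proper subgroup of H whose index in H is a power of p. Then the group is solvable. -/
theorem result {G : Type*} [Group G] [Finite G] (h : ∀ H : Subgroup G, H ≠ ⊥ → ∀ p : ℕ, p.Prime → p ∣ Nat.card H → ∃ K : Subgroup H, K ≠ ⊤ ∧ ∃ k : ℕ, K.index = p ^ k) : Group.IsSolvable G := by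

  exact solvable_aux _ G rfl h

end Cfsg.Agent.S0535
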