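import Cfsg.Statements.S0541
import Mathlib

set_option autoImplicit false
open Pointwise
open Cfsg

namespace Cfsg.Agent.S0541

open scoped Pointwise

theorem exists_norm {G : Type*} [Group G] [Finite G] {p : ℕ} [Fact p.Prime] {P R : Subgroup G}
    (hP : IsPGroup p P) (hRP : R ≤ P) (hne : R ≠ P) :
    ∃ x ∈ P, x ∉ R ∧ x ∈ Subgroup.normalizer (R : Set G) := by
  haveI : Group.IsNilpotent P := hP.isNilpotent
  have hnc := normalizerCondition_of_isNilpotent (G := P)
  have hlt : R.subgroupOf P < ⊤ :=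
    lt_top_iff_ne_top.mpr (fun e => hne (le_antisymm hRP (Subgroup.subgroupOf_eq_top.mp e)))
  have hlt2 := hnc _ hlt
  obtain ⟨x, hx, hxn⟩ := SetLike.exists_of_lt hlt2
  refine ⟨x, x.2, by simpa [Subgroup.mem_subgroupOf] using hxn, ?_⟩
  rw [Subgroup.mem_normalizer_iff]
  rw [Subgroup.mem_normalizer_iff] at hx
  intro r
  constructor
  · intro hr
    have := (hx ⟨r, hRP hr⟩).mp (Subgroup.mem_subgroupOf.mpr hr)
    exact Subgroup.mem_subgroupOf.mp this
  · intro hr
    have hrP : r ∈ P := by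
      have h1 : (x : G) * r * (x : G)⁻¹ ∈ P := hRP hr
      have e : r = (x : G)⁻¹ * ((x : G) * r * (x : G)⁻¹) * (x : G) := by group
      rw [e]
      exact P.mul_mem (P.mul_mem (P.inv_mem x.2) h1) x.2
    exact Subgroup.mem_subgroupOf.mp ((hx ⟨r, hrP⟩).mpr (Subgroup.mem_subgroupOf.mpr hr))

theorem smul_eq_of_mem_normalizer {G : Type*} [Group G] {K : Subgroup G} {u : G}
    (hu : u ∈ Subgroup.normalizer (K : Set G)) : MulAut.conj u • K = K := by
  rw [Subgroup.mem_normalizer_iff] at hu
  ext x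
  rw [Subgroup.mem_pointwise_smul_iff_inv_smul_mem]
  have := hu (u⁻¹ * x * u)
  have e : u * (u⁻¹ * x * u) * u⁻¹ = x := by group
  rw [e] at this
  rw [← this]
  simp [MulAut.smul_def]

theorem mem_normalizer_of_smul_le {G : Type*} [Group G] [Finite G] {K : Subgroup G} {u : G}
    (h : ∀ x ∈ K, u * x * u⁻¹ ∈ K) : u ∈ Subgroup.normalizer (K : Set G) := by
  -- the map is injective on a finite set
  have hle : MulAut.conj u • K ≤ K := by
    intro x hx
    rw [Subgroup.mem_smul_pointwise_iff_exists] at hx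
    obtain ⟨s, hs, rfl⟩ := hx
    exact h s hs
  have hcard : Nat.card (MulAut.conj u • K : Subgroup G) = Nat.card K := by
    exact Nat.card_congr (Subgroup.equivSMul (MulAut.conj u) K).toEquiv.symm
  have heq : MulAut.conj u • K = K := Subgroup.eq_of_le_of_card_ge hle (le_of_eq hcard.symm)
  rw [Subgroup.mem_normalizer_iff]
  intro x
  constructor
  · exact h x
  · intro hx
    have : u * x * u⁻¹ ∈ MulAut.conj u • K := by rw [heq]; exact hx
    rw [Subgroup.mem_smul_pointwise_iff_exists] at this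
    obtain ⟨s, hs, he⟩ := this
    have : s = x := by
      simpa [MulAut.smul_def] using he
    exact this ▸ hs

theorem conj_smul_mul {G : Type*} [Group G] (Z : Subgroup G) (a b : G) :
    MulAut.conj (a * b) • Z = MulAut.conj a • (MulAut.conj b • Z) := by
  rw [map_mul, mul_smul]

theorem key {G : Type*} [Group G] [Finite G] {p : ℕ} [Fact p.Prime] (Z : Subgroup G)
    {P H : Subgroup G} (hP : IsPGroup p P) (hHP : H ≤ P)
    (hgen : H ≤ ⨆ g ∈ {g : G | MulAut.conj g • Z ≤ H}, MulAut.conj g • Z)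
    (hyp : ∀ g : G, MulAut.conj g • Z ≤ P → MulAut.conj g • Z ≤ Subgroup.normalizer (H : Set G) →
      MulAut.conj g • Z ≤ H) :
    ∀ g : G, MulAut.conj g • Z ≤ P → MulAut.conj g • Z ≤ H := by
  let 𝓕 : Set (Subgroup G) := {R | H ≤ R ∧ R ≤ P ∧ ∀ g : G, MulAut.conj g • Z ≤ R → MulAut.conj g • Z ≤ H}
  have hne : 𝓕.Nonempty := ⟨H, le_refl _, hHP, fun g hg => hg⟩
  obtain ⟨R, hR⟩ := (Set.toFinite 𝓕).exists_maximal hne
  obtain ⟨⟨hHR, hRP, hRg⟩, hmax⟩ := hR
  by_cases hRe : R = P
  · subst hRe; exact hRg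
  exfalso
  obtain ⟨x, hxP, hxR, hxN⟩ := exists_norm hP hRP hRe
  let R' : Subgroup G := Subgroup.normalizer (R : Set G) ⊓ P
  have hRR' : R ≤ R' := le_inf Subgroup.le_normalizer hRP
  have hR' : R' ∈ 𝓕 := by
    refine ⟨hHR.trans hRR', inf_le_right, ?_⟩
    intro g hg
    apply hyp g (hg.trans inf_le_right)
    intro c hc
    have hcN : c ∈ Subgroup.normalizer (R : Set G) := (hg hc).1
    apply mem_normalizer_of_smul_le
    intro u hu
    have hu' := hgen hu
    have hle : (⨆ g ∈ {g : G | MulAut.conj g • Z ≤ H}, MulAut.conj g • Z) ≤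
        H.comap (MulAut.conj c).toMonoidHom := by
      apply iSup₂_le
      intro g' hg' y hy
      have h2 : MulAut.conj (c * g') • Z ≤ H := by
        apply hRg
        intro w hw
        rw [conj_smul_mul, Subgroup.mem_smul_pointwise_iff_exists] at hw
        obtain ⟨s, hs, rfl⟩ := hw
        exact (Subgroup.mem_normalizer_iff.mp hcN s).mp (hHR (hg' hs))
      exact h2 (by rw [conj_smul_mul]; exact Subgroup.smul_mem_pointwise_smul _ _ _ hy)
    exact hle hu'
  exact hxR (hmax hR' hRR' ⟨hxN, hxP⟩)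
/-- Let Z and Y be subgroups of a finite group G and p a prime. Suppose that for every g in G the subgroup generated by the conjugates of g Z g⁻¹ under Y is a p-group. Then there is a Sylow p-subgroup P of G such that Y normalizes the subgroup generated by all conjugates of Z contained in P. -/
theorem result {G : Type*} [Group G] [Finite G] (p : ℕ) [Fact p.Prime] (Z Y : Subgroup G) (h : ∀ g : G, IsPGroup p ↥(⨆ y ∈ Y, MulAut.conj (y * g) • Z)) : ∃ P : Sylow p G, Y ≤ Subgroup.normalizer ((⨆ g ∈ {g : G | MulAut.conj g • Z ≤ (P : Subgroup G)}, MulAut.conj g • Z : Subgroup G) : Set G) := by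

  classical
  let 𝓕 : Set (Subgroup G) := {H | IsPGroup p H ∧ Y ≤ Subgroup.normalizer (H : Set G) ∧
    H ≤ ⨆ g ∈ {g : G | MulAut.conj g • Z ≤ H}, MulAut.conj g • Z}
  have hne : 𝓕.Nonempty := by
    refine ⟨⊥, IsPGroup.of_bot, ?_, bot_le⟩
    intro y _
    apply mem_normalizer_of_smul_le
    intro x hx
    rw [Subgroup.mem_bot] at hx ⊢
    simp [hx]
  obtain ⟨H, hH⟩ := (Set.toFinite 𝓕).exists_maximal hne
  obtain ⟨⟨hHp, hHY, hHg⟩, hmax⟩ := hH
  obtain ⟨P, hHP⟩ := hHp.exists_le_sylow
  have hclaim := key (p := p) Z P.isPGroup' hHP hHg ?_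
  · refine ⟨P, ?_⟩
    have heq : (⨆ g ∈ {g : G | MulAut.conj g • Z ≤ (P : Subgroup G)}, MulAut.conj g • Z : Subgroup G) = H :=
      le_antisymm (iSup₂_le fun g hg => hclaim g hg)
        (hHg.trans (iSup₂_le fun g hg => le_iSup₂_of_le (f := fun g (_ : g ∈ {g : G | MulAut.conj g • Z ≤ (P : Subgroup G)}) => MulAut.conj g • Z) g (hg.trans hHP) le_rfl))
    rw [heq]
    exact hHY
  · intro g hgP hgN
    let T : Subgroup G := ⨆ y ∈ Y, MulAut.conj (y * g) • Z
    have hT : IsPGroup p T := h g
    have hTN : T ≤ Subgroup.normalizer (H : Set G) := by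
      apply iSup₂_le
      intro y hy w hw
      rw [conj_smul_mul, Subgroup.mem_smul_pointwise_iff_exists] at hw
      obtain ⟨s, hs, rfl⟩ := hw
      have hsN := hgN hs
      have hyN := hHY hy
      rw [MulAut.smul_def, MulAut.conj_apply]
      exact mul_mem (mul_mem hyN hsN) (inv_mem hyN)
    let H' : Subgroup G := T ⊔ H
    have hH'p : IsPGroup p H' := IsPGroup.to_sup_of_normal_right' hT hHp hTN
    have hTle : T ≤ H' := le_sup_left
    have hHle : H ≤ H' := le_sup_right
    have hH'Y : Y ≤ Subgroup.normalizer (H' : Set G) := by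
      intro y hy
      apply mem_normalizer_of_smul_le
      intro x hx
      have hle : H' ≤ H'.comap (MulAut.conj y).toMonoidHom := by
        apply sup_le
        · apply iSup₂_le
          intro y' hy' w hw
          have : MulAut.conj (y * (y' * g)) • Z ≤ T :=
            le_iSup₂_of_le (f := fun y (_ : y ∈ Y) => MulAut.conj (y * g) • Z) (y * y') (Y.mul_mem hy hy') (by rw [mul_assoc])
          apply hTle
          apply this
          rw [conj_smul_mul]
          exact Subgroup.smul_mem_pointwise_smul _ _ _ hw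
        · intro w hw
          exact hHle ((Subgroup.mem_normalizer_iff.mp (hHY hy) w).mp hw)
      exact hle hx
    have hH'g : H' ≤ ⨆ g ∈ {g : G | MulAut.conj g • Z ≤ H'}, MulAut.conj g • Z := by
      apply sup_le
      · apply iSup₂_le
        intro y hy
        refine le_iSup₂_of_le (f := fun g (_ : g ∈ {g : G | MulAut.conj g • Z ≤ H'}) => MulAut.conj g • Z) (y * g) ?_ le_rfl
        exact le_trans (le_iSup₂_of_le (f := fun y (_ : y ∈ Y) => MulAut.conj (y * g) • Z) y hy le_rfl) hTle
      · refine hHg.trans ?_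
        apply iSup₂_le
        intro g' hg'
        exact le_iSup₂_of_le (f := fun g (_ : g ∈ {g : G | MulAut.conj g • Z ≤ H'}) => MulAut.conj g • Z) g' (le_trans hg' hHle) le_rfl
    have hH'H : H' ≤ H := hmax ⟨hH'p, hH'Y, hH'g⟩ hHle
    have hgT : MulAut.conj g • Z ≤ T :=
      le_iSup₂_of_le (f := fun y (_ : y ∈ Y) => MulAut.conj (y * g) • Z) 1 Y.one_mem (by rw [one_mul])
    exact (hgT.trans hTle).trans hH'H

end Cfsg.Agent.S0541
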