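import Cfsg.Statements.S0542
import Cfsg.Agent.Lib.H1Conj

set_option autoImplicit false
open Cfsg

namespace Cfsg.Agent.S0542

theorem relIndex_step {G : Type*} [Group G] [Finite G] {p : ℕ} [Fact p.Prime] (S H K : Subgroup G)
    (hHK : H ≤ K) (hN : (H.subgroupOf K).Normal) (h : ¬ p ∣ S.relIndex K) : ¬ p ∣ S.relIndex H := by
  intro hd
  apply h
  let T := S.subgroupOf K
  let A := H.subgroupOf K
  have h1 := Cfsg.Agent.Lib.H1Conj.card_sup_mul_card_inf T A
  have e1 : T.relIndex A = S.relIndex H := by
    show (S.subgroupOf K).relIndex (H.subgroupOf K) = S.relIndex H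
    exact Subgroup.relIndex_subgroupOf hHK
  have e2 : T.index = S.relIndex K := rfl
  have e3 : (T ⊓ A).relIndex A = T.relIndex A := Subgroup.inf_relIndex_right _ _
  have e4 : (T ⊓ A).relIndex A * Nat.card (T ⊓ A : Subgroup K) = Nat.card A := by
    have := Subgroup.relIndex_mul_relIndex (⊥ : Subgroup K) (T ⊓ A) A bot_le inf_le_right
    rw [Subgroup.relIndex_bot_left, Subgroup.relIndex_bot_left] at this
    rw [← this, mul_comm]
  have e5 : (T ⊔ A).index * Nat.card (T ⊔ A : Subgroup K) = Nat.card K := Subgroup.index_mul_card _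
  have e6 : T.index * Nat.card T = Nat.card K := Subgroup.index_mul_card _
  rw [e3, e1] at e4
  have e7 : T.index = (T ⊔ A).index * S.relIndex H := by
    have hpos : 0 < Nat.card T := Nat.card_pos
    apply Nat.eq_of_mul_eq_mul_right hpos
    have hpos2 : 0 < Nat.card (T ⊓ A : Subgroup K) := Nat.card_pos
    apply Nat.eq_of_mul_eq_mul_right hpos2
    calc T.index * Nat.card T * Nat.card (T ⊓ A : Subgroup K)
        = (T ⊔ A).index * Nat.card (T ⊔ A : Subgroup K) * Nat.card (T ⊓ A : Subgroup K) := by
          rw [e6, e5]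
      _ = (T ⊔ A).index * (Nat.card T * Nat.card A) := by rw [mul_assoc, h1]
      _ = (T ⊔ A).index * (Nat.card T * (S.relIndex H * Nat.card (T ⊓ A : Subgroup K))) := by rw [e4]
      _ = _ := by ring
  rw [← e2, e7]
  exact Dvd.dvd.mul_left hd _

theorem relIndex_subnormal {G : Type*} [Group G] [Finite G] {p : ℕ} [Fact p.Prime] (S : Sylow p G)
    (H : Subgroup G) (hH : H.IsSubnormal) : ¬ p ∣ (S : Subgroup G).relIndex H := by
  induction hH with
  | top =>
    rw [Subgroup.relIndex_top_right]
    exact S.not_dvd_index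
  | step H K hHK hK hN ih => exact relIndex_step _ H K hHK hN ih

/-- A Sylow p-subgroup of a finite group meets every subnormal subgroup H in a Sylow p-subgroup of H. -/
theorem result {G : Type*} [Group G] [Finite G] (p : ℕ) [Fact p.Prime] (H : Subgroup G) (hH : H.IsSubnormal) (S : Sylow p G) : ∃ Q : Sylow p H, (Q : Subgroup H) = (S : Subgroup G).subgroupOf H := by

  have h1 := relIndex_subnormal S H hH
  have hpg : IsPGroup p ((S : Subgroup G).subgroupOf H) :=
    (Sylow.isPGroup' S).comap_of_injective _ (Subgroup.subtype_injective H) |>.to_le (by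
      intro x hx
      exact hx)
  obtain ⟨k, hk⟩ := IsPGroup.iff_card.mp hpg
  have hc : Nat.card ((S : Subgroup G).subgroupOf H) = p ^ (Nat.card H).factorization p := by
    have h2 := ((S : Subgroup G).subgroupOf H).index_mul_card
    have h3 : ((S : Subgroup G).subgroupOf H).index = (S : Subgroup G).relIndex H := rfl
    rw [h3] at h2
    rw [hk, ← h2, hk, Nat.factorization_mul (Nat.pos_of_ne_zero (fun h0 => by
      rw [h0] at h1; exact h1 (dvd_zero p))).ne' (pow_ne_zero _ (Fact.out : p.Prime).ne_zero)]
    simp only [Finsupp.add_apply, Nat.factorization_pow, Finsupp.smul_apply,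
      Nat.Prime.factorization_self (Fact.out : p.Prime)]
    rw [Nat.factorization_eq_zero_of_not_dvd h1]
    simp
  exact ⟨Sylow.ofCard _ hc, rfl⟩

end Cfsg.Agent.S0542
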