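import Cfsg.Statements.S0547
import Cfsg.Agent.Lib.H1Prim2

set_option autoImplicit false
open Cfsg

namespace Cfsg.Agent.S0547

/-- Let a finite solvable group G act faithfully and primitively on a set, and let M be a minimal normal subgroup of G. Then M is transitive with trivial point stabilizers, and the number of points equals the order of M, which is a prime power p ^ d with d ≥ 1. -/
theorem result {G : Type*} [Group G] [Finite G] [Group.IsSolvable G] {Ω : Type*} [Nonempty Ω] [MulAction G Ω] [FaithfulSMul G Ω] (hprim : MulAction.IsPreprimitive G Ω) (M : Subgroup G) [M.Normal] (hM : M ≠ ⊥) (hmin : ∀ K : Subgroup G, K.Normal → K ≤ M → K = ⊥ ∨ K = M) : MulAction.IsPretransitive M Ω ∧ (∀ ω : Ω, MulAction.stabilizer M ω = ⊥) ∧ ∃ p d : ℕ, p.Prime ∧ 0 < d ∧ Nat.card Ω = p ^ d ∧ Nat.card M = p ^ d := by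
  classical
  haveI hGn : Nontrivial G := by
    by_contra h
    rw [not_nontrivial_iff_subsingleton] at h
    apply hM
    rw [eq_bot_iff]
    intro x _
    rw [Subgroup.mem_bot]
    exact Subsingleton.elim _ _
  have hMn : M.Normal := inferInstance
  obtain ⟨ω₀⟩ := (inferInstance : Nonempty Ω)
  haveI := hprim
  obtain ⟨hU, hcore⟩ := Cfsg.Agent.Lib.H1Prim2.stabilizer_props hprim hGn ω₀
  obtain ⟨hab, p, hp, hexp⟩ := Cfsg.Agent.Lib.H1Prim2.comm_of_min M hM hmin
  have hinf := Cfsg.Agent.Lib.H1Prim2.abelian_normal_inf hU hcore hMn hM hab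
  have hsurj : ∀ ω : Ω, ∃ m : M, m • ω₀ = ω := by
    intro ω
    obtain ⟨g, rfl⟩ := MulAction.exists_smul_eq G ω₀ ω
    obtain ⟨m, hm, u, hu, rfl⟩ := Cfsg.Agent.Lib.H1Prim.exists_mul_of_normal hU hcore hMn hM g
    refine ⟨⟨m, hm⟩, ?_⟩
    have hu' : u • ω₀ = ω₀ := hu
    rw [mul_smul, hu']
    rfl
  have hstab : ∀ ω : Ω, MulAction.stabilizer M ω = ⊥ := by
    intro ω
    rw [eq_bot_iff]
    rintro ⟨m, hm⟩ hmω
    obtain ⟨⟨k, hk⟩, rfl⟩ := hsurj ω
    have h1 : m • k • ω₀ = k • ω₀ := hmω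
    have h2 : (k⁻¹ * m * k) • ω₀ = ω₀ := by
      rw [mul_smul, mul_smul, h1, ← mul_smul, inv_mul_cancel, one_smul]
    have h3 : k⁻¹ * m * k ∈ M ⊓ MulAction.stabilizer G ω₀ :=
      ⟨M.mul_mem (M.mul_mem (M.inv_mem hk) hm) hk, h2⟩
    rw [hinf, Subgroup.mem_bot] at h3
    have h4 : m = 1 := by
      have : k⁻¹ * m = k⁻¹ := by
        have h5 := congrArg (· * k⁻¹) h3
        simpa using h5
      simpa using this
    rw [Subgroup.mem_bot]
    exact Subtype.ext h4
  have hcard : Nat.card Ω = Nat.card M := by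
    symm
    apply Nat.card_congr
    refine Equiv.ofBijective (fun m : M => m • ω₀) ⟨?_, hsurj⟩
    intro a b hab2
    have h1 : (b⁻¹ * a) • ω₀ = ω₀ := by
      have h2 : a • ω₀ = b • ω₀ := hab2
      rw [mul_smul, h2, ← mul_smul, inv_mul_cancel, one_smul]
    have h2 : b⁻¹ * a ∈ MulAction.stabilizer M ω₀ := h1
    rw [hstab, Subgroup.mem_bot] at h2
    rw [← mul_right_inj b⁻¹, h2, inv_mul_cancel]
  haveI hpf : Fact p.Prime := ⟨hp⟩
  have hMp : IsPGroup p M := by
    intro x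
    refine ⟨1, ?_⟩
    rw [pow_one]
    exact Subtype.ext (hexp x x.2)
  obtain ⟨d, hd⟩ := IsPGroup.iff_card.mp hMp
  have hd0 : 0 < d := by
    rcases Nat.eq_zero_or_pos d with h | h
    · exfalso
      rw [h, pow_zero] at hd
      exact hM (Subgroup.card_eq_one.mp hd)
    · exact h
  refine ⟨⟨fun a b => ?_⟩, hstab, p, d, hp, hd0, hcard.trans hd, hd⟩
  obtain ⟨m, rfl⟩ := hsurj a
  obtain ⟨m', rfl⟩ := hsurj b
  exact ⟨m' * m⁻¹, by rw [mul_smul, inv_smul_smul]⟩

end Cfsg.Agent.S0547
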