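import Cfsg.Statements.S0548
import Cfsg.Agent.Lib.H1Prim2

set_option autoImplicit false
open Cfsg

namespace Cfsg.Agent.S0548

/-- Let a finite solvable group G act faithfully and primitively on a set, let M be a minimal normal subgroup and H the stabilizer of a point. Then H is a complement to M, no non-identity element of H centralizes M, and the only subgroups of M normalized by H are the trivial subgroup and M. -/
theorem result {G : Type*} [Group G] [Finite G] [Group.IsSolvable G] {Ω : Type*} [MulAction G Ω] [FaithfulSMul G Ω] (hprim : MulAction.IsPreprimitive G Ω) (M : Subgroup G) [M.Normal] (hM : M ≠ ⊥) (hmin : ∀ K : Subgroup G, K.Normal → K ≤ M → K = ⊥ ∨ K = M) (ω : Ω) : Subgroup.IsComplement' M (MulAction.stabilizer G ω) ∧ MulAction.stabilizer G ω ⊓ Subgroup.centralizer (M : Set G) = ⊥ ∧ ∀ K : Subgroup G, K ≤ M → MulAction.stabilizer G ω ≤ Subgroup.normalizer (K : Set G) → K = ⊥ ∨ K = M := by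
  classical
  haveI hGn : Nontrivial G := by
    by_contra h
    rw [not_nontrivial_iff_subsingleton] at h
    apply hM
    rw [eq_bot_iff]
    intro x _
    rw [Subgroup.mem_bot]
    exact Subsingleton.elim _ _
  have hMn : M.Normal := inferInstance
  obtain ⟨hU, hcore⟩ := Cfsg.Agent.Lib.H1Prim2.stabilizer_props hprim hGn ω
  obtain ⟨hab, -⟩ := Cfsg.Agent.Lib.H1Prim2.comm_of_min M hM hmin
  have hinf := Cfsg.Agent.Lib.H1Prim2.abelian_normal_inf hU hcore hMn hM hab
  refine ⟨Cfsg.Agent.Lib.H1Prim2.isComplement_of hU hcore hMn hM hinf, ?_, ?_⟩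
  · rw [inf_comm]
    exact Cfsg.Agent.Lib.H1Prim.centralizer_inf_eq_bot hU hcore hMn hM
  · intro K hKM hKn
    exact hmin K (Cfsg.Agent.Lib.H1Prim2.normal_of_abelian_normalized hU hcore hMn hM hab hKM hKn) hKM

end Cfsg.Agent.S0548
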