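import Cfsg.Statements.S0550
import Cfsg.Agent.Lib.H1Prim2

set_option autoImplicit false
open Cfsg

namespace Cfsg.Agent.S0550

theorem equiv_of_inf {G : Type*} [Group G] {A B D : Subgroup G} [hBn : B.Normal] (hAB : A ⊓ B = ⊥)
    (hDB : D ⊓ B = ⊥) (hsup : A ⊔ B = D ⊔ B) : Nonempty (A ≃* D) := by
  classical
  let f : A →* G ⧸ B := (QuotientGroup.mk' B).comp A.subtype
  let g : D →* G ⧸ B := (QuotientGroup.mk' B).comp D.subtype
  have hf : Function.Injective f := by
    rw [injective_iff_map_eq_one]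
    rintro ⟨x, hx⟩ h
    have h1 : x ∈ B := (QuotientGroup.eq_one_iff x).mp h
    have h2 : x ∈ A ⊓ B := ⟨hx, h1⟩
    rw [hAB, Subgroup.mem_bot] at h2
    exact Subtype.ext h2
  have hg : Function.Injective g := by
    rw [injective_iff_map_eq_one]
    rintro ⟨x, hx⟩ h
    have h1 : x ∈ B := (QuotientGroup.eq_one_iff x).mp h
    have h2 : x ∈ D ⊓ B := ⟨hx, h1⟩
    rw [hDB, Subgroup.mem_bot] at h2
    exact Subtype.ext h2
  have hr : f.range = g.range := by
    have h1 : f.range = A.map (QuotientGroup.mk' B) := by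
      rw [MonoidHom.range_comp, Subgroup.range_subtype]
    have h2 : g.range = D.map (QuotientGroup.mk' B) := by
      rw [MonoidHom.range_comp, Subgroup.range_subtype]
    have hB0 : B.map (QuotientGroup.mk' B) = ⊥ := by
      rw [Subgroup.map_eq_bot_iff, QuotientGroup.ker_mk']
    have h3 : A.map (QuotientGroup.mk' B) = D.map (QuotientGroup.mk' B) := by
      have h4 := congrArg (Subgroup.map (QuotientGroup.mk' B)) hsup
      rwa [Subgroup.map_sup, Subgroup.map_sup, hB0, sup_bot_eq, sup_bot_eq] at h4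
    rw [h1, h2, h3]
  exact ⟨(MonoidHom.ofInjective hf).trans ((MulEquiv.subgroupCongr hr).trans (MonoidHom.ofInjective hg).symm)⟩

/-- Let U be a maximal subgroup with trivial normal core in a finite group G, and A ≠ B two minimal normal subgroups. Then A is the centralizer of B and B that of A, U complements each of them, A and B are non-abelian, and A, B and (A ⊔ B) ∩ U are pairwise isomorphic. -/
theorem result {G : Type*} [Group G] [Finite G] (U : Subgroup G) (hU : IsCoatom U) (hcore : U.normalCore = ⊥) (A B : Subgroup G) [A.Normal] [B.Normal] (hA : A ≠ ⊥) (hB : B ≠ ⊥) (hAmin : ∀ K : Subgroup G, K.Normal → K ≤ A → K = ⊥ ∨ K = A) (hBmin : ∀ K : Subgroup G, K.Normal → K ≤ B → K = ⊥ ∨ K = B) (hAB : A ≠ B) : Subgroup.centralizer (B : Set G) = A ∧ Subgroup.centralizer (A : Set G) = B ∧ Subgroup.IsComplement' A U ∧ Subgroup.IsComplement' B U ∧ ¬ IsMulCommutative A ∧ Nonempty (A ≃* B) ∧ Nonempty (A ≃* ↥((A ⊔ B) ⊓ U)) := by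

  classical
  have hAn : A.Normal := inferInstance
  have hBn : B.Normal := inferInstance
  have hinf : A ⊓ B = ⊥ := by
    rcases hAmin (A ⊓ B) inferInstance inf_le_left with h | h
    · exact h
    · exfalso
      have hAB' : A ≤ B := inf_eq_left.mp h
      rcases hBmin A hAn hAB' with h2 | h2
      · exact hA h2
      · exact hAB h2
  have hcomm : ∀ a ∈ A, ∀ b ∈ B, a * b = b * a := by
    intro a ha b hb
    exact Subgroup.commute_of_normal_of_disjoint A B hAn hBn (disjoint_iff.mpr hinf) a b ha hb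
  have hAC : A ≤ Subgroup.centralizer (B : Set G) := by
    intro a ha
    refine Subgroup.mem_centralizer_iff.mpr ?_
    intro b hb
    exact (hcomm a ha b hb).symm
  have hBC : B ≤ Subgroup.centralizer (A : Set G) := by
    intro b hb
    refine Subgroup.mem_centralizer_iff.mpr ?_
    intro a ha
    exact hcomm a ha b hb
  have e1 : A = Subgroup.centralizer (B : Set G) :=
    Cfsg.Agent.Lib.H1Prim.eq_centralizer_of_normal hU hcore hBn hB hAn hA hAC
  have e2 : B = Subgroup.centralizer (A : Set G) :=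
    Cfsg.Agent.Lib.H1Prim.eq_centralizer_of_normal hU hcore hAn hA hBn hB hBC
  have hAU : A ⊓ U = ⊥ := by
    have := Cfsg.Agent.Lib.H1Prim.centralizer_inf_eq_bot hU hcore hBn hB
    rwa [← e1] at this
  have hBU : B ⊓ U = ⊥ := by
    have := Cfsg.Agent.Lib.H1Prim.centralizer_inf_eq_bot hU hcore hAn hA
    rwa [← e2] at this
  set D : Subgroup G := (A ⊔ B) ⊓ U with hD
  have hDA : D ⊓ A = ⊥ := by
    rw [eq_bot_iff, ← hAU]
    rintro x ⟨⟨-, h1⟩, h2⟩
    exact ⟨h2, h1⟩
  have hDB : D ⊓ B = ⊥ := by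
    rw [eq_bot_iff, ← hBU]
    rintro x ⟨⟨-, h1⟩, h2⟩
    exact ⟨h2, h1⟩
  have hs1 : A ⊔ B = D ⊔ B := by
    apply le_antisymm
    · refine sup_le ?_ le_sup_right
      intro a ha
      obtain ⟨b, hb, u, hu, rfl⟩ := Cfsg.Agent.Lib.H1Prim.exists_mul_of_normal hU hcore hBn hB a
      have huD : u ∈ D := by
        refine ⟨?_, hu⟩
        have h1 : b * u ∈ A ⊔ B := (le_sup_left : A ≤ A ⊔ B) ha
        have h2 : b ∈ A ⊔ B := (le_sup_right : B ≤ A ⊔ B) hb
        have h3 := Subgroup.mul_mem _ (Subgroup.inv_mem _ h2) h1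
        simpa using h3
      rw [sup_comm]
      exact Subgroup.mul_mem_sup hb huD
    · exact sup_le (inf_le_left) le_sup_right
  have hs2 : B ⊔ A = D ⊔ A := by
    apply le_antisymm
    · refine sup_le ?_ le_sup_right
      intro b hb
      obtain ⟨a, ha, u, hu, rfl⟩ := Cfsg.Agent.Lib.H1Prim.exists_mul_of_normal hU hcore hAn hA b
      have huD : u ∈ D := by
        refine ⟨?_, hu⟩
        have h1 : a * u ∈ A ⊔ B := (le_sup_right : B ≤ A ⊔ B) hb
        have h2 : a ∈ A ⊔ B := (le_sup_left : A ≤ A ⊔ B) ha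
        have h3 := Subgroup.mul_mem _ (Subgroup.inv_mem _ h2) h1
        simpa using h3
      rw [sup_comm]
      exact Subgroup.mul_mem_sup ha huD
    · exact sup_le (by rw [hD, sup_comm]; exact inf_le_left) le_sup_right
  obtain ⟨φ⟩ := equiv_of_inf hinf hDB hs1
  have hBA : B ⊓ A = ⊥ := by rw [inf_comm]; exact hinf
  obtain ⟨ψ⟩ := equiv_of_inf hBA hDA hs2
  refine ⟨e1.symm ▸ rfl, e2.symm ▸ rfl, Cfsg.Agent.Lib.H1Prim2.isComplement_of hU hcore hAn hA hAU,
    Cfsg.Agent.Lib.H1Prim2.isComplement_of hU hcore hBn hB hBU, ?_, ⟨φ.trans ψ.symm⟩, ⟨φ⟩⟩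
  intro hc
  have hle : A ≤ Subgroup.centralizer (A : Set G) := by
    intro x hx
    refine Subgroup.mem_centralizer_iff.mpr ?_
    intro y hy
    exact congrArg Subtype.val ((IsMulCommutative.is_comm (M := A)).comm ⟨y, hy⟩ ⟨x, hx⟩)
  rw [← e2] at hle
  rcases hBmin A hAn hle with h | h
  · exact hA h
  · exact hAB h

end Cfsg.Agent.S0550
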