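import Cfsg.Statements.S0552
import Cfsg.Agent.Lib.H1Cop2
import Cfsg.Agent.Lib.H1Fit

set_option autoImplicit false
open Cfsg

namespace Cfsg.Agent.S0552

/-- Let σ be an automorphism of a finite solvable group G fixing every element of the Fitting subgroup. If σ is not the identity then the order of σ and the order of G have a common prime factor. -/
theorem result {G : Type*} [Group G] [Finite G] [Group.IsSolvable G] (σ : G ≃* G) (hσ : ∀ x ∈ Cfsg.fittingSubgroup G, σ x = x) (hne : σ ≠ MulEquiv.refl G) : ¬ (orderOf σ).Coprime (Nat.card G) := by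
  intro hcop
  apply hne
  ext g
  show σ g = g
  let z := g⁻¹ * σ g
  have hg : σ g = g * z := by simp [z]
  have hzC : z ∈ Subgroup.centralizer (Cfsg.fittingSubgroup G : Set G) := by
    rw [Subgroup.mem_centralizer_iff]
    intro y hy
    have h1 : g * y * g⁻¹ ∈ Cfsg.fittingSubgroup G :=
      (Cfsg.Agent.Lib.H1Core.fittingSubgroup_normal G).conj_mem y hy g
    have h2 := hσ _ h1
    rw [map_mul, map_mul, map_inv, hσ y hy, hg] at h2
    have h3 : z * y * z⁻¹ = y := by
      have h4 : g⁻¹ * (g * z * y * (g * z)⁻¹) * g = g⁻¹ * (g * y * g⁻¹) * g := by rw [h2]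
      calc z * y * z⁻¹ = g⁻¹ * (g * z * y * (g * z)⁻¹) * g := by group
        _ = g⁻¹ * (g * y * g⁻¹) * g := h4
        _ = y := by group
    calc y * z = (z * y * z⁻¹) * z := by rw [h3]
      _ = z * y := by group
  have hzF := Cfsg.Agent.Lib.H1Fit.centralizer_fitting_le hzC
  have hσz : σ z = z := hσ z hzF
  have hiter : ∀ n : ℕ, (σ ^ n) g = g * z ^ n := by
    intro n
    induction n with
    | zero => simp
    | succ n ih =>
      rw [pow_succ, MulAut.mul_apply, hg, map_mul, ih]
      have h5 : (σ ^ n) z = z := by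
        clear ih
        induction n with
        | zero => simp
        | succ m ihm =>
          rw [pow_succ, MulAut.mul_apply, hσz, ihm]
      rw [h5, pow_succ]
      group
  have h6 := hiter (orderOf σ)
  rw [pow_orderOf_eq_one, MulAut.one_apply] at h6
  have h7 : z ^ orderOf σ = 1 := by
    have := mul_left_cancel (a := g) (b := 1) (c := z ^ orderOf σ) (by rw [mul_one]; exact h6)
    exact this.symm
  have h8 : z = 1 := Cfsg.Agent.Lib.H1Cop2.eq_one_of_coprime_pow (V := ⊤) (Subgroup.mem_top z)
    (by rwa [Subgroup.card_top]) h7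
  rw [hg, h8, mul_one]

end Cfsg.Agent.S0552
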