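import Cfsg.Statements.S0553
import Cfsg.Agent.Lib.H1Prim2
import Cfsg.Agent.Lib.H1Huppert

set_option autoImplicit false
open Cfsg

namespace Cfsg.Agent.S0553

universe u

open Cfsg.Agent.Lib.H1Core Cfsg.Agent.Lib.H1Conj in
theorem aux (n : ℕ) : ∀ (G : Type u) [Group G] [Finite G] [Group.IsSolvable G] [Nontrivial G],
    (∀ M : Subgroup G, IsCoatom M → (Nat.card M).Coprime M.index) → Nat.card G = n →
    ∃ p : ℕ, p.Prime ∧ p ∣ Nat.card G ∧ ∀ P : Sylow p G, (P : Subgroup G).Normal := by
  induction n using Nat.strong_induction_on with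
  | _ n ih =>
  intro G _ _ _ _ h hn
  classical
  obtain ⟨N, hNn, hN, hmin⟩ := Cfsg.Agent.Lib.H1SZ.exists_minimal_normal (X := G)
  haveI := hNn
  obtain ⟨hab, p, hp, hexp⟩ := Cfsg.Agent.Lib.H1Prim2.comm_of_min N hN hmin
  haveI hpf : Fact p.Prime := ⟨hp⟩
  have hNp : IsPGroup p N := by
    intro x
    refine ⟨1, ?_⟩
    rw [pow_one]
    exact Subtype.ext (hexp x x.2)
  obtain ⟨b, hb⟩ := IsPGroup.iff_card.mp hNp
  by_cases hΦ : N ≤ frattini G
  · have hNtop : N ≠ ⊤ := by
      intro e
      obtain ⟨M, hM, -⟩ := (eq_top_or_exists_le_coatom (⊥ : Subgroup G)).resolve_left bot_ne_top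
      have : N ≤ M := hΦ.trans (frattini_le_coatom hM)
      rw [e, top_le_iff] at this
      exact hM.1 this
    haveI : Nontrivial (G ⧸ N) := QuotientGroup.nontrivial_iff.mpr hNtop
    have hcq := Cfsg.Agent.Lib.H1SZ.card_quotient_mul N
    have hlt : Nat.card (G ⧸ N) < n := by
      rw [← hn, ← hcq]
      have h1 : 1 < Nat.card N := by
        haveI : Nontrivial N := (Subgroup.nontrivial_iff_ne_bot N).mpr hN
        exact Finite.one_lt_card
      have h2 : 0 < Nat.card (G ⧸ N) := Nat.card_pos
      nlinarith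
    have hs := QuotientGroup.mk'_surjective N
    have hcond : ∀ M : Subgroup (G ⧸ N), IsCoatom M → (Nat.card M).Coprime M.index := by
      intro Mb hMb
      have h1 := h _ (Cfsg.Agent.Lib.H1Huppert.isCoatom_comap (QuotientGroup.mk' N) hs hMb)
      rw [Subgroup.index_comap_of_surjective _ hs] at h1
      have hle : N ≤ Mb.comap (QuotientGroup.mk' N) := by
        intro x hx
        have e : (QuotientGroup.mk' N) x = 1 := (QuotientGroup.eq_one_iff x).mpr hx
        rw [Subgroup.mem_comap, e]
        exact Mb.one_mem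
      have hc := Cfsg.Agent.Lib.H1SZ.card_map_mk_mul_of_le N (Mb.comap (QuotientGroup.mk' N)) hle
      rw [Subgroup.map_comap_eq_self_of_surjective hs] at hc
      exact Nat.Coprime.coprime_dvd_left (Dvd.intro _ hc) h1
    obtain ⟨r, hr, hrd, hP⟩ := ih _ hlt (G ⧸ N) hcond rfl
    haveI : Fact r.Prime := ⟨hr⟩
    refine ⟨r, hr, ?_, ?_⟩
    · exact dvd_trans hrd (Dvd.intro _ hcq)
    · intro P
      have hPn := hP (P.mapSurjective hs)
      rw [Sylow.coe_mapSurjective] at hPn
      set R : Subgroup G := ((P : Subgroup G).map (QuotientGroup.mk' N)).comap (QuotientGroup.mk' N)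
        with hR
      haveI hRn : R.Normal := Subgroup.Normal.comap hPn _
      have hPR : (P : Subgroup G) ≤ R := Subgroup.le_comap_map _ _
      have hRle : R ≤ (P : Subgroup G) ⊔ N := by
        rw [hR, Subgroup.comap_map_eq, QuotientGroup.ker_mk']
      have h2 := Sylow.normalizer_sup_eq_top' P hPR
      have h3 : Subgroup.normalizer ((P : Subgroup G) : Set G) ⊔ frattini G = ⊤ := by
        apply top_le_iff.mp
        rw [← h2]
        exact sup_le le_sup_left
          (hRle.trans (sup_le (Subgroup.le_normalizer.trans le_sup_left) (hΦ.trans le_sup_right)))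
      exact Subgroup.normalizer_eq_top_iff.mp (frattini_nongenerating h3)
  · rw [Cfsg.Agent.Lib.H1Frat.le_frattini_iff] at hΦ
    push Not at hΦ
    obtain ⟨K, hK, hNK⟩ := hΦ
    have hsup : K ⊔ N = ⊤ :=
      hK.2 _ (lt_of_le_of_ne le_sup_left (fun e => hNK (by rw [e]; exact le_sup_right)))
    have hc1 := Cfsg.Agent.Lib.H1Conj.card_sup_mul_card_inf K N
    rw [hsup, Subgroup.card_top] at hc1
    have hidx : Nat.card K * K.index = Nat.card G := Subgroup.card_mul_index K
    have hi : K.index * Nat.card (K ⊓ N : Subgroup G) = Nat.card N := by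
      have hKpos : 0 < Nat.card K := Nat.card_pos
      apply Nat.eq_of_mul_eq_mul_left hKpos
      rw [← mul_assoc, hidx, hc1]
    have hidvd : K.index ∣ p ^ b := hb ▸ Dvd.intro _ hi
    obtain ⟨c, hcb, hc⟩ := (Nat.dvd_prime_pow hp).mp hidvd
    have hc0 : c ≠ 0 := by
      rintro rfl
      rw [pow_zero] at hc
      exact hK.1 (Subgroup.index_eq_one.mp hc)
    have hcop := h K hK
    rw [hc] at hcop hidx
    have hpK : ¬ p ∣ Nat.card K := by
      intro hd
      have h5 : p ∣ Nat.gcd (Nat.card K) (p ^ c) :=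
        Nat.dvd_gcd hd (dvd_pow_self p hc0)
      rw [hcop] at h5
      exact hp.one_lt.ne' (Nat.dvd_one.mp h5)
    refine ⟨p, hp, ?_, ?_⟩
    · rw [← hidx]
      exact Dvd.dvd.mul_left (dvd_pow_self p hc0) _
    · intro P
      have hNP : N ≤ P := (le_pCore hNn hNp).trans (pCore_le_sylow p P)
      have hKpos : Nat.card K ≠ 0 := Nat.card_pos.ne'
      have hPcard : Nat.card (P : Subgroup G) = p ^ c := by
        rw [Sylow.card_eq_multiplicity, ← hidx, Nat.factorization_mul hKpos (pow_ne_zero _ hp.ne_zero),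
          Finsupp.add_apply, Nat.factorization_eq_zero_of_not_dvd hpK, hp.factorization_pow]
        simp
      have hle : Nat.card (P : Subgroup G) ≤ Nat.card N := by
        rw [hPcard, hb]
        exact Nat.pow_le_pow_right hp.pos hcb
      have : N = P := Subgroup.eq_of_le_of_card_ge hNP hle
      rw [← this]
      exact hNn

/-- Let G be a nontrivial finite solvable group in which every maximal subgroup has order coprime to its index. Then for some prime p dividing the order of G the Sylow p-subgroups of G are normal. -/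
theorem result {G : Type*} [Group G] [Finite G] [Group.IsSolvable G] [Nontrivial G] (h : ∀ M : Subgroup G, IsCoatom M → (Nat.card M).Coprime M.index) : ∃ p : ℕ, p.Prime ∧ p ∣ Nat.card G ∧ ∀ P : Sylow p G, (P : Subgroup G).Normal := by

  exact aux _ G h rfl

end Cfsg.Agent.S0553
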