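import Cfsg.Statements.S0554
import Cfsg.Agent.Lib.H1Super2

set_option autoImplicit false
open Cfsg

namespace Cfsg.Agent.S0554

universe u

theorem absorb {G : Type u} [Group G] (A : Subgroup G) [hA : A.Normal] : ∀ (t : ℕ) (s : Fin t → G)
    (j : Fin t) (a : G), a ∈ A → ∃ s' : Fin t → G, (∀ i, i ≠ j → s' i = s i) ∧
      (∃ a' ∈ A, s' j = s j * a') ∧ (List.ofFn s).prod * a = (List.ofFn s').prod := by
  intro t
  induction t with
  | zero =>
    intro s j
    exact j.elim0
  | succ t ih =>
    intro s j a ha
    rw [List.ofFn_succ, List.prod_cons]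
    refine Fin.cases ?_ (fun j' => ?_) j
    · let P := (List.ofFn fun i : Fin t => s i.succ).prod
      refine ⟨Fin.cons (s 0 * (P * a * P⁻¹)) (fun i => s i.succ), ?_, ⟨_, hA.conj_mem a ha P, ?_⟩, ?_⟩
      · intro i hi
        refine Fin.cases ?_ (fun i' => ?_) i hi
        · intro h
          exact absurd rfl h
        · intro _
          simp
      · simp
      · rw [List.ofFn_succ, List.prod_cons]
        simp only [Fin.cons_zero, Fin.cons_succ]
        show s 0 * P * a = s 0 * (P * a * P⁻¹) * P
        group
    · obtain ⟨s', h1, ⟨a', ha', h2⟩, h3⟩ := ih (fun i => s i.succ) j' a ha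
      refine ⟨Fin.cons (s 0) s', ?_, ⟨a', ha', ?_⟩, ?_⟩
      · intro i hi
        refine Fin.cases ?_ (fun i' => ?_) i hi
        · intro _
          simp
        · intro h
          simp only [Fin.cons_succ]
          exact h1 i' (fun e => h (by rw [e]))
      · simpa using h2
      · rw [List.ofFn_succ, List.prod_cons]
        simp only [Fin.cons_zero, Fin.cons_succ]
        rw [mul_assoc, h3]

theorem aux : ∀ (n : ℕ) (G : Type u) [Group G] [Finite G] [Group.IsSolvable G], Nat.card G = n →
    ∀ (t : ℕ) (p : Fin t → ℕ) (hp : ∀ i, (p i).Prime) (hinj : Function.Injective p)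
    (hall : ∀ q : ℕ, q.Prime → q ∣ Nat.card G → ∃ i, p i = q) (S : (i : Fin t) → Sylow (p i) G),
    ∀ g : G, ∃ s : (i : Fin t) → G, (∀ i, s i ∈ (S i : Subgroup G)) ∧ g = (List.ofFn s).prod := by
  intro n
  induction n using Nat.strong_induction_on with
  | _ n ih =>
    intro G _ _ _ hn t p hp hinj hall S g
    by_cases hnt : Nontrivial G
    · obtain ⟨q, hq, A, hAn, hA1, hAp⟩ := Cfsg.Agent.Lib.H1SZ.exists_normal_pSubgroup (X := G)
      haveI := hAn
      have hqd : q ∣ Nat.card G := by
        have h1 : q ∣ Nat.card A := by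
          rcases hAp.card_eq_or_dvd with h | h
          · exact absurd (Subgroup.card_eq_one.mp h) hA1
          · exact h
        exact h1.trans (Subgroup.card_subgroup_dvd_card A)
      obtain ⟨j, hj⟩ := hall q hq.out hqd
      let π := QuotientGroup.mk' A
      have hs : Function.Surjective π := QuotientGroup.mk'_surjective A
      have hcard : Nat.card (G ⧸ A) < n := hn ▸ Cfsg.Agent.Lib.H1Super.card_quotient_lt hA1
      haveI := fun i => Fact.mk (hp i)
      obtain ⟨sb, hsb, hgb⟩ := ih _ hcard (G ⧸ A) rfl t p hp hinj (by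
        intro r hr hrd
        exact hall r hr (hrd.trans (Dvd.intro _ (Cfsg.Agent.Lib.H1SZ.card_quotient_mul A))))
        (fun i => (S i).mapSurjective hs) (π g)
      choose s hs1 hs2 using fun i => (hsb i)
      have hprod : π (List.ofFn s).prod = π g := by
        rw [hgb, map_list_prod, List.map_ofFn]
        congr 2
        funext i
        exact hs2 i
      have hmem : (List.ofFn s).prod⁻¹ * g ∈ A := by
        rw [← QuotientGroup.eq_one_iff]
        show π ((List.ofFn s).prod⁻¹ * g) = 1
        rw [map_mul, map_inv, hprod, inv_mul_cancel]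
      obtain ⟨s', h1, ⟨a', ha', h2⟩, h3⟩ := absorb A t s j _ hmem
      refine ⟨s', ?_, ?_⟩
      · intro i
        by_cases hi : i = j
        · subst hi
          rw [h2]
          subst hj
          refine Subgroup.mul_mem _ (hs1 i) ?_
          exact hAp.le_sylow_of_normal (S i) ha'
        · rw [h1 i hi]
          exact hs1 i
      · rw [← h3]
        group
    · rw [not_nontrivial_iff_subsingleton] at hnt
      exact ⟨fun _ => 1, fun i => Subgroup.one_mem _, Subsingleton.elim _ _⟩

/-- Let G be a finite solvable group and let S assign to each of t distinct primes, including every prime divisor of the order of G, a Sylow subgroup of G. Then every element of G is a product s_0 s_1 ⋯ s_(t-1) with s_i in S i, the factors taken in the given order. -/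
theorem result {G : Type*} [Group G] [Finite G] [Group.IsSolvable G] (t : ℕ) (p : Fin t → ℕ) (hp : ∀ i, (p i).Prime) (hinj : Function.Injective p) (hall : ∀ q : ℕ, q.Prime → q ∣ Nat.card G → ∃ i, p i = q) (S : (i : Fin t) → Sylow (p i) G) : ∀ g : G, ∃ s : (i : Fin t) → G, (∀ i, s i ∈ (S i : Subgroup G)) ∧ g = (List.ofFn s).prod := by

  exact aux _ G rfl t p hp hinj hall S

end Cfsg.Agent.S0554
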