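import Cfsg.Statements.S0555
import Cfsg.Agent.Lib.H1Super

set_option autoImplicit false
open Cfsg

namespace Cfsg.Agent.S0555

open scoped commutatorElement

/-- Let i ≥ 1. If in the derived series of a group the quotient of the i-th term by the (i+1)-st and the quotient of the (i+1)-st by the (i+2)-nd are both cyclic, then the (i+1)-st and (i+2)-nd terms coincide. -/
theorem result {G : Type*} [Group G] (i : ℕ) (hi : 1 ≤ i) (h₁ : IsCyclic (↥(derivedSeries G i) ⧸ (derivedSeries G (i + 1)).subgroupOf (derivedSeries G i))) (h₂ : IsCyclic (↥(derivedSeries G (i + 1)) ⧸ (derivedSeries G (i + 2)).subgroupOf (derivedSeries G (i + 1)))) : derivedSeries G (i + 1) = derivedSeries G (i + 2) := by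
  -- notation
  set A := derivedSeries G i with hA
  set B := derivedSeries G (i + 1) with hB
  set C := derivedSeries G (i + 2) with hC
  have hBA : B = ⁅A, A⁆ := derivedSeries_succ G i
  have hCB' : C = ⁅B, B⁆ := derivedSeries_succ G (i + 1)
  haveI hCn : C.Normal := derivedSeries_normal G (i + 2)
  haveI hBn : B.Normal := derivedSeries_normal G (i + 1)
  have hCB : C ≤ B := by
    rw [hCB']
    exact Subgroup.commutator_le_left _ _
  have hBAle : B ≤ A := by
    rw [hBA]
    exact Subgroup.commutator_le_left _ _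
  apply le_antisymm _ hCB
  let π := QuotientGroup.mk' C
  have hs : Function.Surjective π := QuotientGroup.mk'_surjective C
  -- generators
  obtain ⟨a₀, ha₀⟩ := IsCyclic.exists_generator (α := ↥A ⧸ B.subgroupOf A)
  obtain ⟨b₀, hb₀⟩ := IsCyclic.exists_generator (α := ↥B ⧸ C.subgroupOf B)
  obtain ⟨a, rfl⟩ := QuotientGroup.mk_surjective a₀
  obtain ⟨b, rfl⟩ := QuotientGroup.mk_surjective b₀
  have hdecA : ∀ x ∈ A, ∃ (k : ℤ) (y : G), y ∈ B ∧ x = (a : G) ^ k * y := by
    intro x hx
    obtain ⟨k, hk⟩ := Subgroup.mem_zpowers_iff.mp (ha₀ (QuotientGroup.mk ⟨x, hx⟩))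
    rw [← QuotientGroup.mk_zpow, QuotientGroup.eq] at hk
    refine ⟨k, _, hk, ?_⟩
    simp
  have hdecB : ∀ x ∈ B, ∃ (k : ℤ) (y : G), y ∈ C ∧ x = (b : G) ^ k * y := by
    intro x hx
    obtain ⟨k, hk⟩ := Subgroup.mem_zpowers_iff.mp (hb₀ (QuotientGroup.mk ⟨x, hx⟩))
    rw [← QuotientGroup.mk_zpow, QuotientGroup.eq] at hk
    refine ⟨k, _, hk, ?_⟩
    simp
  have hπC : ∀ y ∈ C, π y = 1 := fun y hy => (QuotientGroup.eq_one_iff y).mpr hy
  have hBz : B.map π = Subgroup.zpowers (π b) := by
    apply le_antisymm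
    · rintro _ ⟨x, hx, rfl⟩
      obtain ⟨k, y, hy, rfl⟩ := hdecB x hx
      refine Subgroup.mem_zpowers_iff.mpr ⟨k, ?_⟩
      rw [map_mul, map_zpow, hπC y hy, mul_one]
    · rw [Subgroup.zpowers_le]
      exact ⟨b, b.2, rfl⟩
  have hzn : (Subgroup.zpowers (π b)).Normal := by
    rw [← hBz]
    exact Subgroup.Normal.map hBn π hs
  -- `A` centralizes `b` modulo `C`
  have hAG : A ≤ commutator G := by
    have h1 : derivedSeries G i ≤ derivedSeries G 1 := derivedSeries_antitone G hi
    rwa [derivedSeries_one] at h1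
  have hAc : ∀ x ∈ A, π x * π b = π b * π x := by
    intro x hx
    have h1 : commutator G ≤ (Subgroup.centralizer ({π b} : Set (G ⧸ C))).comap π := by
      rw [commutator_def, Subgroup.commutator_le]
      intro u _ v _
      rw [Subgroup.mem_comap, map_commutatorElement, Subgroup.mem_centralizer_singleton_iff]
      exact Cfsg.Agent.Lib.H1Super.comm_of_cyclic_normal _ hzn _ _
    have h2 := h1 (hAG hx)
    rwa [Subgroup.mem_comap, Subgroup.mem_centralizer_singleton_iff] at h2
  have hAB : ∀ x ∈ A, ∀ y ∈ B, π x * π y = π y * π x := by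
    intro x hx y hy
    obtain ⟨k, z, hz, rfl⟩ := hdecB y hy
    rw [map_mul, map_zpow, hπC z hz, mul_one]
    have : Commute (π x) (π b) := hAc x hx
    exact (this.zpow_right k).eq
  have hBB : ∀ x ∈ B, ∀ y ∈ B, π x * π y = π y * π x := fun x hx y hy => hAB x (hBAle hx) y hy
  have hAA : ∀ x ∈ A, ∀ y ∈ A, π x * π y = π y * π x := by
    intro x hx y hy
    obtain ⟨k, u, hu, rfl⟩ := hdecA x hx
    obtain ⟨l, v, hv, rfl⟩ := hdecA y hy
    have hau : ∀ (m : ℤ) (w : G), w ∈ B → Commute (π ((a : G) ^ m)) (π w) := by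
      intro m w hw
      exact hAB _ (Subgroup.zpow_mem _ a.2 m) w hw
    have h1 : Commute (π ((a : G) ^ k)) (π ((a : G) ^ l)) := by
      rw [map_zpow, map_zpow]
      exact (Commute.refl _).zpow_zpow k l
    have h2 : Commute (π u) (π v) := hBB u hu v hv
    have h3 := hau k v hv
    have h4 := hau l u hu
    simp only [map_mul]
    exact ((h1.mul_right h3).mul_left (h4.symm.mul_right h2)).eq
  rw [hBA, Subgroup.commutator_le]
  intro x hx y hy
  rw [← QuotientGroup.eq_one_iff]
  show π ⁅x, y⁆ = 1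
  rw [map_commutatorElement, commutatorElement_eq_one_iff_mul_comm]
  exact hAA x hx y hy

end Cfsg.Agent.S0555
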