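import Cfsg.Statements.S0556
import Cfsg.Agent.Lib.H1FrobThm
import Cfsg.Agent.Lib.H1Prim2
import Cfsg.Agent.Lib.H1Super

set_option autoImplicit false
open Cfsg

namespace Cfsg.Agent.S0556

universe u

open Cfsg.Agent.Lib.H1Core Cfsg.Agent.Lib.H1Conj Cfsg.Agent.Lib.H1Cop Cfsg.Agent.Lib.H1Prim Pointwise

theorem coreFree_case {G : Type u} [Group G] [Finite G] {A : Subgroup G} (hA : IsCoatom A)
    (hc : IsMulCommutative A) (hcore : A.normalCore = ⊥) : derivedSeries G 2 = ⊥ := by
  classical
  have hab : ∀ a ∈ A, ∀ b ∈ A, a * b = b * a := fun a ha b hb =>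
    congrArg Subtype.val (hc.is_comm.comm ⟨a, ha⟩ ⟨b, hb⟩)
  have hder : ∀ {K : Subgroup G}, commutator G ≤ K → (∀ a ∈ K, ∀ b ∈ K, a * b = b * a) →
      derivedSeries G 2 = ⊥ := by
    intro K hK hKc
    rw [show (2 : ℕ) = 1 + 1 from rfl, derivedSeries_succ, derivedSeries_one, eq_bot_iff]
    refine (Subgroup.commutator_mono hK hK).trans ?_
    rw [Subgroup.commutator_le]
    intro u hu v hv
    rw [Subgroup.mem_bot, commutatorElement_eq_one_iff_mul_comm]
    exact hKc u hu v hv
  by_cases hA0 : A = ⊥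
  · -- prime order case
    subst hA0
    have hex : ∃ x : G, x ≠ 1 := by
      by_contra h
      push Not at h
      apply hA.1
      rw [eq_top_iff]
      intro y _
      rw [Subgroup.mem_bot]
      exact h y
    obtain ⟨x, hx⟩ := hex
    have htop : (⊥ : Subgroup G) ⊔ Subgroup.zpowers x = ⊤ := by
      apply hA.2
      refine lt_of_le_of_ne le_sup_left (fun e => hx ?_)
      have h1 : x ∈ (⊥ : Subgroup G) ⊔ Subgroup.zpowers x :=
        (le_sup_right : Subgroup.zpowers x ≤ ⊥ ⊔ Subgroup.zpowers x) (Subgroup.mem_zpowers x)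
      rw [← e, Subgroup.mem_bot] at h1
      exact h1
    haveI : (⊥ : Subgroup G).Normal := Subgroup.normal_bot
    have h1 : commutator G ≤ ⊥ :=
      Subgroup.Normal.commutator_le_of_self_sup_commutative_eq_top htop inferInstance
    refine hder h1 ?_
    intro a ha b hb
    rw [Subgroup.mem_bot] at ha hb
    rw [ha, hb]
  -- `A` is self-normalizing
  have hnn : ¬ A.Normal := fun hn => hA0 (le_core_eq_bot hcore hn le_rfl)
  have hnorm : Subgroup.normalizer (A : Set G) = A := by
    by_contra hne
    have h1 : A < Subgroup.normalizer (A : Set G) :=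
      lt_of_le_of_ne Subgroup.le_normalizer (Ne.symm hne)
    exact hnn (Subgroup.normalizer_eq_top_iff.mp (hA.2 _ h1))
  have hF : IsFrobeniusComplement A := by
    refine ⟨hA0, hA.1, fun g hg => ?_⟩
    suffices hDn : (A ⊓ MulAut.conj g • A).Normal from le_core_eq_bot hcore hDn inf_le_left
    have hne : MulAut.conj g • A ≠ A := by
      intro e
      apply hg
      rw [← hnorm]
      exact mem_normalizer_of_conj_smul_eq e
    have hsup : A ⊔ MulAut.conj g • A = ⊤ := by
      apply hA.2
      refine lt_of_le_of_ne le_sup_left (fun e => hne ?_)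
      have h1 : MulAut.conj g • A ≤ A := le_sup_right.trans (le_of_eq e.symm)
      exact Subgroup.eq_of_le_of_card_ge h1 (by rw [card_conj_smul])
    have habg : ∀ a ∈ MulAut.conj g • A, ∀ b ∈ MulAut.conj g • A, a * b = b * a := by
      intro a ha b hb
      rw [mem_conj_smul] at ha hb
      have h1 := hab _ ha _ hb
      have h2 : g⁻¹ * (a * b) * g = g⁻¹ * (b * a) * g := by
        calc g⁻¹ * (a * b) * g = (g⁻¹ * a * g) * (g⁻¹ * b * g) := by group
          _ = (g⁻¹ * b * g) * (g⁻¹ * a * g) := h1
          _ = _ := by group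
      have h3 := mul_left_cancel (mul_right_cancel h2)
      exact h3
    constructor
    rintro d ⟨hd1, hd2⟩ x
    have hcent : A ⊔ MulAut.conj g • A ≤ Subgroup.centralizer ({d} : Set G) := by
      rw [sup_le_iff]
      constructor
      · intro y hy
        rw [Subgroup.mem_centralizer_singleton_iff]
        exact hab y hy d hd1
      · intro y hy
        rw [Subgroup.mem_centralizer_singleton_iff]
        exact habg y hy d hd2
    rw [hsup] at hcent
    have h1 := hcent (Subgroup.mem_top x)
    rw [Subgroup.mem_centralizer_singleton_iff] at h1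
    have e : x * d * x⁻¹ = d := by rw [h1]; group
    rw [e]
    exact ⟨hd1, hd2⟩
  haveI := Fintype.ofFinite G
  obtain ⟨N, -, hNn, hcompl⟩ := Cfsg.Agent.Lib.H1FrobThm.frobenius_theorem hF
  haveI := hNn
  have hNinf : N ⊓ A = ⊥ := disjoint_iff.mp hcompl.disjoint
  have hNsup : N ⊔ A = ⊤ := hcompl.sup_eq_top
  have hNcard : Nat.card N * Nat.card A = Nat.card G := hcompl.card_mul
  have hidx : A.index = Nat.card N := hcompl.index_eq_card
  have hcop : (Nat.card A).Coprime (Nat.card N) := by
    have h1 := Cfsg.Agent.Lib.H1Frob.index_mod hF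
    rw [hidx] at h1
    have h2 : Nat.gcd (Nat.card N) (Nat.card A) = Nat.gcd 1 (Nat.card A) :=
      Nat.ModEq.gcd_eq h1
    rw [Nat.gcd_one_left] at h2
    exact Nat.Coprime.symm h2
  have hN0 : N ≠ ⊥ := by
    intro e
    rw [e, bot_sup_eq] at hNsup
    exact hA.1 hNsup
  have hAsolv : Group.IsSolvable A := by
    letI : CommGroup A := { (inferInstance : Group A) with mul_comm := hc.is_comm.comm }
    exact inferInstance
  have hAN : A ≤ Subgroup.normalizer (N : Set G) := by
    rw [Subgroup.normalizer_eq_top_iff.mpr hNn]; exact le_top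
  have hcard1 : Nat.card N ≠ 1 := fun e => hN0 (Subgroup.card_eq_one.mp e)
  obtain ⟨p, hp, hpd⟩ := Nat.exists_prime_and_dvd hcard1
  haveI : Fact p.Prime := ⟨hp⟩
  obtain ⟨R, ⟨hRN, hRp, hRi⟩, hRn⟩ := exists_invariant_sylow hAN hcop (Or.inl hAsolv) p
  have hA_top : ∀ {Z : Subgroup G}, Z ≤ N → Z ≠ ⊥ → A ≤ Subgroup.normalizer (Z : Set G) → Z = N := by
    intro Z hZN hZ0 hZn
    have hnotle : ¬ Z ≤ A := by
      intro h
      apply hZ0
      rw [eq_bot_iff, ← hNinf]
      exact le_inf hZN h
    have hsup : A ⊔ Z = ⊤ :=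
      hA.2 _ (lt_of_le_of_ne le_sup_left (fun e => hnotle (by rw [e]; exact le_sup_right)))
    have hinf : A ⊓ Z = ⊥ := by
      rw [eq_bot_iff, ← hNinf]
      rintro x ⟨h1, h2⟩
      exact ⟨hZN h2, h1⟩
    have h1 := card_sup_mul_inf_of_normalizes hZn
    rw [hsup, hinf, Subgroup.card_top, Subgroup.card_bot, mul_one, ← hNcard, mul_comm] at h1
    have h2 : Nat.card N = Nat.card Z := Nat.eq_of_mul_eq_mul_left Nat.card_pos h1
    exact Subgroup.eq_of_le_of_card_ge hZN h2.le
  have hR0 : R ≠ ⊥ := by
    rintro rfl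
    apply hRi
    rw [Subgroup.relIndex_bot_left]
    exact hpd
  have hRe : R = N := hA_top hRN hR0 hRn
  have hNp : IsPGroup p N := hRe ▸ hRp
  haveI hNnt : Nontrivial N := (Subgroup.nontrivial_iff_ne_bot N).mpr hN0
  set Z : Subgroup G := (Subgroup.center N).map N.subtype with hZ
  have hZn : Z.Normal := normal_map_of_characteristic N (Subgroup.center N)
  have hZ0 : Z ≠ ⊥ := by
    intro e
    rw [hZ, Subgroup.map_eq_bot_iff, Subgroup.ker_subtype, le_bot_iff] at e
    have := hNp.center_nontrivial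
    rw [e] at this
    exact (not_nontrivial_iff_subsingleton.mpr (inferInstance : Subsingleton (⊥ : Subgroup N))) this
  have hZe : Z = N := hA_top (Subgroup.map_subtype_le _) hZ0 (by
    rw [Subgroup.normalizer_eq_top_iff.mpr hZn]; exact le_top)
  have hNab : ∀ a ∈ N, ∀ b ∈ N, a * b = b * a := by
    intro a ha b hb
    have ha' : a ∈ Z := hZe ▸ ha
    obtain ⟨z, hz, rfl⟩ := ha'
    have := (Subgroup.mem_center_iff.mp hz) ⟨b, hb⟩
    exact (congrArg Subtype.val this).symm
  exact hder (Subgroup.Normal.commutator_le_of_self_sup_commutative_eq_top hNsup hc) hNab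

/-- If a finite group has a maximal subgroup that is abelian, then the third term of its derived series is trivial (so the group is solvable of derived length at most three). -/
theorem result {G : Type*} [Group G] [Finite G] (A : Subgroup G) (hA : IsCoatom A) [IsMulCommutative A] : derivedSeries G 3 = ⊥ := by

  classical
  have hab : ∀ a ∈ A, ∀ b ∈ A, a * b = b * a := fun a ha b hb =>
    congrArg Subtype.val ((inferInstance : IsMulCommutative A).is_comm.comm ⟨a, ha⟩ ⟨b, hb⟩)
  set C : Subgroup G := A.normalCore with hC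
  haveI hCn : C.Normal := Subgroup.normalCore_normal A
  have hCA : C ≤ A := Subgroup.normalCore_le A
  have hq : IsMulCommutative (A.map (QuotientGroup.mk' C)) := by
    refine ⟨⟨?_⟩⟩
    rintro ⟨_, a, ha, rfl⟩ ⟨_, b, hb, rfl⟩
    apply Subtype.ext
    show (QuotientGroup.mk' C) a * (QuotientGroup.mk' C) b = (QuotientGroup.mk' C) b * (QuotientGroup.mk' C) a
    rw [← map_mul, ← map_mul, hab a ha b hb]
  have hco : IsCoatom (A.map (QuotientGroup.mk' C)) := Cfsg.Agent.Lib.H1Super.isCoatom_map_mk hCA hA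
  have hcore : (A.map (QuotientGroup.mk' C)).normalCore = ⊥ := by
    rw [eq_bot_iff]
    intro x hx
    obtain ⟨g, rfl⟩ := QuotientGroup.mk'_surjective C x
    have h1 : ((A.map (QuotientGroup.mk' C)).normalCore).comap (QuotientGroup.mk' C) ≤ A := by
      intro y hy
      have h2 := Subgroup.normalCore_le _ hy
      rwa [Cfsg.Agent.Lib.H1SZ.map_mk_mem_iff hCA] at h2
    have h3 : ((A.map (QuotientGroup.mk' C)).normalCore).comap (QuotientGroup.mk' C) ≤ C :=
      (Subgroup.normal_le_normalCore (hN := Subgroup.Normal.comap (Subgroup.normalCore_normal _) _)).mpr h1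
    rw [Subgroup.mem_bot]
    exact (QuotientGroup.eq_one_iff g).mpr (h3 hx)
  have h2 := coreFree_case hco hq hcore
  have h3 := map_derivedSeries_eq (f := QuotientGroup.mk' C) (QuotientGroup.mk'_surjective C) 2
  rw [h2, Subgroup.map_eq_bot_iff, QuotientGroup.ker_mk'] at h3
  rw [show (3 : ℕ) = 2 + 1 from rfl, derivedSeries_succ, eq_bot_iff]
  refine (Subgroup.commutator_mono h3 h3).trans ?_
  rw [Subgroup.commutator_le]
  intro u hu v hv
  rw [Subgroup.mem_bot, commutatorElement_eq_one_iff_mul_comm]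
  exact hab u (hCA hu) v (hCA hv)

end Cfsg.Agent.S0556
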