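import Cfsg.Statements.S0559
import Cfsg.Agent.Lib.H1Conj

set_option autoImplicit false
open Pointwise
open Cfsg

namespace Cfsg.Agent.S0559

/-- Let G = HK be a finite group (every element a product of an element of H and an element of K), and let A and B be conjugates of H and K. Then every element is a product of an element of A and one of B, and there is g with A = gHg⁻¹ and B = gKg⁻¹ simultaneously. -/
theorem result {G : Type*} [Group G] [Finite G] (H K A B : Subgroup G) (hHK : ∀ g : G, ∃ h ∈ H, ∃ k ∈ K, g = h * k) (hA : ∃ x : G, A = MulAut.conj x • H) (hB : ∃ y : G, B = MulAut.conj y • K) : (∀ g : G, ∃ a ∈ A, ∃ b ∈ B, g = a * b) ∧ ∃ g : G, A = MulAut.conj g • H ∧ B = MulAut.conj g • K := by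
  obtain ⟨x, rfl⟩ := hA
  obtain ⟨y, rfl⟩ := hB
  obtain ⟨h', hh', k', hk', e⟩ := hHK (x⁻¹ * y)
  have hg : x * h' = y * k'⁻¹ := by
    have : y = x * (h' * k') := by rw [← e]; group
    rw [this]; group
  have e1 : MulAut.conj (x * h') • H = MulAut.conj x • H := by
    rw [Cfsg.Agent.Lib.H1Conj.conj_mul_smul, Cfsg.Agent.Lib.H1Conj.conj_smul_eq_self_of_mem hh']
  have e2 : MulAut.conj (x * h') • K = MulAut.conj y • K := by
    rw [hg, Cfsg.Agent.Lib.H1Conj.conj_mul_smul,
      Cfsg.Agent.Lib.H1Conj.conj_smul_eq_self_of_mem (K.inv_mem hk')]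
  refine ⟨fun u => ?_, x * h', e1.symm, e2.symm⟩
  obtain ⟨a, ha, b, hb, e3⟩ := hHK ((x * h')⁻¹ * u * (x * h'))
  refine ⟨(x * h') * a * (x * h')⁻¹, ?_, (x * h') * b * (x * h')⁻¹, ?_, ?_⟩
  · rw [← e1]; exact Cfsg.Agent.Lib.H1Core.mul_mem_conj_smul ha
  · rw [← e2]; exact Cfsg.Agent.Lib.H1Core.mul_mem_conj_smul hb
  · have : u = (x * h') * (a * b) * (x * h')⁻¹ := by rw [← e3]; group
    rw [this]; group

end Cfsg.Agent.S0559
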