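import Cfsg.Statements.S0562
import Cfsg.Agent.Lib.H1Conj

set_option autoImplicit false
open Cfsg

namespace Cfsg.Agent.S0562

open Pointwise

/-- Let the finite group G be the product HK of subgroups, A normal in H, B normal in K, and L the normalizer of the subgroup generated by A and B. Then every element of L is a product of an element of L ∩ H and an element of L ∩ K. -/
theorem result {G : Type*} [Group G] [Finite G] (H K A B : Subgroup G) (hHK : ∀ g : G, ∃ h ∈ H, ∃ k ∈ K, g = h * k) (hA : A ≤ H) (hAn : (A.subgroupOf H).Normal) (hB : B ≤ K) (hBn : (B.subgroupOf K).Normal) : ∀ g ∈ Subgroup.normalizer ((A ⊔ B : Subgroup G) : Set G), ∃ h ∈ Subgroup.normalizer ((A ⊔ B : Subgroup G) : Set G) ⊓ H, ∃ k ∈ Subgroup.normalizer ((A ⊔ B : Subgroup G) : Set G) ⊓ K, g = h * k := by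
  classical
  intro g hg
  obtain ⟨h, hh, k, hk, rfl⟩ := hHK g
  set J := A ⊔ B with hJ
  have hg1 : MulAut.conj (h * k) • J = J :=
    Cfsg.Agent.Lib.H1Conj.conj_smul_eq_self_of_mem_normalizer hg
  have hAh : ∀ a ∈ A, ∀ u ∈ H, u * a * u⁻¹ ∈ A := by
    intro a ha u hu
    have h1 : (⟨a, hA ha⟩ : H) ∈ A.subgroupOf H := Subgroup.mem_subgroupOf.mpr ha
    have h2 := hAn.conj_mem _ h1 ⟨u, hu⟩
    simpa [Subgroup.mem_subgroupOf] using h2
  have hBk : ∀ b ∈ B, ∀ u ∈ K, u * b * u⁻¹ ∈ B := by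
    intro a ha u hu
    have h1 : (⟨a, hB ha⟩ : K) ∈ B.subgroupOf K := Subgroup.mem_subgroupOf.mpr ha
    have h2 := hBn.conj_mem _ h1 ⟨u, hu⟩
    simpa [Subgroup.mem_subgroupOf] using h2
  have hk1 : MulAut.conj k • J = MulAut.conj h⁻¹ • J := by
    have : MulAut.conj h⁻¹ • (MulAut.conj (h * k) • J) = MulAut.conj k • J := by
      rw [Cfsg.Agent.Lib.H1Conj.conj_mul_smul, Cfsg.Agent.Lib.H1Conj.conj_inv_smul_conj_smul]
    rw [← this, hg1]
  have hleJ : J ≤ MulAut.conj k • J := by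
    rw [hJ, sup_le_iff]
    constructor
    · intro a ha
      have hk2 := hk1
      rw [hk2]
      rw [Cfsg.Agent.Lib.H1Core.mem_conj_smul]
      have := hAh a ha h hh
      simp only [inv_inv]
      exact (le_sup_left : A ≤ A ⊔ B) this
    · intro b hb
      rw [Cfsg.Agent.Lib.H1Core.mem_conj_smul]
      have := hBk b hb k⁻¹ (K.inv_mem hk)
      simp only [inv_inv] at this
      exact (le_sup_right : B ≤ A ⊔ B) this
  have hkJ : MulAut.conj k • J = J := by
    symm
    apply Subgroup.eq_of_le_of_card_ge hleJ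
    rw [Cfsg.Agent.Lib.H1Conj.card_conj_smul]
  have hkN : k ∈ Subgroup.normalizer ((J : Subgroup G) : Set G) :=
    Cfsg.Agent.Lib.H1Conj.mem_normalizer_of_conj_smul_eq hkJ
  have hhN : h ∈ Subgroup.normalizer ((J : Subgroup G) : Set G) := by
    have := Subgroup.mul_mem _ hg (Subgroup.inv_mem _ hkN)
    simpa using this
  exact ⟨h, ⟨hhN, hh⟩, k, ⟨hkN, hk⟩, rfl⟩

end Cfsg.Agent.S0562
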