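import Cfsg.Statements.S0567
import Cfsg.Agent.Lib.H1Cop

set_option autoImplicit false
open Cfsg

namespace Cfsg.Agent.S0567

open scoped commutatorElement

/-- A subgroup H of a group G is subnormal exactly when, for some m, the subgroup obtained from G by taking the commutator with H m times in succession is contained in H. -/
theorem result {G : Type*} [Group G] (H : Subgroup G) : H.IsSubnormal ↔ ∃ m : ℕ, (fun K : Subgroup G => ⁅K, H⁆)^[m] ⊤ ≤ H := by
  classical
  constructor
  · intro hH
    induction hH with
    | top => exact ⟨0, le_rfl⟩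
    | step H K hle hK hN ih =>
      obtain ⟨m, hm⟩ := ih
      refine ⟨m + 1, ?_⟩
      have hmono : ∀ n, (fun L : Subgroup G => ⁅L, H⁆)^[n] ⊤ ≤ (fun L : Subgroup G => ⁅L, K⁆)^[n] ⊤ := by
        intro n
        induction n with
        | zero => exact le_rfl
        | succ n ih2 =>
          rw [Function.iterate_succ_apply', Function.iterate_succ_apply']
          exact Subgroup.commutator_mono ih2 hle
      have h1 := (hmono m).trans hm
      rw [Function.iterate_succ_apply']
      refine (Subgroup.commutator_mono h1 le_rfl).trans ?_
      rw [Subgroup.commutator_le]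
      intro k hk h hh
      have h2 : (⟨h, hle hh⟩ : K) ∈ H.subgroupOf K := Subgroup.mem_subgroupOf.mpr hh
      have h3 := hN.conj_mem _ h2 ⟨k, hk⟩
      have h4 : k * h * k⁻¹ ∈ H := by simpa [Subgroup.mem_subgroupOf] using h3
      exact H.mul_mem h4 (H.inv_mem hh)
  · rintro ⟨m, hm⟩
    set K : ℕ → Subgroup G := fun n => (fun L : Subgroup G => ⁅L, H⁆)^[n] ⊤ with hK
    have hKs : ∀ n, K (n + 1) = ⁅K n, H⁆ := by
      intro n
      simp only [hK, Function.iterate_succ_apply']
    have hsub : ∀ n, (K n ⊔ H).IsSubnormal := by
      intro n
      induction n with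
      | zero =>
        have : K 0 ⊔ H = ⊤ := by simp [hK]
        rw [this]
        exact Subgroup.IsSubnormal.top
      | succ n ih =>
        have hle : K (n + 1) ⊔ H ≤ K n ⊔ H := by
          refine sup_le ?_ le_sup_right
          rw [hKs, Subgroup.commutator_le]
          intro k hk h hh
          have h1 : k ∈ K n ⊔ H := (le_sup_left : K n ≤ K n ⊔ H) hk
          have h2 : h ∈ K n ⊔ H := (le_sup_right : H ≤ K n ⊔ H) hh
          exact Subgroup.mul_mem _ (Subgroup.mul_mem _ (Subgroup.mul_mem _ h1 h2)
            (Subgroup.inv_mem _ h1)) (Subgroup.inv_mem _ h2)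
        refine Subgroup.IsSubnormal.step _ _ hle ih ?_
        -- normality
        have hnorm : K n ⊔ H ≤ Subgroup.normalizer ((K (n + 1) ⊔ H : Subgroup G) : Set G) := by
          have e : K (n + 1) ⊔ H = Subgroup.closure ((K (n + 1) : Set G) ∪ (H : Set G)) := by
            rw [Subgroup.closure_union, Subgroup.closure_eq, Subgroup.closure_eq]
          rw [sup_le_iff]
          constructor
          · rw [e, Subgroup.le_normalizer_closure_iff, ← e]
            rintro k hk x (hx | hx)
            · have h1 : k * x * k⁻¹ ∈ K (n + 1) := by
                rw [hKs] at hx ⊢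
                exact Cfsg.Agent.Lib.H1Cop.conj_mem_of_normalizer
                  (Cfsg.Agent.Lib.H1Cop.commutator_normalized_left (K n) H) hk hx
              exact (le_sup_left : K (n + 1) ≤ K (n + 1) ⊔ H) h1
            · have h1 : ⁅k, x⁆ ∈ K (n + 1) := by
                rw [hKs]
                exact Subgroup.commutator_mem_commutator hk hx
              have e2 : k * x * k⁻¹ = ⁅k, x⁆ * x := by
                simp only [commutatorElement_def]; group
              rw [e2]
              exact Subgroup.mul_mem_sup h1 hx
          · rw [e, Subgroup.le_normalizer_closure_iff, ← e]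
            rintro h hh x (hx | hx)
            · have h1 : h * x * h⁻¹ ∈ K (n + 1) := by
                rw [hKs] at hx ⊢
                exact Cfsg.Agent.Lib.H1Cop.conj_mem_of_normalizer
                  (Cfsg.Agent.Lib.H1Cop.commutator_normalized_right (K n) H) hh hx
              exact (le_sup_left : K (n + 1) ≤ K (n + 1) ⊔ H) h1
            · exact (le_sup_right : H ≤ K (n + 1) ⊔ H) (H.mul_mem (H.mul_mem hh hx) (H.inv_mem hh))
        exact (Subgroup.normal_subgroupOf_iff_le_normalizer hle).mpr hnorm
    have := hsub m
    have e : K m ⊔ H = H := sup_eq_right.mpr hm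
    rwa [e] at this

end Cfsg.Agent.S0567
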