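import Cfsg.Statements.S0571
import Cfsg.Agent.Lib.H1Ito
import Cfsg.Agent.Lib.H1Super

set_option autoImplicit false
open Cfsg

namespace Cfsg.Agent.S0571

universe u

theorem aux (n : ℕ) : ∀ (G : Type u) [Group G] [Finite G] (A B : Subgroup G) [IsCyclic A] [IsCyclic B],
    (∀ g : G, ∃ a ∈ A, ∃ b ∈ B, g = a * b) → Nat.card G = n → Cfsg.IsSupersolvable G := by
  induction n using Nat.strong_induction_on with
  | _ n ih =>
  intro G _ _ A B _ _ hAB hn
  classical
  by_cases hNt : Nontrivial G
  · haveI : IsMulCommutative A := by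
      letI : CommGroup A := IsCyclic.commGroup
      exact ⟨⟨fun a b => mul_comm a b⟩⟩
    haveI : IsMulCommutative B := by
      letI : CommGroup B := IsCyclic.commGroup
      exact ⟨⟨fun a b => mul_comm a b⟩⟩
    obtain ⟨N, hNn, hN, hle⟩ := Cfsg.Agent.Lib.H1Ito.ito_normal A B hAB
    haveI := hNn
    haveI hNc : IsCyclic N := by
      rcases hle with h | h
      · exact Subgroup.isCyclic_of_le h
      · exact Subgroup.isCyclic_of_le h
    have hlt : Nat.card (G ⧸ N) < n := by
      have hcq := Cfsg.Agent.Lib.H1SZ.card_quotient_mul N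
      rw [← hn, ← hcq]
      have h1 : 1 < Nat.card N := by
        haveI : Nontrivial N := (Subgroup.nontrivial_iff_ne_bot N).mpr hN
        exact Finite.one_lt_card
      have h2 : 0 < Nat.card (G ⧸ N) := Nat.card_pos
      nlinarith
    apply Cfsg.Agent.Lib.H1Super.isSS_of_cyclic_normal N
    haveI : IsCyclic (A.map (QuotientGroup.mk' N)) :=
      isCyclic_of_surjective _ ((QuotientGroup.mk' N).subgroupMap_surjective A)
    haveI : IsCyclic (B.map (QuotientGroup.mk' N)) :=
      isCyclic_of_surjective _ ((QuotientGroup.mk' N).subgroupMap_surjective B)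
    apply ih _ hlt (G ⧸ N) (A.map (QuotientGroup.mk' N)) (B.map (QuotientGroup.mk' N)) _ rfl
    intro g
    obtain ⟨x, rfl⟩ := QuotientGroup.mk'_surjective N g
    obtain ⟨a, ha, b, hb, rfl⟩ := hAB x
    exact ⟨_, ⟨a, ha, rfl⟩, _, ⟨b, hb, rfl⟩, map_mul _ _ _⟩
  · rw [not_nontrivial_iff_subsingleton] at hNt
    exact Cfsg.Agent.Lib.H1Super.isSS_of_trivial

/-- If a finite group G is the product AB of two cyclic subgroups (every element is a product ab), then G is supersolvable. -/
theorem result {G : Type*} [Group G] [Finite G] (A B : Subgroup G) [IsCyclic A] [IsCyclic B] (hAB : ∀ g : G, ∃ a ∈ A, ∃ b ∈ B, g = a * b) : Cfsg.IsSupersolvable G := by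

  exact aux _ G A B hAB rfl

end Cfsg.Agent.S0571
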