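import Cfsg.Statements.S0575
import Cfsg.Agent.Lib.H1Cop

set_option autoImplicit false
open Cfsg

namespace Cfsg.Agent.S0575

/-- If H is a normal subgroup of a finite group G, then the Frattini subgroup of H, viewed in G, lies in the Frattini subgroup of G. -/
theorem result {G : Type*} [Group G] [Finite G] (H : Subgroup G) [H.Normal] : (frattini ↥H).map H.subtype ≤ frattini G := by
  classical
  haveI : (frattini ↥H).Characteristic := inferInstance
  have hn : ((frattini ↥H).map H.subtype).Normal :=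
    Cfsg.Agent.Lib.H1Core.normal_map_of_characteristic H (frattini ↥H)
  rw [Cfsg.Agent.Lib.H1Frat.le_frattini_iff]
  intro M hM
  by_contra hnot
  have hsup : M ⊔ (frattini ↥H).map H.subtype = ⊤ := by
    apply hM.2
    exact lt_of_le_of_ne le_sup_left (fun e => hnot (by rw [e]; exact le_sup_right))
  have hle : (frattini ↥H).map H.subtype ≤ H := Subgroup.map_subtype_le _
  -- every element of `H` lies in `(M ∩ H) Φ(H)`
  have htop : M.subgroupOf H ⊔ frattini ↥H = ⊤ := by
    rw [eq_top_iff]
    rintro ⟨h, hh⟩ -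
    have h1 : h ∈ (frattini ↥H).map H.subtype ⊔ M := by rw [sup_comm, hsup]; trivial
    have hnorm : M ≤ Subgroup.normalizer (((frattini ↥H).map H.subtype : Subgroup G) : Set G) := by
      rw [Subgroup.normalizer_eq_top_iff.mpr hn]; exact le_top
    obtain ⟨f, hf, m, hm, e⟩ := (Cfsg.Agent.Lib.H1Cop.mem_sup_iff hnorm).mp h1
    obtain ⟨⟨f', hf'⟩, hf2, rfl⟩ := hf
    have hmH : m ∈ H := by
      have : m = f'⁻¹ * h := by rw [← e]; simp
      rw [this]
      exact H.mul_mem (H.inv_mem hf') hh
    have : (⟨h, hh⟩ : H) = ⟨f', hf'⟩ * ⟨m, hmH⟩ := Subtype.ext e.symm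
    rw [this, sup_comm]
    exact Subgroup.mul_mem_sup hf2 (Subgroup.mem_subgroupOf.mpr hm)
  -- Frattini non-generators
  have hH : M.subgroupOf H = ⊤ := by
    by_contra hne
    obtain ⟨N, hN, hMN⟩ := (eq_top_or_exists_le_coatom (M.subgroupOf H)).resolve_left hne
    have h1 : frattini ↥H ≤ N := frattini_le_coatom hN
    have h2 : M.subgroupOf H ⊔ frattini ↥H ≤ N := sup_le hMN h1
    rw [htop, top_le_iff] at h2
    exact hN.1 h2
  have hHM : H ≤ M := Subgroup.subgroupOf_eq_top.mp hH
  exact hnot (hle.trans hHM)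

end Cfsg.Agent.S0575
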