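import Cfsg.Statements.S0576
import Cfsg.Agent.Lib.H1Cop

set_option autoImplicit false
open Cfsg

namespace Cfsg.Agent.S0576

/-- Let H be a normal subgroup of a finite group G with H contained in the Frattini subgroup of G. Then the group of inner automorphisms of H is contained in the Frattini subgroup of the automorphism group of H. -/
theorem result {G : Type*} [Group G] [Finite G] (H : Subgroup G) [H.Normal] (hH : H ≤ frattini G) : (MulAut.conj : ↥H →* MulAut ↥H).range ≤ frattini (MulAut ↥H) := by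
  classical
  rw [Cfsg.Agent.Lib.H1Frat.le_frattini_iff]
  intro M hM
  by_contra hnot
  set Inn : Subgroup (MulAut ↥H) := (MulAut.conj : ↥H →* MulAut ↥H).range with hInn
  have hInnn : Inn.Normal := by
    constructor
    rintro _ ⟨h, rfl⟩ f
    refine ⟨f h, ?_⟩
    ext x
    simp [MulAut.mul_apply]
  have hsup : Inn ⊔ M = ⊤ := by
    rw [sup_comm]
    apply hM.2
    exact lt_of_le_of_ne le_sup_left (fun e => hnot (by rw [e]; exact le_sup_right))
  let φ : G →* MulAut ↥H := MulAut.conjNormal
  have hφ : ∀ h : H, φ (h : G) = MulAut.conj h := by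
    intro h
    ext x
    simp [φ, MulAut.conjNormal_apply]
  set L : Subgroup G := M.comap φ with hL
  have hnormI : M ≤ Subgroup.normalizer (Inn : Set (MulAut ↥H)) := by
    rw [Subgroup.normalizer_eq_top_iff.mpr hInnn]; exact le_top
  have hLH : H ⊔ L = ⊤ := by
    rw [eq_top_iff]
    intro g _
    have h1 : φ g ∈ Inn ⊔ M := by rw [hsup]; trivial
    obtain ⟨_, ⟨h, rfl⟩, m, hm, e⟩ := (Cfsg.Agent.Lib.H1Cop.mem_sup_iff hnormI).mp h1
    have h2 : (h : G)⁻¹ * g ∈ L := by
      rw [hL, Subgroup.mem_comap, map_mul, map_inv, hφ, ← e]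
      simpa using hm
    have e2 : g = (h : G) * ((h : G)⁻¹ * g) := by group
    rw [e2]
    exact Subgroup.mul_mem_sup h.2 h2
  have hLΦ : L ⊔ frattini G = ⊤ := by
    rw [eq_top_iff, ← hLH, sup_comm]
    exact sup_le_sup_left hH _
  have hLt : L = ⊤ := frattini_nongenerating hLΦ
  apply hnot
  rintro _ ⟨h, rfl⟩
  have h2 : (h : G) ∈ L := by rw [hLt]; trivial
  rw [hL, Subgroup.mem_comap, hφ] at h2
  exact h2

end Cfsg.Agent.S0576
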