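import Cfsg.Statements.S0577
import Cfsg.Agent.Lib.H1Schmidt
import Mathlib

set_option autoImplicit false
open Cfsg

namespace Cfsg.Agent.S0577

open Cfsg.Agent.Lib.H1Schmidt Cfsg.Agent.Lib.H1Core
open scoped commutatorElement

theorem mem_of_elt {G : Type*} [Group G] [Finite G] {q : ℕ} [Fact q.Prime] (Q : Sylow q G)
    (hQ : (Q : Subgroup G).Normal) {x : G} (hx : ∃ k : ℕ, x ^ (q ^ k) = 1) : x ∈ (Q : Subgroup G) := by
  have h1 : IsPGroup q (Subgroup.zpowers x) := isPGroup_zpowers hx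
  have h2 : IsPGroup q (Subgroup.zpowers x ⊔ (Q : Subgroup G) : Subgroup G) :=
    h1.to_sup_of_normal_right Q.isPGroup'
  have h3 := Q.is_maximal' h2 le_sup_right
  rw [← h3]
  exact Subgroup.mem_sup_left (Subgroup.mem_zpowers x)

theorem pow_card_eq_one_of_sup {G : Type*} [Group G] [Finite G] (P Q : Subgroup G) [Q.Normal]
    (hs : P ⊔ Q = ⊤) (x : G) : x ^ (Nat.card P * Nat.card Q) = 1 := by
  have hx : x ∈ ((P ⊔ Q : Subgroup G) : Set G) := by rw [hs]; trivial
  rw [Subgroup.mul_normal, Set.mem_mul] at hx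
  obtain ⟨u, hu, v, hv, rfl⟩ := hx
  have h1 : (u * v) ^ Nat.card P ∈ Q := by
    rw [← QuotientGroup.eq_one_iff, QuotientGroup.mk_pow, QuotientGroup.mk_mul,
      (QuotientGroup.eq_one_iff v).mpr hv, mul_one, ← QuotientGroup.mk_pow]
    have h2 : u ^ Nat.card P = 1 := by
      have : ((⟨u, hu⟩ : P) ^ Nat.card P : P) = 1 := pow_card_eq_one'
      have h := congrArg Subtype.val this
      simpa only [SubmonoidClass.coe_pow, OneMemClass.coe_one] using h
    rw [h2]; rfl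
  rw [pow_mul]
  have : ((⟨_, h1⟩ : Q) ^ Nat.card Q : Q) = 1 := pow_card_eq_one'
  have h := congrArg Subtype.val this
  simpa only [SubmonoidClass.coe_pow, OneMemClass.coe_one] using h

theorem decomp {G : Type*} [Group G] {m n : ℕ} (hc : m.Coprime n) {x : G} (hx : x ^ (m * n) = 1) :
    ∃ u v : G, x = u * v ∧ u ^ m = 1 ∧ v ^ n = 1 ∧ u ∈ Subgroup.zpowers x ∧ v ∈ Subgroup.zpowers x := by
  have hb : (m : ℤ) * Nat.gcdA m n + n * Nat.gcdB m n = 1 := by
    have := Nat.gcd_eq_gcd_ab m n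
    rw [hc] at this
    push_cast at this
    linarith
  have hx' : x ^ ((m : ℤ) * n) = 1 := by
    have : ((m : ℤ) * n) = ((m * n : ℕ) : ℤ) := by push_cast; ring
    rw [this, zpow_natCast, hx]
  refine ⟨x ^ ((n : ℤ) * Nat.gcdB m n), x ^ ((m : ℤ) * Nat.gcdA m n), ?_, ?_, ?_,
    ⟨_, rfl⟩, ⟨_, rfl⟩⟩
  · rw [← zpow_add, show (n : ℤ) * Nat.gcdB m n + (m : ℤ) * Nat.gcdA m n = 1 by linarith, zpow_one]
  · rw [← zpow_natCast, ← zpow_mul, show (n : ℤ) * Nat.gcdB m n * m = ((m : ℤ) * n) * Nat.gcdB m n by ring,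
      zpow_mul, hx', one_zpow]
  · rw [← zpow_natCast, ← zpow_mul, show (m : ℤ) * Nat.gcdA m n * n = ((m : ℤ) * n) * Nat.gcdA m n by ring,
      zpow_mul, hx', one_zpow]

theorem nilp_of_commute {G : Type*} [Group G] [Finite G] {p q : ℕ} [Fact p.Prime] [Fact q.Prime]
    (P : Sylow p G) (Q : Sylow q G) (hs : (P : Subgroup G) ⊔ Q = ⊤)
    (hQ : (Q : Subgroup G).Normal)
    (hcm : ∀ a ∈ (P : Subgroup G), ∀ b ∈ (Q : Subgroup G), Commute a b) : Group.IsNilpotent G := by
  haveI : Group.IsNilpotent (P : Subgroup G) := P.isPGroup'.isNilpotent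
  haveI : Group.IsNilpotent (Q : Subgroup G) := Q.isPGroup'.isNilpotent
  let f : ↥(P : Subgroup G) × ↥(Q : Subgroup G) →* G :=
    MonoidHom.noncommCoprod (P : Subgroup G).subtype (Q : Subgroup G).subtype
      (fun a b => hcm a a.2 b b.2)
  refine nilpotent_of_surjective f ?_
  intro x
  have hx : x ∈ (((P : Subgroup G) ⊔ (Q : Subgroup G) : Subgroup G) : Set G) := by rw [hs]; trivial
  rw [Subgroup.mul_normal, Set.mem_mul] at hx
  obtain ⟨u, hu, v, hv, rfl⟩ := hx
  exact ⟨(⟨u, hu⟩, ⟨v, hv⟩), rfl⟩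

theorem pelt_mul_inv {G : Type*} [Group G] [Finite G] {L : Subgroup G} (hL : Group.IsNilpotent L)
    {p : ℕ} [Fact p.Prime] {a b : G} (haL : a ∈ L) (hbL : b ∈ L) (ha : ∃ k : ℕ, a ^ (p ^ k) = 1)
    (hb : ∃ k : ℕ, b ^ (p ^ k) = 1) : ∃ k : ℕ, (a * b⁻¹) ^ (p ^ k) = 1 := by
  haveI := hL
  obtain ⟨k, hk⟩ := ha
  obtain ⟨l, hl⟩ := hb
  have h1 : (⟨a, haL⟩ : L) ∈ pCore p L :=
    mem_pCore_of_nilpotent ⟨k, Subtype.ext (by simpa using hk)⟩
  have h2 : (⟨b, hbL⟩ : L) ∈ pCore p L :=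
    mem_pCore_of_nilpotent ⟨l, Subtype.ext (by simpa using hl)⟩
  have h3 := mul_mem h1 (inv_mem h2)
  obtain ⟨m, hm⟩ := pCore_isPGroup (G := L) p ⟨_, h3⟩
  refine ⟨m, ?_⟩
  have := congrArg (fun z : pCore p L => ((z : L) : G)) hm
  simpa using this

theorem main {G : Type*} [Group G] [Finite G] (hG : Cfsg.IsMinimalNonNilpotent G) {p q : ℕ}
    [Fact p.Prime] [Fact q.Prime] (hpq : p ≠ q) (P : Sylow p G) (Q : Sylow q G)
    (hcyc : IsCyclic (P : Subgroup G)) (hQ : (Q : Subgroup G).Normal)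
    (hs : (P : Subgroup G) ⊔ Q = ⊤) (hq : q ∣ Nat.card G) (D : Subgroup G) [D.Normal]
    (hD : D = (commutator ↥(Q : Subgroup G)).map (Q : Subgroup G).subtype) :
    ¬ IsMulCommutative (G ⧸ D) ∧ ∀ K : Subgroup (G ⧸ D), K ≠ ⊤ → IsMulCommutative K := by
  haveI := hQ
  have hPp : ∀ x ∈ (P : Subgroup G), ∃ k : ℕ, x ^ (p ^ k) = 1 := by
    intro x hx
    obtain ⟨k, hk⟩ := P.isPGroup' ⟨x, hx⟩
    exact ⟨k, by simpa using congrArg Subtype.val hk⟩
  have hQq : ∀ x ∈ (Q : Subgroup G), ∃ k : ℕ, x ^ (q ^ k) = 1 := by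
    intro x hx
    obtain ⟨k, hk⟩ := Q.isPGroup' ⟨x, hx⟩
    exact ⟨k, by simpa using congrArg Subtype.val hk⟩
  have hdisj : ∀ c : G, (∃ k : ℕ, c ^ (p ^ k) = 1) → (∃ k : ℕ, c ^ (q ^ k) = 1) → c = 1 := by
    rintro c ⟨k, hk⟩ ⟨l, hl⟩
    have h1 : orderOf c ∣ p ^ k := orderOf_dvd_of_pow_eq_one hk
    have h2 : orderOf c ∣ q ^ l := orderOf_dvd_of_pow_eq_one hl
    have h3 : (p ^ k).Coprime (q ^ l) :=
      Nat.Coprime.pow _ _ ((Nat.coprime_primes Fact.out Fact.out).mpr hpq)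
    have h4 := Nat.Coprime.eq_one_of_dvd (Nat.Coprime.coprime_dvd_left h1 h3) h2
    exact orderOf_eq_one_iff.mp h4
  have hDQ : D ≤ (Q : Subgroup G) := by
    rw [hD]
    rintro _ ⟨x, _, rfl⟩
    exact x.2
  have hcomP : ∀ a ∈ (P : Subgroup G), ∀ b ∈ (P : Subgroup G), a * b = b * a := by
    intro a ha b hb
    letI := hcyc.commGroup
    have := mul_comm (⟨a, ha⟩ : (P : Subgroup G)) ⟨b, hb⟩
    exact congrArg Subtype.val this
  have hconjp : ∀ (a b : G) , (∃ k : ℕ, b ^ (p ^ k) = 1) → ∃ k : ℕ, (a * b * a⁻¹) ^ (p ^ k) = 1 := by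
    rintro a b ⟨k, hk⟩
    exact ⟨k, by rw [conj_pow, hk]; simp⟩
  have hGQ : ∀ g h : G, g * h * g⁻¹ * h⁻¹ ∈ (Q : Subgroup G) := by
    intro g h
    have hdec : ∀ x : G, ∃ u ∈ (P : Subgroup G), ∃ v ∈ (Q : Subgroup G), u * v = x := by
      intro x
      have hx : x ∈ (((P : Subgroup G) ⊔ (Q : Subgroup G) : Subgroup G) : Set G) := by rw [hs]; trivial
      rw [Subgroup.mul_normal, Set.mem_mul] at hx
      exact hx
    obtain ⟨u, hu, v, hv, rfl⟩ := hdec g
    obtain ⟨u', hu', v', hv', rfl⟩ := hdec h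
    let π := QuotientGroup.mk' (Q : Subgroup G)
    have h1 : π v = 1 := (QuotientGroup.eq_one_iff v).mpr hv
    have h2 : π v' = 1 := (QuotientGroup.eq_one_iff v').mpr hv'
    have h3 : π u * π u' = π u' * π u := by rw [← map_mul, ← map_mul, hcomP u hu u' hu']
    have h4 : π (u * v * (u' * v') * (u * v)⁻¹ * (u' * v')⁻¹) = 1 := by
      simp only [map_mul, map_inv, h1, h2, mul_one, h3]
      group
    exact (QuotientGroup.eq_one_iff _).mp h4
  constructor
  · intro hab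
    have hDc : ∀ g h : G, g * h * g⁻¹ * h⁻¹ ∈ D := by
      intro g h
      rw [← QuotientGroup.eq_one_iff]
      simp only [QuotientGroup.mk_mul, QuotientGroup.mk_inv]
      have := (IsMulCommutative.is_comm (M := G ⧸ D)).comm (g : G ⧸ D) (h : G ⧸ D)
      rw [this]
      group
    by_cases hH : D ⊔ (P : Subgroup G) = ⊤
    · -- then Q ≤ D
      have hQD : (Q : Subgroup G) ≤ D := by
        intro v hv
        have hx : v ∈ ((D ⊔ (P : Subgroup G) : Subgroup G) : Set G) := by rw [hH]; trivial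
        rw [Subgroup.normal_mul, Set.mem_mul] at hx
        obtain ⟨d, hd, u, hu, rfl⟩ := hx
        have hu1 : u ∈ (Q : Subgroup G) := by
          have := mul_mem (inv_mem (hDQ hd)) hv
          simpa using this
        have := hdisj u (hPp u hu) (hQq u hu1)
        rw [this, mul_one]
        exact hd
      have htop : commutator ↥(Q : Subgroup G) = ⊤ := by
        rw [eq_top_iff]
        rintro ⟨v, hv⟩ _
        have h1 := hQD hv
        rw [hD] at h1
        obtain ⟨w, hw, hwv⟩ := h1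
        have : w = ⟨v, hv⟩ := Subtype.ext hwv
        rwa [← this]
      haveI : Group.IsNilpotent (Q : Subgroup G) := Q.isPGroup'.isNilpotent
      haveI : Nontrivial (Q : Subgroup G) :=
        (Subgroup.nontrivial_iff_ne_bot _).mpr (Q.ne_bot_of_dvd_card hq)
      exact (Group.IsSolvable.commutator_lt_top_of_nontrivial (Q : Subgroup G)).ne htop
    · have hnil := hG.2 _ hH
      apply hG.1
      refine nilp_of_commute P Q hs hQ ?_
      intro a ha b hb
      have h1 : b * a * b⁻¹ * a⁻¹ = 1 := by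
        have hc1 : b * a * b⁻¹ * a⁻¹ ∈ D := hDc b a
        have hc2 : b * a * b⁻¹ * a⁻¹ ∈ (Q : Subgroup G) := hDQ hc1
        have hLa : a ∈ D ⊔ (P : Subgroup G) := Subgroup.mem_sup_right ha
        have hLc : b * a * b⁻¹ ∈ D ⊔ (P : Subgroup G) := by
          have e : b * a * b⁻¹ = (b * a * b⁻¹ * a⁻¹) * a := by group
          rw [e]
          exact mul_mem (Subgroup.mem_sup_left hc1) hLa
        exact hdisj _ (pelt_mul_inv hnil hLc hLa (hconjp b a (hPp a ha)) (hPp a ha)) (hQq _ hc2)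
      have h2 : b * a * b⁻¹ = a := by
        have := eq_of_mul_inv_eq_one h1
        exact this
      have h3 : b * a = a * b := eq_mul_of_mul_inv_eq h2
      exact h3.symm
  · intro K hK
    have hKc : K.comap (QuotientGroup.mk' D) ≠ ⊤ := by
      intro e
      apply hK
      rw [eq_top_iff]
      intro x _
      obtain ⟨y, rfl⟩ := QuotientGroup.mk_surjective x
      have : y ∈ K.comap (QuotientGroup.mk' D) := e ▸ Subgroup.mem_top y
      exact this
    have hnil := hG.2 _ hKc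
    have hcop : (Nat.card (P : Subgroup G)).Coprime (Nat.card (Q : Subgroup G)) := by
      rw [Sylow.card_eq_multiplicity, Sylow.card_eq_multiplicity]
      exact Nat.Coprime.pow _ _ ((Nat.coprime_primes Fact.out Fact.out).mpr hpq)
    have hcardp : ∀ u : G, u ^ Nat.card (P : Subgroup G) = 1 → ∃ k : ℕ, u ^ (p ^ k) = 1 := by
      intro u hu
      rw [Sylow.card_eq_multiplicity] at hu
      exact ⟨_, hu⟩
    have hcardq : ∀ u : G, u ^ Nat.card (Q : Subgroup G) = 1 → ∃ k : ℕ, u ^ (q ^ k) = 1 := by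
      intro u hu
      rw [Sylow.card_eq_multiplicity] at hu
      exact ⟨_, hu⟩
    refine ⟨⟨?_⟩⟩
    rintro ⟨a, ha⟩ ⟨b, hb⟩
    obtain ⟨x, rfl⟩ := QuotientGroup.mk_surjective a
    obtain ⟨y, rfl⟩ := QuotientGroup.mk_surjective b
    apply Subtype.ext
    show (x : G ⧸ D) * (y : G ⧸ D) = (y : G ⧸ D) * (x : G ⧸ D)
    have hxK : x ∈ K.comap (QuotientGroup.mk' D) := ha
    have hyK : y ∈ K.comap (QuotientGroup.mk' D) := hb
    obtain ⟨u, v, rfl, hu, hv, huz, hvz⟩ := decomp hcop (pow_card_eq_one_of_sup _ _ hs x)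
    obtain ⟨u', v', rfl, hu', hv', huz', hvz'⟩ := decomp hcop (pow_card_eq_one_of_sup _ _ hs y)
    have hzk : ∀ {z w : G}, z ∈ K.comap (QuotientGroup.mk' D) → w ∈ Subgroup.zpowers z →
        w ∈ K.comap (QuotientGroup.mk' D) := fun hz hw =>
      (Subgroup.zpowers_le.mpr hz) hw
    have huK := hzk hxK huz
    have hvK := hzk hxK hvz
    have huK' := hzk hyK huz'
    have hvK' := hzk hyK hvz'
    have hup := hcardp _ hu
    have hup' := hcardp _ hu'
    have hvq := hcardq _ hv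
    have hvq' := hcardq _ hv'
    have hvQ : v ∈ (Q : Subgroup G) := mem_of_elt Q hQ hvq
    have hvQ' : v' ∈ (Q : Subgroup G) := mem_of_elt Q hQ hvq'
    have c1 : Commute u v' := commute_in hnil hpq huK hvK' hup hvq'
    have c2 : Commute u' v := commute_in hnil hpq huK' hvK hup' hvq
    have c3 : u * u' * u⁻¹ * u'⁻¹ = 1 := by
      refine hdisj _ ?_ (hQq _ (hGQ u u'))
      exact pelt_mul_inv hnil (mul_mem (mul_mem huK huK') (inv_mem huK)) huK'
        (hconjp u u' hup') hup'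
    have c3' : u * u' = u' * u := by
      have : u * u' * u⁻¹ = u' := eq_of_mul_inv_eq_one c3
      exact eq_mul_of_mul_inv_eq this
    rw [← QuotientGroup.mk_mul, ← QuotientGroup.mk_mul, QuotientGroup.eq]
    have e1 : u * v * (u' * v') = (u * u') * (v * v') := by
      calc u * v * (u' * v') = u * (v * u') * v' := by group
        _ = u * (u' * v) * v' := by rw [c2.eq.symm]
        _ = (u * u') * (v * v') := by group
    have e2 : u' * v' * (u * v) = (u * u') * (v' * v) := by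
      calc u' * v' * (u * v) = u' * (v' * u) * v := by group
        _ = u' * (u * v') * v := by rw [c1.eq.symm]
        _ = (u' * u) * (v' * v) := by group
        _ = (u * u') * (v' * v) := by rw [c3']
    rw [e1, e2]
    have e3 : ((u * u') * (v * v'))⁻¹ * ((u * u') * (v' * v)) = v'⁻¹ * v⁻¹ * v' * v := by group
    rw [e3, hD]
    refine ⟨⁅(⟨v'⁻¹, inv_mem hvQ'⟩ : (Q : Subgroup G)), (⟨v⁻¹, inv_mem hvQ⟩ : (Q : Subgroup G))⁆,
      Subgroup.commutator_mem_commutator (Subgroup.mem_top _) (Subgroup.mem_top _), ?_⟩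
    simp [commutatorElement_def]
/-- Let G be a finite minimal non-nilpotent group and Q a normal Sylow q-subgroup of G, and let D be the commutator subgroup of Q regarded in G (a normal subgroup). Then G modulo D is non-abelian and all its proper subgroups are abelian. -/
theorem result {G : Type*} [Group G] [Finite G] (hG : Cfsg.IsMinimalNonNilpotent G) (q : ℕ) [Fact q.Prime] (hq : q ∣ Nat.card G) (Q : Sylow q G) (hQ : (Q : Subgroup G).Normal) (D : Subgroup G) [D.Normal] (hD : D = (commutator ↥(Q : Subgroup G)).map (Q : Subgroup G).subtype) : ¬ IsMulCommutative (G ⧸ D) ∧ ∀ K : Subgroup (G ⧸ D), K ≠ ⊤ → IsMulCommutative K := by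

  classical
  obtain ⟨p₀, q₀, hp, hq', hne, P₀, Q₀, hcyc, hQ₀, hs⟩ := schmidt hG
  haveI : Fact p₀.Prime := ⟨hp⟩
  haveI : Fact q₀.Prime := ⟨hq'⟩
  haveI := hQ₀
  obtain ⟨x, hx⟩ := exists_prime_orderOf_dvd_card' (G := G) q hq
  have h1 : x ^ (Nat.card (P₀ : Subgroup G) * Nat.card (Q₀ : Subgroup G)) = 1 :=
    pow_card_eq_one_of_sup _ _ hs x
  have h2 : q ∣ Nat.card (P₀ : Subgroup G) * Nat.card (Q₀ : Subgroup G) := by
    rw [← hx]; exact orderOf_dvd_of_pow_eq_one h1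
  rw [Sylow.card_eq_multiplicity, Sylow.card_eq_multiplicity] at h2
  have hqp : q.Prime := Fact.out
  have h3 : q = p₀ ∨ q = q₀ := by
    rcases (Nat.Prime.dvd_mul hqp).mp h2 with h | h
    · left; exact (Nat.prime_dvd_prime_iff_eq hqp hp).mp (hqp.dvd_of_dvd_pow h)
    · right; exact (Nat.prime_dvd_prime_iff_eq hqp hq').mp (hqp.dvd_of_dvd_pow h)
  rcases h3 with rfl | rfl
  · exfalso
    apply hG.1
    have hPQ : (P₀ : Subgroup G) ≤ (Q : Subgroup G) := by
      intro a ha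
      apply mem_of_elt Q hQ
      obtain ⟨k, hk⟩ := P₀.isPGroup' ⟨a, ha⟩
      exact ⟨k, by simpa using congrArg Subtype.val hk⟩
    have hPn : (P₀ : Subgroup G) = Q := by
      apply Subgroup.eq_of_le_of_card_ge hPQ
      rw [Sylow.card_eq_multiplicity, Sylow.card_eq_multiplicity]
    have hPnormal : (P₀ : Subgroup G).Normal := hPn ▸ hQ
    refine nilp_of_commute P₀ Q₀ hs hQ₀ ?_
    intro a ha b hb
    refine Subgroup.commute_of_normal_of_disjoint _ _ hPnormal hQ₀ ?_ a b ha hb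
    apply Subgroup.disjoint_def.mpr
    intro c hc1 hc2
    obtain ⟨k, hk⟩ := P₀.isPGroup' ⟨c, hc1⟩
    obtain ⟨l, hl⟩ := Q₀.isPGroup' ⟨c, hc2⟩
    have hk' : c ^ (q ^ k) = 1 := by simpa using congrArg Subtype.val hk
    have hl' : c ^ (q₀ ^ l) = 1 := by simpa using congrArg Subtype.val hl
    have h11 : orderOf c ∣ q ^ k := orderOf_dvd_of_pow_eq_one hk'
    have h12 : orderOf c ∣ q₀ ^ l := orderOf_dvd_of_pow_eq_one hl'
    have h13 : (q ^ k).Coprime (q₀ ^ l) :=
      Nat.Coprime.pow _ _ ((Nat.coprime_primes hp hq').mpr hne)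
    have h14 := Nat.Coprime.eq_one_of_dvd (Nat.Coprime.coprime_dvd_left h11 h13) h12
    exact orderOf_eq_one_iff.mp h14
  · have hle : (Q₀ : Subgroup G) ≤ (Q : Subgroup G) := by
      intro a ha
      apply mem_of_elt Q hQ
      obtain ⟨k, hk⟩ := Q₀.isPGroup' ⟨a, ha⟩
      exact ⟨k, by simpa using congrArg Subtype.val hk⟩
    have hs' : (P₀ : Subgroup G) ⊔ Q = ⊤ := top_le_iff.mp (hs ▸ sup_le_sup_left hle _)
    exact main hG hne P₀ Q hcyc hQ hs' hq D hD

end Cfsg.Agent.S0577
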