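import Cfsg.Statements.S0578
import Cfsg.Agent.S0046
import Cfsg.Agent.Lib.H1Schmidt

set_option autoImplicit false
open Cfsg

namespace Cfsg.Agent.S0578

open scoped commutatorElement

universe u

theorem aux (n : ℕ) : ∀ (G : Type u) [Group G] [Finite G],
    (∀ A : Subgroup G, IsMulCommutative A →
      Subgroup.normalizer (A : Set G) = Subgroup.centralizer (A : Set G)) →
    Nat.card G = n → IsMulCommutative G := by
  induction n using Nat.strong_induction_on with
  | _ n ih =>
  intro G _ _ h hn
  classical
  have hprop : ∀ K : Subgroup G, K ≠ ⊤ → IsMulCommutative K := by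
    intro K hK
    have hlt : Nat.card K < n := by
      rw [← hn]
      have := Cfsg.Agent.Lib.H1SZ.card_lt_of_lt (lt_top_iff_ne_top.mpr hK)
      rwa [Subgroup.card_top] at this
    refine ih (Nat.card K) hlt K ?_ rfl
    intro A hA
    have hAm : IsMulCommutative (A.map K.subtype : Subgroup G) := by
      refine ⟨⟨?_⟩⟩
      rintro ⟨_, a, ha, rfl⟩ ⟨_, b, hb, rfl⟩
      apply Subtype.ext
      have := (IsMulCommutative.is_comm (M := A)).comm ⟨a, ha⟩ ⟨b, hb⟩
      have h2 : a * b = b * a := congrArg Subtype.val this
      exact congrArg (fun z : K => (z : G)) h2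
    have h1 := h _ hAm
    ext x
    constructor
    · intro hx
      have hxG : (x : G) ∈ Subgroup.normalizer ((A.map K.subtype : Subgroup G) : Set G) := by
        rw [Subgroup.mem_normalizer_iff]
        intro g
        constructor
        · rintro ⟨a, ha, rfl⟩
          refine ⟨x * a * x⁻¹, ((Subgroup.mem_normalizer_iff.mp hx) a).mp ha, ?_⟩
          simp
        · rintro ⟨b, hb, e⟩
          have e' : ((x⁻¹ * b * x : K) : G) = g := by
            have e3 : (b : G) = (x : G) * g * (x : G)⁻¹ := e
            simp only [Subgroup.coe_mul, Subgroup.coe_inv]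
            rw [e3]; group
          refine ⟨x⁻¹ * b * x, ?_, e'⟩
          apply ((Subgroup.mem_normalizer_iff.mp hx) _).mpr
          have : x * (x⁻¹ * b * x) * x⁻¹ = b := by group
          rw [this]
          exact hb
      rw [h1, Subgroup.mem_centralizer_iff] at hxG
      rw [Subgroup.mem_centralizer_iff]
      intro a ha
      apply Subtype.ext
      exact hxG a ⟨a, ha, rfl⟩
    · intro hx
      rw [Subgroup.mem_centralizer_iff] at hx
      rw [Subgroup.mem_normalizer_iff]
      intro a
      constructor
      · intro ha
        have e : x * a * x⁻¹ = a := by rw [← hx a ha]; group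
        rw [e]; exact ha
      · intro ha
        have e := hx _ ha
        have e2 : a = x * a * x⁻¹ := by
          have e3 : x * a * x⁻¹ * x = x * (x * a * x⁻¹) := e
          have e4 : x * a = x * (x * a * x⁻¹) := by
            rw [← e3]; group
          exact mul_left_cancel e4
        rw [e2]; exact ha
  by_cases hNt : Nontrivial G
  · have hs : Group.IsSolvable G :=
      Cfsg.Agent.S0046.aux _ G
        (fun M hM => Cfsg.Agent.Lib.H1Schmidt.isNilpotent_of_isMulCommutative _ (hprop M hM.1)) rfl
    have hc : commutator G ≠ ⊤ := by
      intro e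
      obtain ⟨m, hm⟩ := hs.solvable
      have h1 : ∀ k, derivedSeries G k = ⊤ := by
        intro k
        induction k with
        | zero => rfl
        | succ k ih2 =>
          rw [derivedSeries_succ, ih2]
          exact e
      rw [h1] at hm
      exact top_ne_bot hm
    obtain ⟨N, hN, hle⟩ := (eq_top_or_exists_le_coatom (commutator G)).resolve_left hc
    have hNn : N.Normal := by
      constructor
      intro a ha g
      have h1 : ⁅g, a⁆ ∈ commutator G := by
        rw [commutator_def]
        exact Subgroup.commutator_mem_commutator (Subgroup.mem_top g) (Subgroup.mem_top a)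
      have e : g * a * g⁻¹ = ⁅g, a⁆ * a := by
        simp only [commutatorElement_def]; group
      rw [e]
      exact N.mul_mem (hle h1) ha
    have hNc := hprop N hN.1
    have hNz : ∀ a ∈ N, ∀ g : G, a * g = g * a := by
      have h1 := h N hNc
      rw [Subgroup.normalizer_eq_top_iff.mpr hNn] at h1
      intro a ha g
      have : g ∈ Subgroup.centralizer (N : Set G) := h1 ▸ Subgroup.mem_top g
      exact (Subgroup.mem_centralizer_iff.mp this) a ha
    obtain ⟨x, hxN⟩ : ∃ x, x ∉ N := by
      by_contra hh
      push Not at hh
      exact hN.1 ((eq_top_iff).mpr (fun y _ => hh y))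
    have htop : N ⊔ Subgroup.zpowers x = ⊤ := by
      apply hN.2
      refine lt_of_le_of_ne le_sup_left (fun e => hxN ?_)
      rw [e]
      exact (le_sup_right : Subgroup.zpowers x ≤ N ⊔ Subgroup.zpowers x) (Subgroup.mem_zpowers x)
    have hxc : x ∈ Subgroup.center G := by
      have h1 : N ⊔ Subgroup.zpowers x ≤ Subgroup.centralizer ({x} : Set G) := by
        rw [sup_le_iff, Subgroup.zpowers_le]
        constructor
        · intro a ha
          rw [Subgroup.mem_centralizer_singleton_iff]
          exact hNz a ha x
        · rw [Subgroup.mem_centralizer_singleton_iff]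
      rw [htop] at h1
      rw [Subgroup.mem_center_iff]
      intro g
      have := h1 (Subgroup.mem_top g)
      rw [Subgroup.mem_centralizer_singleton_iff] at this
      exact this
    apply Cfsg.Agent.Lib.H1Schmidt.isMulCommutative_of_center_eq_top
    rw [eq_top_iff, ← htop, sup_le_iff, Subgroup.zpowers_le]
    refine ⟨fun a ha => ?_, hxc⟩
    rw [Subgroup.mem_center_iff]
    intro g
    exact (hNz a ha g).symm
  · rw [not_nontrivial_iff_subsingleton] at hNt
    exact ⟨⟨fun a b => Subsingleton.elim _ _⟩⟩

/-- If in a finite group the normalizer of each abelian subgroup coincides with its centralizer, then the group is abelian. -/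
theorem result {G : Type*} [Group G] [Finite G] (h : ∀ A : Subgroup G, IsMulCommutative A → Subgroup.normalizer (A : Set G) = Subgroup.centralizer (A : Set G)) : IsMulCommutative G := by

  exact aux _ G h rfl

end Cfsg.Agent.S0578
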