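import Cfsg.Statements.S0582
import Cfsg.Agent.Lib.H1Super2
import Cfsg.Agent.Lib.H1Prim2

set_option autoImplicit false
open Pointwise
open Cfsg

namespace Cfsg.Agent.S0582

universe u

open Cfsg.Agent.Lib.H1Core Cfsg.Agent.Lib.H1Conj Cfsg.Agent.Lib.H1Super Pointwise

theorem le_normalizer_map {G : Type*} [Group G] {H : Subgroup G} {P : Subgroup H} (hP : P.Normal) :
    H ≤ Subgroup.normalizer ((P.map H.subtype : Subgroup G) : Set G) := by
  rw [Subgroup.le_normalizer_iff]
  rintro h hh _ ⟨y, hy, rfl⟩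
  exact ⟨⟨h, hh⟩ * y * ⟨h, hh⟩⁻¹, hP.conj_mem y hy _, rfl⟩

theorem aux (n : ℕ) : ∀ (G : Type u) [Group G] [Finite G] (H K : Subgroup G),
    IsSupersolvable H → IsSupersolvable K → Nat.card H = Nat.card K →
    (Nat.card H).Coprime H.index → Nat.card G = n → ∃ x : G, MulAut.conj x • H = K := by
  induction n using Nat.strong_induction_on with
  | _ n ih =>
  intro G _ _ H K hHs hKs hcard hHall hn
  classical
  by_cases hH0 : H = ⊥
  · have h1 : Nat.card K = 1 := by rw [← hcard, hH0]; exact Subgroup.card_bot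
    have hK0 : K = ⊥ := Subgroup.card_eq_one.mp h1
    exact ⟨1, by rw [hH0, hK0, conj_one_smul]⟩
  have hH1 : Nat.card H ≠ 1 := fun e => hH0 (Subgroup.card_eq_one.mp e)
  -- the largest prime
  obtain ⟨p, hp, hpd, hmax⟩ : ∃ p : ℕ, p.Prime ∧ p ∣ Nat.card H ∧
      ∀ q : ℕ, q.Prime → q ∣ Nat.card H → q ≤ p := by
    have hne : (Nat.card H).primeFactors.Nonempty := Nat.nonempty_primeFactors.mpr (by
      have : 0 < Nat.card H := Nat.card_pos
      omega)
    refine ⟨(Nat.card H).primeFactors.max' hne, ?_, ?_, ?_⟩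
    · exact Nat.prime_of_mem_primeFactors (Finset.max'_mem _ hne)
    · exact Nat.dvd_of_mem_primeFactors (Finset.max'_mem _ hne)
    · intro q hq hqd
      exact Finset.le_max' _ _ (Nat.mem_primeFactors.mpr ⟨hq, hqd, Nat.card_pos.ne'⟩)
  haveI hpf : Fact p.Prime := ⟨hp⟩
  have hallH : ∀ L : Subgroup H, HasSubgroupOfEveryOrder L := fun L =>
    hasSubgroupOfEveryOrder_aux _ L rfl (isSS_subgroup hHs L)
  have hallK : ∀ L : Subgroup K, HasSubgroupOfEveryOrder L := fun L =>
    hasSubgroupOfEveryOrder_aux _ L rfl (isSS_subgroup hKs L)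
  obtain ⟨P⟩ : Nonempty (Sylow p H) := inferInstance
  obtain ⟨Q⟩ : Nonempty (Sylow p K) := inferInstance
  have hPn := sylow_largest_normal hallH p hpd hmax P
  have hQn := sylow_largest_normal hallK p (hcard ▸ hpd) (fun q hq hqd => hmax q hq (hcard ▸ hqd)) Q
  set P' : Subgroup G := (P : Subgroup H).map H.subtype with hP'
  set Q' : Subgroup G := (Q : Subgroup K).map K.subtype with hQ'
  have hP'H : P' ≤ H := Subgroup.map_subtype_le _
  have hQ'K : Q' ≤ K := Subgroup.map_subtype_le _
  have hGcard : Nat.card H * H.index = Nat.card G := Subgroup.card_mul_index H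
  have hidx0 : H.index ≠ 0 := Subgroup.index_ne_zero_of_finite
  have hpi : ¬ p ∣ H.index := by
    intro hd
    have h5 : p ∣ Nat.gcd (Nat.card H) H.index := Nat.dvd_gcd hpd hd
    rw [hHall] at h5
    exact hp.one_lt.ne' (Nat.dvd_one.mp h5)
  have hv : (Nat.card H).factorization p = (Nat.card G).factorization p := by
    rw [← hGcard, Nat.factorization_mul Nat.card_pos.ne' hidx0, Finsupp.add_apply,
      Nat.factorization_eq_zero_of_not_dvd hpi, add_zero]
  have hP'c : Nat.card P' = p ^ (Nat.card (⊤ : Subgroup G)).factorization p := by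
    rw [hP', Subgroup.card_map_of_injective H.subtype_injective, Sylow.card_eq_multiplicity, hv,
      Subgroup.card_top]
  have hQ'c : Nat.card Q' = p ^ (Nat.card (⊤ : Subgroup G)).factorization p := by
    rw [hQ', Subgroup.card_map_of_injective K.subtype_injective, Sylow.card_eq_multiplicity,
      ← hcard, hv, Subgroup.card_top]
  obtain ⟨g, -, hg⟩ := Cfsg.Agent.Lib.H1Prim2.sylow_conj_of_card (q := p) (T := ⊤) (A := P') (B := Q')
    le_top le_top hP'c hQ'c
  set H₁ : Subgroup G := MulAut.conj g • H with hH₁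
  have hH₁s : IsSupersolvable H₁ :=
    isSS_of_injective (Subgroup.equivSMul (MulAut.conj g) H).symm.toMonoidHom
      (Subgroup.equivSMul (MulAut.conj g) H).symm.injective hHs
  have hH₁c : Nat.card H₁ = Nat.card H := card_conj_smul g H
  have hH₁i : H₁.index = H.index := by
    have h1 : Nat.card H₁ * H₁.index = Nat.card G := Subgroup.card_mul_index H₁
    rw [hH₁c, ← hGcard] at h1
    exact Nat.eq_of_mul_eq_mul_left Nat.card_pos h1
  have hQ'H₁ : Q' ≤ H₁ := by
    rw [← hg]
    intro y hy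
    exact mem_conj_smul.mpr (hP'H (mem_conj_smul.mp hy))
  have hH₁N : H₁ ≤ Subgroup.normalizer (Q' : Set G) := by
    intro t ht
    apply mem_normalizer_of_conj_smul_eq
    have hh : g⁻¹ * t * g ∈ H := mem_conj_smul.mp ht
    have h1 := conj_smul_eq_self_of_mem_normalizer (le_normalizer_map hPn hh)
    rw [← hg, ← conj_mul_smul]
    have e : t * g = g * (g⁻¹ * t * g) := by group
    rw [e, conj_mul_smul, h1]
  have hKN : K ≤ Subgroup.normalizer (Q' : Set G) := le_normalizer_map hQn
  suffices hsuff : ∃ x : G, MulAut.conj x • H₁ = K by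
    obtain ⟨x, hx⟩ := hsuff
    exact ⟨x * g, by rw [conj_mul_smul, ← hH₁, hx]⟩
  have hH₁hall : (Nat.card H₁).Coprime H₁.index := by rw [hH₁c, hH₁i]; exact hHall
  by_cases hN : Subgroup.normalizer (Q' : Set G) = ⊤
  · haveI hQ'n : Q'.Normal := Subgroup.normalizer_eq_top_iff.mp hN
    have hQ'0 : Q' ≠ ⊥ := by
      intro e
      have h1 : Nat.card Q' = 1 := by rw [e]; exact Subgroup.card_bot
      rw [hQ'c, Subgroup.card_top, ← hv] at h1
      have h2 : (Nat.card H).factorization p ≠ 0 := by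
        have := (hp.dvd_iff_one_le_factorization Nat.card_pos.ne').mp hpd
        omega
      exact (Nat.one_lt_pow h2 hp.one_lt).ne' h1
    have hlt : Nat.card (G ⧸ Q') < n := by
      have hcq := Cfsg.Agent.Lib.H1SZ.card_quotient_mul Q'
      rw [← hn, ← hcq]
      have h1 : 1 < Nat.card Q' := by
        haveI : Nontrivial Q' := (Subgroup.nontrivial_iff_ne_bot Q').mpr hQ'0
        exact Finite.one_lt_card
      have h2 : 0 < Nat.card (G ⧸ Q') := Nat.card_pos
      nlinarith
    set f := QuotientGroup.mk' Q' with hf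
    have c1 := Cfsg.Agent.Lib.H1SZ.card_map_mk_mul_of_le Q' H₁ hQ'H₁
    have c2 := Cfsg.Agent.Lib.H1SZ.card_map_mk_mul_of_le Q' K hQ'K
    have hcc : Nat.card (H₁.map f) = Nat.card (K.map f) := by
      rw [hH₁c, hcard, ← c2] at c1
      exact Nat.eq_of_mul_eq_mul_right Nat.card_pos c1
    have hidx : (H₁.map f).index = H₁.index := by
      rw [Subgroup.index_map, hf, QuotientGroup.ker_mk', sup_of_le_left hQ'H₁,
        MonoidHom.range_eq_top.mpr (QuotientGroup.mk'_surjective Q'), Subgroup.index_top, mul_one]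
    have hcop : (Nat.card (H₁.map f)).Coprime (H₁.map f).index := by
      rw [hidx]
      exact Nat.Coprime.coprime_dvd_left (Dvd.intro _ c1) hH₁hall
    obtain ⟨x, hx⟩ := ih _ hlt (G ⧸ Q') (H₁.map f) (K.map f)
      (isSS_of_surjective (f.subgroupMap H₁) (f.subgroupMap_surjective H₁) hH₁s)
      (isSS_of_surjective (f.subgroupMap K) (f.subgroupMap_surjective K) hKs)
      hcc hcop rfl
    obtain ⟨y, rfl⟩ := QuotientGroup.mk'_surjective Q' x
    exact ⟨y, Cfsg.Agent.Lib.H1SZ.conj_of_map_mk hQ'H₁ hQ'K y hx⟩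
  · set N : Subgroup G := Subgroup.normalizer (Q' : Set G) with hNdef
    have hlt : Nat.card N < n := by
      have := Cfsg.Agent.Lib.H1SZ.card_lt_of_lt (lt_top_iff_ne_top.mpr hN)
      rwa [Subgroup.card_top, hn] at this
    have hcop : (Nat.card (H₁.subgroupOf N)).Coprime (H₁.subgroupOf N).index := by
      rw [Cfsg.Agent.Lib.H1SZ.card_subgroupOf_of_le hH₁N]
      apply Nat.Coprime.coprime_dvd_right _ hH₁hall
      have h1 := Subgroup.relIndex_mul_index hH₁N
      exact Dvd.intro _ h1
    obtain ⟨y, hy⟩ := ih _ hlt N (H₁.subgroupOf N) (K.subgroupOf N)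
      (isSS_of_injective (Subgroup.subgroupOfEquivOfLe hH₁N).toMonoidHom
        (Subgroup.subgroupOfEquivOfLe hH₁N).injective hH₁s)
      (isSS_of_injective (Subgroup.subgroupOfEquivOfLe hKN).toMonoidHom
        (Subgroup.subgroupOfEquivOfLe hKN).injective hKs)
      (by rw [Cfsg.Agent.Lib.H1SZ.card_subgroupOf_of_le hH₁N, Cfsg.Agent.Lib.H1SZ.card_subgroupOf_of_le hKN, hH₁c, hcard])
      hcop rfl
    exact ⟨y, Cfsg.Agent.Lib.H1SZ.conj_of_subgroupOf hH₁N hKN y hy⟩

/-- Let H and K be supersolvable subgroups of a finite group G of the same order, that order being coprime to their index. Then H and K are conjugate in G. -/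
theorem result {G : Type*} [Group G] [Finite G] (H K : Subgroup G) (hH : Cfsg.IsSupersolvable H) (hK : Cfsg.IsSupersolvable K) (hcard : Nat.card H = Nat.card K) (hHall : (Nat.card H).Coprime H.index) : ∃ x : G, MulAut.conj x • H = K := by

  exact aux _ G H K hH hK hcard hHall rfl

end Cfsg.Agent.S0582
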