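import Cfsg.Statements.S0583
import Cfsg.Agent.Lib.H1Frat

set_option autoImplicit false
open Cfsg

namespace Cfsg.Agent.S0583

/-- In a finite group the Fitting subgroup is contained in the centralizer of each minimal normal subgroup. -/
theorem result {G : Type*} [Group G] [Finite G] (M : Subgroup G) [M.Normal] (hM : M ≠ ⊥) (hmin : ∀ K : Subgroup G, K.Normal → K ≤ M → K = ⊥ ∨ K = M) : Cfsg.fittingSubgroup G ≤ Subgroup.centralizer (M : Set G) := by
  classical
  set F := Cfsg.fittingSubgroup G with hF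
  haveI hFn : F.Normal := Cfsg.Agent.Lib.H1Core.fittingSubgroup_normal G
  haveI hFnil : Group.IsNilpotent F := Cfsg.Agent.Lib.H1Core.fittingSubgroup_isNilpotent
  have hcase : M ⊓ F = ⊥ ∨ M ⊓ F = M :=
    hmin (M ⊓ F) inferInstance inf_le_left
  intro f hf
  rw [Subgroup.mem_centralizer_iff]
  intro m hm
  have hm' : m ∈ M := hm
  rcases hcase with h | h
  · -- trivial intersection: commute
    have h1 : m * f * m⁻¹ * f⁻¹ ∈ M ⊓ F := by
      constructor
      · have : f * m⁻¹ * f⁻¹ ∈ M := Subgroup.Normal.conj_mem inferInstance _ (M.inv_mem hm') f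
        have h2 := M.mul_mem hm' this
        simpa [mul_assoc] using h2
      · have : m * f * m⁻¹ ∈ F := hFn.conj_mem _ hf m
        exact F.mul_mem this (F.inv_mem hf)
    rw [h, Subgroup.mem_bot] at h1
    have h2 := mul_inv_eq_one.mp h1
    exact mul_inv_eq_iff_eq_mul.mp h2
  · have hMF : M ≤ F := inf_eq_left.mp h
    -- `M` normal in `F`
    let M' : Subgroup F := M.subgroupOf F
    haveI hM'n : M'.Normal := Subgroup.Normal.subgroupOf inferInstance F
    have hM'ne : M' ≠ ⊥ := by
      intro e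
      apply hM
      rw [eq_bot_iff]
      intro x hx
      have h1 : (⟨x, hMF hx⟩ : F) ∈ M' := Subgroup.mem_subgroupOf.mpr hx
      rw [e, Subgroup.mem_bot] at h1
      simpa using congrArg Subtype.val h1
    have h1 := Cfsg.Agent.Lib.H1Frat.normal_inf_center_ne_bot M' hM'ne
    -- `Z(F)` normal in `G`
    have hZn : ((Subgroup.center F).map F.subtype).Normal :=
      Cfsg.Agent.Lib.H1Core.normal_map_of_characteristic F (Subgroup.center F)
    have h2 : M ⊓ (Subgroup.center F).map F.subtype = ⊥ ∨ M ⊓ (Subgroup.center F).map F.subtype = M :=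
      hmin _ (by haveI := hZn; exact inferInstance) inf_le_left
    rcases h2 with h2 | h2
    · exfalso
      apply h1
      rw [eq_bot_iff]
      rintro x ⟨hx1, hx2⟩
      have hx3 : (x : G) ∈ M ⊓ (Subgroup.center F).map F.subtype :=
        ⟨Subgroup.mem_subgroupOf.mp hx1, ⟨x, hx2, rfl⟩⟩
      rw [h2, Subgroup.mem_bot] at hx3
      rw [Subgroup.mem_bot]
      exact Subtype.ext hx3
    · have hMZ := inf_eq_left.mp h2 hm'
      obtain ⟨⟨z, hz⟩, hz2, rfl⟩ := hMZ
      have h3 := (Subgroup.mem_center_iff.mp hz2) ⟨f, hf⟩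
      exact (congrArg Subtype.val h3).symm

end Cfsg.Agent.S0583
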