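import Cfsg.Statements.S0584
import Cfsg.Agent.Lib.H1Fit

set_option autoImplicit false
open Cfsg

namespace Cfsg.Agent.S0584

/-- Let B ≤ A be normal subgroups of a finite group G with B contained in the Frattini subgroup of G. If A modulo B is nilpotent then A is nilpotent. -/
theorem result {G : Type*} [Group G] [Finite G] (A B : Subgroup G) [A.Normal] [B.Normal] (hBA : B ≤ A) (hB : B ≤ frattini G) (h : Group.IsNilpotent (↥A ⧸ B.subgroupOf A)) : Group.IsNilpotent A := by
  apply Cfsg.Agent.Lib.H1Fit.isNilpotent_of_map_frattini hBA hB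
  let q := QuotientGroup.mk' B
  let φ : A →* A.map q := (q.comp A.subtype).codRestrict (A.map q) (fun x => ⟨x, x.2, rfl⟩)
  let ψ : A ⧸ B.subgroupOf A →* A.map q := QuotientGroup.lift _ φ (fun x hx =>
    Subtype.ext ((QuotientGroup.eq_one_iff _).mpr hx))
  have hψ : Function.Surjective ψ := by
    rintro ⟨_, x, hx, rfl⟩
    exact ⟨QuotientGroup.mk ⟨x, hx⟩, rfl⟩
  exact nilpotent_of_surjective ψ hψ

end Cfsg.Agent.S0584
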