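import Cfsg.Statements.S0585
import Cfsg.Agent.Lib.H1Cop

set_option autoImplicit false
open Cfsg

namespace Cfsg.Agent.S0585

/-- If the Frattini subgroup of a finite group G is trivial, then every abelian normal subgroup of G has a complement in G. -/
theorem result {G : Type*} [Group G] [Finite G] (hΦ : frattini G = ⊥) (A : Subgroup G) [A.Normal] [IsMulCommutative A] : ∃ H : Subgroup G, Subgroup.IsComplement' A H := by
  classical
  have hex : ∃ H : Subgroup G, A ⊔ H = ⊤ := ⟨⊤, sup_top_eq _⟩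
  obtain ⟨H, hH, hmin⟩ : ∃ H : Subgroup G, A ⊔ H = ⊤ ∧ ∀ K : Subgroup G, K < H → A ⊔ K ≠ ⊤ := by
    have hwf : WellFounded ((· < ·) : Subgroup G → Subgroup G → Prop) := wellFounded_lt
    obtain ⟨H, hH, hmin⟩ := hwf.has_min {H : Subgroup G | A ⊔ H = ⊤} hex
    exact ⟨H, hH, fun K hK hK2 => hmin K hK2 hK⟩
  have hcomm : ∀ a ∈ A, ∀ b ∈ A, a * b = b * a := by
    intro a ha b hb
    have := (IsMulCommutative.is_comm (M := A)).comm ⟨a, ha⟩ ⟨b, hb⟩
    exact congrArg Subtype.val this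
  have hnA : ∀ X : Subgroup G, X ≤ Subgroup.normalizer (A : Set G) := by
    intro X
    rw [Subgroup.normalizer_eq_top_iff.mpr inferInstance]; exact le_top
  have hdec : ∀ g : G, ∃ a ∈ A, ∃ h ∈ H, a * h = g := by
    intro g
    apply (Cfsg.Agent.Lib.H1Cop.mem_sup_iff (hnA H)).mp
    rw [hH]; trivial
  have hDn : (A ⊓ H).Normal := by
    constructor
    rintro d ⟨hd1, hd2⟩ g
    obtain ⟨a, ha, h, hh, rfl⟩ := hdec g
    have h1 : h * d * h⁻¹ ∈ A := Subgroup.Normal.conj_mem inferInstance d hd1 h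
    have h2 : h * d * h⁻¹ ∈ H := H.mul_mem (H.mul_mem hh hd2) (H.inv_mem hh)
    have e : a * h * d * (a * h)⁻¹ = h * d * h⁻¹ := by
      have := hcomm a ha _ h1
      calc a * h * d * (a * h)⁻¹ = (a * (h * d * h⁻¹)) * a⁻¹ := by group
        _ = ((h * d * h⁻¹) * a) * a⁻¹ := by rw [this]
        _ = _ := by group
    rw [e]
    exact ⟨h1, h2⟩
  have hDle : A ⊓ H ≤ frattini G := by
    rw [Cfsg.Agent.Lib.H1Frat.le_frattini_iff]
    intro M hM
    by_contra hnot
    have hsup : (A ⊓ H) ⊔ M = ⊤ := by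
      rw [sup_comm]
      apply hM.2
      exact lt_of_le_of_ne le_sup_left (fun e => hnot (by rw [e]; exact le_sup_right))
    have hnD : M ≤ Subgroup.normalizer ((A ⊓ H : Subgroup G) : Set G) := by
      rw [Subgroup.normalizer_eq_top_iff.mpr hDn]; exact le_top
    have hHle : H ≤ A ⊔ (H ⊓ M) := by
      intro h hh
      have h1 : h ∈ (A ⊓ H) ⊔ M := by rw [hsup]; trivial
      obtain ⟨d, hd, m, hm, e⟩ := (Cfsg.Agent.Lib.H1Cop.mem_sup_iff hnD).mp h1
      have hmH : m ∈ H := by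
        have : m = d⁻¹ * h := by rw [← e]; group
        rw [this]
        exact H.mul_mem (H.inv_mem hd.2) hh
      rw [← e]
      exact Subgroup.mul_mem_sup hd.1 ⟨hmH, hm⟩
    have h2 : A ⊔ (H ⊓ M) = ⊤ := by
      rw [eq_top_iff, ← hH]
      exact sup_le le_sup_left hHle
    have h3 : ¬ (H ⊓ M < H) := fun hlt => hmin _ hlt h2
    have h4 : H ≤ M := by
      by_contra h5
      exact h3 (lt_of_le_of_ne inf_le_left (fun e => h5 (inf_eq_left.mp e)))
    exact hnot (inf_le_right.trans h4)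
  rw [hΦ, le_bot_iff] at hDle
  refine ⟨H, Subgroup.isComplement'_of_disjoint_and_mul_eq_univ ?_ ?_⟩
  · rw [disjoint_iff]; exact hDle
  · ext g
    simp only [Set.mem_mul, Set.mem_univ, iff_true]
    obtain ⟨a, ha, h, hh, e⟩ := hdec g
    exact ⟨a, ha, h, hh, e⟩

end Cfsg.Agent.S0585
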