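import Cfsg.Statements.S0586
import Cfsg.Agent.S0575
import Cfsg.Agent.S0585
import Cfsg.Agent.Lib.H1Schmidt

set_option autoImplicit false
open Cfsg

namespace Cfsg.Agent.S0586

/-- If the Frattini subgroup of a finite group G is trivial, then the Fitting subgroup of G equals the join of all abelian minimal normal subgroups of G. -/
theorem result {G : Type*} [Group G] [Finite G] (hΦ : frattini G = ⊥) : Cfsg.fittingSubgroup G = sSup {N : Subgroup G | N.Normal ∧ N ≠ ⊥ ∧ IsMulCommutative N ∧ ∀ K : Subgroup G, K.Normal → K ≤ N → K = ⊥ ∨ K = N} := by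
  classical
  set F := Cfsg.fittingSubgroup G with hF
  haveI hFn : F.Normal := Cfsg.Agent.Lib.H1Core.fittingSubgroup_normal G
  haveI hFnil : Group.IsNilpotent F := Cfsg.Agent.Lib.H1Core.fittingSubgroup_isNilpotent
  -- `F` is abelian
  have hF1 : commutator F ≤ frattini ↥F := by
    rw [Cfsg.Agent.Lib.H1Frat.le_frattini_iff]
    intro M hM
    exact (Cfsg.Agent.Lib.H1Frat.coatom_index_prime_of_nilpotent hM).2.2
  have hF2 : (frattini ↥F).map F.subtype ≤ frattini G := Cfsg.Agent.S0575.result F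
  have hF3 : commutator F = ⊥ := by
    rw [eq_bot_iff]
    intro x hx
    have h1 : (x : G) ∈ frattini G := hF2 ⟨x, hF1 hx, rfl⟩
    rw [hΦ, Subgroup.mem_bot] at h1
    rw [Subgroup.mem_bot]
    exact Subtype.ext h1
  have hFab : ∀ a ∈ F, ∀ b ∈ F, a * b = b * a := by
    intro a ha b hb
    have h3 := Subgroup.commutator_mem_commutator (Subgroup.mem_top (⟨a, ha⟩ : F))
      (Subgroup.mem_top (⟨b, hb⟩ : F))
    rw [← commutator_def, hF3, Subgroup.mem_bot] at h3
    have h4 : (⟨a, ha⟩ : F) * ⟨b, hb⟩ = ⟨b, hb⟩ * ⟨a, ha⟩ :=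
      commutatorElement_eq_one_iff_mul_comm.mp h3
    exact congrArg Subtype.val h4
  set J : Subgroup G := sSup {N : Subgroup G | N.Normal ∧ N ≠ ⊥ ∧ IsMulCommutative N ∧
    ∀ K : Subgroup G, K.Normal → K ≤ N → K = ⊥ ∨ K = N} with hJ
  have hJF : J ≤ F := by
    apply sSup_le
    rintro N ⟨hNn, -, hNc, -⟩
    exact Cfsg.Agent.Lib.H1Core.le_fittingSubgroup hNn
      (Cfsg.Agent.Lib.H1Schmidt.isNilpotent_of_isMulCommutative _ hNc)
  have hJn : J.Normal := by
    apply Subgroup.sSup_normal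
    rintro N ⟨hNn, -⟩
    exact hNn
  haveI := hJn
  have hJc : IsMulCommutative J := by
    refine ⟨⟨fun a b => ?_⟩⟩
    apply Subtype.ext
    exact hFab a (hJF a.2) b (hJF b.2)
  obtain ⟨K, hK⟩ := Cfsg.Agent.S0585.result hΦ J
  have hJK : J ⊓ K = ⊥ := disjoint_iff.mp hK.disjoint
  have hJKs : J ⊔ K = ⊤ := hK.sup_eq_top
  -- `F ⊓ K` is normal
  have hFKn : (F ⊓ K).Normal := by
    rw [← Subgroup.normalizer_eq_top_iff, eq_top_iff, ← hJKs, sup_le_iff]
    constructor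
    · rw [Subgroup.le_normalizer_iff]
      rintro j hj x ⟨hx1, hx2⟩
      have e : j * x * j⁻¹ = x := by rw [hFab j (hJF hj) x hx1]; group
      rw [e]
      exact ⟨hx1, hx2⟩
    · rw [Subgroup.le_normalizer_iff]
      rintro k hk x ⟨hx1, hx2⟩
      exact ⟨hFn.conj_mem x hx1 k, K.mul_mem (K.mul_mem hk hx2) (K.inv_mem hk)⟩
  have hFK : F ⊓ K = ⊥ := by
    by_contra hne
    -- a minimal normal subgroup inside `F ⊓ K`
    obtain ⟨M, hM, hmin⟩ := Set.Finite.exists_minimal (s := {N : Subgroup G | N.Normal ∧ N ≠ ⊥ ∧ N ≤ F ⊓ K})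
      (Set.toFinite _) ⟨F ⊓ K, hFKn, hne, le_rfl⟩
    have hMJ : M ≤ J := by
      apply le_sSup
      refine ⟨hM.1, hM.2.1, ?_, ?_⟩
      · refine ⟨⟨fun a b => ?_⟩⟩
        apply Subtype.ext
        exact hFab a ((hM.2.2 a.2).1) b ((hM.2.2 b.2).1)
      · intro L hLn hLM
        by_cases hL0 : L = ⊥
        · exact Or.inl hL0
        · refine Or.inr (le_antisymm hLM ?_)
          exact hmin ⟨hLn, hL0, hLM.trans hM.2.2⟩ hLM
    apply hM.2.1
    rw [eq_bot_iff, ← hJK]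
    exact le_inf hMJ (hM.2.2.trans inf_le_right)
  apply le_antisymm _ hJF
  intro x hx
  have h1 : x ∈ J ⊔ K := by rw [hJKs]; trivial
  have hnorm : K ≤ Subgroup.normalizer (J : Set G) := by
    rw [Subgroup.normalizer_eq_top_iff.mpr hJn]; exact le_top
  obtain ⟨j, hj, k, hk, rfl⟩ := (Cfsg.Agent.Lib.H1Cop.mem_sup_iff hnorm).mp h1
  have hkF : k ∈ F := by
    have := F.mul_mem (F.inv_mem (hJF hj)) hx
    simpa using this
  have hk1 : k ∈ F ⊓ K := ⟨hkF, hk⟩
  rw [hFK, Subgroup.mem_bot] at hk1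
  rw [hk1, mul_one]
  exact hj

end Cfsg.Agent.S0586
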