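import Cfsg.Statements.S0587
import Cfsg.Agent.Lib.H1Prim

set_option autoImplicit false
open Cfsg

namespace Cfsg.Agent.S0587

/-- Let G be a finite group whose largest normal p-subgroup L is nontrivial, and M a maximal subgroup of G with trivial normal core. Then L is elementary abelian, M is a complement to L, L is a minimal normal subgroup of G, the centralizer of L is L, and for every prime q such that the largest normal q-subgroup of M is nontrivial, the order of L is congruent to 1 modulo q and q ≠ p. -/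
theorem result {G : Type*} [Group G] [Finite G] (p : ℕ) [Fact p.Prime] (hL : Cfsg.pCore p G ≠ ⊥) (M : Subgroup G) (hM : IsCoatom M) (hcore : M.normalCore = ⊥) : Cfsg.IsElementaryAbelian p (Cfsg.pCore p G) ∧ Subgroup.IsComplement' (Cfsg.pCore p G) M ∧ (∀ K : Subgroup G, K.Normal → K ≤ Cfsg.pCore p G → K = ⊥ ∨ K = Cfsg.pCore p G) ∧ Subgroup.centralizer ((Cfsg.pCore p G : Subgroup G) : Set G) = Cfsg.pCore p G ∧ ∀ (q : ℕ) [Fact q.Prime], Cfsg.pCore q ↥M ≠ ⊥ → Nat.card (Cfsg.pCore p G) % q = 1 % q ∧ q ≠ p := by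
  classical
  obtain ⟨hab, hexp, hinf, hsup, hmin, hC⟩ := Cfsg.Agent.Lib.H1Prim.pCore_primitive p hL hM hcore
  refine ⟨⟨IsMulCommutative.of_setLike_mul_comm hab, hexp⟩, ?_, hmin, hC,
    fun q _ hQ => Cfsg.Agent.Lib.H1Prim.pCore_primitive_q p hL hM hcore q hQ⟩
  apply Subgroup.isComplement'_of_disjoint_and_mul_eq_univ (disjoint_iff.mpr hinf)
  ext g
  simp only [Set.mem_mul, Set.mem_univ, iff_true]
  obtain ⟨a, ha, b, hb, e⟩ := Cfsg.Agent.Lib.H1Prim.exists_mul_of_normal hM hcore
    (Cfsg.Agent.Lib.H1Core.pCore_normal p G) hL g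
  exact ⟨a, ha, b, hb, e⟩

end Cfsg.Agent.S0587
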