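import Cfsg.Statements.S0588
import Cfsg.Agent.Lib.H1Frob

set_option autoImplicit false
open Cfsg

namespace Cfsg.Agent.S0588

/-- If a subgroup H of a finite group G contains the centralizer of every non-identity element of H, then the order of H is coprime to its index. -/
theorem result {G : Type*} [Group G] [Finite G] (H : Subgroup G) (h : ∀ x ∈ H, x ≠ 1 → Subgroup.centralizer ({x} : Set G) ≤ H) : (Nat.card H).Coprime H.index := by
  classical
  rw [Nat.coprime_iff_gcd_eq_one] 
  by_contra hne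
  obtain ⟨p, hp, hpd⟩ := Nat.exists_prime_and_dvd hne
  haveI : Fact p.Prime := ⟨hp⟩
  have hp1 : p ∣ Nat.card H := hpd.trans (Nat.gcd_dvd_left _ _)
  have hp2 : p ∣ H.index := hpd.trans (Nat.gcd_dvd_right _ _)
  obtain ⟨x, hx⟩ := exists_prime_orderOf_dvd_card' p hp1
  have hx1 : (x : G) ≠ 1 := by
    intro h1
    have h2 : x = 1 := Subtype.ext h1
    rw [h2, orderOf_one] at hx
    exact hp.one_lt.ne hx
  have hxo : orderOf (x : G) = p := by
    rw [← hx]
    exact Subgroup.orderOf_coe x
  have hzp : IsPGroup p (Subgroup.zpowers (x : G)) := by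
    rw [IsPGroup.iff_card, Nat.card_zpowers, hxo]
    exact ⟨1, (pow_one p).symm⟩
  obtain ⟨Q, hQ⟩ := hzp.exists_le_sylow
  have hxQ : (x : G) ∈ Q := hQ (Subgroup.mem_zpowers _)
  haveI : Nontrivial (Q : Subgroup G) := ⟨⟨⟨x, hxQ⟩, 1, fun h => hx1 (congrArg Subtype.val h)⟩⟩
  have hQp : IsPGroup p Q := Q.isPGroup'
  haveI := hQp.center_nontrivial
  obtain ⟨z, hz⟩ := exists_ne (1 : Subgroup.center (Q : Subgroup G))
  have hz1 : ((z : Q) : G) ≠ 1 := fun h => hz (Subtype.ext (Subtype.ext h))
  have hcomm : ∀ y ∈ (Q : Subgroup G), ((z : Q) : G) * y = y * ((z : Q) : G) := by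
    intro y hy
    have := (Subgroup.mem_center_iff.mp z.2) ⟨y, hy⟩
    exact (congrArg Subtype.val this).symm
  have hzH : ((z : Q) : G) ∈ H := by
    apply h (x : G) x.2 hx1
    rw [Subgroup.mem_centralizer_iff]
    intro w hw
    rw [Set.mem_singleton_iff] at hw
    rw [hw]
    exact (hcomm _ hxQ).symm
  have hQH : (Q : Subgroup G) ≤ H := by
    intro y hy
    apply h _ hzH hz1
    rw [Subgroup.mem_centralizer_iff]
    intro w hw
    rw [Set.mem_singleton_iff] at hw
    rw [hw]
    exact hcomm y hy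
  have h5 : H.index ∣ (Q : Subgroup G).index := Subgroup.index_dvd_of_le hQH
  exact Q.not_dvd_index (hp2.trans h5)

end Cfsg.Agent.S0588
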