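import Cfsg.Statements.S0641
-- import your own Cfsg.Agent.* helpers here

set_option autoImplicit false
open Cfsg

namespace Cfsg.Agent.S0641

/-- Regularity of a p-group passes to quotient groups. -/
theorem result {G : Type*} [Group G] {p : ℕ} [Fact p.Prime] (hG : Cfsg.IsRegularPGroup p G) (N : Subgroup G) [N.Normal] : Cfsg.IsRegularPGroup p (G ⧸ N) := by
  classical
  refine ⟨hG.1.to_quotient N, fun a b n => ?_⟩
  obtain ⟨a', rfl⟩ := QuotientGroup.mk_surjective a
  obtain ⟨b', rfl⟩ := QuotientGroup.mk_surjective b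
  obtain ⟨c, hc, he⟩ := hG.2 a' b' n
  let π : G →* G ⧸ N := QuotientGroup.mk' N
  refine ⟨π c, ?_, ?_⟩
  · -- image of the power closure
    have hcl : (Subgroup.closure ({a', b'} : Set G)).map π = Subgroup.closure ({(a' : G ⧸ N), (b' : G ⧸ N)} : Set (G ⧸ N)) := by
      rw [MonoidHom.map_closure, Set.image_pair]
      rfl
    have hle : Cfsg.powerClosure p n ⁅Subgroup.closure ({a', b'} : Set G), Subgroup.closure ({a', b'} : Set G)⁆ ≤
        (Cfsg.powerClosure p n ⁅Subgroup.closure ({(a' : G ⧸ N), (b' : G ⧸ N)} : Set (G ⧸ N)), Subgroup.closure ({(a' : G ⧸ N), (b' : G ⧸ N)} : Set (G ⧸ N))⁆).comap π := by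
      rw [Cfsg.powerClosure, Subgroup.closure_le]
      rintro y ⟨x, hx, rfl⟩
      refine Subgroup.subset_closure ⟨π x, ?_, map_pow π _ _⟩
      rw [← hcl, ← Subgroup.map_commutator]
      exact ⟨x, hx, rfl⟩
    exact hle hc
  · have := congrArg π he
    rw [map_pow, map_mul, map_mul, map_mul, map_pow, map_pow] at this
    exact this

end Cfsg.Agent.S0641
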