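import Cfsg.Statements.S0656
import Cfsg.Agent.Lib.LQuad5
-- import your own Cfsg.Agent.* helpers here

set_option autoImplicit false
open Cfsg

namespace Cfsg.Agent.S0656

/-- For odd p, a faithful group on an elementary abelian p-group with no nontrivial normal p-subgroup in which some nontrivial p-element acts quadratically has a section isomorphic to SL(2, p). -/
theorem result {G : Type*} [Group G] [Finite G] {p : ℕ} [Fact p.Prime] (hp : p ≠ 2) (V H : Subgroup G) (hV : Cfsg.IsElementaryAbelian p V) (hHV : H ≤ Subgroup.normalizer (V : Set G)) (hf : H ⊓ Subgroup.centralizer (V : Set G) = ⊥) (hO : Cfsg.pCore p ↥H = ⊥) (x : G) (hxH : x ∈ H) (hx1 : x ≠ 1) (hxp : ∃ k : ℕ, orderOf x = p ^ k) (hq : ⁅⁅V, Subgroup.zpowers x⁆, Subgroup.zpowers x⁆ = ⊥) : ∃ (K L : Subgroup G) (hL : (L.subgroupOf K).Normal), K ≤ H ∧ Nonempty ((K ⧸ L.subgroupOf K) ≃* Matrix.SpecialLinearGroup (Fin 2) (ZMod p)) := by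
  classical
  obtain ⟨k, hk⟩ := hxp
  let x' : H := ⟨x, hxH⟩
  have hx1' : x' ≠ 1 := fun h => hx1 (congrArg Subtype.val h)
  have hxp' : ∃ k, x' ^ p ^ k = 1 := ⟨k, Subtype.ext (by
    show x ^ p ^ k = 1
    rw [← hk]; exact pow_orderOf_eq_one x)⟩
  obtain ⟨g, hg⟩ := Cfsg.Agent.Lib.LQuad.exists_conj_not_pgroup x' hxp' hO hx1'
  have qa := fun v hv => Cfsg.Agent.Lib.LQuad.quad_elt (V := V) hq (v := v) hv
  have qb := Cfsg.Agent.Lib.LQuad.quad_conj (V := V) (a := x) (g := g.1) (hHV g.2) qa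
  have hnp : ¬ IsPGroup p (Subgroup.closure {x, g.1 * x * g.1⁻¹}) := by
    intro hpg
    apply hg
    have h1 := Cfsg.Agent.Lib.LQuad.map_closure_subtype H x' (g * x' * g⁻¹)
    have h2 : IsPGroup p ((Subgroup.closure ({x', g * x' * g⁻¹} : Set H)).map H.subtype) := by
      rw [h1]; exact hpg
    rintro ⟨y, hy⟩
    obtain ⟨m, hm⟩ := h2 ⟨y.1, ⟨y, hy, rfl⟩⟩
    refine ⟨m, Subtype.ext (Subtype.ext ?_)⟩
    have h3 := congrArg Subtype.val hm
    simpa using h3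
  have hbH : g.1 * x * g.1⁻¹ ∈ H := H.mul_mem (H.mul_mem g.2 hxH) (H.inv_mem g.2)
  obtain ⟨K, L, hL, hK, hiso⟩ := Cfsg.Agent.Lib.LQuad.conj_section hp V H hV hHV hf x
    (g.1 * x * g.1⁻¹) hxH hbH qa qb hnp
  refine ⟨K, L, hL, hK.trans ?_, hiso⟩
  rw [Subgroup.closure_le]
  rintro z (rfl | rfl)
  · exact hxH
  · exact hbH

end Cfsg.Agent.S0656
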