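import Cfsg.Statements.S0657
import Cfsg.Agent.Lib.LQd5
-- import your own Cfsg.Agent.* helpers here

set_option autoImplicit false
open Cfsg

namespace Cfsg.Agent.S0657

/-- For odd p, a group that fails to be p-stable modulo its largest normal subgroup of order prime to p, and whose upper p-series does not stop there, has a section isomorphic to SL(2, p). -/
theorem result {G : Type*} [Group G] [Finite G] {p : ℕ} [Fact p.Prime] (hp : p ≠ 2) (hO : Cfsg.pPrimeCore p G < Cfsg.pPrimePCore p G) (hns : ¬ Cfsg.IsPStable p (G ⧸ Cfsg.pPrimeCore p G)) : ∃ (K L : Subgroup G) (hL : (L.subgroupOf K).Normal), K ≤ ⊤ ∧ Nonempty ((K ⧸ L.subgroupOf K) ≃* Matrix.SpecialLinearGroup (Fin 2) (ZMod p)) := by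
  classical
  haveI : Finite (G ⧸ Cfsg.pPrimeCore p G) := inferInstance
  have hbot : Cfsg.pCore p (G ⧸ Cfsg.pPrimeCore p G) ≠ ⊥ := by
    obtain ⟨x, hx, hx'⟩ := SetLike.exists_of_lt hO
    intro hb
    apply hx'
    have h1 : (QuotientGroup.mk' (Cfsg.pPrimeCore p G) x) ∈ Cfsg.pCore p (G ⧸ Cfsg.pPrimeCore p G) := hx
    rw [hb, Subgroup.mem_bot] at h1
    exact (QuotientGroup.eq_one_iff x).1 h1
  have hodd : Odd p := (Fact.out : p.Prime).odd_of_ne_two hp
  have h1 : Cfsg.Involves ↥(Cfsg.qd p) (G ⧸ Cfsg.pPrimeCore p G) := by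
    by_contra hnot
    apply hns
    refine ⟨hodd, hbot, ?_⟩
    intro A P hA hP hAP hPle hsup hc
    rintro _ ⟨a, ha, rfl⟩
    by_contra hn
    apply hnot
    have hza : Subgroup.zpowers a.1 ≤ A := Subgroup.zpowers_le.2 ha
    have hq : ⁅⁅P, Subgroup.zpowers a.1⁆, Subgroup.zpowers a.1⁆ = ⊥ := by
      rw [eq_bot_iff, ← hc]
      exact Subgroup.commutator_mono (Subgroup.commutator_mono le_rfl hza) hza
    exact Cfsg.Agent.Lib.LQd.involves_of_not_npstable hp P hP a.1 a.2 hq hn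
  have h2 := Cfsg.Agent.Lib.LQd.involves_sl2_of_qd h1
  obtain ⟨K, R, hR, ⟨e⟩⟩ := Cfsg.Agent.Lib.LQd.involves_of_surj (⊤ : Subgroup G)
    ((QuotientGroup.mk' (Cfsg.pPrimeCore p G)).comp (⊤ : Subgroup G).subtype)
    (fun y => by
      obtain ⟨x, rfl⟩ := QuotientGroup.mk'_surjective _ y
      exact ⟨⟨x, trivial⟩, rfl⟩) h2
  exact ⟨K, R, hR, le_top, ⟨e⟩⟩

end Cfsg.Agent.S0657
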