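import Cfsg.Statements.S0662
import Cfsg.Agent.Lib.PMaxClass2
import Cfsg.Agent.Lib.PMaxClass4

set_option autoImplicit false
open Cfsg

namespace Cfsg.Agent.S0662

open Subgroup

theorem card_ne_one {H : Type*} [Group H] [Finite H] : Nat.card {y : H // y ≠ 1} = Nat.card H - 1 := by
  classical
  haveI := Fintype.ofFinite H
  rw [Nat.card_eq_fintype_card, Nat.card_eq_fintype_card]
  have h := Fintype.card_subtype_compl (fun y : H => y = 1)
  rw [Fintype.card_subtype_eq] at h
  exact h

theorem sq_sub_one' (p : ℕ) (hp : 1 ≤ p) : p ^ 2 - 1 = (p + 1) * (p - 1) := by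
  obtain ⟨m, rfl⟩ := Nat.exists_eq_add_of_le' hp
  simp only [Nat.add_sub_cancel]
  have : (m + 1) ^ 2 = (m + 1 + 1) * m + 1 := by ring
  rw [this, Nat.add_sub_cancel]

theorem count_abel {V : Type*} [CommGroup V] [Finite V] (p : ℕ) [Fact p.Prime]
    (hV : Nat.card V = p ^ 2) (hnc : ¬ IsCyclic V) :
    Nat.card {M : Subgroup V // M.index = p} = p + 1 := by
  classical
  have hp : p.Prime := Fact.out
  have hp0 : 0 < p := hp.pos
  have hord : ∀ x : V, x ≠ 1 → orderOf x = p := by
    intro x hx
    have h1 : orderOf x ∣ p ^ 2 := hV ▸ orderOf_dvd_natCard x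
    obtain ⟨k, hk, hk'⟩ := (Nat.dvd_prime_pow hp).1 h1
    have hk3 : k = 0 ∨ k = 1 ∨ k = 2 := by omega
    rcases hk3 with rfl | rfl | rfl
    · rw [pow_zero] at hk'
      exact absurd (orderOf_eq_one_iff.1 hk') hx
    · rw [hk', pow_one]
    · exact absurd (isCyclic_of_orderOf_eq_card x (by rw [hk', hV])) hnc
  have hidx : ∀ M : Subgroup V, M.index = p ↔ Nat.card M = p := by
    intro M
    have h1 := M.card_mul_index
    rw [hV] at h1
    constructor
    · intro h
      rw [h, sq] at h1
      exact Nat.eq_of_mul_eq_mul_right hp0 h1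
    · intro h
      rw [h, sq] at h1
      exact Nat.eq_of_mul_eq_mul_left hp0 h1
  let φ : {x : V // x ≠ 1} → {M : Subgroup V // M.index = p} :=
    fun x => ⟨zpowers x.1, (hidx _).2 (by rw [Nat.card_zpowers, hord x.1 x.2])⟩
  have hfib : ∀ T : {M : Subgroup V // M.index = p}, Nat.card {x // φ x = T} = p - 1 := by
    intro T
    have hT : Nat.card T.1 = p := (hidx _).1 T.2
    have hpm : p - 1 = Nat.card {y : T.1 // y ≠ 1} := by rw [card_ne_one, hT]
    rw [hpm]
    refine Nat.card_congr (Equiv.ofBijective (fun x => ⟨⟨x.1.1, ?_⟩, ?_⟩) ⟨?_, ?_⟩)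
    · have h1 : zpowers x.1.1 = T.1 := congrArg Subtype.val x.2
      rw [← h1]
      exact mem_zpowers _
    · intro h
      apply x.1.2
      exact congrArg Subtype.val h
    · rintro ⟨⟨x, hx⟩, hx2⟩ ⟨⟨y, hy⟩, hy2⟩ h
      have h1 : x = y := congrArg (fun z => (z : {y : T.1 // y ≠ 1}).1.1) h
      subst h1
      rfl
    · rintro ⟨⟨y, hy⟩, hy1⟩
      have hy1' : y ≠ 1 := fun h => hy1 (Subtype.ext h)
      refine ⟨⟨⟨y, hy1'⟩, ?_⟩, rfl⟩
      apply Subtype.ext
      show zpowers y = T.1
      apply Subgroup.eq_of_le_of_card_ge (by rwa [zpowers_le])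
      rw [Nat.card_zpowers, hord y hy1', hT]
  haveI := Fintype.ofFinite {M : Subgroup V // M.index = p}
  have hsum : Nat.card {x : V // x ≠ 1} = Nat.card {M : Subgroup V // M.index = p} * (p - 1) := by
    have h1 := Nat.card_congr (Equiv.sigmaFiberEquiv φ)
    rw [Nat.card_sigma] at h1
    rw [← h1]
    rw [Finset.sum_congr rfl (fun T _ => hfib T), Finset.sum_const, Finset.card_univ, smul_eq_mul,
      Nat.card_eq_fintype_card]
  rw [card_ne_one, hV, sq_sub_one' p hp0] at hsum
  have hpos : 0 < p - 1 := Nat.sub_pos_of_lt hp.one_lt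
  exact (Nat.eq_of_mul_eq_mul_right hpos hsum).symm

universe u

/-- In a p-group of maximal class of order at least p³ the normal subgroups of index at least p² are exactly the terms of the lower central series, and there are exactly p + 1 normal subgroups of index p. -/
theorem result {G : Type*} [Group G] [Finite G] {p : ℕ} [Fact p.Prime] (n : ℕ) (hG : Nat.card G = p ^ n) (hcl : Group.nilpotencyClass G = n - 1) (hn : 3 ≤ n) : (∀ (N : Subgroup G) [N.Normal] (r : ℕ), 2 ≤ r → N.index = p ^ r → N = (⊤ : Subgroup G).lowerCentralSeries (r - 1)) ∧ Nat.card {N : Subgroup G // N.Normal ∧ N.index = p} = p + 1 := by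
  classical
  have hp : p.Prime := Fact.out
  have hp1 : 1 < p := hp.one_lt
  have hpG : IsPGroup p G := IsPGroup.of_card hG
  haveI : Group.IsNilpotent G := hpG.isNilpotent
  set L := (⊤ : Subgroup G).lowerCentralSeries with hL
  have hLbot : L (n - 1) = ⊥ := by
    rw [hL, ← hcl]
    exact Subgroup.lowerCentralSeries_nilpotencyClass
  have hLne : ∀ i, i < n - 1 → L i ≠ ⊥ := by
    intro i hi h
    have := (Subgroup.lowerCentralSeries_eq_bot_iff_nilpotencyClass_le (G := G)).1 h
    omega
  have hstrict : ∀ i, i < n - 1 → L (i + 1) ≠ L i := by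
    intro i hi h
    have h1 : ∀ j, L (i + j) = L i := by
      intro j
      induction j with
      | zero => rfl
      | succ j ih =>
        have h3 : L (i + (j + 1)) = ⁅L (i + j), ⊤⁆ := rfl
        have h4 : L (i + 1) = ⁅L i, ⊤⁆ := rfl
        rw [h3, ih, ← h4, h]
    have h2 := h1 (n - 1 - i)
    rw [show i + (n - 1 - i) = n - 1 by omega, hLbot] at h2
    exact hLne i hi h2.symm
  have hk : ∀ i, ∃ k, Nat.card (L i) = p ^ k := by
    intro i
    have h1 : Nat.card (L i) ∣ p ^ n := hG ▸ Subgroup.card_subgroup_dvd_card _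
    obtain ⟨k, -, hk'⟩ := (Nat.dvd_prime_pow hp).1 h1
    exact ⟨k, hk'⟩
  choose k hk using hk
  have hanti : ∀ i, L (i + 1) ≤ L i := fun i => Subgroup.lowerCentralSeries_antitone _ (Nat.le_succ i)
  have hlt : ∀ i, i < n - 1 → k (i + 1) < k i := by
    intro i hi
    have h1 : Nat.card (L (i + 1)) ∣ Nat.card (L i) := Subgroup.card_dvd_of_le (hanti i)
    rw [hk, hk] at h1
    have h2 := (Nat.pow_dvd_pow_iff_le_right hp1).1 h1
    rcases h2.lt_or_eq with h3 | h3
    · exact h3
    · exfalso
      apply hstrict i hi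
      apply Subgroup.eq_of_le_of_card_ge (hanti i)
      rw [hk, hk, h3]
  have hk0 : k (n - 1) = 0 := by
    have h1 := hk (n - 1)
    rw [hLbot, Subgroup.card_bot] at h1
    have h2 : p ^ k (n - 1) = 1 := h1.symm
    by_contra h3
    exact (Nat.one_lt_pow h3 hp1).ne' h2
  have hcomm : L 1 = commutator G := rfl
  have hnc : ¬ IsCyclic (Abelianization G) := by
    intro hcy
    have h1 : IsCyclic G := Cfsg.Agent.Lib.PMaxClass.isCyclic_of_cyclic_abelianization hpG hcy
    have h2 : L 1 = ⊥ := by
      rw [hcomm, _root_.commutator_def, eq_bot_iff, Subgroup.commutator_le]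
      intro a _ b _
      have h3 := h1.commutative.is_comm.comm a b
      rw [commutatorElement_eq_one_iff_mul_comm.2 h3]
      exact one_mem _
    have h3 := (Subgroup.lowerCentralSeries_eq_bot_iff_nilpotencyClass_le (G := G)).1 h2
    omega
  have hk1 : Nat.card (L 1) * Nat.card (Abelianization G) = p ^ n := by
    rw [← hG]
    exact (Subgroup.card_mul_index (L 1))
  have hab : ∃ e, Nat.card (Abelianization G) = p ^ e ∧ 2 ≤ e := by
    have h1 : Nat.card (Abelianization G) ∣ p ^ n := ⟨_, by rw [← hk1, mul_comm]⟩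
    obtain ⟨e, -, he⟩ := (Nat.dvd_prime_pow hp).1 h1
    refine ⟨e, he, ?_⟩
    by_contra h2
    apply hnc
    have h3 : e = 0 ∨ e = 1 := by omega
    rcases h3 with rfl | rfl
    · rw [pow_zero] at he
      haveI := (Nat.card_eq_one_iff_unique.1 he).1
      exact isCyclic_of_subsingleton
    · rw [pow_one] at he
      exact isCyclic_of_prime_card he
  obtain ⟨e, he, he2⟩ := hab
  have hk1le : k 1 + e = n := by
    rw [hk 1, he, ← pow_add] at hk1
    exact Nat.pow_right_injective hp.two_le hk1
  have hupper : ∀ i, 1 ≤ i → i ≤ n - 1 → k i + i + 1 ≤ n := by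
    intro i hi
    induction i, hi using Nat.le_induction with
    | base => intro _; omega
    | succ i hi ih =>
      intro h2
      have h3 := ih (by omega)
      have h4 := hlt i (by omega)
      omega
  have hlower : ∀ j, j ≤ n - 1 → j ≤ k (n - 1 - j) := by
    intro j
    induction j with
    | zero => intro _; omega
    | succ j ih =>
      intro h2
      have h3 := ih (by omega)
      have h4 := hlt (n - 1 - (j + 1)) (by omega)
      rw [show n - 1 - (j + 1) + 1 = n - 1 - j by omega] at h4
      omega
  have hkeq : ∀ i, 1 ≤ i → i ≤ n - 1 → k i + i + 1 = n := by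
    intro i h1 h2
    have h3 := hupper i h1 h2
    have h4 := hlower (n - 1 - i) (by omega)
    rw [show n - 1 - (n - 1 - i) = i by omega] at h4
    omega
  have he2' : e = 2 := by
    have h3 := hkeq 1 (le_refl 1) (by omega)
    omega
  constructor
  · intro N _ r hr hi
    have hNcard := N.card_mul_index
    rw [hG, hi] at hNcard
    have hrn : r ≤ n := by
      have h1 : p ^ r ∣ p ^ n := ⟨_, by rw [← hNcard, mul_comm]⟩
      exact (Nat.pow_dvd_pow_iff_le_right hp1).1 h1
    -- the lcs term lies in N
    have hQ : Nat.card (G ⧸ N) = p ^ ((r - 2) + 2) := by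
      rw [show r - 2 + 2 = r by omega, ← hi]
      rfl
    have hQp : IsPGroup p (G ⧸ N) := IsPGroup.of_card hQ
    haveI : Group.IsNilpotent (G ⧸ N) := hQp.isNilpotent
    have hcl2 := Cfsg.Agent.Lib.PMaxClass.class_le (p := p) (r - 2) (G ⧸ N) hQ
    have hbot := (Subgroup.lowerCentralSeries_eq_bot_iff_nilpotencyClass_le (G := G ⧸ N) (n := r - 1)).2 (by omega)
    have hLN : L (r - 1) ≤ N := by
      intro x hx
      have h1 : (x : G ⧸ N) ∈ (⊤ : Subgroup (G ⧸ N)).lowerCentralSeries (r - 1) :=
        Subgroup.lowerCentralSeries.map (QuotientGroup.mk' N) (r - 1) (Subgroup.mem_map_of_mem _ hx)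
      rw [hbot] at h1
      exact (QuotientGroup.eq_one_iff x).1 h1
    refine (Subgroup.eq_of_le_of_card_ge hLN ?_).symm
    have h1 := hkeq (r - 1) (by omega) (by omega)
    rw [hk (r - 1)]
    have h2 : Nat.card N = p ^ (k (r - 1)) := by
      have h3 : Nat.card N * p ^ r = p ^ (k (r - 1)) * p ^ r := by
        rw [hNcard, ← pow_add]
        congr 1
        omega
      exact Nat.eq_of_mul_eq_mul_right (pow_pos hp.pos r) h3
    rw [h2]
  · haveI : Fact p.Prime := ⟨hp⟩
    have hcard : Nat.card (Abelianization G) = p ^ 2 := by rw [he, he2']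
    have hc := count_abel (V := Abelianization G) p hcard hnc
    rw [← hc]
    have hsurj : Function.Surjective (Abelianization.of : G →* Abelianization G) :=
      QuotientGroup.mk'_surjective _
    symm
    refine Nat.card_congr (Equiv.ofBijective
      (fun M => ⟨M.1.comap (Abelianization.of : G →* Abelianization G), ?_, ?_⟩) ⟨?_, ?_⟩)
    · exact Subgroup.Normal.comap inferInstance _
    · rw [Subgroup.index_comap_of_surjective _ hsurj]
      exact M.2
    · rintro ⟨M, hM⟩ ⟨M', hM'⟩ h
      have h1 : M.comap (Abelianization.of : G →* Abelianization G) = M'.comap Abelianization.of :=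
        congrArg Subtype.val h
      exact Subtype.ext (Subgroup.comap_injective hsurj h1)
    · rintro ⟨N, hN, hNi⟩
      haveI := hN
      have hle : commutator G ≤ N := by
        haveI : IsCyclic (G ⧸ N) := isCyclic_of_prime_card (p := p) (by rw [← hNi]; rfl)
        rw [_root_.commutator_def, Subgroup.commutator_le]
        intro a _ b _
        rw [← QuotientGroup.eq_one_iff, commutatorElement_def]
        have hc := (IsCyclic.commutative (α := G ⧸ N)).is_comm.comm (a : G ⧸ N) (b : G ⧸ N)
        rw [QuotientGroup.mk_mul, QuotientGroup.mk_mul, QuotientGroup.mk_mul, QuotientGroup.mk_inv,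
          QuotientGroup.mk_inv, hc]
        group
      refine ⟨⟨N.map (Abelianization.of : G →* Abelianization G), ?_⟩, ?_⟩
      · have h1 : (N.map (Abelianization.of : G →* Abelianization G)).comap Abelianization.of = N := by
          rw [Subgroup.comap_map_eq, Abelianization.ker_of]
          exact sup_eq_left.2 hle
        rw [← Subgroup.index_comap_of_surjective _ hsurj, h1, hNi]
      · apply Subtype.ext
        show (N.map (Abelianization.of : G →* Abelianization G)).comap Abelianization.of = N
        rw [Subgroup.comap_map_eq, Abelianization.ker_of]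
        exact sup_eq_left.2 hle

end Cfsg.Agent.S0662
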