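import Cfsg.Statements.S0663
import Mathlib

set_option autoImplicit false
open Cfsg

namespace Cfsg.Agent.S0663

open scoped commutatorElement

theorem mem_normalizer_of_smul_le {G : Type*} [Group G] [Finite G] {K : Subgroup G} {u : G}
    (h : ∀ x ∈ K, u * x * u⁻¹ ∈ K) : u ∈ Subgroup.normalizer (K : Set G) := by
  rw [Subgroup.mem_normalizer_iff]
  intro x
  refine ⟨h x, fun hx => ?_⟩
  -- conjugation by `u` is injective, hence bijective on the finite set `K`
  have hinj : Function.Injective (fun k : K => (⟨u * k * u⁻¹, h k k.2⟩ : K)) := by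
    intro a b hab
    have := congrArg Subtype.val hab
    simp only [mul_left_inj, mul_right_inj] at this
    exact Subtype.ext this
  obtain ⟨k, hk⟩ := (Finite.injective_iff_surjective.mp hinj) ⟨_, hx⟩
  have h2 := congrArg Subtype.val hk
  simp only [mul_left_inj, mul_right_inj] at h2
  exact h2 ▸ k.2

theorem card_mul_rel {Γ : Type*} [Group Γ] {S K : Subgroup Γ} (h : S ≤ K) :
    Nat.card S * S.relIndex K = Nat.card K := by
  have h1 : Nat.card (S.subgroupOf K) = Nat.card S :=
    Nat.card_congr (Subgroup.subgroupOfEquivOfLe h).toEquiv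
  rw [← h1, mul_comm]
  exact (Subgroup.index_mul_card (S.subgroupOf K))

theorem comm_le {L : Type*} [Group L] {H K : Subgroup L}
    (h : K ≤ Subgroup.normalizer (H : Set L)) : ⁅H, K⁆ ≤ H := by
  rw [Subgroup.commutator_le]
  intro x hx g hg
  rw [commutatorElement_def]
  have e : x * g * x⁻¹ * g⁻¹ = x * (g * x⁻¹ * g⁻¹) := by group
  rw [e]
  exact H.mul_mem hx ((Subgroup.mem_normalizer_iff.mp (h hg) _).mp (H.inv_mem hx))

theorem comm_norm {L : Type*} [Group L] [Finite L] {H K : Subgroup L}
    (h : K ≤ Subgroup.normalizer (H : Set L)) :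
    K ≤ Subgroup.normalizer ((⁅H, K⁆ : Subgroup L) : Set L) := by
  intro u hu
  apply mem_normalizer_of_smul_le
  intro x hx
  have hle : ⁅H, K⁆ ≤ (⁅H, K⁆).comap (MulAut.conj u).toMonoidHom := by
    rw [Subgroup.commutator_le]
    intro y hy g hg
    show (MulAut.conj u) ⁅y, g⁆ ∈ ⁅H, K⁆
    rw [map_commutatorElement]
    exact Subgroup.commutator_mem_commutator ((Subgroup.mem_normalizer_iff.mp (h hu) y).mp hy)
      (K.mul_mem (K.mul_mem hu hg) (K.inv_mem hu))
  exact hle hx

theorem comm_ne {L : Type*} [Group L] [Finite L] {p : ℕ} [Fact p.Prime] {H K : Subgroup L}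
    (hH : IsPGroup p H) (hK : IsPGroup p K) (h : K ≤ Subgroup.normalizer (H : Set L))
    (hne : H ≠ ⊥) : ⁅H, K⁆ ≠ H := by
  intro he
  apply hne
  have hP : IsPGroup p (H ⊔ K : Subgroup L) := hH.to_sup_of_normal_left' hK h
  haveI : Group.IsNilpotent (H ⊔ K : Subgroup L) := hP.isNilpotent
  let P : Subgroup L := H ⊔ K
  let J : Subgroup P := H.subgroupOf P
  have hstep : J ≤ ⁅J, ⊤⁆ := by
    intro x hx
    have h1 : (x : L) ∈ ⁅H, K⁆ := by
      rw [he]; exact hx
    have h2 : ⁅H, K⁆ ≤ (⁅J, ⊤⁆ : Subgroup P).map P.subtype := by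
      rw [Subgroup.map_commutator]
      apply Subgroup.commutator_mono
      · intro y hy
        exact ⟨⟨y, Subgroup.mem_sup_left hy⟩, Subgroup.mem_subgroupOf.mpr hy, rfl⟩
      · intro y hy
        exact ⟨⟨y, Subgroup.mem_sup_right hy⟩, Subgroup.mem_top _, rfl⟩
    obtain ⟨y, hy, hyx⟩ := h2 h1
    have : y = x := Subtype.ext hyx
    exact this ▸ hy
  have hall : ∀ i, J ≤ Subgroup.lowerCentralSeries (⊤ : Subgroup ↥P) i := by
    intro i
    induction i with
    | zero => simp
    | succ i ih =>
      show J ≤ ⁅Subgroup.lowerCentralSeries (⊤ : Subgroup ↥P) i, ⊤⁆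
      exact hstep.trans (Subgroup.commutator_mono ih le_rfl)
  obtain ⟨m, hm⟩ := nilpotent_iff_lowerCentralSeries.mp (inferInstance : Group.IsNilpotent P)
  have hJ := hall m
  rw [hm] at hJ
  rw [eq_bot_iff]
  intro y hy
  have := hJ (Subgroup.mem_subgroupOf.mpr hy : (⟨y, Subgroup.mem_sup_left hy⟩ : P) ∈ J)
  rw [Subgroup.mem_bot] at this ⊢
  exact congrArg Subtype.val this

theorem between {L : Type*} [Group L] [Finite L] {p : ℕ} [Fact p.Prime] {A B C : Subgroup L}
    (hAB : A ≤ B) (hBC : B ≤ C) (hp : Nat.card A * p = Nat.card C) : B = A ∨ B = C := by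
  obtain ⟨d, hd⟩ := Subgroup.card_dvd_of_le hAB
  obtain ⟨e, he⟩ := Subgroup.card_dvd_of_le hBC
  have hA : 0 < Nat.card A := Nat.card_pos
  have h1 : p = d * e := by
    apply Nat.eq_of_mul_eq_mul_left hA
    rw [hp, he, hd, mul_assoc]
  have hpp : p.Prime := Fact.out
  rcases (Nat.Prime.eq_one_or_self_of_dvd hpp d ⟨e, h1⟩) with rfl | hdp
  · left
    rw [mul_one] at hd
    exact (Subgroup.eq_of_le_of_card_ge hAB hd.le).symm
  · right
    have he1 : e = 1 := by
      rw [hdp] at h1
      have : p * 1 = p * e := by rw [mul_one]; exact h1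
      exact (Nat.eq_of_mul_eq_mul_left hpp.pos this).symm
    rw [he1, mul_one] at he
    exact Subgroup.eq_of_le_of_card_ge hBC he.le

theorem exists_decomp {L : Type*} [Group L] {H K : Subgroup L}
    (h : H ≤ Subgroup.normalizer (K : Set L)) {z : L} (hz : z ∈ H ⊔ K) :
    ∃ a ∈ H, ∃ m ∈ K, z = a * m := by
  rw [Subgroup.sup_eq_closure] at hz
  induction hz using Subgroup.closure_induction with
  | mem x hx =>
    rcases hx with hx | hx
    · exact ⟨x, hx, 1, K.one_mem, by simp⟩
    · exact ⟨1, H.one_mem, x, hx, by simp⟩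
  | one => exact ⟨1, H.one_mem, 1, K.one_mem, by simp⟩
  | mul x y _ _ ix iy =>
    obtain ⟨a, ha, m, hm, rfl⟩ := ix
    obtain ⟨b, hb, n, hn, rfl⟩ := iy
    refine ⟨a * b, H.mul_mem ha hb, (b⁻¹ * m * b) * n, K.mul_mem ?_ hn, by group⟩
    have := (Subgroup.mem_normalizer_iff.mp (h (H.inv_mem hb)) m).mp hm
    simpa using this
  | inv x _ ix =>
    obtain ⟨a, ha, m, hm, rfl⟩ := ix
    refine ⟨a⁻¹, H.inv_mem ha, a * m⁻¹ * a⁻¹, ?_, by group⟩
    exact (Subgroup.mem_normalizer_iff.mp (h ha) m⁻¹).mp (K.inv_mem hm)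

section chain

variable {L : Type*} [Group L] [Finite L] {p : ℕ} [Fact p.Prime] (N G : Subgroup L)

theorem chain_inv (hGN : G ≤ Subgroup.normalizer (N : Set L)) (i : ℕ) :
    Cfsg.iterCommutator N G i ≤ N ∧ G ≤ Subgroup.normalizer ((Cfsg.iterCommutator N G i : Subgroup L) : Set L) := by
  induction i with
  | zero => exact ⟨le_rfl, hGN⟩
  | succ i ih =>
    exact ⟨(comm_le ih.2).trans ih.1, comm_norm ih.2⟩

theorem chain_le (hGN : G ≤ Subgroup.normalizer (N : Set L)) (i : ℕ) :
    Cfsg.iterCommutator N G (i + 1) ≤ Cfsg.iterCommutator N G i :=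
  comm_le (chain_inv N G hGN i).2

theorem chain_anti (hGN : G ≤ Subgroup.normalizer (N : Set L)) {i j : ℕ} (h : i ≤ j) :
    Cfsg.iterCommutator N G j ≤ Cfsg.iterCommutator N G i := by
  induction h with
  | refl => exact le_rfl
  | step _ ih => exact (chain_le N G hGN _).trans ih

theorem card_of_C {n : ℕ} (hn : Nat.card N = p ^ n)
    (hC : ∀ i < n, Nat.card (Cfsg.iterCommutator N G (i + 1)) * p = Nat.card (Cfsg.iterCommutator N G i)) :
    ∀ i ≤ n, Nat.card (Cfsg.iterCommutator N G i) = p ^ (n - i) := by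
  intro i
  induction i with
  | zero => intro _; simpa [Cfsg.iterCommutator] using hn
  | succ i ih =>
    intro hi
    have h1 := hC i (by omega)
    rw [ih (by omega)] at h1
    have hpp : p.Prime := Fact.out
    have h2 : n - i = (n - (i + 1)) + 1 := by omega
    rw [h2, pow_succ] at h1
    exact Nat.eq_of_mul_eq_mul_right hpp.pos h1

theorem C_of_U (hN : IsPGroup p N) (hGN : G ≤ Subgroup.normalizer (N : Set L)) {n : ℕ}
    (hn : Nat.card N = p ^ n)
    (hU : ∀ H : Subgroup L, H ≤ N → G ≤ Subgroup.normalizer (H : Set L) → H ≠ ⊥ → (⁅H, G⁆).relIndex H = p) :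
    ∀ i < n, Nat.card (Cfsg.iterCommutator N G (i + 1)) * p = Nat.card (Cfsg.iterCommutator N G i) := by
  have hpp : p.Prime := Fact.out
  have hcard : ∀ i ≤ n, Nat.card (Cfsg.iterCommutator N G i) = p ^ (n - i) := by
    intro i
    induction i with
    | zero => intro _; simpa [Cfsg.iterCommutator] using hn
    | succ i ih =>
      intro hi
      have h0 := ih (by omega)
      have hne : Cfsg.iterCommutator N G i ≠ ⊥ := by
        intro e
        rw [e, Subgroup.card_bot] at h0
        have : 1 < p ^ (n - i) := Nat.one_lt_pow (by omega) hpp.one_lt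
        omega
      have h1 := hU _ (chain_inv N G hGN i).1 (chain_inv N G hGN i).2 hne
      have h2 : Nat.card (Cfsg.iterCommutator N G (i + 1)) * p = Nat.card (Cfsg.iterCommutator N G i) := by
        rw [← h1]
        exact card_mul_rel (chain_le N G hGN i)
      rw [h0] at h2
      have h3 : n - i = (n - (i + 1)) + 1 := by omega
      rw [h3, pow_succ] at h2
      exact Nat.eq_of_mul_eq_mul_right hpp.pos h2
  intro i hi
  rw [hcard i (by omega), hcard (i + 1) (by omega)]
  have h3 : n - i = (n - (i + 1)) + 1 := by omega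
  rw [h3, pow_succ]

theorem C_of_chain (hN : IsPGroup p N) (hG : IsPGroup p G) (hGN : G ≤ Subgroup.normalizer (N : Set L))
    {n : ℕ} (hn : Nat.card N = p ^ n) (h1n : 1 ≤ n) (hne : Cfsg.iterCommutator N G (n - 1) ≠ ⊥) :
    ∀ i < n, Nat.card (Cfsg.iterCommutator N G (i + 1)) * p = Nat.card (Cfsg.iterCommutator N G i) := by
  have hpp : p.Prime := Fact.out
  have hpg : ∀ i, IsPGroup p (Cfsg.iterCommutator N G i) := fun i => hN.to_le (chain_inv N G hGN i).1
  have hex : ∀ i, ∃ a : ℕ, Nat.card (Cfsg.iterCommutator N G i) = p ^ a := fun i =>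
    IsPGroup.iff_card.mp (hpg i)
  choose a ha using hex
  have hne' : ∀ i < n, Cfsg.iterCommutator N G i ≠ ⊥ := by
    intro i hi e
    apply hne
    have := chain_anti N G hGN (show i ≤ n - 1 by omega)
    rw [e] at this
    exact le_bot_iff.mp this
  have hlt : ∀ i < n, a (i + 1) < a i := by
    intro i hi
    have h1 := comm_ne (hpg i) hG (chain_inv N G hGN i).2 (hne' i hi)
    have h2 : Nat.card (Cfsg.iterCommutator N G (i + 1)) ≠ Nat.card (Cfsg.iterCommutator N G i) := by
      intro e
      exact h1 (Subgroup.eq_of_le_of_card_ge (chain_le N G hGN i) e.ge)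
    have h3 := Subgroup.card_le_of_le (chain_le N G hGN i)
    rw [ha, ha] at h2 h3
    have h4 : p ^ a (i + 1) < p ^ a i := lt_of_le_of_ne h3 h2
    exact (Nat.pow_lt_pow_iff_right hpp.one_lt).mp h4
  have ha0 : a 0 = n := by
    have h0 := ha 0
    have : Nat.card (Cfsg.iterCommutator N G 0) = p ^ n := hn
    rw [this] at h0
    exact (Nat.pow_right_injective hpp.two_le h0).symm
  have hup : ∀ i < n, a i + i ≤ n := by
    intro i
    induction i with
    | zero => intro _; omega
    | succ i ih =>
      intro hi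
      have := hlt i (by omega)
      have := ih (by omega)
      omega
  have hlow : ∀ k < n, k + 1 ≤ a (n - 1 - k) := by
    intro k
    induction k with
    | zero =>
      intro _
      have h0 := ha (n - 1)
      have h1 : a (n - 1) ≠ 0 := by
        intro e
        rw [e, pow_zero] at h0
        exact hne (Subgroup.card_eq_one.mp h0)
      simpa using Nat.one_le_iff_ne_zero.mpr h1
    | succ k ih =>
      intro hk
      have h1 := ih (by omega)
      have h2 := hlt (n - 1 - (k + 1)) (by omega)
      have h3 : n - 1 - (k + 1) + 1 = n - 1 - k := by omega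
      rw [h3] at h2
      omega
  have hval : ∀ i < n, a i = n - i := by
    intro i hi
    have h1 := hup i hi
    have h2 := hlow (n - 1 - i) (by omega)
    have h3 : n - 1 - (n - 1 - i) = i := by omega
    rw [h3] at h2
    omega
  intro i hi
  rw [ha i, ha (i + 1), hval i hi]
  have h4 : a (i + 1) = n - i - 1 := by
    by_cases h5 : i + 1 < n
    · rw [hval _ h5]; omega
    · have h6 := hlt i hi
      rw [hval i hi] at h6
      omega
  rw [h4]
  have h7 : n - i = (n - i - 1) + 1 := by omega
  rw [h7, pow_succ]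
  simp

theorem normal_P (hN : IsPGroup p N) (hG : IsPGroup p G) (hGN : G ≤ Subgroup.normalizer (N : Set L))
    {n : ℕ} 
    (hC : ∀ i < n, Nat.card (Cfsg.iterCommutator N G (i + 1)) * p = Nat.card (Cfsg.iterCommutator N G i)) :
    ∀ i ≤ n, (N ⊔ G : Subgroup L) ≤ Subgroup.normalizer ((Cfsg.iterCommutator N G i : Subgroup L) : Set L) := by
  have hP : IsPGroup p (N ⊔ G : Subgroup L) := hN.to_sup_of_normal_left' hG hGN
  intro i
  induction i with
  | zero =>
    intro _
    exact sup_le Subgroup.le_normalizer hGN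
  | succ i ih =>
    intro hi
    have hI := ih (by omega)
    have hpg : IsPGroup p (Cfsg.iterCommutator N G i) := hN.to_le (chain_inv N G hGN i).1
    have hne : Cfsg.iterCommutator N G i ≠ ⊥ := by
      intro e
      have h1 := hC i (by omega)
      rw [e, Subgroup.card_bot] at h1
      have hpp : p.Prime := Fact.out
      have h2 : 0 < Nat.card (Cfsg.iterCommutator N G (i + 1)) := Nat.card_pos
      have h3 := hpp.two_le
      nlinarith
    have hM1 := comm_le hI
    have hM2 := comm_norm hI
    have hM3 := comm_ne hpg hP hI hne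
    have hM4 : Cfsg.iterCommutator N G (i + 1) ≤ ⁅Cfsg.iterCommutator N G i, N ⊔ G⁆ :=
      Subgroup.commutator_mono le_rfl le_sup_right
    rcases between hM4 hM1 (hC i (by omega)) with h | h
    · rw [← h]; exact hM2
    · exact absurd h hM3

theorem claim (hN : IsPGroup p N) (hG : IsPGroup p G) (hGN : G ≤ Subgroup.normalizer (N : Set L))
    {n : ℕ} (hn : Nat.card N = p ^ n)
    (hC : ∀ i < n, Nat.card (Cfsg.iterCommutator N G (i + 1)) * p = Nat.card (Cfsg.iterCommutator N G i)) :
    ∀ k i, i + k = n → ∀ H : Subgroup L, H ≤ Cfsg.iterCommutator N G i →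
      G ≤ Subgroup.normalizer (H : Set L) → ¬ H ≤ Cfsg.iterCommutator N G (i + 1) →
      H = Cfsg.iterCommutator N G i := by
  have hpp : p.Prime := Fact.out
  have hP := normal_P N G hN hG hGN hC
  have hcard := card_of_C N G hn hC
  have hbot : Cfsg.iterCommutator N G n = ⊥ := by
    have := hcard n le_rfl
    rw [Nat.sub_self, pow_zero] at this
    exact Subgroup.card_eq_one.mp this
  intro k
  induction k with
  | zero =>
    intro i hi H hH _ hnot
    exfalso
    have : i = n := by omega
    subst this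
    rw [hbot] at hH
    exact hnot (hH.trans bot_le)
  | succ k ih =>
    intro i hi H hH hHG hnot
    have hin : i < n := by omega
    have hJ : H ⊔ Cfsg.iterCommutator N G (i + 1) = Cfsg.iterCommutator N G i := by
      rcases between (le_sup_right : Cfsg.iterCommutator N G (i + 1) ≤ H ⊔ Cfsg.iterCommutator N G (i + 1))
        (sup_le hH (chain_le N G hGN i)) (hC i hin) with h | h
      · exfalso
        apply hnot
        rw [← h]
        exact le_sup_left
      · exact h
    have hHN : H ≤ N ⊔ G := (hH.trans (chain_inv N G hGN i).1).trans le_sup_left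
    have hdec : ∀ z ∈ Cfsg.iterCommutator N G i, ∃ a ∈ H, ∃ m ∈ Cfsg.iterCommutator N G (i + 1), z = a * m := by
      intro z hz
      rw [← hJ] at hz
      exact exists_decomp (hHN.trans (hP (i + 1) (by omega))) hz
    have hle : Cfsg.iterCommutator N G (i + 1) ≤ H := by
      by_cases hb : Cfsg.iterCommutator N G (i + 1) = ⊥
      · rw [hb]; exact bot_le
      have hi2 : i + 2 ≤ n := by
        by_contra hcon
        have : i + 1 = n := by omega
        rw [this] at hb
        exact hb hbot
      have hH₁G : G ≤ Subgroup.normalizer ((H ⊓ Cfsg.iterCommutator N G (i + 1) : Subgroup L) : Set L) := by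
        intro g hg
        rw [Subgroup.mem_normalizer_iff]
        intro x
        rw [Subgroup.mem_inf, Subgroup.mem_inf,
          Subgroup.mem_normalizer_iff.mp (hHG hg) x,
          Subgroup.mem_normalizer_iff.mp ((chain_inv N G hGN (i + 1)).2 hg) x]
      have hnot2 : ¬ (H ⊓ Cfsg.iterCommutator N G (i + 1)) ≤ Cfsg.iterCommutator N G (i + 1 + 1) := by
        intro hcon
        have hsub : Cfsg.iterCommutator N G (i + 1) ≤ Cfsg.iterCommutator N G (i + 1 + 1) := by
          show ⁅Cfsg.iterCommutator N G i, G⁆ ≤ _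
          rw [Subgroup.commutator_le]
          intro z hz g hg
          obtain ⟨a, ha, m, hm, rfl⟩ := hdec z hz
          have e : ⁅a * m, g⁆ = a * ⁅m, g⁆ * a⁻¹ * ⁅a, g⁆ := by
            simp only [commutatorElement_def]; group
          rw [e]
          refine Subgroup.mul_mem _ ?_ ?_
          · have h1 : ⁅m, g⁆ ∈ Cfsg.iterCommutator N G (i + 1 + 1) :=
              Subgroup.commutator_mem_commutator hm hg
            exact (Subgroup.mem_normalizer_iff.mp (hP (i + 1 + 1) hi2 (hHN ha)) _).mp h1
          · apply hcon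
            refine Subgroup.mem_inf.mpr ⟨comm_le hHG (Subgroup.commutator_mem_commutator ha hg), ?_⟩
            exact Subgroup.commutator_mem_commutator (hH ha) hg
        have h1 := Subgroup.card_le_of_le hsub
        have h2 := hC (i + 1) (by omega)
        have h3 : 0 < Nat.card (Cfsg.iterCommutator N G (i + 1 + 1)) := Nat.card_pos
        have h4 := hpp.two_le
        nlinarith
      have h5 := ih (i + 1) (by omega) (H ⊓ Cfsg.iterCommutator N G (i + 1)) inf_le_right hH₁G hnot2
      rw [← h5]
      exact inf_le_left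
    rw [← hJ]
    exact (sup_eq_left.mpr hle).symm

theorem classify (hN : IsPGroup p N) (hG : IsPGroup p G) (hGN : G ≤ Subgroup.normalizer (N : Set L))
    {n : ℕ} (hn : Nat.card N = p ^ n)
    (hC : ∀ i < n, Nat.card (Cfsg.iterCommutator N G (i + 1)) * p = Nat.card (Cfsg.iterCommutator N G i))
    (H : Subgroup L) (hH : H ≤ N) (hHG : G ≤ Subgroup.normalizer (H : Set L)) :
    ∃ i ≤ n, H = Cfsg.iterCommutator N G i := by
  classical
  have hcard := card_of_C N G hn hC
  have hbot : Cfsg.iterCommutator N G n = ⊥ := by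
    have := hcard n le_rfl
    rw [Nat.sub_self, pow_zero] at this
    exact Subgroup.card_eq_one.mp this
  by_cases hb : H = ⊥
  · exact ⟨n, le_rfl, by rw [hb, hbot]⟩
  have hex : ∃ j, ¬ H ≤ Cfsg.iterCommutator N G j := ⟨n, by
    rw [hbot]; intro h; exact hb (le_bot_iff.mp h)⟩
  have hj := Nat.find_spec hex
  have hmin := fun m => Nat.find_min (H := hex) (m := m)
  have hjn : Nat.find hex ≤ n := Nat.find_min' hex (by
    rw [hbot]; intro h; exact hb (le_bot_iff.mp h))
  have hj0 : Nat.find hex ≠ 0 := by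
    intro e
    rw [e] at hj
    exact hj hH
  obtain ⟨i, hi⟩ := Nat.exists_eq_succ_of_ne_zero hj0
  rw [hi] at hj hjn
  have hle : H ≤ Cfsg.iterCommutator N G i := by
    by_contra hcon
    exact hmin i (by omega) hcon
  refine ⟨i, by omega, ?_⟩
  exact claim N G hN hG hGN hn hC (n - i) i (by omega) H hle hHG hj

end chain
/-- A p-group acts uniserially on a p-group N of order p^n exactly when the iterated commutator chain from N has length n; in that case the chain terms are all the invariant subgroups of N and they are normal in N. -/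
theorem result {L : Type*} [Group L] [Finite L] {p : ℕ} [Fact p.Prime] (N G : Subgroup L) (hN : IsPGroup p N) (hG : IsPGroup p G) (hGN : G ≤ Subgroup.normalizer (N : Set L)) (n : ℕ) (hn : Nat.card N = p ^ n) : ((∀ H : Subgroup L, H ≤ N → G ≤ Subgroup.normalizer (H : Set L) → H ≠ ⊥ → (⁅H, G⁆).relIndex H = p) ↔ Cfsg.iterCommutator N G (n - 1) ≠ ⊥ ∨ n = 0) ∧ ((∀ H : Subgroup L, H ≤ N → G ≤ Subgroup.normalizer (H : Set L) → H ≠ ⊥ → (⁅H, G⁆).relIndex H = p) → ∀ H : Subgroup L, H ≤ N → G ≤ Subgroup.normalizer (H : Set L) → (∃ i ≤ n, H = Cfsg.iterCommutator N G i) ∧ N ≤ Subgroup.normalizer (H : Set L)) := by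

  have hU_of_C : (∀ i < n, Nat.card (Cfsg.iterCommutator N G (i + 1)) * p = Nat.card (Cfsg.iterCommutator N G i)) →
      ∀ H : Subgroup L, H ≤ N → G ≤ Subgroup.normalizer (H : Set L) → H ≠ ⊥ → (⁅H, G⁆).relIndex H = p := by
    intro hC H hH hHG hne
    obtain ⟨i, hi, rfl⟩ := classify N G hN hG hGN hn hC H hH hHG
    have hcard := card_of_C N G hn hC
    have hin : i < n := by
      refine lt_of_le_of_ne hi ?_
      rintro rfl
      apply hne
      have := hcard i le_rfl
      rw [Nat.sub_self, pow_zero] at this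
      exact Subgroup.card_eq_one.mp this
    have h1 := hC i hin
    have h2 : Nat.card (Cfsg.iterCommutator N G (i + 1)) * (⁅Cfsg.iterCommutator N G i, G⁆).relIndex (Cfsg.iterCommutator N G i)
        = Nat.card (Cfsg.iterCommutator N G i) := card_mul_rel (chain_le N G hGN i)
    have h3 : 0 < Nat.card (Cfsg.iterCommutator N G (i + 1)) := Nat.card_pos
    exact Nat.eq_of_mul_eq_mul_left h3 (h2.trans h1.symm)
  refine ⟨⟨?_, ?_⟩, ?_⟩
  · intro hU
    by_cases h0 : n = 0
    · right; exact h0
    left
    have hC := C_of_U N G hN hGN hn hU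
    have hcard := card_of_C N G hn hC
    have h1 := hcard (n - 1) (by omega)
    intro e
    rw [e, Subgroup.card_bot] at h1
    have hpp : p.Prime := Fact.out
    have h2 : n - (n - 1) = 1 := by omega
    rw [h2, pow_one] at h1
    exact hpp.one_lt.ne h1
  · rintro (h | h0)
    · by_cases h0 : n = 0
      · intro H hH _ hne
        exfalso
        subst h0
        rw [pow_zero] at hn
        have := Subgroup.card_eq_one.mp hn
        exact hne (le_bot_iff.mp (this ▸ hH))
      exact hU_of_C (C_of_chain N G hN hG hGN hn (by omega) h)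
    · intro H hH _ hne
      exfalso
      subst h0
      rw [pow_zero] at hn
      have := Subgroup.card_eq_one.mp hn
      exact hne (le_bot_iff.mp (this ▸ hH))
  · intro hU H hH hHG
    have hC := C_of_U N G hN hGN hn hU
    obtain ⟨i, hi, he⟩ := classify N G hN hG hGN hn hC H hH hHG
    refine ⟨⟨i, hi, he⟩, ?_⟩
    rw [he]
    exact le_sup_left.trans (normal_P N G hN hG hGN hC i hi)

end Cfsg.Agent.S0663
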