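import Cfsg.Statements.S0666
import Cfsg.Agent.Lib.H1FrobThm

set_option autoImplicit false
open Cfsg

namespace Cfsg.Agent.S0666

open scoped Pointwise

open Classical in
theorem prod_partition {F M : Type*} [Group F] [Fintype F] [CommMonoid M] (H N : Subgroup F)
    [N.Normal] (hc : Subgroup.IsComplement' N H)
    (hF : ∀ g : F, g ∉ H → H ⊓ (MulAut.conj g • H) = ⊥) (f : F → M) :
    ∏ g : F, f g = (∏ x : N, f x) * ∏ x : N, ∏ h : {h : H // h ≠ 1}, f ((x : F) * h * (x : F)⁻¹) := by
  classical
  have hd : ∀ x, x ∈ N → x ∈ H → x = 1 := by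
    intro x hx hx'
    have := hc.disjoint
    exact Subgroup.disjoint_def.mp this hx hx'
  let φ : N ⊕ (N × {h : H // h ≠ 1}) → F := Sum.elim (fun x => (x : F))
    (fun p => (p.1 : F) * (p.2.1 : F) * (p.1 : F)⁻¹)
  have hinj : Function.Injective φ := by
    rintro (x | ⟨x, h, hh⟩) (y | ⟨y, k, hk⟩) hxy
    · simp only [φ, Sum.elim_inl] at hxy
      rw [Subtype.ext hxy]
    · exfalso
      simp only [φ, Sum.elim_inl, Sum.elim_inr] at hxy
      have h1 : (k : F) ∈ N := by
        have := ‹N.Normal›.conj_mem (x : F) x.2 (y : F)⁻¹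
        rw [hxy] at this
        have e : (y : F)⁻¹ * ((y : F) * (k : F) * (y : F)⁻¹) * ((y : F)⁻¹)⁻¹ = (k : F) := by group
        rwa [e] at this
      exact hk (Subtype.ext (hd _ h1 k.2))
    · exfalso
      simp only [φ, Sum.elim_inl, Sum.elim_inr] at hxy
      have h1 : (h : F) ∈ N := by
        have := ‹N.Normal›.conj_mem (y : F) y.2 (x : F)⁻¹
        rw [← hxy] at this
        have e : (x : F)⁻¹ * ((x : F) * (h : F) * (x : F)⁻¹) * ((x : F)⁻¹)⁻¹ = (h : F) := by group
        rwa [e] at this
      exact hh (Subtype.ext (hd _ h1 h.2))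
    · simp only [φ, Sum.elim_inr] at hxy
      have hu : (y : F)⁻¹ * (x : F) ∈ N := N.mul_mem (N.inv_mem y.2) x.2
      have hconj : ((y : F)⁻¹ * (x : F)) * (h : F) * ((y : F)⁻¹ * (x : F))⁻¹ = (k : F) := by
        have : (y : F)⁻¹ * ((x : F) * (h : F) * (x : F)⁻¹) * (y : F) = (k : F) := by
          rw [hxy]; group
        rw [← this]; group
      have hmemH : (y : F)⁻¹ * (x : F) ∈ H := by
        by_contra hn
        have := hF _ hn
        have hk1 : (k : F) ∈ H ⊓ (MulAut.conj ((y : F)⁻¹ * (x : F)) • H) := by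
          refine Subgroup.mem_inf.mpr ⟨k.2, ?_⟩
          rw [Subgroup.mem_smul_pointwise_iff_exists]
          exact ⟨h, h.2, by rw [MulAut.smul_def, MulAut.conj_apply]; exact hconj⟩
        rw [this] at hk1
        exact hk (Subtype.ext (by simpa using hk1))
      have hu1 := hd _ hu hmemH
      have hxe : (x : F) = y := by
        have : (y : F) * ((y : F)⁻¹ * (x : F)) = y := by rw [hu1, mul_one]
        simpa using this
      have hxy' : x = y := Subtype.ext hxe
      subst hxy'
      have : (h : F) = k := by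
        simpa using hxy
      have h' : h = k := Subtype.ext this
      subst h'
      rfl
  have hcard : Fintype.card (N ⊕ (N × {h : H // h ≠ 1})) = Fintype.card F := by
    have h1 : Fintype.card {h : H // h ≠ 1} = Fintype.card H - 1 := by
      rw [Fintype.card_subtype_compl]
      simp
    have h2 : Fintype.card N * Fintype.card H = Fintype.card F := by
      have := hc.card_mul
      simpa [Nat.card_eq_fintype_card] using this
    have h3 : 0 < Fintype.card H := Fintype.card_pos
    rw [Fintype.card_sum, Fintype.card_prod, h1, ← h2]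
    obtain ⟨m, hm⟩ : ∃ m, Fintype.card H = m + 1 := ⟨Fintype.card H - 1, by omega⟩
    rw [hm]
    simp only [Nat.add_sub_cancel]
    ring
  have hbij : Function.Bijective φ :=
    (Fintype.bijective_iff_injective_and_card φ).mpr ⟨hinj, hcard⟩
  rw [← hbij.prod_comp f, Fintype.prod_sum_type, Fintype.prod_prod_type]
  rfl

open Classical in
theorem core {F V : Type*} [Group F] [Fintype F] [CommGroup V] [Finite V] [MulDistribMulAction F V]
    (H N : Subgroup F) [N.Normal] (hc : Subgroup.IsComplement' N H)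
    (hF : ∀ g : F, g ∉ H → H ⊓ (MulAut.conj g • H) = ⊥)
    (hcop : (Nat.card V).Coprime (Nat.card N))
    (hK : ∀ v : V, (∀ x ∈ N, x • v = v) → v = 1)
    (hH : ∀ v : V, (∀ h ∈ H, h • v = v) → v = 1) (v : V) : v = 1 := by
  classical
  have tN : ∀ w : V, ∏ x : N, (x : F) • w = 1 := by
    intro w
    apply hK
    intro y hy
    rw [Finset.smul_prod']
    refine Fintype.prod_equiv (Equiv.mulLeft (⟨y, hy⟩ : N)) _ _ ?_
    intro x
    simp [mul_smul]
  have tH : ∀ w : V, ∏ x : H, (x : F) • w = 1 := by
    intro w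
    apply hH
    intro y hy
    rw [Finset.smul_prod']
    refine Fintype.prod_equiv (Equiv.mulLeft (⟨y, hy⟩ : H)) _ _ ?_
    intro x
    simp [mul_smul]
  -- all of F via N × H
  have hall : ∏ g : F, g • v = 1 := by
    have hb : Function.Bijective (fun p : H × N => ((p.2 : F) * (p.1 : F))) := by
      have h1 := hc.symm
      have : Function.Bijective (fun p : H × N => ((p.1 : F) * (p.2 : F))⁻¹) := by
        have := (Subgroup.isComplement'_def.mp h1)
        exact (inv_involutive.bijective).comp this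
      convert (this.comp (Function.Involutive.bijective
        (f := fun p : H × N => ((p.1)⁻¹, (p.2)⁻¹)) (fun p => by simp))) using 1
      ext p
      simp
    rw [← hb.prod_comp (fun g : F => g • v), Fintype.prod_prod_type]
    apply Finset.prod_eq_one
    intro h _
    simp only [mul_smul]
    exact tN _
  have hinner : ∀ x : N, ∏ h : {h : H // h ≠ 1}, ((x : F) * (h : F) * (x : F)⁻¹) • v = v⁻¹ := by
    intro x
    have h1 : ∀ h : {h : H // h ≠ 1}, ((x : F) * (h : F) * (x : F)⁻¹) • v
        = (x : F) • ((h.1 : F) • ((x : F)⁻¹ • v)) := by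
      intro h; simp [mul_smul]
    rw [Finset.prod_congr rfl (fun h _ => h1 h), ← Finset.smul_prod']
    have h2 := tH ((x : F)⁻¹ • v)
    have h3 : (∏ h : H, (h : F) • ((x : F)⁻¹ • v))
        = ((1 : H) : F) • ((x : F)⁻¹ • v) * ∏ h : {h : H // h ≠ 1}, (h.1 : F) • ((x : F)⁻¹ • v) := by
      exact Fintype.prod_eq_mul_prod_subtype_ne (fun h : H => (h : F) • ((x : F)⁻¹ • v)) 1
    rw [h3] at h2
    have h4 : ∏ h : {h : H // h ≠ 1}, (h.1 : F) • ((x : F)⁻¹ • v) = ((x : F)⁻¹ • v)⁻¹ := by
      have : ((1 : H) : F) • ((x : F)⁻¹ • v) = (x : F)⁻¹ • v := by simp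
      rw [this] at h2
      exact eq_inv_of_mul_eq_one_right h2
    rw [h4, smul_inv', smul_inv_smul]
  have h := prod_partition H N hc hF (fun g : F => g • v)
  rw [hall, tN v, one_mul, Finset.prod_congr rfl (fun x _ => hinner x), Finset.prod_const] at h
  have hpow : (v⁻¹) ^ (Nat.card N) = 1 := by
    rw [Nat.card_eq_fintype_card]
    simpa [Finset.card_univ] using h.symm
  have h5 : v ^ Nat.card N = 1 := by
    rw [inv_pow] at hpow
    simpa using hpow
  have h6 : v ^ Nat.card V = 1 := pow_card_eq_one'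
  have h7 : orderOf v ∣ Nat.gcd (Nat.card V) (Nat.card N) :=
    Nat.dvd_gcd (orderOf_dvd_of_pow_eq_one h6) (orderOf_dvd_of_pow_eq_one h5)
  rw [hcop] at h7
  exact orderOf_eq_one_iff.mp (Nat.dvd_one.mp h7)

/-- A Frobenius group acting on a nontrivial abelian group of order prime to that of its kernel, with the kernel acting without nontrivial fixed points, has a complement with a nontrivial fixed point. -/
theorem result {G : Type*} [Group G] [Finite G] (V F : Subgroup G) (hVab : IsMulCommutative V) (hV1 : V ≠ ⊥) (hFV : F ≤ Subgroup.normalizer (V : Set G)) (H : Subgroup ↥F) (hH : Cfsg.IsFrobeniusComplement H) (hcop : (Nat.card V).Coprime (Nat.card (Cfsg.frobeniusKernel H))) (hCK : V ⊓ Subgroup.centralizer (Subtype.val '' Cfsg.frobeniusKernel H : Set G) = ⊥) : V ⊓ Subgroup.centralizer ((H.map F.subtype : Subgroup G) : Set G) ≠ ⊥ := by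

  classical
  intro hbot
  haveI : Fintype F := Fintype.ofFinite F
  obtain ⟨N, hNk, hNn, hNc⟩ := Cfsg.Agent.Lib.H1FrobThm.frobenius_theorem hH
  have hnorm : ∀ g : F, ∀ v : G, v ∈ V → (g : G) * v * (g : G)⁻¹ ∈ V := fun g v hv =>
    (Subgroup.mem_normalizer_iff.mp (hFV g.2) v).mp hv
  letI inst1 : CommGroup V := { (inferInstance : Group V) with
    mul_comm := fun a b => hVab.is_comm.comm a b }
  letI inst2 : MulDistribMulAction F V :=
    { smul := fun g v => ⟨(g : G) * (v : G) * (g : G)⁻¹, hnorm g v v.2⟩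
      one_smul := fun v => Subtype.ext (by show ((1 : F) : G) * (v : G) * ((1 : F) : G)⁻¹ = v; simp)
      mul_smul := fun a b v => Subtype.ext (by
        show ((a * b : F) : G) * (v : G) * ((a * b : F) : G)⁻¹ = (a : G) * ((b : G) * (v : G) * (b : G)⁻¹) * (a : G)⁻¹
        simp only [Subgroup.coe_mul]; group)
      smul_mul := fun a u v => Subtype.ext (by
        show (a : G) * ((u : G) * (v : G)) * (a : G)⁻¹ = ((a : G) * (u : G) * (a : G)⁻¹) * ((a : G) * (v : G) * (a : G)⁻¹)
        group)
      smul_one := fun a => Subtype.ext (by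
        show (a : G) * ((1 : V) : G) * (a : G)⁻¹ = 1
        simp) }
  have hsmul : ∀ (g : F) (v : V), (((g • v : V)) : G) = (g : G) * (v : G) * (g : G)⁻¹ := fun _ _ => rfl
  have hcard : Nat.card N = Nat.card (Cfsg.frobeniusKernel H) := by
    rw [← hNk]; rfl
  have hall := core (V := V) H N hNc hH.2.2 (by rw [hcard]; exact hcop) ?_ ?_
  · apply hV1
    rw [eq_bot_iff]
    intro v hv
    have := hall (⟨v, hv⟩ : V)
    simpa using congrArg (Subtype.val) this
  · intro v hv
    have hmem : (v : G) ∈ V ⊓ Subgroup.centralizer (Subtype.val '' Cfsg.frobeniusKernel H : Set G) := by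
      refine Subgroup.mem_inf.mpr ⟨v.2, ?_⟩
      rw [Subgroup.mem_centralizer_iff]
      rintro _ ⟨x, hx, rfl⟩
      have hx' : x ∈ N := by
        have : x ∈ (N : Set F) := by rw [hNk]; exact hx
        exact this
      have := congrArg Subtype.val (hv x hx')
      rw [hsmul] at this
      rw [mul_inv_eq_iff_eq_mul] at this
      exact this.symm ▸ rfl
    rw [hCK] at hmem
    exact Subtype.ext (by simpa using hmem)
  · intro v hv
    have hmem : (v : G) ∈ V ⊓ Subgroup.centralizer ((H.map F.subtype : Subgroup G) : Set G) := by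
      refine Subgroup.mem_inf.mpr ⟨v.2, ?_⟩
      rw [Subgroup.mem_centralizer_iff]
      rintro _ ⟨x, hx, rfl⟩
      have := congrArg Subtype.val (hv x hx)
      rw [hsmul] at this
      rw [mul_inv_eq_iff_eq_mul] at this
      exact this.symm ▸ rfl
    rw [hbot] at hmem
    exact Subtype.ext (by simpa using hmem)

end Cfsg.Agent.S0666
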