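import Cfsg.Statements.S0668
import Mathlib

set_option autoImplicit false
open Cfsg

namespace Cfsg.Agent.S0668


open MulAction

/-- The equivariant linear maps between the permutation modules of two finite `G`-sets form a space whose dimension is the number of `G`-orbits on the product of the two sets. -/
theorem result {G : Type*} [Group G] {K : Type*} [Field K] {Ω₁ Ω₂ : Type*} [Fintype Ω₁] [Fintype Ω₂] [MulAction G Ω₁] [MulAction G Ω₂] : Module.finrank K ((Cfsg.permRep K G Ω₁).linHom (Cfsg.permRep K G Ω₂)).invariants = Nat.card (MulAction.orbitRel.Quotient G (Ω₁ × Ω₂)) := by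
  classical
  let Q := orbitRel.Quotient G (Ω₁ × Ω₂)
  letI : Fintype Q := Fintype.ofFinite _
  let mkQ : Ω₁ × Ω₂ → Q := fun z => Quotient.mk _ z
  have hmk : ∀ (g : G) (z : Ω₁ × Ω₂), mkQ (g • z) = mkQ z := by
    intro g z
    apply Quotient.sound
    show g • z ∈ orbit G z
    exact ⟨g, rfl⟩
  let T : (Q → K) →ₗ[K] ((Ω₁ → K) →ₗ[K] (Ω₂ → K)) :=
    { toFun := fun m =>
        { toFun := fun f y => ∑ x, f x * m (mkQ (x, y))
          map_add' := fun f h => by
            funext y
            simp [add_mul, Finset.sum_add_distrib]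
          map_smul' := fun c f => by
            funext y
            simp [Finset.mul_sum, mul_assoc] }
      map_add' := fun m n => by
        ext f y
        simp [mul_add, Finset.sum_add_distrib]
      map_smul' := fun c m => by
        ext f y
        simp [Finset.mul_sum, mul_left_comm] }
  have hT : ∀ m f y, T m f y = ∑ x, f x * m (mkQ (x, y)) := fun m f y => rfl
  have hinv : ∀ m, T m ∈ ((Cfsg.permRep K G Ω₁).linHom (Cfsg.permRep K G Ω₂)).invariants := by
    intro m g
    apply LinearMap.ext
    intro f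
    funext y
    rw [Representation.linHom_apply]
    show (T m) ((Cfsg.permRep K G Ω₁ g⁻¹) f) (g⁻¹ • y) = T m f y
    rw [hT, hT]
    refine (Fintype.sum_equiv (MulAction.toPerm g) _ _ fun x => ?_)
    show ((Cfsg.permRep K G Ω₁ g⁻¹) f) x * m (mkQ (x, g⁻¹ • y)) = f (g • x) * m (mkQ (g • x, y))
    have h1 : ((Cfsg.permRep K G Ω₁ g⁻¹) f) x = f (g • x) := by
      show f ((g⁻¹)⁻¹ • x) = _
      rw [inv_inv]
    rw [h1]
    congr 2
    have := hmk g⁻¹ (g • x, y)
    rw [← this]
    simp
  let T' : (Q → K) →ₗ[K] ((Cfsg.permRep K G Ω₁).linHom (Cfsg.permRep K G Ω₂)).invariants :=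
    T.codRestrict _ hinv
  have hinj : Function.Injective T' := by
    intro m n hmn
    have h1 : T m = T n := congrArg Subtype.val hmn
    funext q
    induction q using Quotient.inductionOn with
    | h z =>
      obtain ⟨x, y⟩ := z
      have h2 := congrFun (congrArg (fun φ => φ (Pi.single x 1)) h1) y
      simp only [hT, Pi.single_apply, ite_mul, one_mul, zero_mul, Finset.sum_ite_eq', Finset.mem_univ, if_true] at h2
      exact h2
  have hsurj : Function.Surjective T' := by
    rintro ⟨φ, hφ⟩
    have hwell : ∀ (g : G) (x : Ω₁) (y : Ω₂), φ (Pi.single (g • x) 1) (g • y) = φ (Pi.single x 1) y := by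
      intro g x y
      have h1 := hφ g
      have h2 := congrFun (congrArg (fun ψ => ψ (Pi.single (g • x) 1)) h1) (g • y)
      have h3 : (Cfsg.permRep K G Ω₁ g⁻¹) (Pi.single (g • x) 1 : Ω₁ → K) = Pi.single x 1 := by
        funext z
        show (Pi.single (g • x) 1 : Ω₁ → K) ((g⁻¹)⁻¹ • z) = _
        rw [inv_inv]
        simp only [Pi.single_apply, smul_left_cancel_iff]
      have h4 : ((Cfsg.permRep K G Ω₁).linHom (Cfsg.permRep K G Ω₂) g φ) (Pi.single (g • x) 1) (g • y) = φ ((Cfsg.permRep K G Ω₁ g⁻¹) (Pi.single (g • x) 1 : Ω₁ → K)) (g⁻¹ • g • y) := by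
        rw [Representation.linHom_apply]
        rfl
      rw [h3, inv_smul_smul] at h4
      exact (h2.symm.trans h4)
    let m : Q → K := fun q => Quotient.lift (fun z : Ω₁ × Ω₂ => φ (Pi.single z.1 1) z.2) (by
      rintro ⟨x, y⟩ ⟨x', y'⟩ h
      have h' : (x, y) ∈ orbit G (x', y') := h
      obtain ⟨g, hg⟩ := h'
      have h1 : g • x' = x := congrArg Prod.fst hg
      have h2 : g • y' = y := congrArg Prod.snd hg
      show φ (Pi.single x 1) y = φ (Pi.single x' 1) y'
      rw [← h1, ← h2, hwell]) q
    refine ⟨m, ?_⟩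
    apply Subtype.ext
    apply LinearMap.ext
    intro f
    funext y
    show T m f y = φ f y
    rw [hT]
    have hf : f = ∑ x, f x • (Pi.single x 1 : Ω₁ → K) := by
      funext z
      simp [Finset.sum_apply, Pi.single_apply]
    conv_rhs => rw [hf]
    rw [map_sum, Finset.sum_apply]
    refine Finset.sum_congr rfl fun x _ => ?_
    rw [map_smul]
    rfl
  let e := LinearEquiv.ofBijective T' ⟨hinj, hsurj⟩
  rw [← e.finrank_eq, Module.finrank_fintype_fun_eq_card, Nat.card_eq_fintype_card]


end Cfsg.Agent.S0668
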