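import Cfsg.Statements.S0669
import Mathlib

set_option autoImplicit false
open Cfsg

namespace Cfsg.Agent.S0669

open MulAction

/-- The rank of a transitive action: orbits on ordered pairs correspond to orbits of a point stabiliser. -/
theorem result {G : Type*} [Group G] {Ω : Type*} [Finite Ω] [MulAction G Ω] [MulAction.IsPretransitive G Ω] (a : Ω) : Nat.card (MulAction.orbitRel.Quotient G (Ω × Ω)) = Nat.card (MulAction.orbitRel.Quotient (MulAction.stabilizer G a) Ω) := by
  classical
  let f : orbitRel.Quotient (stabilizer G a) Ω → orbitRel.Quotient G (Ω × Ω) :=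
    Quotient.map' (fun x => (a, x)) (by
      rintro x y h
      rw [orbitRel_apply] at h ⊢
      obtain ⟨⟨s, hs⟩, rfl⟩ := h
      refine ⟨s, ?_⟩
      have hs' : s • a = a := hs
      show (s • a, s • y) = _
      rw [hs']
      rfl)
  apply (Nat.card_congr (Equiv.ofBijective f ⟨?_, ?_⟩)).symm
  · intro x y
    induction x using Quotient.inductionOn' with | _ x => ?_
    induction y using Quotient.inductionOn' with | _ y => ?_
    intro e
    have e' := Quotient.exact' e
    rw [orbitRel_apply] at e'
    obtain ⟨g, hg⟩ := e'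
    have h1 : g • a = a := congrArg Prod.fst hg
    have h2 : g • y = x := congrArg Prod.snd hg
    apply Quotient.sound'
    rw [orbitRel_apply]
    exact ⟨⟨g, h1⟩, h2⟩
  · intro z
    induction z using Quotient.inductionOn' with | _ z => ?_
    obtain ⟨p, q⟩ := z
    obtain ⟨g, hg⟩ := MulAction.exists_smul_eq G a p
    refine ⟨Quotient.mk'' (g⁻¹ • q), ?_⟩
    apply Quotient.sound'
    rw [orbitRel_apply]
    refine ⟨g⁻¹, ?_⟩
    show (g⁻¹ • p, g⁻¹ • q) = _
    rw [← hg, inv_smul_smul]

end Cfsg.Agent.S0669
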