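import Cfsg.Statements.S0670
import Mathlib
import Cfsg.Agent.Lib.PermMod

set_option autoImplicit false
open Cfsg

namespace Cfsg.Agent.S0670


open MulAction Cfsg.Agent.Lib.PermMod

/-- In characteristic `p`, the permutation module of a transitive action of degree `p ^ f` has the line of constant functions as its only irreducible submodule: every non-zero subrepresentation contains it. -/
theorem result {G : Type*} [Group G] [Finite G] {K : Type*} [Field K] {p f : ℕ} [Fact p.Prime] [CharP K p] {Ω : Type*} [Fintype Ω] [MulAction G Ω] [MulAction.IsPretransitive G Ω] (hf : 1 ≤ f) (hcard : Fintype.card Ω = p ^ f) (W : Subrepresentation (Cfsg.permRep K G Ω)) (hW : W.toSubmodule ≠ ⊥) : (Cfsg.permConstants K G Ω).toSubmodule ≤ W.toSubmodule := by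
  classical
  obtain ⟨S⟩ : Nonempty (Sylow p G) := inferInstance
  have htrans : IsPretransitive S Ω := sylow_transitive (by rw [Nat.card_eq_fintype_card]; exact hcard) S
  let ρ : S →* AddMonoid.End (Ω → K) :=
    { toFun := fun g => ((Cfsg.permRep K G Ω (g : G)).toAddMonoidHom)
      map_one' := by
        apply AddMonoidHom.ext
        intro f
        funext x
        show f (((1 : S) : G)⁻¹ • x) = f x
        simp
      map_mul' := fun g h => by
        apply AddMonoidHom.ext
        intro f
        funext x
        show f (((g * h : S) : G)⁻¹ • x) = f ((h : G)⁻¹ • (g : G)⁻¹ • x)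
        simp [mul_smul] }
  have hp0 : ∀ x : Ω → K, p • x = 0 := by
    intro x
    funext y
    simp [nsmul_eq_mul, CharP.cast_eq_zero K p]
  obtain ⟨v₀, hv₀, hv₀ne⟩ := (Submodule.ne_bot_iff _).1 hW
  obtain ⟨v, hvA, hvne, hvfix⟩ := exists_fixed_of_pgroup S.2 hp0 ρ v₀ hv₀ne
  have hvW : v ∈ W.toSubmodule := by
    have hle : AddSubgroup.closure (Set.range fun g : S => ρ g v₀) ≤ W.toSubmodule.toAddSubgroup := by
      rw [AddSubgroup.closure_le]
      rintro _ ⟨g, rfl⟩
      exact W.apply_mem_toSubmodule (g : G) hv₀
    exact hle hvA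
  have hconst : ∀ x y : Ω, v x = v y := by
    intro x y
    obtain ⟨g, hg⟩ := htrans.exists_smul_eq y x
    have := congrFun (hvfix g) x
    have h2 : v ((g⁻¹ : S) • x) = v x := this
    rw [← h2, ← hg, inv_smul_smul]
  obtain ⟨x₀, hx₀⟩ : ∃ x, v x ≠ 0 := by
    by_contra hcon
    push Not at hcon
    exact hvne (funext hcon)
  have hone : (fun _ : Ω => (1 : K)) ∈ W.toSubmodule := by
    have : (fun _ : Ω => (1 : K)) = (v x₀)⁻¹ • v := by
      funext y
      simp [hconst y x₀, hx₀]
    rw [this]
    exact W.toSubmodule.smul_mem _ hvW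
  show Submodule.span K {fun _ : Ω => (1 : K)} ≤ W.toSubmodule
  rw [Submodule.span_singleton_le_iff_mem]
  exact hone


end Cfsg.Agent.S0670
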