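import Cfsg.Statements.S0671
import Mathlib
import Cfsg.Agent.S0670

set_option autoImplicit false
open Cfsg

namespace Cfsg.Agent.S0671


open MulAction

/-- If the heart of the permutation module in characteristic `p` of a transitive action of degree `p ^ f` has no trivial composition factor, the action is doubly transitive. The hypothesis is phrased without composition series: no invariant subspaces `W < W'` between the constants and the sum-zero functions with trivial action on the quotient. -/
theorem result {G : Type*} [Group G] [Finite G] {K : Type*} [Field K] {p f : ℕ} [Fact p.Prime] [CharP K p] {Ω : Type*} [Fintype Ω] [MulAction G Ω] [MulAction.IsPretransitive G Ω] (hf : 1 ≤ f) (hcard : Fintype.card Ω = p ^ f) (h : ∀ W W' : Subrepresentation (Cfsg.permRep K G Ω), (Cfsg.permConstants K G Ω).toSubmodule ≤ W.toSubmodule → W.toSubmodule < W'.toSubmodule → W'.toSubmodule ≤ (Cfsg.permSumZero K G Ω).toSubmodule → ∃ g : G, ∃ v ∈ W'.toSubmodule, Cfsg.permRep K G Ω g v - v ∉ W.toSubmodule) : MulAction.IsMultiplyPretransitive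 G Ω 2 := by
  classical
  have hP : p.Prime := Fact.out
  rw [MulAction.is_two_pretransitive_iff]
  intro x y u₀ v₀ hxy hu₀v₀
  -- the orbital
  let rl : Ω → Ω → Prop := fun u v => ∃ g : G, g • x = u ∧ g • y = v
  have hrl : ∀ (g : G) (u v : Ω), rl (g • u) (g • v) ↔ rl u v := by
    intro g u v
    constructor
    · rintro ⟨k, h1, h2⟩
      refine ⟨g⁻¹ * k, ?_, ?_⟩
      · rw [mul_smul, h1, inv_smul_smul]
      · rw [mul_smul, h2, inv_smul_smul]
    · rintro ⟨k, h1, h2⟩
      refine ⟨g * k, ?_, ?_⟩
      · rw [mul_smul, h1]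
      · rw [mul_smul, h2]
  let N : Ω → Finset Ω := fun u => Finset.univ.filter (fun v => rl u v)
  let I : Ω → Finset Ω := fun v => Finset.univ.filter (fun u => rl u v)
  have hmemN : ∀ u v, v ∈ N u ↔ rl u v := fun u v => by simp [N]
  have hmemI : ∀ u v, u ∈ I v ↔ rl u v := fun u v => by simp [I]
  have sumN : ∀ (g : G) (F : Ω → K) (u : Ω), ∑ v ∈ N (g • u), F (g⁻¹ • v) = ∑ w ∈ N u, F w := by
    intro g F u
    apply Finset.sum_equiv (MulAction.toPerm g⁻¹)
    · intro v
      rw [hmemN, hmemN, ← hrl g u ((MulAction.toPerm g⁻¹) v)]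
      simp
    · intro v _
      rfl
  have sumI : ∀ (g : G) (F : Ω → K) (u : Ω), ∑ v ∈ I (g • u), F (g⁻¹ • v) = ∑ w ∈ I u, F w := by
    intro g F u
    apply Finset.sum_equiv (MulAction.toPerm g⁻¹)
    · intro v
      rw [hmemI, hmemI, ← hrl g ((MulAction.toPerm g⁻¹) v) u]
      simp
    · intro v _
      rfl
  have hcardN : ∀ (g : G) (u : Ω), (N (g • u)).card = (N u).card := by
    intro g u
    apply Finset.card_equiv (MulAction.toPerm g⁻¹)
    intro v
    rw [hmemN, hmemN, ← hrl g u ((MulAction.toPerm g⁻¹) v)]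
    simp
  have hcardI : ∀ (g : G) (u : Ω), (I (g • u)).card = (I u).card := by
    intro g u
    apply Finset.card_equiv (MulAction.toPerm g⁻¹)
    intro v
    rw [hmemI, hmemI, ← hrl g ((MulAction.toPerm g⁻¹) v) u]
    simp
  set d := (N x).card with hd
  have hNd : ∀ u, (N u).card = d := by
    intro u
    obtain ⟨g, hg⟩ := MulAction.exists_smul_eq G x u
    rw [← hg, hcardN]
  have hId : ∀ u, (I u).card = d := by
    have h1 : ∀ u, (I u).card = (I x).card := by
      intro u
      obtain ⟨g, hg⟩ := MulAction.exists_smul_eq G x u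
      rw [← hg, hcardI]
    have h2 : ∑ u, (N u).card = ∑ v, (I v).card := by
      simp only [N, I, Finset.card_filter]
      rw [Finset.sum_comm]
    simp only [hNd, h1, Finset.sum_const, Finset.card_univ, smul_eq_mul] at h2
    have hpos : 0 < Fintype.card Ω := Fintype.card_pos_iff.2 ⟨x⟩
    have h3 := Nat.eq_of_mul_eq_mul_left hpos h2
    intro u
    rw [h1, h3]
  -- the operators
  let B : (Ω → K) →ₗ[K] (Ω → K) :=
    { toFun := fun f u => ∑ v ∈ N u, f v - (d : K) * f u
      map_add' := by
        intro f f'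
        funext u
        simp only [Pi.add_apply, Finset.sum_add_distrib, mul_add]
        ring
      map_smul' := by
        intro c f
        funext u
        simp only [Pi.smul_apply, smul_eq_mul, RingHom.id_apply, ← Finset.mul_sum]
        ring }
  let C : (Ω → K) →ₗ[K] (Ω → K) :=
    { toFun := fun f u => ∑ v ∈ I u, f v - (d : K) * f u
      map_add' := by
        intro f f'
        funext u
        simp only [Pi.add_apply, Finset.sum_add_distrib, mul_add]
        ring
      map_smul' := by
        intro c f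
        funext u
        simp only [Pi.smul_apply, smul_eq_mul, RingHom.id_apply, ← Finset.mul_sum]
        ring }
  have hBv : ∀ f u, B f u = ∑ v ∈ N u, f v - (d : K) * f u := fun _ _ => rfl
  have hCv : ∀ f u, C f u = ∑ v ∈ I u, f v - (d : K) * f u := fun _ _ => rfl
  have hρ : ∀ (g : G) (f : Ω → K) (u : Ω), Cfsg.permRep K G Ω g f u = f (g⁻¹ • u) := fun _ _ _ => rfl
  have hBeq : ∀ (g : G) (f : Ω → K), B (Cfsg.permRep K G Ω g f) = Cfsg.permRep K G Ω g (B f) := by
    intro g f
    funext u
    rw [hBv, hρ, hρ, hBv]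
    have h1 := sumN g f (g⁻¹ • u)
    rw [smul_inv_smul] at h1
    simp only [hρ]
    rw [h1]
  have hCeq : ∀ (g : G) (f : Ω → K), C (Cfsg.permRep K G Ω g f) = Cfsg.permRep K G Ω g (C f) := by
    intro g f
    funext u
    rw [hCv, hρ, hρ, hCv]
    have h1 := sumI g f (g⁻¹ • u)
    rw [smul_inv_smul] at h1
    simp only [hρ]
    rw [h1]
  -- the delta functions
  let δ : Ω → Ω → K := fun a b => if b = a then 1 else 0
  have hsumδ : ∀ a, ∑ b, δ a b = 1 := by
    intro a
    simp [δ]
  have hBδ : ∀ u v, u ≠ v → B (δ v) u = if rl u v then 1 else 0 := by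
    intro u v huv
    rw [hBv]
    have h1 : δ v u = 0 := by simp [δ, huv]
    rw [h1, mul_zero, sub_zero]
    simp only [δ, N]
    rw [Finset.sum_filter]
    rw [Finset.sum_eq_single v]
    · simp
    · intro b _ hb
      simp [hb]
    · simp
  have hCδ : ∀ u v, u ≠ v → C (δ u) v = if rl u v then 1 else 0 := by
    intro u v huv
    rw [hCv]
    have h1 : δ u v = 0 := by simp [δ, huv.symm]
    rw [h1, mul_zero, sub_zero]
    simp only [δ, I]
    rw [Finset.sum_filter]
    rw [Finset.sum_eq_single u]
    · simp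
    · intro b _ hb
      simp [hb]
    · simp
  have hrlxy : rl x y := ⟨1, by simp, by simp⟩
  have hB1 : B (δ y) x = 1 := by
    rw [hBδ x y hxy, if_pos hrlxy]
  have hC1 : C (δ x) y = 1 := by
    rw [hCδ x y hxy, if_pos hrlxy]
  -- the adjointness relation
  have hadj : ∀ f h : Ω → K, ∑ u, f u * C h u = ∑ u, B f u * h u := by
    intro f h
    simp only [hBv, hCv, sub_mul, mul_sub, Finset.sum_sub_distrib]
    congr 1
    · simp only [N, I, Finset.sum_filter, Finset.mul_sum, Finset.sum_mul]
      rw [Finset.sum_comm]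
      apply Finset.sum_congr rfl
      intro a _
      apply Finset.sum_congr rfl
      intro b _
      split_ifs <;> ring
    · apply Finset.sum_congr rfl
      intro a _
      ring
  -- the image of `C` contains the constants
  let imC : Subrepresentation (Cfsg.permRep K G Ω) :=
    { toSubmodule := LinearMap.range C
      apply_mem_toSubmodule := by
        rintro g _ ⟨f, rfl⟩
        exact ⟨Cfsg.permRep K G Ω g f, hCeq g f⟩ }
  have himC : imC.toSubmodule ≠ ⊥ := by
    intro e
    have h1 : C (δ x) ∈ imC.toSubmodule := ⟨δ x, rfl⟩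
    rw [e, Submodule.mem_bot] at h1
    have h2 := congrFun h1 y
    rw [hC1] at h2
    exact one_ne_zero h2
  have hone : (fun _ : Ω => (1 : K)) ∈ (Cfsg.permConstants K G Ω).toSubmodule := Submodule.subset_span rfl
  obtain ⟨h₀, hh₀⟩ := Cfsg.Agent.S0670.result hf hcard imC himC hone
  have hstar : ∀ f : Ω → K, ∑ u, f u = ∑ u, B f u * h₀ u := by
    intro f
    rw [← hadj, hh₀]
    simp
  have hBsum : ∀ f : Ω → K, ∑ u, B f u = 0 := by
    intro f
    simp only [hBv, Finset.sum_sub_distrib, ← Finset.mul_sum]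
    have h1 : ∑ u, ∑ v ∈ N u, f v = ∑ v, ∑ u ∈ I v, f v := by
      simp only [N, I, Finset.sum_filter]
      rw [Finset.sum_comm]
    rw [h1]
    simp only [Finset.sum_const, hId, nsmul_eq_mul, ← Finset.mul_sum, sub_self]
  have hgv : ∀ (g : G) (f : Ω → K), Cfsg.permRep K G Ω g f - f ∈ (Cfsg.permSumZero K G Ω).toSubmodule := by
    intro g f
    show ∑ u, (Cfsg.permRep K G Ω g f - f) u = 0
    simp only [Pi.sub_apply, Finset.sum_sub_distrib, hρ]
    rw [sub_eq_zero]
    exact Equiv.sum_comp (MulAction.toPerm g⁻¹) f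
  let W₀ := (Cfsg.permSumZero K G Ω)
  let W : Subrepresentation (Cfsg.permRep K G Ω) :=
    { toSubmodule := W₀.toSubmodule.map B
      apply_mem_toSubmodule := by
        rintro g _ ⟨f, hf', rfl⟩
        exact ⟨Cfsg.permRep K G Ω g f, W₀.apply_mem_toSubmodule g hf', hBeq g f⟩ }
  let U : Subrepresentation (Cfsg.permRep K G Ω) :=
    { toSubmodule := LinearMap.range B
      apply_mem_toSubmodule := by
        rintro g _ ⟨f, rfl⟩
        exact ⟨Cfsg.permRep K G Ω g f, hBeq g f⟩ }
  have hWU : W.toSubmodule < U.toSubmodule := by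
    apply lt_of_le_of_ne
    · rintro _ ⟨f, -, rfl⟩
      exact ⟨f, rfl⟩
    · intro e
      have h1 : B (δ x) ∈ W.toSubmodule := by
        rw [e]
        exact ⟨δ x, rfl⟩
      obtain ⟨w, hw, e2⟩ := h1
      have h2 : B (δ x - w) = 0 := by
        rw [map_sub, e2, sub_self]
      have h3 := hstar (δ x - w)
      simp only [h2, Pi.zero_apply, zero_mul, Finset.sum_const_zero] at h3
      simp only [Pi.sub_apply, Finset.sum_sub_distrib] at h3
      rw [hsumδ, show ∑ u, w u = 0 from hw, sub_zero] at h3
      exact one_ne_zero h3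
  have hUW₀ : U.toSubmodule ≤ W₀.toSubmodule := by
    rintro _ ⟨f, rfl⟩
    exact hBsum f
  by_cases hW0 : W.toSubmodule = ⊥
  · -- the rank one case
    have hkill : ∀ f ∈ W₀.toSubmodule, B f = 0 := by
      intro f hf'
      have h1 : B f ∈ W.toSubmodule := ⟨f, hf', rfl⟩
      rw [hW0, Submodule.mem_bot] at h1
      exact h1
    have hform : ∀ f : Ω → K, B f = (∑ u, f u) • B (δ x) := by
      intro f
      have h1 : f - (∑ u, f u) • δ x ∈ W₀.toSubmodule := by
        show ∑ u, (f - (∑ u, f u) • δ x) u = 0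
        simp only [Pi.sub_apply, Pi.smul_apply, smul_eq_mul, Finset.sum_sub_distrib, ← Finset.mul_sum, hsumδ, mul_one, sub_self]
      have h2 := hkill _ h1
      rw [map_sub, map_smul, sub_eq_zero] at h2
      exact h2
    set c := B (δ x) with hc
    have hcfix : ∀ (g : G) (u : Ω), c (g⁻¹ • u) = c u := by
      intro g u
      have h1 := hBeq g (δ x)
      rw [hform (Cfsg.permRep K G Ω g (δ x))] at h1
      have h2 : ∑ u, Cfsg.permRep K G Ω g (δ x) u = 1 := by
        simp only [hρ]
        exact (Equiv.sum_comp (MulAction.toPerm g⁻¹) (δ x)).trans (hsumδ x)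
      rw [h2, one_smul] at h1
      have h3 := congrFun h1 u
      rw [hρ] at h3
      exact h3.symm
    have hcconst : ∀ u, c u = c x := by
      intro u
      obtain ⟨g, hg⟩ := MulAction.exists_smul_eq G u x
      rw [← hg]
      have := hcfix g⁻¹ u
      rw [inv_inv] at this
      exact this.symm
    have hc1 : c x = 1 := by
      have h1 := congrFun (hform (δ y)) x
      rw [hB1, hsumδ, one_smul] at h1
      exact h1.symm
    have h5 : B (δ v₀) u₀ = 1 := by
      rw [hform (δ v₀), hsumδ, one_smul, hcconst, hc1]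
    rw [hBδ u₀ v₀ hu₀v₀] at h5
    by_contra hno
    have hnrl : ¬ rl u₀ v₀ := fun hh => hno hh
    rw [if_neg hnrl] at h5
    exact zero_ne_one h5
  · have hcW := Cfsg.Agent.S0670.result hf hcard W hW0
    obtain ⟨g, w, hw, hnot⟩ := h W U hcW hWU hUW₀
    exfalso
    obtain ⟨f, rfl⟩ := hw
    apply hnot
    refine ⟨Cfsg.permRep K G Ω g f - f, hgv g f, ?_⟩
    rw [map_sub, hBeq]

end Cfsg.Agent.S0671
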