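import Cfsg.Statements.S0672
import Mathlib
import Cfsg.Agent.Lib.PermOrb

set_option autoImplicit false
open Cfsg

namespace Cfsg.Agent.S0672


open MulAction Cfsg.Agent.Lib.PermOrb
open scoped Pointwise

theorem three_of_fix {G Ω : Type*} [Group G] [MulAction G Ω] [DecidableEq Ω]
    (h2 : MulAction.IsMultiplyPretransitive G Ω 2)
    (hkey : ∀ x y a b : Ω, x ≠ y → a ≠ x → a ≠ y → b ≠ x → b ≠ y → ∃ g : G, g • x = x ∧ g • y = y ∧ g • a = b) :
    MulAction.IsMultiplyPretransitive G Ω 3 := by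
  have h2' : ∀ {a b c d : Ω}, a ≠ b → c ≠ d → ∃ g : G, g • a = c ∧ g • b = d := MulAction.is_two_pretransitive_iff.1 h2
  apply isMultiplyPretransitive_of_fixing 3
  intro s hs a b ha hb
  by_cases hab : a = b
  · exact ⟨1, fun x _ => by simp, by simp [hab]⟩
  have hcases : s.card = 0 ∨ s.card = 1 ∨ s.card = 2 := by omega
  rcases hcases with h0 | h1 | h2c
  · rw [Finset.card_eq_zero] at h0
    subst h0
    obtain ⟨g, hg, _⟩ := h2' hab (Ne.symm hab)
    exact ⟨g, fun x hx => absurd hx (by simp), hg⟩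
  · rw [Finset.card_eq_one] at h1
    obtain ⟨c, rfl⟩ := h1
    have hca : c ≠ a := fun e => ha (by simp [e])
    have hcb : c ≠ b := fun e => hb (by simp [e])
    obtain ⟨g, hg1, hg2⟩ := h2' hca hcb
    exact ⟨g, fun x hx => by
      rw [Finset.mem_singleton] at hx
      rw [hx]
      exact hg1, hg2⟩
  · rw [Finset.card_eq_two] at h2c
    obtain ⟨x, y, hxy, rfl⟩ := h2c
    have hax : a ≠ x := fun e => ha (by simp [e])
    have hay : a ≠ y := fun e => ha (by simp [e])
    have hbx : b ≠ x := fun e => hb (by simp [e])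
    have hby : b ≠ y := fun e => hb (by simp [e])
    obtain ⟨g, h1, h2'', h3⟩ := hkey x y a b hxy hax hay hbx hby
    refine ⟨g, fun z hz => ?_, h3⟩
    rw [Finset.mem_insert, Finset.mem_singleton] at hz
    rcases hz with rfl | rfl
    · exact h1
    · exact h2''

/-- If some pair has a non-transitive pointwise stabiliser on its complement, then, with involutions
in the point stabilisers, some pair has a non-transitive setwise stabiliser on its complement. -/
theorem exists_setwise {G Ω : Type*} [Group G] [Finite G] [MulAction G Ω] [FaithfulSMul G Ω]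
    (h2 : MulAction.IsMultiplyPretransitive G Ω 2) (heven : ∀ a : Ω, Even (Nat.card (MulAction.stabilizer G a)))
    {x y a b : Ω} (hxy : x ≠ y) (hax : a ≠ x) (hay : a ≠ y) (hbx : b ≠ x) (hby : b ≠ y)
    (hno : ¬ ∃ g : G, g • x = x ∧ g • y = y ∧ g • a = b) :
    ∃ x₀ y₀ z₀ z₀' : Ω, x₀ ≠ y₀ ∧ z₀ ≠ x₀ ∧ z₀ ≠ y₀ ∧ z₀' ≠ x₀ ∧ z₀' ≠ y₀ ∧
      ∀ g : G, ¬ (((g • x₀ = x₀ ∧ g • y₀ = y₀) ∨ (g • x₀ = y₀ ∧ g • y₀ = x₀)) ∧ g • z₀ = z₀') := by
  classical
  by_contra hHH
  push Not at hHH
  have h2' : ∀ {a b c d : Ω}, a ≠ b → c ≠ d → ∃ g : G, g • a = c ∧ g • b = d := MulAction.is_two_pretransitive_iff.1 h2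
  have hHH' := hHH
  -- an involution fixing a point
  have h2dvd : 2 ∣ Nat.card (MulAction.stabilizer G a) := even_iff_two_dvd.1 (heven a)
  haveI : Fact (Nat.Prime 2) := ⟨Nat.prime_two⟩
  obtain ⟨t₀, ht₀⟩ := exists_prime_orderOf_dvd_card' 2 h2dvd
  let t : G := t₀
  have ht : orderOf t = 2 := by
    rw [Subgroup.orderOf_coe]; exact ht₀
  have hta : t • a = a := t₀.2
  have ht1 : t ≠ 1 := by
    intro e
    rw [e, orderOf_one] at ht
    omega
  have htt : t * t = 1 := by rw [← pow_two, ← ht, pow_orderOf_eq_one]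
  obtain ⟨d, hd⟩ : ∃ d : Ω, t • d ≠ d := by
    by_contra hcon
    push Not at hcon
    apply ht1
    apply FaithfulSMul.eq_of_smul_eq_smul (α := Ω)
    intro z
    rw [one_smul, hcon]
  set e := t • d with he
  have hte : t • e = d := by rw [he, ← mul_smul, htt, one_smul]
  have hda : d ≠ a := by
    intro h
    apply hd
    rw [he, h, hta]
  have hea : e ≠ a := by
    intro h
    apply hda
    rw [← hte, h, hta]
  -- swap `x, y` fixing `a`
  obtain ⟨k, hk1, hk2⟩ := h2' hxy (Ne.symm hd)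
  have hw1 : k • a ≠ d := by
    intro h
    apply hax
    apply smul_left_cancel k
    rw [h, hk1]
  have hw2 : k • a ≠ e := by
    intro h
    apply hay
    apply smul_left_cancel k
    rw [h, hk2]
  obtain ⟨l, hl, hl2⟩ := hHH' d e (k • a) a (Ne.symm hd) hw1 hw2 (Ne.symm hda) (Ne.symm hea)
  let m := l * k
  have hma : m • a = a := by simp only [m, mul_smul, hl2]
  let u := m⁻¹ * t * m
  have hua : u • a = a := by
    simp only [u, mul_smul]
    rw [hma, hta, inv_smul_eq_iff, hma]
  have hswap : u • x = y ∧ u • y = x := by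
    rcases hl with ⟨h1, h3⟩ | ⟨h1, h3⟩
    · have hmx : m • x = d := by simp only [m, mul_smul, hk1, h1]
      have hmy : m • y = e := by simp only [m, mul_smul, hk2, h3]
      constructor
      · simp only [u, mul_smul]
        rw [hmx, inv_smul_eq_iff, hmy]
      · simp only [u, mul_smul]
        rw [hmy, hte, inv_smul_eq_iff, hmx]
    · have hmx : m • x = e := by simp only [m, mul_smul, hk1, h1]
      have hmy : m • y = d := by simp only [m, mul_smul, hk2, h3]
      constructor
      · simp only [u, mul_smul]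
        rw [hmx, hte, inv_smul_eq_iff, hmy]
      · simp only [u, mul_smul]
        rw [hmy, inv_smul_eq_iff, hmx]
  obtain ⟨h, hh, hh2⟩ := hHH' x y a b hxy hax hay hbx hby
  apply hno
  rcases hh with ⟨h1, h3⟩ | ⟨h1, h3⟩
  · exact ⟨h, h1, h3, hh2⟩
  · refine ⟨h * u, ?_, ?_, ?_⟩
    · rw [mul_smul, hswap.1, h3]
    · rw [mul_smul, hswap.2, h1]
    · rw [mul_smul, hua, hh2]

/-- Let a finite group act faithfully and doubly transitively with point stabilisers of even order, and let `K` have characteristic `p` dividing the degree. If the heart of the permutation module admits no non-zero equivariant map to the permutation module on unordered pairs (phrased: every intertwining map from the sum-zero functions vanishing on the constants is zero), the action is triply transitive. -/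
theorem result {G : Type*} [Group G] [Finite G] {K : Type*} [Field K] {p : ℕ} [Fact p.Prime] [CharP K p] {Ω : Type*} [Fintype Ω] [DecidableEq Ω] [MulAction G Ω] [FaithfulSMul G Ω] (h2 : MulAction.IsMultiplyPretransitive G Ω 2) (hp : p ∣ Fintype.card Ω) (heven : ∀ a : Ω, Even (Nat.card (MulAction.stabilizer G a))) (h : ∀ f : Representation.IntertwiningMap (Cfsg.permSumZero K G Ω).toRepresentation (Cfsg.permRep K G (Set.powersetCard Ω 2)), (∀ v : (Cfsg.permSumZero K G Ω).toSubmodule, (v : Ω → K) ∈ (Cfsg.permConstants K G Ω).toSubmodule → f v = 0) → f = 0) : MulAction.IsMultiplyPretransitive G Ω 3 := by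
  classical
  by_contra hcon
  have hfix : ¬ ∀ x y a b : Ω, x ≠ y → a ≠ x → a ≠ y → b ≠ x → b ≠ y → ∃ g : G, g • x = x ∧ g • y = y ∧ g • a = b :=
    fun hk => hcon (three_of_fix h2 hk)
  push Not at hfix
  obtain ⟨x, y, a, b, hxy, hax, hay, hbx, hby, hno⟩ := hfix
  obtain ⟨x₀, y₀, z₀, z₀', hxy₀, h1, h2₀, h3, h4, hset⟩ := exists_setwise h2 heven hxy hax hay hbx hby (by
    rintro ⟨g, h1, h2, h3⟩
    exact hno g h1 h2 h3)
  have h2' : ∀ {a b c d : Ω}, a ≠ b → c ≠ d → ∃ g : G, g • a = c ∧ g • b = d := MulAction.is_two_pretransitive_iff.1 h2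
  have hzz : z₀ ≠ z₀' := by
    intro e
    apply hset 1
    exact ⟨Or.inl ⟨by simp, by simp⟩, by simp [e]⟩
  let P₀ : Finset Ω := {x₀, y₀}
  have hP₀card : P₀.card = 2 := Finset.card_pair hxy₀
  let PP₀ : Set.powersetCard Ω 2 := ⟨P₀, hP₀card⟩
  -- the relation
  let S : Finset Ω → Finset Ω := fun P => Finset.univ.filter (fun z => ∃ g : G, g • P₀ = P ∧ g • z₀ = z)
  have hS : ∀ P z, z ∈ S P ↔ ∃ g : G, g • P₀ = P ∧ g • z₀ = z := by
    intro P z
    simp [S]
  have hSsmul : ∀ (g : G) (P : Finset Ω) (z : Ω), z ∈ S P ↔ g • z ∈ S (g • P) := by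
    intro g P z
    rw [hS, hS]
    constructor
    · rintro ⟨h, rfl, rfl⟩
      exact ⟨g * h, by rw [mul_smul], by rw [mul_smul]⟩
    · rintro ⟨h, h1, h2⟩
      refine ⟨g⁻¹ * h, ?_, ?_⟩
      · rw [mul_smul, h1, inv_smul_smul]
      · rw [mul_smul, h2, inv_smul_smul]
  have hSz₀ : z₀ ∈ S P₀ := by
    rw [hS]; exact ⟨1, by simp, by simp⟩
  have hSz₀' : z₀' ∉ S P₀ := by
    rw [hS]
    rintro ⟨g, hg1, hg2⟩
    apply hset g
    refine ⟨?_, hg2⟩
    have hx : g • x₀ ∈ P₀ := by
      rw [← hg1]; exact Finset.smul_mem_smul_finset (by simp [P₀])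
    have hy : g • y₀ ∈ P₀ := by
      rw [← hg1]; exact Finset.smul_mem_smul_finset (by simp [P₀])
    simp only [P₀, Finset.mem_insert, Finset.mem_singleton] at hx hy
    have hne : g • x₀ ≠ g • y₀ := fun e => hxy₀ (smul_left_cancel g e)
    rcases hx with hx | hx <;> rcases hy with hy | hy
    · exact absurd (hx.trans hy.symm) hne
    · exact Or.inl ⟨hx, hy⟩
    · exact Or.inr ⟨hx, hy⟩
    · exact absurd (hx.trans hy.symm) hne
  have hScard : ∀ P : Set.powersetCard Ω 2, (S (P : Finset Ω)).card = (S P₀).card := by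
    intro P
    obtain ⟨u, v, huv, hP⟩ := Finset.card_eq_two.1 P.2
    obtain ⟨g, hg1, hg2⟩ := h2' hxy₀ huv
    have hgP : g • P₀ = (P : Finset Ω) := by
      rw [hP]
      simp only [P₀, Finset.smul_finset_insert, Finset.smul_finset_singleton, hg1, hg2]
    have : S (P : Finset Ω) = g • S P₀ := by
      ext z
      rw [← hgP, Finset.mem_smul_finset, ]
      constructor
      · intro hz
        refine ⟨g⁻¹ • z, ?_, by simp⟩
        rw [hSsmul g, smul_inv_smul]
        exact hz
      · rintro ⟨w, hw, rfl⟩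
        exact (hSsmul g _ _).1 hw
    rw [this, Finset.card_smul_finset]
  -- the map
  have hmain : ∀ (α β : K), α * ((S P₀).card : K) + β * 2 = 0 →
      (∀ (f : Ω → K), ∑ z, f z = 0 → ∀ P : Set.powersetCard Ω 2, α * (∑ z ∈ S (P : Finset Ω), f z) + β * (∑ z ∈ (P : Finset Ω), f z) = 0) := by
    intro α β hab
    let Ψ : (Ω → K) →ₗ[K] (Set.powersetCard Ω 2 → K) :=
      { toFun := fun f P => α * (∑ z ∈ S (P : Finset Ω), f z) + β * (∑ z ∈ (P : Finset Ω), f z)
        map_add' := fun f g => by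
          funext P
          simp [Finset.sum_add_distrib, mul_add]
          ring
        map_smul' := fun c f => by
          funext P
          simp [Finset.mul_sum]
          simp only [← Finset.mul_sum]
          ring }
    have hΨ : ∀ f P, Ψ f P = α * (∑ z ∈ S (P : Finset Ω), f z) + β * (∑ z ∈ (P : Finset Ω), f z) := fun f P => rfl
    let F : (Cfsg.permSumZero K G Ω).toSubmodule →ₗ[K] (Set.powersetCard Ω 2 → K) :=
      Ψ ∘ₗ (Cfsg.permSumZero K G Ω).toSubmodule.subtype
    have hF : ∀ (g : G) (v : (Cfsg.permSumZero K G Ω).toSubmodule), F ((Cfsg.permSumZero K G Ω).toRepresentation g v) = (Cfsg.permRep K G (Set.powersetCard Ω 2)) g (F v) := by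
      intro g v
      funext P
      show Ψ (((Cfsg.permRep K G Ω) g) (v : Ω → K)) P = Ψ (v : Ω → K) (g⁻¹ • P)
      rw [hΨ, hΨ]
      have h1 : ∑ z ∈ S (P : Finset Ω), ((Cfsg.permRep K G Ω) g) (v : Ω → K) z = ∑ z ∈ S ((g⁻¹ • P : Set.powersetCard Ω 2) : Finset Ω), (v : Ω → K) z := by
        refine Finset.sum_equiv (MulAction.toPerm g⁻¹) (fun z => ?_) (fun z _ => rfl)
        rw [Set.powersetCard.coe_smul]
        exact hSsmul g⁻¹ _ _
      have h3 : ∑ z ∈ (P : Finset Ω), ((Cfsg.permRep K G Ω) g) (v : Ω → K) z = ∑ z ∈ ((g⁻¹ • P : Set.powersetCard Ω 2) : Finset Ω), (v : Ω → K) z := by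
        refine Finset.sum_equiv (MulAction.toPerm g⁻¹) (fun z => ?_) (fun z _ => rfl)
        rw [Set.powersetCard.coe_smul]
        show z ∈ (P : Finset Ω) ↔ g⁻¹ • z ∈ g⁻¹ • (P : Finset Ω)
        rw [Finset.smul_mem_smul_finset_iff]
      rw [h1, h3]
    let f : Representation.IntertwiningMap (Cfsg.permSumZero K G Ω).toRepresentation (Cfsg.permRep K G (Set.powersetCard Ω 2)) :=
      LinearMap.intertwiningMap_of_isIntertwiningMap _ _ F hF
    have hf0 : f = 0 := by
      apply h
      intro v hv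
      obtain ⟨c, hc⟩ := Submodule.mem_span_singleton.1 hv
      funext P
      show Ψ (v : Ω → K) P = 0
      rw [hΨ, ← hc]
      have e1 : ∑ z ∈ S (P : Finset Ω), (c • fun _ : Ω => (1 : K)) z = c * ((S (P : Finset Ω)).card : K) := by
        simp [mul_comm]
      have e2 : ∑ z ∈ (P : Finset Ω), (c • fun _ : Ω => (1 : K)) z = c * 2 := by
        have := P.2
        simp only [Pi.smul_apply, smul_eq_mul, mul_one, Finset.sum_const, nsmul_eq_mul]
        have hc2 : (P : Finset Ω).card = 2 := P.2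
        rw [hc2]
        push_cast
        ring
      rw [e1, e2, hScard P]
      linear_combination c * hab
    intro f' hf' P
    have := congrFun (congrArg (fun Φ => Φ ⟨f', hf'⟩) hf0) P
    exact this
  by_cases hK2 : (2 : K) = 0
  · -- characteristic two
    have := hmain 0 1 (by simp [hK2]) (Pi.single x₀ 1 - Pi.single z₀ 1) (by simp [Finset.sum_sub_distrib]) PP₀
    simp only [zero_mul, one_mul, zero_add] at this
    have e : ∑ z ∈ (PP₀ : Finset Ω), (Pi.single x₀ 1 - Pi.single z₀ 1 : Ω → K) z = 1 := by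
      show ∑ z ∈ P₀, (Pi.single x₀ 1 - Pi.single z₀ 1 : Ω → K) z = 1
      simp only [P₀]
      rw [Finset.sum_pair hxy₀]
      simp [Pi.single_apply, Ne.symm h1, Ne.symm h2₀, hxy₀.symm]
    rw [e] at this
    exact one_ne_zero this
  · have := hmain 2 (-((S P₀).card : K)) (by ring) (Pi.single z₀ 1 - Pi.single z₀' 1) (by simp [Finset.sum_sub_distrib]) PP₀
    have e1 : ∑ z ∈ (PP₀ : Finset Ω), (Pi.single z₀ 1 - Pi.single z₀' 1 : Ω → K) z = 0 := by
      show ∑ z ∈ P₀, (Pi.single z₀ 1 - Pi.single z₀' 1 : Ω → K) z = 0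
      simp only [P₀]
      rw [Finset.sum_pair hxy₀]
      simp [Pi.single_apply, Ne.symm h1, Ne.symm h2₀, Ne.symm h3, Ne.symm h4]
    have e2 : ∑ z ∈ S (PP₀ : Finset Ω), (Pi.single z₀ 1 - Pi.single z₀' 1 : Ω → K) z = 1 := by
      show ∑ z ∈ S P₀, (Pi.single z₀ 1 - Pi.single z₀' 1 : Ω → K) z = 1
      simp only [Pi.sub_apply, Finset.sum_sub_distrib]
      rw [Finset.sum_pi_single', Finset.sum_pi_single']
      simp [hSz₀, hSz₀']
    rw [e1, e2] at this
    simp at this
    exact hK2 this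


end Cfsg.Agent.S0672
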