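import Cfsg.Statements.S0675
import Mathlib
import Cfsg.Agent.Lib.PrimeDeg3
import Cfsg.Agent.Lib.PermOrb

set_option autoImplicit false
open Cfsg

namespace Cfsg.Agent.S0675


open Cfsg.Agent.Lib.PrimeDeg Cfsg.Agent.Lib.PermOrb

theorem exists_cycle_equiv {α : Type*} [Fintype α] [DecidableEq α] {p : ℕ} [hp : Fact p.Prime] (hα : Fintype.card α = p)
    (G : Subgroup (Equiv.Perm α)) [MulAction.IsPretransitive G α] :
    ∃ (a : Equiv.Perm α) (e : ZMod p ≃ α), a ∈ G ∧ ∀ i, a (e i) = e (i + 1) := by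
  classical
  have hne : Nonempty α := by
    rw [← Fintype.card_pos_iff, hα]
    exact hp.out.pos
  obtain ⟨x⟩ := hne
  have h1 := card_orbit_mul_stab (G := G) x
  have h2 : Nat.card (MulAction.orbit G x) = p := by
    rw [MulAction.orbit_eq_univ, Nat.card_coe_set_eq, Set.ncard_univ, Nat.card_eq_fintype_card, hα]
  rw [h2] at h1
  have hdvd : p ∣ Nat.card G := ⟨_, h1.symm⟩
  obtain ⟨a₀, ha₀⟩ := exists_prime_orderOf_dvd_card' p hdvd
  let a : Equiv.Perm α := a₀
  have ha : orderOf a = p := by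
    rw [Subgroup.orderOf_coe]; exact ha₀
  have ha1 : a ≠ 1 := by
    intro e
    rw [e, orderOf_one] at ha
    exact hp.out.one_lt.ne ha
  obtain ⟨x₀, hx₀⟩ : ∃ x₀, a x₀ ≠ x₀ := by
    by_contra hcon
    push Not at hcon
    exact ha1 (Equiv.ext hcon)
  have hap : a ^ p = 1 := by rw [← ha]; exact pow_orderOf_eq_one a
  let ε : ZMod p → α := fun i => (a ^ (i.val)) x₀
  have hfix : ∀ k : ℕ, 0 < k → k < p → (a ^ k) x₀ ≠ x₀ := by
    intro k hk0 hkp hk
    have hcop : Nat.Coprime k p := by
      rw [Nat.coprime_comm]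
      exact (Nat.Prime.coprime_iff_not_dvd hp.out).2 (fun hd => absurd (Nat.le_of_dvd hk0 hd) (by omega))
    obtain ⟨u, _, hu⟩ := Nat.exists_mul_mod_eq_one_of_coprime hcop hp.out.one_lt
    have h3 : a = (a ^ k) ^ u := by
      rw [← pow_mul, pow_eq_pow_mod (k * u) hap, hu, pow_one]
    apply hx₀
    rw [h3]
    exact Equiv.Perm.pow_apply_eq_self_of_apply_eq_self hk u
  have hinj : Function.Injective ε := by
    have key : ∀ i j : ZMod p, i.val < j.val → ε i ≠ ε j := by
      intro i j hij he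
      have hjv : j.val < p := ZMod.val_lt j
      apply hfix (j.val - i.val) (by omega) (by omega)
      have h4 : a ^ j.val = a ^ i.val * a ^ (j.val - i.val) := by
        rw [← pow_add]
        congr 1
        omega
      have h5 : (a ^ i.val) ((a ^ (j.val - i.val)) x₀) = (a ^ i.val) x₀ := by
        rw [← Equiv.Perm.mul_apply, ← h4]
        exact he.symm
      exact (a ^ i.val).injective h5
    intro i j he
    by_contra hne
    have hv : i.val ≠ j.val := fun e => hne (ZMod.val_injective p e)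
    rcases lt_or_gt_of_ne hv with h | h
    · exact key i j h he
    · exact key j i h he.symm
  have hbij : Function.Bijective ε := by
    rw [Fintype.bijective_iff_injective_and_card]
    refine ⟨hinj, ?_⟩
    rw [ZMod.card, hα]
  refine ⟨a, Equiv.ofBijective ε hbij, a₀.2, fun i => ?_⟩
  show a ((a ^ i.val) x₀) = (a ^ (i + 1).val) x₀
  have : Fact (1 < p) := ⟨hp.out.one_lt⟩
  rw [ZMod.val_add, ZMod.val_one, ← pow_eq_pow_mod _ hap, pow_succ', Equiv.Perm.mul_apply]

theorem solvable_of_affine {p : ℕ} [hp : Fact p.Prime] (G : Subgroup (Equiv.Perm (ZMod p)))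
    (h : ∀ σ ∈ G, ∃ a b : ZMod p, a ≠ 0 ∧ ∀ x, σ x = a * x + b) : Group.IsSolvable G := by
  classical
  have hne : ∀ σ : G, (σ : Equiv.Perm (ZMod p)) 1 - (σ : Equiv.Perm (ZMod p)) 0 ≠ 0 := by
    intro σ e
    exact zero_ne_one ((σ : Equiv.Perm (ZMod p)).injective (sub_eq_zero.1 e)).symm
  have hlin : ∀ (σ : G) (x y : ZMod p), (σ : Equiv.Perm (ZMod p)) x - (σ : Equiv.Perm (ZMod p)) y = ((σ : Equiv.Perm (ZMod p)) 1 - (σ : Equiv.Perm (ZMod p)) 0) * (x - y) := by
    intro σ x y
    obtain ⟨a, b, _, hσ⟩ := h σ σ.2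
    simp only [hσ]
    ring
  let χ : G →* (ZMod p)ˣ :=
    { toFun := fun σ => Units.mk0 _ (hne σ)
      map_one' := by
        apply Units.ext
        simp
      map_mul' := fun σ τ => by
        apply Units.ext
        simp only [Units.val_mk0, Units.val_mul, Subgroup.coe_mul, Equiv.Perm.mul_apply]
        exact hlin σ _ _ }
  have hker : ∀ σ : χ.ker, ∀ x, ((σ : G) : Equiv.Perm (ZMod p)) x = x + ((σ : G) : Equiv.Perm (ZMod p)) 0 := by
    intro σ x
    have h1 : χ (σ : G) = 1 := σ.2
    have h2 : ((σ : G) : Equiv.Perm (ZMod p)) 1 - ((σ : G) : Equiv.Perm (ZMod p)) 0 = 1 := congrArg Units.val h1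
    have h3 := hlin σ x 0
    rw [h2, one_mul, sub_zero] at h3
    exact sub_eq_iff_eq_add.1 h3
  haveI : Group.IsSolvable χ.ker := by
    apply Group.isSolvable_of_comm
    intro σ τ
    apply Subtype.ext
    apply Subtype.ext
    ext x
    simp only [Subgroup.coe_mul, Equiv.Perm.mul_apply]
    rw [hker σ (((τ : G) : Equiv.Perm (ZMod p)) x), hker τ x, hker τ (((σ : G) : Equiv.Perm (ZMod p)) x), hker σ x]
    ring
  exact Group.isSolvable_of_ker_le_range χ.ker.subtype χ (by simp)

/-- Burnside's Theorem on permutation groups of prime degree: a transitive permutation group of prime degree that is not solvable is doubly transitive. -/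
theorem result {α : Type*} [Fintype α] [DecidableEq α] (hα : (Fintype.card α).Prime) (G : Subgroup (Equiv.Perm α)) [MulAction.IsPretransitive G α] : Group.IsSolvable G ∨ MulAction.IsMultiplyPretransitive G α 2 := by
  classical
  set p := Fintype.card α with hpdef
  haveI : Fact p.Prime := ⟨hα⟩
  obtain ⟨a, e, ha, hae⟩ := exists_cycle_equiv (p := p) rfl G
  let ψ : Equiv.Perm α ≃* Equiv.Perm (ZMod p) := e.symm.permCongrHom
  have hval : ∀ (σ : Equiv.Perm α) (x : ZMod p), ψ σ x = e.symm (σ (e x)) := fun σ x => rfl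
  let G' : Subgroup (Equiv.Perm (ZMod p)) := G.map ψ.toMonoidHom
  have hshift : Equiv.addRight (1 : ZMod p) ∈ G' := by
    refine ⟨a, ha, ?_⟩
    ext x
    show ψ a x = x + 1
    rw [hval, hae, Equiv.symm_apply_apply]
  have hpow : ∀ n : ℕ, (Equiv.addRight (1 : ZMod p)) ^ n = Equiv.addRight (n : ZMod p) := by
    intro n
    induction n with
    | zero => ext x; simp
    | succ n ih =>
      rw [pow_succ, ih]
      ext x
      simp [add_comm, add_left_comm, add_assoc]
  have hτ : ∀ c : ZMod p, Equiv.addRight c ∈ G' := by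
    intro c
    have := G'.pow_mem hshift c.val
    rw [hpow] at this
    simpa using this
  rcases main_zmod G' hτ with haff | h2
  · left
    have hs := solvable_of_affine G' haff
    exact @Group.isSolvable_of_isSolvable_injective _ _ _ _ (ψ.subgroupMap G).toMonoidHom (ψ.subgroupMap G).injective hs
  · right
    rw [MulAction.is_two_pretransitive_iff]
    intro a₁ b₁ c d hab hcd
    have hy1 : e.symm b₁ - e.symm a₁ ≠ 0 := by
      intro h0
      exact hab (e.symm.injective (sub_eq_zero.1 h0)).symm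
    have hy2 : e.symm d - e.symm c ≠ 0 := by
      intro h0
      exact hcd (e.symm.injective (sub_eq_zero.1 h0)).symm
    obtain ⟨g₁, hg₁, hg₁0, hg₁1⟩ := h2 _ hy1
    obtain ⟨g₂, hg₂, hg₂0, hg₂1⟩ := h2 _ hy2
    let h : Equiv.Perm (ZMod p) := Equiv.addRight (e.symm c) * g₂ * g₁⁻¹ * Equiv.addRight (-(e.symm a₁))
    have hG : h ∈ G' := G'.mul_mem (G'.mul_mem (G'.mul_mem (hτ _) hg₂) (G'.inv_mem hg₁)) (hτ _)
    obtain ⟨σ, hσ, hσe⟩ := hG
    have hσe' : ψ σ = h := hσe
    have e1 : h (e.symm a₁) = e.symm c := by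
      show g₂ (g₁⁻¹ (e.symm a₁ + -(e.symm a₁))) + e.symm c = e.symm c
      have : g₁⁻¹ 0 = 0 := by rw [Equiv.Perm.inv_eq_iff_eq, hg₁0]
      rw [add_neg_cancel, this, hg₂0, zero_add]
    have e2 : h (e.symm b₁) = e.symm d := by
      show g₂ (g₁⁻¹ (e.symm b₁ + -(e.symm a₁))) + e.symm c = e.symm d
      have : g₁⁻¹ (e.symm b₁ + -(e.symm a₁)) = 1 := by
        rw [Equiv.Perm.inv_eq_iff_eq, hg₁1]
        ring
      rw [this, hg₂1]
      ring
    refine ⟨⟨σ, hσ⟩, ?_, ?_⟩
    · show σ a₁ = c
      have := e1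
      rw [← hσe', hval, Equiv.apply_symm_apply] at this
      exact e.symm.injective this
    · show σ b₁ = d
      have := e2
      rw [← hσe', hval, Equiv.apply_symm_apply] at this
      exact e.symm.injective this


end Cfsg.Agent.S0675
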