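import Cfsg.Statements.S0674
import Mathlib
import Cfsg.Agent.Lib.PolyFunK
import Cfsg.Agent.S0675

set_option autoImplicit false
open Cfsg

namespace Cfsg.Agent.S0674


open Polynomial Cfsg.Agent.Lib.PrimeDeg

/-- If a small space of polynomial functions is invariant, the group is affine. -/
theorem affine_of_inv {p : ℕ} [hp : Fact p.Prime] {G : Subgroup (Equiv.Perm (ZMod p))} {q : ℕ} (hq1 : 1 ≤ q) (h2q : 2 * q < p)
    (hI : Inv G (q + 1)) (g : Equiv.Perm (ZMod p)) (hg : g ∈ G) : ∃ a b : ZMod p, a ≠ 0 ∧ ∀ x, g x = a * x + b := by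
  have h1 := hI g hg _ (pow_mem_V (r := q + 1) (i := 1) (by omega))
  obtain ⟨A, hA, hA2⟩ := mem_V.1 h1
  have hA3 : A.natDegree ≤ q := by
    have := (deg_lt_iff (r := q + 1) (by omega)).1 hA
    omega
  have hpw : ∀ i, (evalL (A ^ i)) = fun x => (g x) ^ i := by
    intro i
    funext x
    have := congrFun hA2 x
    simp only [evalL_apply, pow_one] at this
    rw [evalL_apply, eval_pow, this]
  have hkey : ∀ i, i ≤ q → i * A.natDegree ≤ q := by
    intro i
    induction i with
    | zero => intro _; simp
    | succ i ih =>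
      intro hi
      have h2 := ih (by omega)
      have hle : (A ^ (i + 1)).natDegree ≤ (i + 1) * A.natDegree := natDegree_pow_le
      have hlt : (i + 1) * A.natDegree < p := by
        have : (i + 1) * A.natDegree = i * A.natDegree + A.natDegree := by ring
        omega
      have h3 := hI g hg _ (pow_mem_V (r := q + 1) (i := i + 1) (by omega))
      obtain ⟨C', hC, hC2⟩ := mem_V.1 h3
      have hC3 : C'.natDegree ≤ q := by
        have := (deg_lt_iff (r := q + 1) (by omega)).1 hC
        omega
      have heq : A ^ (i + 1) = C' := eq_of_evalL (by omega) (by omega) (by rw [hpw, hC2])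
      have hA0 : A ≠ 0 := by
        rintro rfl
        have := congrFun hA2 0
        have h5 := congrFun hA2 1
        simp at this h5
        exact zero_ne_one (g.injective (this.symm.trans h5))
      have hdeg : (A ^ (i + 1)).natDegree = (i + 1) * A.natDegree := natDegree_pow _ _
      rw [← hdeg, heq]
      exact hC3
  have hd : A.natDegree ≤ 1 := by
    have := hkey q le_rfl
    by_contra hcon
    push Not at hcon
    have h6 : q * 2 ≤ q * A.natDegree := Nat.mul_le_mul_left _ hcon
    omega
  obtain ⟨a, b, hab⟩ := exists_eq_X_add_C_of_natDegree_le_one hd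
  have hval : ∀ x, g x = a * x + b := by
    intro x
    have := congrFun hA2 x
    simp only [evalL_apply, pow_one] at this
    rw [← this, hab]
    simp
  refine ⟨a, b, ?_, hval⟩
  intro ha
  have e0 := hval 0
  have e1 := hval 1
  rw [ha] at e0 e1
  have : g 0 = g 1 := by
    rw [e0, e1]
    simp
  exact zero_ne_one (g.injective this)

theorem sum_eval_K {p : ℕ} [hp : Fact p.Prime] {K : Type*} [Field K] [CharP K p] (Q : K[X]) (hQ : Q.natDegree < p) :
    ∑ j : ZMod p, Q.eval (Cfsg.Agent.Lib.PolyFunK.ι j) = - Q.coeff (p - 1) := by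
  classical
  have hp1 : 1 < p := hp.out.one_lt
  simp_rw [eval_eq_sum_range' hQ]
  rw [Finset.sum_comm]
  have hterm : ∀ m, m < p → ∑ j : ZMod p, (Cfsg.Agent.Lib.PolyFunK.ι j : K) ^ m = if m = p - 1 then -1 else 0 := by
    intro m hm
    have h1 := sum_eval (p := p) (X ^ m) (by rw [natDegree_X_pow]; exact hm)
    simp only [eval_pow, eval_X, coeff_X_pow] at h1
    have h2 := congrArg (Cfsg.Agent.Lib.PolyFunK.ι : ZMod p →+* K) h1
    simp only [map_sum, map_pow, map_neg] at h2
    rw [h2]
    by_cases he : m = p - 1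
    · simp [he]
    · have : p - 1 ≠ m := fun e => he e.symm
      simp [he, this]
  simp_rw [← Finset.mul_sum]
  rw [Finset.sum_congr rfl (fun m hm => by rw [hterm m (Finset.mem_range.1 hm)])]
  simp only [mul_ite, mul_neg, mul_one, mul_zero]
  rw [Finset.sum_ite_eq' (Finset.range p) (p - 1), if_pos (Finset.mem_range.2 (by omega))]

/-- Let `G` be a non-solvable transitive permutation group of prime degree `p` and `K` a field of characteristic `p`. Then the heart of the permutation module is irreducible: an invariant subspace containing the constants and contained in the sum-zero functions is one or the other. -/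
theorem result {α : Type*} [Fintype α] [DecidableEq α] {p : ℕ} [Fact p.Prime] (hα : Fintype.card α = p) (G : Subgroup (Equiv.Perm α)) [MulAction.IsPretransitive G α] (hG : ¬ Group.IsSolvable G) {K : Type*} [Field K] [CharP K p] (W : Subrepresentation (Cfsg.permRep K G α)) (h₁ : (Cfsg.permConstants K G α).toSubmodule ≤ W.toSubmodule) (h₂ : W.toSubmodule ≤ (Cfsg.permSumZero K G α).toSubmodule) : W = Cfsg.permConstants K G α ∨ W = Cfsg.permSumZero K G α := by
  classical
  obtain ⟨a, e, ha, hae⟩ := Cfsg.Agent.S0675.exists_cycle_equiv hα G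
  have hp1 : 1 < p := (Fact.out : p.Prime).one_lt
  let ψ : Equiv.Perm α ≃* Equiv.Perm (ZMod p) := e.symm.permCongrHom
  have hval : ∀ (σ : Equiv.Perm α) (x : ZMod p), ψ σ x = e.symm (σ (e x)) := fun σ x => rfl
  let G' : Subgroup (Equiv.Perm (ZMod p)) := G.map ψ.toMonoidHom
  let ι : ZMod p →+* K := Cfsg.Agent.Lib.PolyFunK.ι
  let W' : Submodule K (ZMod p → K) := W.toSubmodule.comap (LinearMap.funLeft K K e.symm)
  have hW'mem : ∀ h : ZMod p → K, h ∈ W' ↔ (fun x => h (e.symm x)) ∈ W.toSubmodule := fun h => Iff.rfl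
  have hinvW : ∀ (g : G) (f : α → K), f ∈ W.toSubmodule → (fun x => f ((g : Equiv.Perm α)⁻¹ x)) ∈ W.toSubmodule := by
    intro g f hf
    exact W.apply_mem_toSubmodule g hf
  have htrans : ∀ f ∈ W', (fun j => f (j - 1)) ∈ W' := by
    intro f hf
    rw [hW'mem] at hf ⊢
    have := hinvW ⟨a, ha⟩ _ hf
    convert this using 2 with x
    congr 1
    show e.symm x - 1 = e.symm (a⁻¹ x)
    rw [sub_eq_iff_eq_add, Equiv.symm_apply_eq, ← hae]
    simp
  obtain ⟨r, hrp, hrk, hrW⟩ := Cfsg.Agent.Lib.PolyFunK.invariant_subspace W' htrans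
  have hpt : ∀ c : K, (fun _ : ZMod p => c) ∈ W' := by
    intro c
    rw [hW'mem]
    have h1 : (fun _ : α => (1 : K)) ∈ W.toSubmodule := h₁ (Submodule.mem_span_singleton_self _)
    have h2 := W.toSubmodule.smul_mem c h1
    convert h2 using 1
    funext x
    simp
  have hsumz : ∀ h ∈ W', ∑ j, h j = 0 := by
    intro h hh
    rw [hW'mem] at hh
    have h1 : ∑ x, h (e.symm x) = 0 := h₂ hh
    rw [← h1]
    exact (Equiv.sum_comp e.symm h).symm
  have hr1 : 1 ≤ r := by
    by_contra hcon
    have hr0 : r = 0 := by omega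
    obtain ⟨P, hP, hPe⟩ := (hrW _).1 (hpt 1)
    rw [hr0] at hP
    have : P = 0 := by
      rw [← degree_eq_bot]
      simpa using hP
    have h1 := hPe 0
    rw [this] at h1
    simp at h1
  have hsumι : ∑ j : ZMod p, (ι j) ^ (p - 1) = -1 := by
    have h1 := sum_eval (p := p) (X ^ (p - 1)) (by rw [natDegree_X_pow]; omega)
    simp only [eval_pow, eval_X, coeff_X_pow_self] at h1
    have h2 := congrArg ι h1
    simp only [map_sum, map_pow, map_neg, map_one] at h2
    exact h2
  have hrp1 : r ≤ p - 1 := by
    by_contra hcon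
    have hr0 : r = p := by omega
    have hmem : (fun j : ZMod p => (ι j) ^ (p - 1)) ∈ W' := by
      rw [hrW]
      refine ⟨X ^ (p - 1), ?_, fun j => by simp; rfl⟩
      rw [degree_X_pow, hr0]
      exact_mod_cast (by omega : p - 1 < p)
    have := hsumz _ hmem
    rw [hsumι] at this
    exact (neg_ne_zero.2 one_ne_zero) this
  have hI : Inv G' r := by
    intro g' hg' f hf
    obtain ⟨σ, hσ, rfl⟩ := hg'
    obtain ⟨P, hP, rfl⟩ := mem_V.1 hf
    have hιinj : Function.Injective ι := Cfsg.Agent.Lib.PolyFunK.ι_inj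
    have h1 : (fun j => ι (evalL P j)) ∈ W' := by
      rw [hrW]
      refine ⟨P.map ι, ?_, fun j => ?_⟩
      · rw [degree_map_eq_of_injective hιinj]
        exact hP
      · rw [evalL_apply]
        exact (eval_map_apply ι j).symm
    have h2 : (fun j => ι (evalL P (ψ.toMonoidHom σ j))) ∈ W' := by
      rw [hW'mem] at h1 ⊢
      have := hinvW ⟨σ⁻¹, G.inv_mem hσ⟩ _ h1
      convert this using 2 with x
      simp [hval]
    obtain ⟨Q, hQ, hQe⟩ := (hrW _).1 h2
    obtain ⟨B, hB, hBe⟩ := exists_rep (fun x => evalL P (ψ.toMonoidHom σ x))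
    have hBeval : ∀ j, B.eval j = evalL P (ψ.toMonoidHom σ j) := fun j => congrFun hBe j
    have h3 : Cfsg.Agent.Lib.PolyFunK.rep (fun j => ι (evalL P (ψ.toMonoidHom σ j))) = B.map ι := by
      apply Cfsg.Agent.Lib.PolyFunK.rep_eq
      · rw [degree_map_eq_of_injective hιinj]
        exact (deg_lt_iff (Fact.out : p.Prime).pos).2 hB
      · intro j
        show (B.map ι).eval (ι j) = _
        rw [eval_map_apply, hBeval]
    have h4 : Cfsg.Agent.Lib.PolyFunK.rep (fun j => ι (evalL P (ψ.toMonoidHom σ j))) = Q := by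
      apply Cfsg.Agent.Lib.PolyFunK.rep_eq
      · refine lt_of_lt_of_le hQ ?_
        exact_mod_cast hrp
      · intro j
        exact (hQe j).symm
    have h5 : B.map ι = Q := h3.symm.trans h4
    rw [mem_V]
    refine ⟨B, ?_, hBe⟩
    rw [← degree_map_eq_of_injective hιinj, h5]
    exact hQ
  have hG' : ¬ ∀ σ ∈ G', ∃ a b : ZMod p, a ≠ 0 ∧ ∀ x, σ x = a * x + b := by
    intro haff
    have hs := Cfsg.Agent.S0675.solvable_of_affine G' haff
    exact hG (@Group.isSolvable_of_isSolvable_injective _ _ _ _ (ψ.subgroupMap G).toMonoidHom (ψ.subgroupMap G).injective hs)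
  by_cases hr11 : r = 1
  · left
    have h3 : W.toSubmodule = (Cfsg.permConstants K G α).toSubmodule := by
      apply le_antisymm _ h₁
      intro f hf
      have h4 : (fun j => f (e j)) ∈ W' := by
        rw [hW'mem]
        convert hf using 2 with x
        simp
      obtain ⟨P, hP, hPe⟩ := (hrW _).1 h4
      rw [hr11] at hP
      have hd : P.natDegree = 0 := by
        rw [← Nat.le_zero, natDegree_le_iff_coeff_eq_zero]
        intro m hm
        exact (degree_lt_iff_coeff_zero _ _).1 hP m hm
      have hc := eq_C_of_natDegree_eq_zero hd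
      refine Submodule.mem_span_singleton.2 ⟨P.coeff 0, ?_⟩
      funext x
      have := hPe (e.symm x)
      simp only [Equiv.apply_symm_apply] at this
      rw [this, hc]
      simp
    exact Subrepresentation.toSubmodule_injective h3
  by_cases hr2 : r = p - 1
  · right
    have h3 : W.toSubmodule = (Cfsg.permSumZero K G α).toSubmodule := by
      apply le_antisymm h₂
      intro f hf
      have hf' : ∑ x, f x = 0 := hf
      let h := fun j => f (e j)
      have hsum : ∑ j, h j = 0 := by
        rw [← hf']
        exact Equiv.sum_comp e f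
      have hdegP := Cfsg.Agent.Lib.PolyFunK.rep_deg h
      have hnat : (Cfsg.Agent.Lib.PolyFunK.rep h).natDegree < p := by
        by_cases h0 : Cfsg.Agent.Lib.PolyFunK.rep h = 0
        · rw [h0]; simpa using (Fact.out : p.Prime).pos
        · exact (natDegree_lt_iff_degree_lt h0).2 hdegP
      have hs1 := sum_eval_K (K := K) _ hnat
      simp_rw [Cfsg.Agent.Lib.PolyFunK.eval_rep] at hs1
      rw [hsum] at hs1
      have hc0 : (Cfsg.Agent.Lib.PolyFunK.rep h).coeff (p - 1) = 0 := by
        simpa using hs1.symm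
      have h4 : h ∈ W' := by
        rw [hrW]
        refine ⟨Cfsg.Agent.Lib.PolyFunK.rep h, ?_, fun j => (Cfsg.Agent.Lib.PolyFunK.eval_rep h j).symm⟩
        rw [degree_lt_iff_coeff_zero, hr2]
        intro m hm
        rcases Nat.eq_or_lt_of_le hm with hm' | hm'
        · rw [← hm']; exact hc0
        · exact coeff_eq_zero_of_natDegree_lt (by omega)
      rw [hW'mem] at h4
      convert h4 using 2 with x
      simp [h]
    exact Subrepresentation.toSubmodule_injective h3
  exfalso
  apply hG'
  intro σ hσ
  by_cases h2q : 2 * (r - 1) < p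
  · refine affine_of_inv (q := r - 1) (by omega) h2q ?_ σ hσ
    have e1 : r - 1 + 1 = r := by omega
    rwa [e1]
  · refine affine_of_inv (q := p - r - 1) (by omega) (by omega) ?_ σ hσ
    have e1 : p - r - 1 + 1 = p - r := by omega
    rw [e1]
    exact inv_dual hI hrp


end Cfsg.Agent.S0674
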