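import Cfsg.Statements.S0676
import Mathlib
import Cfsg.Agent.S0672
import Cfsg.Agent.S0674
import Cfsg.Agent.S0675

set_option autoImplicit false
open Cfsg

namespace Cfsg.Agent.S0676


open Polynomial Cfsg.Agent.Lib.PermOrb
open scoped Pointwise

/-- coordinates for a given element of order `p`. -/
theorem exists_cycle_equiv_of {α : Type*} [Fintype α] [DecidableEq α] {p : ℕ} [hp : Fact p.Prime] (hα : Fintype.card α = p)
    (a : Equiv.Perm α) (ha : orderOf a = p) :
    ∃ (e : ZMod p ≃ α), ∀ i, a (e i) = e (i + 1) := by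
  classical
  have ha1 : a ≠ 1 := by
    intro e
    rw [e, orderOf_one] at ha
    exact hp.out.one_lt.ne ha
  obtain ⟨x₀, hx₀⟩ : ∃ x₀, a x₀ ≠ x₀ := by
    by_contra hcon
    push Not at hcon
    exact ha1 (Equiv.ext hcon)
  have hap : a ^ p = 1 := by rw [← ha]; exact pow_orderOf_eq_one a
  let ε : ZMod p → α := fun i => (a ^ (i.val)) x₀
  have hfix : ∀ k : ℕ, 0 < k → k < p → (a ^ k) x₀ ≠ x₀ := by
    intro k hk0 hkp hk
    have hcop : Nat.Coprime k p := by
      rw [Nat.coprime_comm]
      exact (Nat.Prime.coprime_iff_not_dvd hp.out).2 (fun hd => absurd (Nat.le_of_dvd hk0 hd) (by omega))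
    obtain ⟨u, _, hu⟩ := Nat.exists_mul_mod_eq_one_of_coprime hcop hp.out.one_lt
    have h3 : a = (a ^ k) ^ u := by
      rw [← pow_mul, pow_eq_pow_mod (k * u) hap, hu, pow_one]
    apply hx₀
    rw [h3]
    exact Equiv.Perm.pow_apply_eq_self_of_apply_eq_self hk u
  have hinj : Function.Injective ε := by
    have key : ∀ i j : ZMod p, i.val < j.val → ε i ≠ ε j := by
      intro i j hij he
      have hjv : j.val < p := ZMod.val_lt j
      apply hfix (j.val - i.val) (by omega) (by omega)
      have h4 : a ^ j.val = a ^ i.val * a ^ (j.val - i.val) := by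
        rw [← pow_add]
        congr 1
        omega
      have h5 : (a ^ i.val) ((a ^ (j.val - i.val)) x₀) = (a ^ i.val) x₀ := by
        rw [← Equiv.Perm.mul_apply, ← h4]
        exact he.symm
      exact (a ^ i.val).injective h5
    intro i j he
    by_contra hne
    have hv : i.val ≠ j.val := fun e => hne (ZMod.val_injective p e)
    rcases lt_or_gt_of_ne hv with h | h
    · exact key i j h he
    · exact key j i h he.symm
  have hbij : Function.Bijective ε := by
    rw [Fintype.bijective_iff_injective_and_card]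
    refine ⟨hinj, ?_⟩
    rw [ZMod.card, hα]
  refine ⟨Equiv.ofBijective ε hbij, fun i => ?_⟩
  show a ((a ^ i.val) x₀) = (a ^ (i + 1).val) x₀
  have : Fact (1 < p) := ⟨hp.out.one_lt⟩
  rw [ZMod.val_add, ZMod.val_one, ← pow_eq_pow_mod _ hap, pow_succ', Equiv.Perm.mul_apply]

theorem pow_e {α : Type*} {p : ℕ} [hp : Fact p.Prime] (a : Equiv.Perm α) (e : ZMod p ≃ α) (hae : ∀ i, a (e i) = e (i + 1)) (k : ℕ) (i : ZMod p) :
    (a ^ k) (e i) = e (i + k) := by
  induction k with
  | zero => simp
  | succ k ih =>
    rw [pow_succ', Equiv.Perm.mul_apply, ih, hae]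
    push_cast
    rw [add_assoc]

/-- A non-solvable transitive permutation group of prime degree `p` whose Sylow `p`-normaliser has even order is triply transitive. -/
theorem result {α : Type*} [Fintype α] [DecidableEq α] {p : ℕ} [Fact p.Prime] (hα : Fintype.card α = p) (G : Subgroup (Equiv.Perm α)) [MulAction.IsPretransitive G α] (hG : ¬ Group.IsSolvable G) (P : Sylow p G) (heven : Even (Nat.card (Subgroup.normalizer ((P : Subgroup G) : Set G)))) : MulAction.IsMultiplyPretransitive G α 3 := by
  classical
  have hp' : p.Prime := Fact.out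
  have hs := Cfsg.Agent.S0675.result (hα ▸ hp') G
  have h2 : MulAction.IsMultiplyPretransitive G α 2 := hs.resolve_left hG
  have hcardPerm : Nat.card (Equiv.Perm α) = p.factorial := by
    rw [Nat.card_eq_fintype_card, Fintype.card_perm, hα]
  have hp2 : p ≠ 2 := by
    intro e2
    apply hG
    apply Group.isSolvable_of_comm
    intro x y
    have hc : Nat.card (Equiv.Perm α) = 2 := by
      rw [hcardPerm, e2]; rfl
    haveI : Fact (Nat.Prime (Nat.card (Equiv.Perm α))) := ⟨by rw [hc]; exact Nat.prime_two⟩
    haveI : IsCyclic (Equiv.Perm α) := isCyclic_of_prime_card rfl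
    obtain ⟨g₀, hg₀⟩ := IsCyclic.exists_generator (α := Equiv.Perm α)
    obtain ⟨m, hm⟩ := Subgroup.mem_zpowers_iff.1 (hg₀ x.1)
    obtain ⟨n, hn⟩ := Subgroup.mem_zpowers_iff.1 (hg₀ y.1)
    apply Subtype.ext
    show x.1 * y.1 = y.1 * x.1
    rw [← hm, ← hn, ← zpow_add, ← zpow_add, add_comm]
  have hpodd : Odd p := hp'.odd_of_ne_two hp2
  have hGp : Nat.card G ∣ p.factorial := by
    rw [← hcardPerm]
    exact Subgroup.card_subgroup_dvd_card G
  -- a Sylow subgroup has order `p`
  have hPcard : Nat.card (P : Subgroup G) = p := by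
    obtain ⟨m, hm⟩ := IsPGroup.iff_card.1 P.2
    have hdvd : p ^ m ∣ p.factorial := by
      rw [← hm]
      exact (Subgroup.card_subgroup_dvd_card _).trans hGp
    have hm1 : m ≤ 1 := by
      by_contra hcon
      have h22 : p ^ 2 ∣ p.factorial := (pow_dvd_pow p (by omega)).trans hdvd
      have hfac : p.factorial = p * (p - 1).factorial := by
        conv_lhs => rw [show p = (p - 1) + 1 by have := hp'.two_le; omega]
        rw [Nat.factorial_succ]
        rw [show p - 1 + 1 = p by have := hp'.two_le; omega]
      rw [hfac, pow_two] at h22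
      have := Nat.dvd_of_mul_dvd_mul_left hp'.pos h22
      rw [hp'.dvd_factorial] at this
      have := hp'.two_le
      omega
    have hpG : p ∣ Nat.card G := by
      have hne : Nonempty α := by
        rw [← Fintype.card_pos_iff, hα]
        exact hp'.pos
      obtain ⟨x⟩ := hne
      have h1 := card_orbit_mul_stab (G := G) x
      have h2' : Nat.card (MulAction.orbit G x) = p := by
        rw [MulAction.orbit_eq_univ, Nat.card_coe_set_eq, Set.ncard_univ, Nat.card_eq_fintype_card, hα]
      rw [h2'] at h1
      exact ⟨_, h1.symm⟩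
    have hpP : p ∣ Nat.card (P : Subgroup G) := P.dvd_card_of_dvd_card hpG
    rw [hm] at hpP ⊢
    have hm0 : m ≠ 0 := by
      rintro rfl
      simp at hpP
      exact hp'.one_lt.ne' hpP
    have : m = 1 := by omega
    rw [this, pow_one]
  have hpG : p ∣ Nat.card (P : Subgroup G) := by rw [hPcard]
  obtain ⟨a₀, ha₀⟩ := exists_prime_orderOf_dvd_card' p hpG
  let aG : G := (a₀ : G)
  let aa : Equiv.Perm α := (aG : Equiv.Perm α)
  have haG : orderOf aG = p := by
    rw [Subgroup.orderOf_coe]; exact ha₀
  have haa : orderOf aa = p := by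
    rw [Subgroup.orderOf_coe]; exact haG
  obtain ⟨e, hae⟩ := exists_cycle_equiv_of hα aa haa
  have h2N : 2 ∣ Nat.card (Subgroup.normalizer ((P : Subgroup G) : Set G)) := even_iff_two_dvd.1 heven
  haveI : Fact (Nat.Prime 2) := ⟨Nat.prime_two⟩
  obtain ⟨t₀, ht₀⟩ := exists_prime_orderOf_dvd_card' 2 h2N
  let tG : G := (t₀ : G)
  let T : Equiv.Perm α := (tG : Equiv.Perm α)
  have htG : orderOf tG = 2 := by
    rw [Subgroup.orderOf_coe]; exact ht₀
  have hT : orderOf T = 2 := by
    rw [Subgroup.orderOf_coe]; exact htG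
  have hT1 : T ≠ 1 := by
    intro e1
    rw [e1, orderOf_one] at hT
    omega
  have hTT : ∀ x, T (T x) = x := by
    intro x
    have : T ^ 2 = 1 := by rw [← hT]; exact pow_orderOf_eq_one T
    rw [← Equiv.Perm.mul_apply, ← pow_two, this]
    rfl
  -- powers of `a`
  have hzp : Subgroup.zpowers a₀ = ⊤ := by
    apply Subgroup.eq_top_of_card_eq
    rw [Nat.card_zpowers, ha₀, hPcard]
  have hconj : tG * aG * tG⁻¹ ∈ (P : Subgroup G) := (t₀.2 aG).1 a₀.2
  obtain ⟨k, hk⟩ : ∃ k : ℕ, a₀ ^ k = ⟨tG * aG * tG⁻¹, hconj⟩ := by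
    have h1 : (⟨tG * aG * tG⁻¹, hconj⟩ : (P : Subgroup G)) ∈ Subgroup.zpowers a₀ := by
      rw [hzp]; trivial
    rw [← mem_powers_iff_mem_zpowers] at h1
    exact h1
  have hk' : T * aa * T⁻¹ = aa ^ k := by
    have := congrArg (fun u : (P : Subgroup G) => ((u : G) : Equiv.Perm α)) hk
    simp only [SubmonoidClass.coe_pow] at this
    exact this.symm
  let φ : ZMod p → ZMod p := fun j => e.symm (T (e j))
  have hφ : ∀ j, T (e j) = e (φ j) := fun j => by simp [φ]
  let u : ZMod p := (k : ZMod p)
  let b : ZMod p := φ 0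
  have hstep : ∀ j, φ (j + 1) = φ j + u := by
    intro j
    have h1 : T (e (j + 1)) = (aa ^ k) (T (e j)) := by
      rw [← hae, ← hk']
      simp
    simp only [φ]
    rw [h1, hφ, pow_e aa e hae]
    simp [φ, u]
  have hnat : ∀ n : ℕ, φ (n : ZMod p) = b + n * u := by
    intro n
    induction n with
    | zero => simp [b]
    | succ n ih =>
      push_cast
      rw [hstep, ih]
      ring
  have hφeq : ∀ j, φ j = b + j * u := by
    intro j
    have := hnat j.val
    simpa using this
  have hφφ : ∀ j, φ (φ j) = j := by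
    intro j
    simp only [φ]
    rw [Equiv.apply_symm_apply, hTT]
    simp
  have hK2 : (2 : ZMod p) ≠ 0 := by
    intro h0
    have : ((2 : ℕ) : ZMod p) = 0 := by exact_mod_cast h0
    rw [ZMod.natCast_eq_zero_iff] at this
    exact hp2 ((Nat.prime_dvd_prime_iff_eq hp' Nat.prime_two).1 this)
  have hu2 : u * u = 1 := by
    have h0 := hφφ 0
    have h1 := hφφ 1
    rw [hφeq 0, hφeq (b + 0 * u)] at h0
    rw [hφeq 1, hφeq (b + 1 * u)] at h1
    linear_combination h1 - h0
  have hum : u = -1 := by
    have h3 : (u - 1) * (u + 1) = 0 := by linear_combination hu2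
    rcases mul_eq_zero.1 h3 with h4 | h4
    · exfalso
      have hu1 : u = 1 := sub_eq_zero.1 h4
      have h0 := hφφ 0
      rw [hφeq 0, hφeq (b + 0 * u), hu1] at h0
      have hb : b = 0 := by
        have : 2 * b = 0 := by linear_combination h0
        exact (mul_eq_zero.1 this).resolve_left hK2
      apply hT1
      ext x
      obtain ⟨j, rfl⟩ := e.surjective x
      rw [hφ, hφeq, hu1, hb]
      simp
    · exact eq_neg_of_add_eq_zero_left h4
  have hTe : ∀ j, T (e j) = e (b - j) := by
    intro j
    rw [hφ, hφeq, hum]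
    congr 1
    ring
  -- even stabilisers
  have heven' : ∀ x : α, Even (Nat.card (MulAction.stabilizer G x)) := by
    have hcardstab : ∀ x y : α, Nat.card (MulAction.stabilizer G x) = Nat.card (MulAction.stabilizer G y) := by
      intro x y
      have h1 := card_orbit_mul_stab (G := G) x
      have h2' := card_orbit_mul_stab (G := G) y
      rw [MulAction.orbit_eq_univ] at h1 h2'
      have := h1.trans h2'.symm
      exact Nat.eq_of_mul_eq_mul_left (by
        rw [Nat.card_coe_set_eq, Set.ncard_univ, Nat.card_eq_fintype_card, hα]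
        exact hp'.pos) this
    intro x
    rw [hcardstab x (e (b / 2)), even_iff_two_dvd]
    have hfix : tG ∈ MulAction.stabilizer G (e (b / 2)) := by
      rw [MulAction.mem_stabilizer_iff]
      show T (e (b / 2)) = e (b / 2)
      rw [hTe]
      congr 1
      field_simp
      ring
    have := orderOf_dvd_natCard (⟨tG, hfix⟩ : MulAction.stabilizer G (e (b / 2)))
    rwa [Subgroup.orderOf_mk, htG] at this
  have hpcard : p ∣ Fintype.card α := by rw [hα]
  refine Cfsg.Agent.S0672.result (K := ZMod p) (p := p) h2 hpcard heven' ?_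
  intro f hfc
  classical
  let ρ := Cfsg.permRep (ZMod p) G α
  let Z := Cfsg.permSumZero (ZMod p) G α
  -- the kernel as a subrepresentation of the permutation module
  let W : Subrepresentation ρ :=
    { toSubmodule := (LinearMap.ker f.toLinearMap).map Z.toSubmodule.subtype
      apply_mem_toSubmodule := by
        intro g v hv
        obtain ⟨u', hu', rfl⟩ := Submodule.mem_map.1 hv
        refine Submodule.mem_map.2 ⟨Z.toRepresentation g u', ?_, rfl⟩
        rw [LinearMap.mem_ker] at hu' ⊢
        have := Representation.IntertwiningMap.isIntertwining _ _ f g u'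
        rw [Representation.IntertwiningMap.toLinearMap_apply] at hu' ⊢
        rw [this, hu', map_zero] }
  have hconstZ : ((Cfsg.permConstants (ZMod p) G α).toSubmodule) ≤ Z.toSubmodule := by
    show Submodule.span (ZMod p) {fun _ : α => (1 : ZMod p)} ≤ Z.toSubmodule
    rw [Submodule.span_singleton_le_iff_mem]
    show ∑ _x : α, (1 : ZMod p) = 0
    simp [hα]
  have hW1 : (Cfsg.permConstants (ZMod p) G α).toSubmodule ≤ W.toSubmodule := by
    intro v hv
    refine Submodule.mem_map.2 ⟨⟨v, hconstZ hv⟩, ?_, rfl⟩
    rw [LinearMap.mem_ker]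
    exact hfc ⟨v, hconstZ hv⟩ hv
  have hW2 : W.toSubmodule ≤ Z.toSubmodule := by
    rintro _ ⟨u', _, rfl⟩
    exact u'.2
  have hmemW : ∀ z : Z.toSubmodule, (z : α → ZMod p) ∈ W.toSubmodule ↔ f z = 0 := by
    intro z
    constructor
    · rintro ⟨u', hu', hz⟩
      have : u' = z := Subtype.ext hz
      rw [← this]
      exact hu'
    · intro hz
      exact Submodule.mem_map.2 ⟨z, hz, rfl⟩
  rcases Cfsg.Agent.S0674.result hα G hG (K := ZMod p) W hW1 hW2 with hc | hz
  · exfalso
    -- the coordinate function
    let v₁ : α → ZMod p := fun x => e.symm x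
    have hv₁sum : ∑ x, v₁ x = 0 := by
      have h1 : ∑ x, v₁ x = ∑ j : ZMod p, j := by
        exact Fintype.sum_equiv e.symm _ _ (fun x => rfl)
      rw [h1]
      have h3 := FiniteField.sum_pow_lt_card_sub_one (ZMod p) 1 (by
        rw [ZMod.card]
        have := hp'.two_le
        omega)
      simpa using h3
    let z₁ : Z.toSubmodule := ⟨v₁, hv₁sum⟩
    have hne : f z₁ ≠ 0 := by
      intro h0
      have h1 : v₁ ∈ W.toSubmodule := (hmemW z₁).2 h0
      rw [hc] at h1
      obtain ⟨c, hcc⟩ := Submodule.mem_span_singleton.1 h1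
      have h5 := congrFun hcc (e 0)
      have h6 := congrFun hcc (e 1)
      simp [v₁] at h5 h6
      rw [h5] at h6
      exact zero_ne_one h6
    have hconstf : ∀ (z : Z.toSubmodule) (c : ZMod p), (z : α → ZMod p) = (fun _ => c) → f z = 0 := by
      intro z c hz
      apply hfc
      rw [hz]
      refine Submodule.mem_span_singleton.2 ⟨c, ?_⟩
      funext x
      simp
    -- translation invariance
    have ha1 : ∀ Q, f z₁ (aG⁻¹ • Q) = f z₁ Q := by
      intro Q
      have h1 := Representation.IntertwiningMap.isIntertwining _ _ f aG z₁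
      let o : Z.toSubmodule := ⟨(fun _ => (1 : ZMod p)), hconstZ (Submodule.mem_span_singleton_self _)⟩
      have h3 : Z.toRepresentation aG z₁ = z₁ - o := by
        apply Subtype.ext
        funext x
        obtain ⟨j, rfl⟩ := e.surjective x
        show v₁ (aa⁻¹ (e j)) = v₁ (e j) - 1
        have h4 : aa⁻¹ (e j) = e (j - 1) := by
          rw [Equiv.Perm.inv_eq_iff_eq, hae]
          simp
        rw [h4]
        simp [v₁]
      rw [h3, map_sub, hconstf o 1 rfl, sub_zero] at h1
      have := congrFun h1 Q
      exact this.symm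
    have ha2 : ∀ Q, f z₁ (aG • Q) = f z₁ Q := by
      intro Q
      have := ha1 (aG • Q)
      rw [inv_smul_smul] at this
      exact this.symm
    have hak : ∀ (n : ℕ) Q, f z₁ ((aG ^ n) • Q) = f z₁ Q := by
      intro n
      induction n with
      | zero => intro Q; simp
      | succ n ih =>
        intro Q
        rw [pow_succ', mul_smul, ha2, ih]
    -- the involution
    have ht1 : ∀ Q, f z₁ (tG⁻¹ • Q) = - f z₁ Q := by
      intro Q
      have h1 := Representation.IntertwiningMap.isIntertwining _ _ f tG z₁
      let o : Z.toSubmodule := ⟨(fun _ => b), by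
        have h := Z.toSubmodule.smul_mem b (hconstZ (Submodule.mem_span_singleton_self _))
        convert h using 1
        funext x
        simp⟩
      have h3 : Z.toRepresentation tG z₁ = (-z₁) + o := by
        apply Subtype.ext
        funext x
        obtain ⟨j, rfl⟩ := e.surjective x
        show v₁ (T⁻¹ (e j)) = - v₁ (e j) + b
        have h4 : T⁻¹ (e j) = e (b - j) := by
          rw [Equiv.Perm.inv_eq_iff_eq, hTe]
          simp
        rw [h4]
        simp [v₁]
        ring
      rw [h3, map_add, map_neg, hconstf o b rfl, add_zero] at h1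
      have := congrFun h1 Q
      exact this.symm
    have hinv : tG⁻¹ = tG := by
      rw [inv_eq_iff_mul_eq_one]
      have : tG ^ 2 = 1 := by rw [← htG]; exact pow_orderOf_eq_one tG
      rwa [pow_two] at this
    have ht2 : ∀ Q : Set.powersetCard α 2, ∃ n : ℕ, tG • Q = (aG ^ n) • Q := by
      intro Q
      obtain ⟨x, y, hxy, hQ⟩ := Finset.card_eq_two.1 Q.2
      obtain ⟨i, rfl⟩ := e.surjective x
      obtain ⟨j, rfl⟩ := e.surjective y
      refine ⟨(b - i - j).val, ?_⟩
      apply Subtype.ext
      show tG • (Q : Finset α) = (aG ^ (b - i - j).val) • (Q : Finset α)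
      rw [hQ]
      simp only [Finset.smul_finset_insert, Finset.smul_finset_singleton]
      have h5 : ∀ m, (aG ^ (b - i - j).val) • e m = e (b - i - j + m) := by
        intro m
        show (aa ^ (b - i - j).val) (e m) = _
        rw [pow_e aa e hae]
        simp [add_comm]
      have h6 : ∀ m, tG • e m = e (b - m) := fun m => hTe m
      rw [h5, h5, h6, h6, Finset.pair_comm]
      have e1 : b - i - j + i = b - j := by ring
      have e2 : b - i - j + j = b - i := by ring
      rw [e1, e2]
    apply hne
    funext Q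
    obtain ⟨n, hn⟩ := ht2 Q
    have h7 := ht1 Q
    rw [hinv, hn, hak] at h7
    have h8 : 2 * f z₁ Q = 0 := by linear_combination h7
    exact (mul_eq_zero.1 h8).resolve_left hK2
  · apply Representation.IntertwiningMap.ext
    apply LinearMap.ext
    intro z
    have : (z : α → ZMod p) ∈ W.toSubmodule := by
      rw [hz]; exact z.2
    exact (hmemW z).1 this


end Cfsg.Agent.S0676
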