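import Cfsg.Statements.S0677
import Mathlib
import Cfsg.Agent.S0675
import Cfsg.Agent.S0676
import Cfsg.Agent.Lib.H1Hall
import Cfsg.Agent.Lib.PermOrb

set_option autoImplicit false
open Cfsg

namespace Cfsg.Agent.S0677


open Cfsg.Agent.Lib.PermOrb
open scoped Pointwise

theorem even_of_inv {ι : Type*} [DecidableEq ι] (S : Finset ι) (g : ι → ι) (h1 : ∀ i ∈ S, g i ∈ S)
    (h2 : ∀ i ∈ S, g (g i) = i) (h3 : ∀ i ∈ S, g i ≠ i) : Even S.card := by
  have := Finset.sum_involution (s := S) (f := fun _ => (1 : ZMod 2)) (fun a _ => g a)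
    (by intro a _; decide) (by intro a ha _; exact h3 a ha) (fun a ha => h1 a ha) (fun a ha => h2 a ha)
  rw [Finset.sum_const, nsmul_eq_mul, mul_one] at this
  exact (ZMod.natCast_eq_zero_iff_even).1 this

theorem parity_key {p : ℕ} [hp : Fact p.Prime] (h2 : (2 : ZMod p) ≠ 0) (D : Set (ZMod p)) (f : ZMod p) :
    Odd (Nat.card {i : ZMod p // i ∈ D ∧ 2 * f - i ∈ D}) ↔ f ∈ D := by
  classical
  rw [Nat.card_eq_fintype_card, Fintype.card_subtype]
  set S := Finset.univ.filter (fun i => i ∈ D ∧ 2 * f - i ∈ D) with hS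
  have hmem : ∀ i, i ∈ S ↔ i ∈ D ∧ 2 * f - i ∈ D := by intro i; simp [hS]
  have hinv : ∀ i, 2 * f - (2 * f - i) = i := by intro i; ring
  have hfix : ∀ i, 2 * f - i = i → i = f := by
    intro i hi
    have : 2 * (i - f) = 0 := by linear_combination -hi
    rcases mul_eq_zero.1 this with h | h
    · exact absurd h h2
    · exact sub_eq_zero.1 h
  by_cases hf : f ∈ D
  · simp only [hf, iff_true]
    have hfS : f ∈ S := by rw [hmem]; refine ⟨hf, ?_⟩; rwa [show 2 * f - f = f by ring]
    have h3 : Even (S.erase f).card := by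
      apply even_of_inv _ (fun i => 2 * f - i)
      · intro i hi
        rw [Finset.mem_erase, hmem] at hi ⊢
        refine ⟨?_, hi.2.2, ?_⟩
        · intro h
          apply hi.1
          have h4 : i - f = 0 := by linear_combination -h
          exact sub_eq_zero.1 h4
        · rw [hinv]; exact hi.2.1
      · intro i _; exact hinv i
      · intro i hi h
        exact (Finset.mem_erase.1 hi).1 (hfix i h)
    rw [← Finset.card_erase_add_one hfS]
    exact h3.add_one
  · simp only [hf, iff_false, Nat.not_odd_iff_even]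
    apply even_of_inv S (fun i => 2 * f - i)
    · intro i hi
      rw [hmem] at hi ⊢
      refine ⟨hi.2, ?_⟩
      rw [hinv]; exact hi.1
    · intro i _; exact hinv i
    · intro i hi h
      rw [hfix i h] at hi
      exact hf ((hmem _).1 hi).1

theorem core {α : Type*} [Fintype α] [DecidableEq α] {p : ℕ} [hp : Fact p.Prime] (hp2 : p ≠ 2)
    (hα : Fintype.card α = p) (G : Subgroup (Equiv.Perm α)) [MulAction.IsPretransitive G α]
    (h2 : MulAction.IsMultiplyPretransitive G α 2) (H : Subgroup G) (hH : H.index = p)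
    (hpp : ¬ p ^ 2 ∣ Nat.card G) (aG tG : G) (haG : orderOf aG = p) (hinv : tG * aG * tG⁻¹ = aG⁻¹) :
    ∃ a : α, H = MulAction.stabilizer G a := by
  classical
  have hp' : p.Prime := hp.out
  have hcardH : Nat.card H * p = Nat.card G := by
    rw [← hH]; exact H.card_mul_index
  have hnoP : ¬ p ∣ Nat.card H := by
    intro hd
    apply hpp
    rw [← hcardH, pow_two]
    exact mul_dvd_mul_right hd p
  let aa : Equiv.Perm α := (aG : Equiv.Perm α)
  have haa : orderOf aa = p := by rw [Subgroup.orderOf_coe]; exact haG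
  obtain ⟨e₁, hae₁⟩ := Cfsg.Agent.S0676.exists_cycle_equiv_of hα aa haa
  have hap : aG ^ p = 1 := by rw [← haG]; exact pow_orderOf_eq_one aG
  let c : ZMod p → G := fun i => aG ^ i.val
  have hcadd : ∀ i j, c (i + j) = c i * c j := by
    intro i j
    show aG ^ (i + j).val = aG ^ i.val * aG ^ j.val
    haveI : Fact (1 < p) := ⟨hp'.one_lt⟩
    rw [ZMod.val_add, ← pow_eq_pow_mod _ hap, pow_add]
  have hcinH : ∀ i, c i ∈ H → i = 0 := by
    intro i hi
    by_contra hne
    apply hnoP
    have hv : i.val ≠ 0 := by rwa [Ne, ZMod.val_eq_zero]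
    have hlt : i.val < p := ZMod.val_lt i
    have hcop : p.Coprime i.val := (Nat.Prime.coprime_iff_not_dvd hp').2
      (fun hd => absurd (Nat.le_of_dvd (Nat.pos_of_ne_zero hv) hd) (by omega))
    have hord : orderOf (c i) = p := by
      show orderOf (aG ^ i.val) = p
      rw [orderOf_pow' _ hv, haG, hcop.gcd_eq_one, Nat.div_one]
    have := orderOf_dvd_natCard (⟨c i, hi⟩ : H)
    rwa [Subgroup.orderOf_mk, hord] at this
  have hinj : Function.Injective (fun i : ZMod p => ((c i : G) : G ⧸ H)) := by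
    intro i j hij
    have h1 : (c i)⁻¹ * c j ∈ H := QuotientGroup.eq.1 hij
    have h2' : c j = c i * c (j - i) := by rw [← hcadd]; congr 1; ring
    rw [h2', inv_mul_cancel_left] at h1
    have := hcinH _ h1
    exact (sub_eq_zero.1 this).symm
  have hbij : Function.Bijective (fun i : ZMod p => ((c i : G) : G ⧸ H)) := by
    apply hinj.bijective_of_nat_card_le
    rw [Nat.card_zmod]
    exact hH.le
  have h2ne : (2 : ZMod p) ≠ 0 := by
    intro h0
    have : ((2 : ℕ) : ZMod p) = 0 := by exact_mod_cast h0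
    rw [ZMod.natCast_eq_zero_iff] at this
    exact hp2 ((Nat.prime_dvd_prime_iff_eq hp' Nat.prime_two).1 this)
  obtain ⟨i₁, hi₁⟩ := hbij.2 (tG : G ⧸ H)
  let d : G := c (i₁ / 2)
  have hdd : d * d = c i₁ := by
    show c (i₁ / 2) * c (i₁ / 2) = c i₁
    rw [← hcadd]
    congr 1
    field_simp
    ring
  have hinvpow : ∀ n : ℕ, tG * aG ^ n * tG⁻¹ = (aG ^ n)⁻¹ := by
    intro n
    rw [← conj_pow, hinv, inv_pow]
  have hdinv : tG * d = d⁻¹ * tG := by
    have h5 : tG * d * tG⁻¹ = d⁻¹ := hinvpow (i₁ / 2).val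
    rw [← h5]
    group
  have hC : Commute d aG := (Commute.refl aG).pow_left _
  let t' : G := d⁻¹ * tG * d
  have ht'H : t' ∈ H := by
    have h1 : (c i₁)⁻¹ * tG ∈ H := QuotientGroup.eq.1 hi₁
    have : t' = (c i₁)⁻¹ * tG := by
      show d⁻¹ * tG * d = _
      rw [← hdd, mul_assoc, hdinv, mul_inv_rev, mul_assoc]
    rw [this]; exact h1
  have ht'inv : t' * aG * t'⁻¹ = aG⁻¹ := by
    calc t' * aG * t'⁻¹ = d⁻¹ * tG * (d * aG) * (d⁻¹ * tG⁻¹ * d) := by
          show d⁻¹ * tG * d * aG * (d⁻¹ * tG * d)⁻¹ = _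
          group
      _ = d⁻¹ * tG * (aG * d) * (d⁻¹ * tG⁻¹ * d) := by rw [hC.eq]
      _ = d⁻¹ * (tG * aG * tG⁻¹) * d := by group
      _ = d⁻¹ * aG⁻¹ * d := by rw [hinv]
      _ = aG⁻¹ := by
          rw [mul_assoc, (hC.inv_right).symm.eq]
          group
  let T : Equiv.Perm α := (t' : Equiv.Perm α)
  have hTa : ∀ x, T (aa x) = aa⁻¹ (T x) := by
    intro x
    have h1 : T * aa * T⁻¹ = aa⁻¹ := by
      have := congrArg (fun u : G => (u : Equiv.Perm α)) ht'inv
      exact this
    have h3 : T * aa = aa⁻¹ * T := by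
      rw [← h1]; group
    have := congrArg (fun u : Equiv.Perm α => u x) h3
    exact this
  let φ : ZMod p → ZMod p := fun j => e₁.symm (T (e₁ j))
  have hφ : ∀ j, T (e₁ j) = e₁ (φ j) := fun j => by simp [φ]
  let b : ZMod p := φ 0
  have hainv : ∀ m, aa⁻¹ (e₁ m) = e₁ (m - 1) := by
    intro m
    rw [Equiv.Perm.inv_eq_iff_eq, hae₁]
    congr 1
    ring
  have hstep : ∀ j, φ (j + 1) = φ j - 1 := by
    intro j
    have h1 : T (e₁ (j + 1)) = e₁ (φ j - 1) := by
      rw [← hae₁, hTa, hφ, hainv]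
    show e₁.symm (T (e₁ (j + 1))) = _
    rw [h1]
    simp
  have hnat : ∀ n : ℕ, φ (n : ZMod p) = b - n := by
    intro n
    induction n with
    | zero => simp [b]
    | succ n ih =>
      push_cast
      rw [hstep, ih]
      ring
  have hφeq : ∀ j, φ j = b - j := by
    intro j
    have := hnat j.val
    simpa using this
  let e' : ZMod p ≃ α := (Equiv.addRight (b / 2)).trans e₁
  have he' : ∀ j, e' j = e₁ (j + b / 2) := fun j => rfl
  have hae : ∀ j, aa (e' j) = e' (j + 1) := by
    intro j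
    rw [he', he', hae₁]
    congr 1
    ring
  have hTe : ∀ j, T (e' j) = e' (-j) := by
    intro j
    rw [he', he', hφ, hφeq]
    congr 1
    field_simp
    ring
  have hcact : ∀ i j, ((c i : G) : Equiv.Perm α) (e' j) = e' (j + i) := by
    intro i j
    have h1 := Cfsg.Agent.S0676.pow_e aa e' hae i.val j
    rw [ZMod.natCast_zmod_val] at h1
    exact h1
  let a₀ : α := e' 0
  let D : Set (ZMod p) := {j | ∃ h : G, h ∈ H ∧ (h : Equiv.Perm α) a₀ = e' j}
  have h0D : (0 : ZMod p) ∈ D := ⟨1, H.one_mem, rfl⟩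
  have hnegD : ∀ j, j ∈ D → -j ∈ D := by
    rintro j ⟨h, hh, hj⟩
    refine ⟨t' * h, H.mul_mem ht'H hh, ?_⟩
    show T ((h : Equiv.Perm α) a₀) = e' (-j)
    rw [hj, hTe]
  let Inc : α → G ⧸ H → Prop := fun x y => ∃ g : G, ((g : G) : G ⧸ H) = y ∧ (g : Equiv.Perm α) a₀ = x
  have hIncS : ∀ (s : G) x y, Inc x y → Inc ((s : Equiv.Perm α) x) (s • y) := by
    rintro s x y ⟨g, rfl, rfl⟩
    exact ⟨s * g, rfl, rfl⟩
  have hIncS' : ∀ (s : G) x y, Inc x y ↔ Inc ((s : Equiv.Perm α) x) (s • y) := by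
    intro s x y
    refine ⟨hIncS s x y, fun h => ?_⟩
    have h3 := hIncS s⁻¹ _ _ h
    rw [inv_smul_smul] at h3
    have h4 : ((s⁻¹ : G) : Equiv.Perm α) ((s : Equiv.Perm α) x) = x := by
      show ((s : Equiv.Perm α)⁻¹) ((s : Equiv.Perm α) x) = x
      simp
    rwa [h4] at h3
  have hIncE : ∀ k i, Inc (e' k) ((c i : G) : G ⧸ H) ↔ k - i ∈ D := by
    intro k i
    constructor
    · rintro ⟨g, hg, hgx⟩
      have h1 : (c i)⁻¹ * g ∈ H := QuotientGroup.eq.1 hg.symm
      refine ⟨(c i)⁻¹ * g, h1, ?_⟩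
      have h3 : ((c i : G) : Equiv.Perm α) (e' (k - i)) = e' k := by
        rw [hcact]; congr 1; ring
      show ((c i : G) : Equiv.Perm α)⁻¹ ((g : Equiv.Perm α) a₀) = _
      rw [hgx, ← h3]
      simp
    · rintro ⟨h, hh, hx⟩
      refine ⟨c i * h, QuotientGroup.mk_mul_of_mem _ hh, ?_⟩
      show ((c i : G) : Equiv.Perm α) ((h : Equiv.Perm α) a₀) = _
      rw [hx, hcact]
      congr 1
      ring
  let N : α → α → ℕ := fun x x' => Nat.card {y : G ⧸ H // Inc x y ∧ Inc x' y}
  have hNinv : ∀ (s : G) x x', N ((s : Equiv.Perm α) x) ((s : Equiv.Perm α) x') = N x x' := by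
    intro s x x'
    symm
    apply Nat.card_congr
    refine Equiv.subtypeEquiv (MulAction.toPerm s) ?_
    intro y
    show (Inc x y ∧ Inc x' y) ↔ (Inc _ (s • y) ∧ Inc _ (s • y))
    rw [hIncS' s x y, hIncS' s x' y]
  have hNform : ∀ k k', N (e' k) (e' k') = Nat.card {i : ZMod p // k - i ∈ D ∧ k' - i ∈ D} := by
    intro k k'
    symm
    apply Nat.card_congr
    refine Equiv.subtypeEquiv (Equiv.ofBijective _ hbij) ?_
    intro i
    show _ ↔ (Inc _ ((c i : G) : G ⧸ H) ∧ Inc _ ((c i : G) : G ⧸ H))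
    rw [hIncE, hIncE]
  have hnegD' : ∀ j, -j ∈ D ↔ j ∈ D := by
    intro j
    refine ⟨fun h => ?_, hnegD j⟩
    have := hnegD _ h
    rwa [neg_neg] at this
  have hconv : ∀ f : ZMod p, Nat.card {i : ZMod p // 2 * f - i ∈ D ∧ 0 - i ∈ D} =
      Nat.card {i : ZMod p // i ∈ D ∧ 2 * f - i ∈ D} := by
    intro f
    apply Nat.card_congr
    refine Equiv.subtypeEquivRight ?_
    intro i
    rw [zero_sub, hnegD' i, and_comm]
  have hf : ∀ f f' : ZMod p, f ≠ 0 → f' ≠ 0 → (f ∈ D ↔ f' ∈ D) := by
    intro f f' hf hf'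
    rw [MulAction.is_two_pretransitive_iff] at h2
    have hne1 : e' (2 * f) ≠ e' 0 := fun h => (mul_ne_zero h2ne hf) (e'.injective h)
    have hne2 : e' (2 * f') ≠ e' 0 := fun h => (mul_ne_zero h2ne hf') (e'.injective h)
    obtain ⟨s, hs1, hs2⟩ := h2 hne1 hne2
    have hN : N (e' (2 * f)) (e' 0) = N (e' (2 * f')) (e' 0) := by
      have h3 := hNinv s (e' (2 * f)) (e' 0)
      have h4 : ((s : G) : Equiv.Perm α) (e' (2 * f)) = e' (2 * f') := hs1
      have h5 : ((s : G) : Equiv.Perm α) (e' 0) = e' 0 := hs2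
      rw [h4, h5] at h3
      exact h3.symm
    rw [hNform, hNform] at hN
    rw [← parity_key h2ne D f, ← parity_key h2ne D f', ← hconv, ← hconv, hN]
  by_cases h1D : (1 : ZMod p) ∈ D
  · exfalso
    have hall : ∀ j, j ∈ D := fun j => by
      by_cases hj : j = 0
      · rw [hj]; exact h0D
      · exact (hf 1 j one_ne_zero hj).1 h1D
    apply hnoP
    have horb := card_orbit_mul_stab (G := H) a₀
    have h3 : Nat.card (MulAction.orbit H a₀) = p := by
      have h4 : MulAction.orbit H a₀ = Set.univ := by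
        ext x
        simp only [Set.mem_univ, iff_true]
        obtain ⟨j, rfl⟩ := e'.surjective x
        obtain ⟨h, hh, hx⟩ := hall j
        exact ⟨⟨h, hh⟩, hx⟩
      rw [h4, Nat.card_coe_set_eq, Set.ncard_univ, Nat.card_eq_fintype_card, hα]
    rw [h3] at horb
    exact ⟨_, horb.symm⟩
  · refine ⟨a₀, ?_⟩
    have hle : H ≤ MulAction.stabilizer G a₀ := by
      intro h hh
      rw [MulAction.mem_stabilizer_iff]
      obtain ⟨j, hj⟩ := e'.surjective ((h : Equiv.Perm α) a₀)
      have hjD : j ∈ D := ⟨h, hh, hj.symm⟩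
      have hj0 : j = 0 := by
        by_contra hne
        exact h1D ((hf 1 j one_ne_zero hne).2 hjD)
      show (h : Equiv.Perm α) a₀ = a₀
      rw [← hj, hj0]
    apply Subgroup.eq_of_le_of_card_ge hle
    have horb := card_orbit_mul_stab (G := G) a₀
    rw [MulAction.orbit_eq_univ, Nat.card_coe_set_eq, Set.ncard_univ, Nat.card_eq_fintype_card, hα] at horb
    apply le_of_eq
    apply Nat.eq_of_mul_eq_mul_left hp'.pos
    rw [horb, ← hcardH, mul_comm]

/-- In a transitive permutation group of prime degree `p` whose Sylow `p`-normaliser has even order, the point stabilisers are the only subgroups of index `p`. -/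
theorem result {α : Type*} [Fintype α] [DecidableEq α] {p : ℕ} [Fact p.Prime] (hα : Fintype.card α = p) (G : Subgroup (Equiv.Perm α)) [MulAction.IsPretransitive G α] (P : Sylow p G) (heven : Even (Nat.card (Subgroup.normalizer ((P : Subgroup G) : Set G)))) (H : Subgroup G) (hH : H.index = p) : ∃ a : α, H = MulAction.stabilizer G a := by
  classical
  have hp' : p.Prime := Fact.out
  have hcardPerm : Nat.card (Equiv.Perm α) = p.factorial := by
    rw [Nat.card_eq_fintype_card, Fintype.card_perm, hα]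
  have hGp : Nat.card G ∣ p.factorial := by
    rw [← hcardPerm]
    exact Subgroup.card_subgroup_dvd_card G
  have hfac : p.factorial = p * (p - 1).factorial := by
    conv_lhs => rw [show p = (p - 1) + 1 by have := hp'.two_le; omega]
    rw [Nat.factorial_succ]
    rw [show p - 1 + 1 = p by have := hp'.two_le; omega]
  have hpp : ¬ p ^ 2 ∣ Nat.card G := by
    intro h22
    have h22 := h22.trans hGp
    rw [hfac, pow_two] at h22
    have := Nat.dvd_of_mul_dvd_mul_left hp'.pos h22
    rw [hp'.dvd_factorial] at this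
    have := hp'.two_le
    omega
  have hcardH : Nat.card H * p = Nat.card G := by
    rw [← hH]; exact H.card_mul_index
  have hne : Nonempty α := by
    rw [← Fintype.card_pos_iff, hα]
    exact hp'.pos
  have hsolcase : Group.IsSolvable G → ∃ a : α, H = MulAction.stabilizer G a := by
    intro hsol
    obtain ⟨x⟩ := hne
    have horb := card_orbit_mul_stab (G := G) x
    rw [MulAction.orbit_eq_univ, Nat.card_coe_set_eq, Set.ncard_univ, Nat.card_eq_fintype_card, hα] at horb
    have hcop : (Nat.card H).Coprime p := by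
      rw [Nat.coprime_comm, Nat.Prime.coprime_iff_not_dvd hp']
      intro hd
      apply hpp
      rw [← hcardH, pow_two]
      exact mul_dvd_mul_right hd p
    have hKc : Nat.card (MulAction.stabilizer G x) = Nat.card H := by
      apply Nat.eq_of_mul_eq_mul_left hp'.pos
      rw [horb, ← hcardH, mul_comm]
    obtain ⟨g, hg⟩ := Cfsg.Agent.Lib.H1Hall.hall_conj (Nat.card H) p hcardH.symm hcop
      (MulAction.stabilizer G x) H hKc rfl
    refine ⟨g • x, ?_⟩
    rw [← hg, MulAction.stabilizer_smul_eq_stabilizer_map_conj]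
    rfl
  rcases Cfsg.Agent.S0675.result (hα ▸ hp') G with hsol | h2
  · exact hsolcase hsol
  by_cases hp2 : p = 2
  · apply hsolcase
    apply Group.isSolvable_of_comm
    intro x y
    have hc : Nat.card (Equiv.Perm α) = 2 := by
      rw [hcardPerm, hp2]; rfl
    haveI : Fact (Nat.Prime (Nat.card (Equiv.Perm α))) := ⟨by rw [hc]; exact Nat.prime_two⟩
    haveI : IsCyclic (Equiv.Perm α) := isCyclic_of_prime_card rfl
    obtain ⟨g₀, hg₀⟩ := IsCyclic.exists_generator (α := Equiv.Perm α)
    obtain ⟨m, hm⟩ := Subgroup.mem_zpowers_iff.1 (hg₀ x.1)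
    obtain ⟨n, hn⟩ := Subgroup.mem_zpowers_iff.1 (hg₀ y.1)
    apply Subtype.ext
    show x.1 * y.1 = y.1 * x.1
    rw [← hm, ← hn, ← zpow_add, ← zpow_add, add_comm]
  -- a Sylow subgroup has order `p`
  have hPcard : Nat.card (P : Subgroup G) = p := by
    obtain ⟨m, hm⟩ := IsPGroup.iff_card.1 P.2
    have hm1 : m ≤ 1 := by
      by_contra hcon
      apply hpp
      have h22 : p ^ 2 ∣ p ^ m := pow_dvd_pow p (by omega)
      rw [← hm] at h22
      exact h22.trans (Subgroup.card_subgroup_dvd_card _)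
    have hpG : p ∣ Nat.card G := by
      obtain ⟨x⟩ := hne
      have h1 := card_orbit_mul_stab (G := G) x
      have h2' : Nat.card (MulAction.orbit G x) = p := by
        rw [MulAction.orbit_eq_univ, Nat.card_coe_set_eq, Set.ncard_univ, Nat.card_eq_fintype_card, hα]
      rw [h2'] at h1
      exact ⟨_, h1.symm⟩
    have hpP : p ∣ Nat.card (P : Subgroup G) := P.dvd_card_of_dvd_card hpG
    rw [hm] at hpP ⊢
    have hm0 : m ≠ 0 := by
      rintro rfl
      simp at hpP
      exact hp'.one_lt.ne' hpP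
    have : m = 1 := by omega
    rw [this, pow_one]
  have hpG : p ∣ Nat.card (P : Subgroup G) := by rw [hPcard]
  obtain ⟨a₀, ha₀⟩ := exists_prime_orderOf_dvd_card' p hpG
  let aG : G := (a₀ : G)
  let aa : Equiv.Perm α := (aG : Equiv.Perm α)
  have haG : orderOf aG = p := by
    rw [Subgroup.orderOf_coe]; exact ha₀
  have haa : orderOf aa = p := by
    rw [Subgroup.orderOf_coe]; exact haG
  obtain ⟨e, hae⟩ := Cfsg.Agent.S0676.exists_cycle_equiv_of hα aa haa
  have h2N : 2 ∣ Nat.card (Subgroup.normalizer ((P : Subgroup G) : Set G)) := even_iff_two_dvd.1 heven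
  haveI : Fact (Nat.Prime 2) := ⟨Nat.prime_two⟩
  obtain ⟨t₀, ht₀⟩ := exists_prime_orderOf_dvd_card' 2 h2N
  let tG : G := (t₀ : G)
  let T : Equiv.Perm α := (tG : Equiv.Perm α)
  have htG : orderOf tG = 2 := by
    rw [Subgroup.orderOf_coe]; exact ht₀
  have hT : orderOf T = 2 := by
    rw [Subgroup.orderOf_coe]; exact htG
  have hT1 : T ≠ 1 := by
    intro e1
    rw [e1, orderOf_one] at hT
    omega
  have hTT : ∀ x, T (T x) = x := by
    intro x
    have : T ^ 2 = 1 := by rw [← hT]; exact pow_orderOf_eq_one T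
    rw [← Equiv.Perm.mul_apply, ← pow_two, this]
    rfl
  have hzp : Subgroup.zpowers a₀ = ⊤ := by
    apply Subgroup.eq_top_of_card_eq
    rw [Nat.card_zpowers, ha₀, hPcard]
  have hconj : tG * aG * tG⁻¹ ∈ (P : Subgroup G) := (t₀.2 aG).1 a₀.2
  obtain ⟨k, hk⟩ : ∃ k : ℕ, a₀ ^ k = ⟨tG * aG * tG⁻¹, hconj⟩ := by
    have h1 : (⟨tG * aG * tG⁻¹, hconj⟩ : (P : Subgroup G)) ∈ Subgroup.zpowers a₀ := by
      rw [hzp]; trivial
    rw [← mem_powers_iff_mem_zpowers] at h1
    exact h1
  have hkG : tG * aG * tG⁻¹ = aG ^ k := by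
    have := congrArg (fun u : (P : Subgroup G) => (u : G)) hk
    simp only [SubmonoidClass.coe_pow] at this
    exact this.symm
  have hk' : T * aa * T⁻¹ = aa ^ k := by
    have := congrArg (fun u : G => (u : Equiv.Perm α)) hkG
    simp only [SubmonoidClass.coe_pow] at this
    exact this
  let φ : ZMod p → ZMod p := fun j => e.symm (T (e j))
  have hφ : ∀ j, T (e j) = e (φ j) := fun j => by simp [φ]
  let u : ZMod p := (k : ZMod p)
  let b : ZMod p := φ 0
  have hstep : ∀ j, φ (j + 1) = φ j + u := by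
    intro j
    have h1 : T (e (j + 1)) = (aa ^ k) (T (e j)) := by
      rw [← hae, ← hk']
      simp
    simp only [φ]
    rw [h1, hφ, Cfsg.Agent.S0676.pow_e aa e hae]
    simp [φ, u]
  have hnat : ∀ n : ℕ, φ (n : ZMod p) = b + n * u := by
    intro n
    induction n with
    | zero => simp [b]
    | succ n ih =>
      push_cast
      rw [hstep, ih]
      ring
  have hφeq : ∀ j, φ j = b + j * u := by
    intro j
    have := hnat j.val
    simpa using this
  have hφφ : ∀ j, φ (φ j) = j := by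
    intro j
    simp only [φ]
    rw [Equiv.apply_symm_apply, hTT]
    simp
  have hK2 : (2 : ZMod p) ≠ 0 := by
    intro h0
    have : ((2 : ℕ) : ZMod p) = 0 := by exact_mod_cast h0
    rw [ZMod.natCast_eq_zero_iff] at this
    exact hp2 ((Nat.prime_dvd_prime_iff_eq hp' Nat.prime_two).1 this)
  have hu2 : u * u = 1 := by
    have h0 := hφφ 0
    have h1 := hφφ 1
    rw [hφeq 0, hφeq (b + 0 * u)] at h0
    rw [hφeq 1, hφeq (b + 1 * u)] at h1
    linear_combination h1 - h0
  have hum : u = -1 := by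
    have h3 : (u - 1) * (u + 1) = 0 := by linear_combination hu2
    rcases mul_eq_zero.1 h3 with h4 | h4
    · exfalso
      have hu1 : u = 1 := sub_eq_zero.1 h4
      have h0 := hφφ 0
      rw [hφeq 0, hφeq (b + 0 * u), hu1] at h0
      have hb : b = 0 := by
        have : 2 * b = 0 := by linear_combination h0
        exact (mul_eq_zero.1 this).resolve_left hK2
      apply hT1
      ext x
      obtain ⟨j, rfl⟩ := e.surjective x
      rw [hφ, hφeq, hu1, hb]
      simp
    · exact eq_neg_of_add_eq_zero_left h4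
  have hinv : tG * aG * tG⁻¹ = aG⁻¹ := by
    rw [hkG]
    have h5 : ((k + 1 : ℕ) : ZMod p) = 0 := by
      push_cast
      show u + 1 = 0
      rw [hum]; ring
    rw [ZMod.natCast_eq_zero_iff] at h5
    have h6 : aG ^ (k + 1) = 1 := by
      rw [← orderOf_dvd_iff_pow_eq_one, haG]; exact h5
    rw [pow_succ] at h6
    exact eq_inv_of_mul_eq_one_left h6
  exact core hp2 hα G h2 H hH hpp aG tG haG hinv


end Cfsg.Agent.S0677
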