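import Cfsg.Statements.S0680
import Mathlib
import Cfsg.Agent.Lib.Sharp2

set_option autoImplicit false
open Cfsg

namespace Cfsg.Agent.S0680


open Cfsg.Agent.Lib.Sharp2 in
theorem sharp_of {α : Type*} [Fintype α] (G : Subgroup (Equiv.Perm α)) [MulAction.IsMultiplyPretransitive G α 2]
    (hsharp : ∀ x : Fin 2 ↪ α, MulAction.stabilizer G x = ⊥) : IsSharp2 G α := by
  refine ⟨?_, ?_⟩
  · intro a b c d hab hcd
    exact (MulAction.is_two_pretransitive_iff (G := G) (α := α)).1 inferInstance hab hcd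
  · intro g a b hab h1 h2
    let x : Fin 2 ↪ α := ⟨![a, b], by
      intro i j hij
      fin_cases i <;> fin_cases j <;> simp_all⟩
    have hmem : g ∈ MulAction.stabilizer G x := by
      rw [MulAction.mem_stabilizer_iff]
      ext i
      fin_cases i
      · exact h1
      · exact h2
    rw [hsharp] at hmem
    exact hmem

/-- A finite sharply doubly transitive permutation group has degree a prime power `p ^ j`; a Sylow `p`-subgroup is normal, elementary abelian and regular, and consists of the identity together with the elements without fixed points. (Frobenius' Theorem is not needed.) -/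
theorem result {α : Type*} [Fintype α] [DecidableEq α] (G : Subgroup (Equiv.Perm α)) [MulAction.IsMultiplyPretransitive G α 2] (hsharp : ∀ x : Fin 2 ↪ α, MulAction.stabilizer G x = ⊥) (h2 : 2 ≤ Fintype.card α) : ∃ p j : ℕ, p.Prime ∧ 1 ≤ j ∧ Fintype.card α = p ^ j ∧ ∀ (hp : Fact p.Prime) (P : Sylow p G), (P : Subgroup G).Normal ∧ IsMulCommutative (P : Subgroup G) ∧ (∀ x ∈ (P : Subgroup G), x ^ p = 1) ∧ MulAction.IsPretransitive (P : Subgroup G) α ∧ (∀ a : α, MulAction.stabilizer (P : Subgroup G) a = ⊥) ∧ ∀ g : G, g ∈ (P : Subgroup G) ↔ g = 1 ∨ ∀ a : α, g • a ≠ a := by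
  classical
  have hS := sharp_of G hsharp
  obtain ⟨N, p, j, hnorm, hN', hcomm, htrans, hp, hj1, hcardα, hcardN, hexp, hpg⟩ := hS.struct h2
  refine ⟨p, j, hp, hj1, hcardα, ?_⟩
  intro hp' P
  have hle : N ≤ (P : Subgroup G) := by
    have h1 : IsPGroup p ((P : Subgroup G) ⊔ N : Subgroup G) := P.isPGroup'.to_sup_of_normal_right hpg
    have h2 := P.is_maximal' h1 le_sup_left
    rw [← h2]
    exact le_sup_right
  have hcardG : Nat.card G = p ^ j * (p ^ j - 1) := by
    have := hS.card_group h2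
    rw [hcardα] at this
    exact this
  have hPN : (P : Subgroup G) = N := by
    symm
    apply Subgroup.eq_of_le_of_card_ge hle
    rw [hcardN]
    obtain ⟨m, hm⟩ := IsPGroup.iff_card.1 P.isPGroup'
    rw [hm]
    have hdvd : p ^ m ∣ p ^ j * (p ^ j - 1) := by
      rw [← hm, ← hcardG]
      exact Subgroup.card_subgroup_dvd_card _
    have hcop : Nat.Coprime (p ^ m) (p ^ j - 1) := by
      apply Nat.Coprime.pow_left
      rw [Nat.Prime.coprime_iff_not_dvd hp]
      intro hd
      have h3 : p ∣ p ^ j := dvd_pow_self p (by omega)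
      have h4 : 1 ≤ p ^ j := Nat.one_le_two_pow.trans (Nat.pow_le_pow_left hp.two_le j)
      have h5 : p ∣ 1 := by
        have := (Nat.dvd_sub h3 hd)
        rwa [show p ^ j - (p ^ j - 1) = 1 by omega] at this
      exact hp.one_lt.ne' (Nat.dvd_one.1 h5)
    have := hcop.dvd_of_dvd_mul_right hdvd
    exact Nat.le_of_dvd (pow_pos hp.pos _) this
  rw [hPN]
  haveI := hnorm
  refine ⟨hnorm, ⟨⟨fun a b => Subtype.ext (hcomm a a.2 b b.2)⟩⟩, hexp, ⟨fun a b => ?_⟩, ?_, hN'⟩
  · obtain ⟨g, hg, e⟩ := htrans a b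
    exact ⟨⟨g, hg⟩, e⟩
  · intro a
    rw [Subgroup.eq_bot_iff_forall]
    intro g hg
    have hg' : (g : G) • a = a := hg
    rcases (hN' g).1 g.2 with h1 | h1
    · exact Subtype.ext h1
    · exact absurd hg' (h1 a)


end Cfsg.Agent.S0680
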