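import Cfsg.Statements.S0681
import Mathlib

set_option autoImplicit false
open Cfsg

namespace Cfsg.Agent.S0681


variable {F : Type*} [Cfsg.NearField F]

theorem nf_zero_mul (c : F) : (0 : F) * c = 0 := by
  have h := Cfsg.NearField.right_distrib (0 : F) 0 c
  rw [add_zero] at h
  exact (left_eq_add.1 h)

theorem nf_neg_mul (a c : F) : (-a) * c = -(a * c) := by
  have h := Cfsg.NearField.right_distrib (-a) a c
  rw [neg_add_cancel, nf_zero_mul] at h
  exact neg_eq_of_add_eq_zero_left h.symm |>.symm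

theorem nf_cancel {c a : F} (hc : c ≠ 0) (h : c * a = c) : a = 1 := by
  obtain ⟨d, h1, h2⟩ := Cfsg.NearField.exists_inv c hc
  calc a = (d * c) * a := by rw [h2, one_mul]
    _ = d * c := by rw [mul_assoc, h]
    _ = 1 := h2

theorem nf_mul_ne {a b : F} (ha : a ≠ 0) (hb : b ≠ 0) : a * b ≠ 0 := by
  intro h
  obtain ⟨d, h1, h2⟩ := Cfsg.NearField.exists_inv a ha
  apply hb
  calc b = (d * a) * b := by rw [h2, one_mul]
    _ = d * 0 := by rw [mul_assoc, h]
    _ = 0 := Cfsg.NearField.mul_zero d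

/-- the map `x ↦ x * a + b` as a permutation, for `a ≠ 0`. -/
noncomputable def affPerm (a b : F) (ha : a ≠ 0) : Equiv.Perm F :=
  let d := Classical.choose (Cfsg.NearField.exists_inv a ha)
  have hd : a * d = 1 ∧ d * a = 1 := Classical.choose_spec (Cfsg.NearField.exists_inv a ha)
  { toFun := fun x => x * a + b
    invFun := fun y => (y + -b) * d
    left_inv := fun x => by
      show (x * a + b + -b) * d = x
      rw [add_neg_cancel_right, mul_assoc, hd.1, mul_one]
    right_inv := fun y => by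
      show (y + -b) * d * a + b = y
      rw [mul_assoc, hd.2, mul_one, neg_add_cancel_right] }

theorem affPerm_apply (a b : F) (ha : a ≠ 0) (x : F) : affPerm a b ha x = x * a + b := rfl

/-- The affine maps `x ↦ x * a + b`, `a ≠ 0`, of a near-field form a sharply doubly transitive permutation group. -/
theorem result {F : Type*} [Cfsg.NearField F] : ∃ H : Subgroup (Equiv.Perm F), (∀ σ : Equiv.Perm F, σ ∈ H ↔ ∃ a b : F, a ≠ 0 ∧ ∀ x : F, σ x = x * a + b) ∧ MulAction.IsMultiplyPretransitive H F 2 ∧ ∀ x : Fin 2 ↪ F, MulAction.stabilizer H x = ⊥ := by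
  classical
  let H : Subgroup (Equiv.Perm F) :=
    { carrier := {σ | ∃ a b : F, a ≠ 0 ∧ ∀ x : F, σ x = x * a + b}
      one_mem' := ⟨1, 0, Cfsg.NearField.zero_ne_one.symm, fun x => by simp⟩
      mul_mem' := by
        rintro σ τ ⟨a, b, ha, hσ⟩ ⟨c, d, hc, hτ⟩
        refine ⟨c * a, d * a + b, nf_mul_ne hc ha, fun x => ?_⟩
        rw [Equiv.Perm.mul_apply, hσ, hτ, Cfsg.NearField.right_distrib, mul_assoc, add_assoc]
      inv_mem' := by
        rintro σ ⟨a, b, ha, hσ⟩
        obtain ⟨d, h1, h2⟩ := Cfsg.NearField.exists_inv a ha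
        have hd : d ≠ 0 := by
          intro e
          rw [e, Cfsg.NearField.mul_zero] at h1
          exact Cfsg.NearField.zero_ne_one h1
        refine ⟨d, (-b) * d, hd, fun x => ?_⟩
        rw [Equiv.Perm.inv_eq_iff_eq, hσ, Cfsg.NearField.right_distrib, mul_assoc, mul_assoc, h2, mul_one, mul_one, neg_add_cancel_right] }
  have hmem : ∀ σ : Equiv.Perm F, σ ∈ H ↔ ∃ a b : F, a ≠ 0 ∧ ∀ x : F, σ x = x * a + b := fun σ => Iff.rfl
  refine ⟨H, hmem, ?_, ?_⟩
  · rw [MulAction.is_two_pretransitive_iff]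
    intro x₁ x₂ y₁ y₂ hx hy
    have hc : x₂ + -x₁ ≠ 0 := by
      intro e
      exact hx (add_neg_eq_zero.1 e).symm
    have he : y₂ + -y₁ ≠ 0 := by
      intro e
      exact hy (add_neg_eq_zero.1 e).symm
    obtain ⟨d, h1, h2⟩ := Cfsg.NearField.exists_inv _ hc
    have hd : d ≠ 0 := by
      intro e
      rw [e, Cfsg.NearField.mul_zero] at h1
      exact Cfsg.NearField.zero_ne_one h1
    let a := d * (y₂ + -y₁)
    have ha : a ≠ 0 := nf_mul_ne hd he
    have hca : (x₂ + -x₁) * a = y₂ + -y₁ := by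
      show (x₂ + -x₁) * (d * (y₂ + -y₁)) = _
      rw [← mul_assoc, h1, one_mul]
    let b := -(x₁ * a) + y₁
    refine ⟨⟨affPerm a b ha, ⟨a, b, ha, fun x => rfl⟩⟩, ?_, ?_⟩
    · show x₁ * a + (-(x₁ * a) + y₁) = y₁
      rw [add_neg_cancel_left]
    · show x₂ * a + (-(x₁ * a) + y₁) = y₂
      rw [Cfsg.NearField.right_distrib, nf_neg_mul] at hca
      rw [← add_assoc, hca, neg_add_cancel_right]
  · intro x
    rw [eq_bot_iff]
    intro σ hσ
    rw [Subgroup.mem_bot]
    obtain ⟨a, b, ha, hσ'⟩ := σ.2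
    have hfix : ∀ i : Fin 2, (σ : Equiv.Perm F) (x i) = x i := by
      intro i
      have := congrArg (fun e : Fin 2 ↪ F => e i) (MulAction.mem_stabilizer_iff.1 hσ)
      exact this
    have h0 := hfix 0
    have h1 := hfix 1
    rw [hσ'] at h0 h1
    have hne : x 1 + -(x 0) ≠ 0 := by
      intro e
      have := x.injective (add_neg_eq_zero.1 e)
      exact absurd this (by decide)
    have hca : (x 1 + -(x 0)) * a = x 1 + -(x 0) := by
      rw [Cfsg.NearField.right_distrib, nf_neg_mul]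
      have e0 : x 0 * a = x 0 + -b := eq_add_neg_of_add_eq h0
      have e1 : x 1 * a = x 1 + -b := eq_add_neg_of_add_eq h1
      rw [e0, e1]
      simp only [neg_add_rev, neg_neg]
      rw [add_assoc, neg_add_cancel_left]
    have ha1 : a = 1 := nf_cancel hne hca
    rw [ha1, mul_one] at h0
    have hb : b = 0 := left_eq_add.1 h0.symm
    apply Subtype.ext
    ext y
    rw [hσ', ha1, hb]
    simp


end Cfsg.Agent.S0681
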