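import Cfsg.Statements.S0682
import Mathlib

set_option autoImplicit false
open Cfsg

namespace Cfsg.Agent.S0682


variable {F : Type*} [Cfsg.NearField F]

theorem nf_zero_mul (c : F) : (0 : F) * c = 0 := by
  have h := Cfsg.NearField.right_distrib (0 : F) 0 c
  rw [add_zero] at h
  exact (left_eq_add.1 h)

theorem nf_nsmul_mul (n : ℕ) (x a : F) : (n • x) * a = n • (x * a) := by
  induction n with
  | zero => simp [nf_zero_mul]
  | succ n ih => rw [succ_nsmul, succ_nsmul, Cfsg.NearField.right_distrib, ih]

/-- A finite near-field has prime-power order; its additive group is commutative of prime exponent. -/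
theorem result {F : Type*} [Cfsg.NearField F] [Finite F] : ∃ p j : ℕ, p.Prime ∧ 1 ≤ j ∧ Nat.card F = p ^ j ∧ (∀ x y : F, x + y = y + x) ∧ ∀ x : F, p • x = 0 := by
  classical
  have hnt : Nontrivial F := ⟨⟨0, 1, Cfsg.NearField.zero_ne_one⟩⟩
  obtain ⟨p, hp, hpd⟩ := Nat.exists_prime_and_dvd (n := Nat.card F) Finite.one_lt_card.ne'
  haveI : Fact p.Prime := ⟨hp⟩
  obtain ⟨x, hx⟩ := exists_prime_addOrderOf_dvd_card' (G := F) p hpd
  have hxp : p • x = 0 := by rw [← hx]; exact addOrderOf_nsmul_eq_zero x
  have hx0 : x ≠ 0 := by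
    intro e
    rw [e, addOrderOf_zero] at hx
    exact hp.one_lt.ne hx
  obtain ⟨d, h1, h2⟩ := Cfsg.NearField.exists_inv x hx0
  have hall : ∀ y : F, p • y = 0 := by
    intro y
    have : y = x * (d * y) := by rw [← mul_assoc, h1, one_mul]
    rw [this, ← nf_nsmul_mul, hxp, nf_zero_mul]
  -- the additive group as a multiplicative `p`-group
  have hpg : IsPGroup p (Multiplicative F) := by
    intro g
    refine ⟨1, ?_⟩
    rw [pow_one]
    exact hall (Multiplicative.toAdd g)
  obtain ⟨j, hj⟩ := IsPGroup.iff_card.1 hpg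
  have hcardF : Nat.card F = p ^ j := by
    rw [← hj]; rfl
  haveI : Nontrivial (Multiplicative F) := inferInstanceAs (Nontrivial F)
  have hzc := hpg.center_nontrivial
  obtain ⟨z, hz⟩ := exists_ne (1 : Subgroup.center (Multiplicative F))
  have hz0 : Multiplicative.toAdd z.1 ≠ (0 : F) := by
    intro e
    apply hz
    apply Subtype.ext
    exact e
  have hzcomm : ∀ w : F, Multiplicative.toAdd z.1 + w = w + Multiplicative.toAdd z.1 := by
    intro w
    have := (Subgroup.mem_center_iff.1 z.2) (Multiplicative.ofAdd w)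
    exact this.symm
  set z0 : F := Multiplicative.toAdd z.1 with hz0def
  obtain ⟨d', h1', h2'⟩ := Cfsg.NearField.exists_inv z0 hz0
  have hcomm : ∀ a b : F, a + b = b + a := by
    intro a b
    -- write `a = z0 * t`
    let t := d' * a
    have ha : a = z0 * t := by
      show a = z0 * (d' * a)
      rw [← mul_assoc, h1', one_mul]
    by_cases ht : t = 0
    · have ha0 : a = 0 := by
        rw [ha, ht]; exact Cfsg.NearField.mul_zero z0
      rw [ha0]; simp
    · obtain ⟨e, e1, e2⟩ := Cfsg.NearField.exists_inv t ht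
      have hb : b = (b * e) * t := by rw [mul_assoc, e2, mul_one]
      rw [ha, hb, ← Cfsg.NearField.right_distrib, ← Cfsg.NearField.right_distrib, hzcomm]
  have hj1 : 1 ≤ j := by
    by_contra h
    have : j = 0 := by omega
    rw [this, pow_zero] at hcardF
    have := Finite.one_lt_card (α := F)
    omega
  exact ⟨p, j, hp, hj1, hcardF, hcomm, hall⟩


end Cfsg.Agent.S0682
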