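import Cfsg.Statements.S0683
import Mathlib
import Cfsg.Agent.Lib.Sharp2
import Cfsg.Agent.S0680

set_option autoImplicit false
open Cfsg

namespace Cfsg.Agent.S0683


theorem nf_of_ops {α : Type*} (add mul : α → α → α) (neg : α → α) (o e : α)
    (add_assoc' : ∀ x y z, add (add x y) z = add x (add y z))
    (zero_add' : ∀ x, add o x = x)
    (neg_add' : ∀ x, add (neg x) x = o)
    (mul_assoc' : ∀ x y z, mul (mul x y) z = mul x (mul y z))
    (one_mul' : ∀ x, mul e x = x)
    (mul_one' : ∀ x, mul x e = x)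
    (rd : ∀ a b c, mul (add a b) c = add (mul a c) (mul b c))
    (mz : ∀ a, mul a o = o)
    (zo : o ≠ e)
    (inv : ∀ a, a ≠ o → ∃ b, mul a b = e ∧ mul b a = e) :
    ∃ inst : Cfsg.NearField α, (∀ x y : α, x + y = add x y) ∧ (∀ x y : α, x * y = mul x y) ∧ (0 : α) = o := by
  letI : Add α := ⟨add⟩
  letI : Neg α := ⟨neg⟩
  letI : Zero α := ⟨o⟩
  letI A : AddGroup α := AddGroup.ofLeftAxioms add_assoc' zero_add' neg_add'
  letI M : Monoid α :=
    { mul := mul
      mul_assoc := mul_assoc'
      one := e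
      one_mul := one_mul'
      mul_one := mul_one' }
  exact ⟨{ A, M with
      right_distrib := rd
      mul_zero := mz
      zero_ne_one := zo
      exists_inv := inv }, fun _ _ => rfl, fun _ _ => rfl, rfl⟩

open Cfsg.Agent.Lib.Sharp2 in
theorem main_nf {G α : Type*} [Group G] [Finite G] [MulAction G α] [Fintype α] (h : IsSharp2 G α) (hn : 2 ≤ Fintype.card α) :
    ∃ _ : Cfsg.NearField α, ∀ f : α → α, (∃ g : G, ∀ x, f x = g • x) ↔ ∃ a b : α, a ≠ 0 ∧ ∀ x : α, f x = x * a + b := by
  classical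
  obtain ⟨N, p, j, hnorm, hN', hcomm, htrans, hp, hj1, hcardα, hcardN, hexp, hpg⟩ := h.struct hn
  obtain ⟨o, e, hoe⟩ := Fintype.exists_pair_of_one_lt_card (α := α) (by omega)
  have hreg : ∀ g ∈ N, g • o = o → g = 1 := by
    intro g hg ho
    rcases (hN' g).1 hg with h1 | h1
    · exact h1
    · exact absurd ho (h1 o)
  choose tau htauN htauo using htrans o
  have tau_uniq : ∀ g ∈ N, ∀ y, g • o = y → g = tau y := by
    intro g hg y hy
    have h1 : (tau y)⁻¹ * g = 1 := by
      apply hreg _ (N.mul_mem (N.inv_mem (htauN y)) hg)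
      rw [mul_smul, hy, inv_smul_eq_iff, htauo]
    exact (inv_mul_eq_one.1 h1).symm
  have hex : ∀ a : α, ∃ g : G, a ≠ o → g • o = o ∧ g • e = a := by
    intro a
    by_cases ha : a = o
    · exact ⟨1, fun h => absurd ha h⟩
    · obtain ⟨g, h1, h2⟩ := h.trans o e o a hoe (Ne.symm ha)
      exact ⟨g, fun _ => ⟨h1, h2⟩⟩
  choose mu hmu using hex
  have mu_uniq : ∀ (g : G) (a : α), a ≠ o → g • o = o → g • e = a → g = mu a := by
    intro g a ha h1 h2
    exact h.uniq hoe (by rw [h1, (hmu a ha).1]) (by rw [h2, (hmu a ha).2])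
  let add : α → α → α := fun x y => tau y • x
  let mul : α → α → α := fun x a => if a = o then o else mu a • x
  let neg : α → α := fun x => (tau x)⁻¹ • o
  have mul_o : ∀ x, mul x o = o := fun x => if_pos rfl
  have mul_ne : ∀ x a, a ≠ o → mul x a = mu a • x := fun x a ha => if_neg ha
  have o_mul : ∀ a, mul o a = o := by
    intro a
    by_cases ha : a = o
    · rw [ha, mul_o]
    · rw [mul_ne _ _ ha, (hmu a ha).1]
  have mul_ne_o : ∀ x a, x ≠ o → a ≠ o → mul x a ≠ o := by
    intro x a hx ha he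
    rw [mul_ne _ _ ha] at he
    apply hx
    have : mu a • x = mu a • o := by rw [he, (hmu a ha).1]
    exact smul_left_cancel _ this
  have mu_mul : ∀ a b, a ≠ o → b ≠ o → mu (mul a b) = mu b * mu a := by
    intro a b ha hb
    symm
    apply mu_uniq _ _ (mul_ne_o a b ha hb)
    · rw [mul_smul, (hmu a ha).1, (hmu b hb).1]
    · rw [mul_smul, (hmu a ha).2, mul_ne _ _ hb]
  have add_assoc' : ∀ x y z, add (add x y) z = add x (add y z) := by
    intro x y z
    show tau z • tau y • x = tau (tau z • y) • x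
    rw [← mul_smul, tau_uniq (tau z * tau y) (N.mul_mem (htauN z) (htauN y)) (tau z • y) (by rw [mul_smul, htauo])]
  have zero_add' : ∀ x, add o x = x := fun x => htauo x
  have neg_add' : ∀ x, add (neg x) x = o := fun x => smul_inv_smul _ _
  have mul_assoc' : ∀ x y z, mul (mul x y) z = mul x (mul y z) := by
    intro x a b
    by_cases ha : a = o
    · subst ha
      rw [mul_o, o_mul, mul_o]
    · by_cases hb : b = o
      · subst hb
        rw [mul_o, mul_o, mul_o]
      · rw [mul_ne _ _ ha, mul_ne _ _ hb, mul_ne _ _ (mul_ne_o a b ha hb), mu_mul a b ha hb, mul_smul]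
  have one_mul' : ∀ x, mul e x = x := by
    intro a
    by_cases ha : a = o
    · subst ha
      rw [mul_o]
    · rw [mul_ne _ _ ha, (hmu a ha).2]
  have mu_e : mu e = 1 := by
    symm
    apply mu_uniq _ _ (Ne.symm hoe) <;> simp
  have mul_one' : ∀ x, mul x e = x := by
    intro x
    rw [mul_ne _ _ (Ne.symm hoe), mu_e, one_smul]
  have rd : ∀ a b c, mul (add a b) c = add (mul a c) (mul b c) := by
    intro a b c
    by_cases hc : c = o
    · subst hc
      rw [mul_o, mul_o, mul_o]
      exact (zero_add' c).symm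
    · rw [mul_ne _ _ hc, mul_ne _ _ hc, mul_ne _ _ hc]
      show mu c • tau b • a = tau (mu c • b) • mu c • a
      have h1 : mu c * tau b * (mu c)⁻¹ = tau (mu c • b) := by
        apply tau_uniq _ (hnorm.conj_mem _ (htauN b) _)
        have h2 : (mu c)⁻¹ • o = o := by rw [inv_smul_eq_iff, (hmu c hc).1]
        rw [mul_smul, mul_smul, h2, htauo]
      rw [← h1, mul_smul, mul_smul, inv_smul_smul]
  have inv : ∀ a, a ≠ o → ∃ b, mul a b = e ∧ mul b a = e := by
    intro a ha
    have hb : (mu a)⁻¹ • e ≠ o := by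
      intro he
      rw [inv_smul_eq_iff, (hmu a ha).1] at he
      exact hoe he.symm
    have h1 : mul ((mu a)⁻¹ • e) a = e := by
      rw [mul_ne _ _ ha, smul_inv_smul]
    refine ⟨(mu a)⁻¹ • e, ?_, h1⟩
    have h2 := mu_mul _ _ hb ha
    rw [h1, mu_e] at h2
    have h3 : mu ((mu a)⁻¹ • e) = (mu a)⁻¹ := (eq_inv_of_mul_eq_one_right h2.symm)
    rw [mul_ne _ _ hb, h3]
    rw [inv_smul_eq_iff, (hmu a ha).2]
  obtain ⟨inst, hadd, hmul, hzero⟩ := nf_of_ops add mul neg o e add_assoc' zero_add' neg_add' mul_assoc'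
    one_mul' mul_one' rd mul_o hoe inv
  refine ⟨inst, fun f => ⟨?_, ?_⟩⟩
  · rintro ⟨g, hg⟩
    let b := g • o
    let k := (tau b)⁻¹ * g
    have hk : k • o = o := by
      show ((tau b)⁻¹ * g) • o = o
      rw [mul_smul, inv_smul_eq_iff, htauo]
    have ha : k • e ≠ o := by
      intro he
      have : k • e = k • o := by rw [he, hk]
      exact hoe (smul_left_cancel _ this).symm
    have hkm : k = mu (k • e) := mu_uniq k _ ha hk rfl
    refine ⟨k • e, b, by rw [hzero]; exact ha, fun x => ?_⟩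
    rw [hadd, hmul, hg, mul_ne _ _ ha, ← hkm]
    show g • x = tau b • k • x
    rw [← mul_smul]
    show g • x = (tau b * ((tau b)⁻¹ * g)) • x
    rw [mul_inv_cancel_left]
  · rintro ⟨a, b, ha, hf⟩
    rw [hzero] at ha
    refine ⟨tau b * mu a, fun x => ?_⟩
    rw [hf, hadd, hmul, mul_ne _ _ ha, mul_smul]

/-- A finite sharply doubly transitive permutation group is the affine group of a near-field: the permuted set carries a near-field structure for which the group consists exactly of the maps `x ↦ x * a + b` with `a ≠ 0`. -/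
theorem result {α : Type*} [Fintype α] [DecidableEq α] (H : Subgroup (Equiv.Perm α)) [MulAction.IsMultiplyPretransitive H α 2] (hsharp : ∀ x : Fin 2 ↪ α, MulAction.stabilizer H x = ⊥) (h2 : 2 ≤ Fintype.card α) : ∃ _ : Cfsg.NearField α, ∀ σ : Equiv.Perm α, σ ∈ H ↔ ∃ a b : α, a ≠ 0 ∧ ∀ x : α, σ x = x * a + b := by
  classical
  have hS := Cfsg.Agent.S0680.sharp_of H hsharp
  obtain ⟨inst, hf⟩ := main_nf hS h2
  refine ⟨inst, fun σ => ?_⟩
  rw [← hf σ]
  constructor
  · intro hσ
    exact ⟨⟨σ, hσ⟩, fun x => rfl⟩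
  · rintro ⟨g, hg⟩
    have : σ = (g : Equiv.Perm α) := Equiv.ext hg
    rw [this]
    exact g.2


end Cfsg.Agent.S0683
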