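import Cfsg.Statements.S0684
import Mathlib

set_option autoImplicit false
open Cfsg

namespace Cfsg.Agent.S0684


section
variable {p : ℕ} [Fact p.Prime] {V : Type*} [AddCommGroup V] [Module (ZMod p) V] [Finite V]

/-- invariance of a subspace under a subgroup. -/
def Inv {H : Subgroup (V ≃ₗ[ZMod p] V)} (A : Subgroup H) (W : Submodule (ZMod p) V) : Prop :=
  ∀ a ∈ A, ∀ v ∈ W, ((a : H) : V ≃ₗ[ZMod p] V) v ∈ W

theorem exists_min {H : Subgroup (V ≃ₗ[ZMod p] V)} (A : Subgroup H) (W₀ : Submodule (ZMod p) V)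
    (h0 : W₀ ≠ ⊥) (hi : Inv A W₀) :
    ∃ W : Submodule (ZMod p) V, W ≤ W₀ ∧ W ≠ ⊥ ∧ Inv A W ∧
      ∀ W' : Submodule (ZMod p) V, W' ≤ W → Inv A W' → W' = ⊥ ∨ W' = W := by
  classical
  haveI : Finite (Submodule (ZMod p) V) :=
    Finite.of_injective (fun W : Submodule (ZMod p) V => (W : Set V)) SetLike.coe_injective
  let S : Set (Submodule (ZMod p) V) := {W | W ≤ W₀ ∧ W ≠ ⊥ ∧ Inv A W}
  have hS : S.Nonempty := ⟨W₀, le_refl _, h0, hi⟩
  obtain ⟨W, hW⟩ := (Set.toFinite S).exists_minimal hS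
  refine ⟨W, hW.1.1, hW.1.2.1, hW.1.2.2, fun W' hle hI => ?_⟩
  by_cases hb : W' = ⊥
  · exact Or.inl hb
  · right
    have h3 : W' ∈ S := ⟨hle.trans hW.1.1, hb, hI⟩
    exact le_antisymm hle (hW.2 h3 hle)

theorem fix_one {H : Subgroup (V ≃ₗ[ZMod p] V)}
    (hreg : ∀ v w : V, v ≠ 0 → w ≠ 0 → ∃! h : H, (h : V ≃ₗ[ZMod p] V) v = w)
    (h : H) (v : V) (hv : v ≠ 0) (hf : (h : V ≃ₗ[ZMod p] V) v = v) : h = 1 :=
  (hreg v v hv hv).unique hf (by simp)

/-- a commuting group acting on a minimal invariant subspace without fixed points is cyclic. -/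
theorem cyclic_of_min {H : Subgroup (V ≃ₗ[ZMod p] V)}
    (hreg : ∀ v w : V, v ≠ 0 → w ≠ 0 → ∃! h : H, (h : V ≃ₗ[ZMod p] V) v = w)
    (A : Subgroup H) (hAc : IsMulCommutative A) (W : Submodule (ZMod p) V) (h0 : W ≠ ⊥)
    (hi : Inv A W) (hmin : ∀ W' : Submodule (ZMod p) V, W' ≤ W → Inv A W' → W' = ⊥ ∨ W' = W) :
    IsCyclic A := by
  classical
  haveI : Finite (V ≃ₗ[ZMod p] V) :=
    Finite.of_injective (fun f : V ≃ₗ[ZMod p] V => (f : V → V)) DFunLike.coe_injective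
  -- the restriction map
  let r : A → Module.End (ZMod p) W := fun a =>
    (((a : H) : V ≃ₗ[ZMod p] V).toLinearMap.restrict (q := W) (p := W) (fun v hv => hi a a.2 v hv))
  have hr : ∀ a (w : W), ((r a w : W) : V) = ((a : H) : V ≃ₗ[ZMod p] V) w := fun a w => rfl
  let ρ : A →* Module.End (ZMod p) W :=
    { toFun := r
      map_one' := by
        ext w
        show ((r 1 w : W) : V) = _
        rw [hr]
        rfl
      map_mul' := by
        intro a b
        ext w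
        rw [hr]
        rfl }
  have hρ : ∀ a (w : W), ((ρ a w : W) : V) = ((a : H) : V ≃ₗ[ZMod p] V) w := fun a w => rfl
  have hcomm : ∀ a b, ρ a * ρ b = ρ b * ρ a := by
    intro a b
    rw [← map_mul, ← map_mul, hAc.is_comm.comm a b]
  let s : Set (Module.End (ZMod p) W) := Set.range ρ
  have hs : ∀ x ∈ s, ∀ y ∈ s, x * y = y * x := by
    rintro _ ⟨a, rfl⟩ _ ⟨b, rfl⟩
    exact hcomm a b
  let R := Algebra.adjoin (ZMod p) s
  letI : CommRing R := Algebra.adjoinCommRingOfComm (ZMod p) hs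
  -- elements of `R` commute with the action
  have hRc : ∀ x ∈ R, ∀ a, x * ρ a = ρ a * x := by
    intro x hx a
    induction hx using Algebra.adjoin_induction with
    | mem y hy => exact hs y hy _ ⟨a, rfl⟩
    | algebraMap c => exact Algebra.commutes c (ρ a)
    | add y z _ _ hy hz => rw [add_mul, mul_add, hy, hz]
    | mul y z _ _ hy hz => rw [mul_assoc, hz, ← mul_assoc, hy, mul_assoc]
  -- a nonzero element is injective
  have hinjR : ∀ x ∈ R, x ≠ 0 → ∀ w : W, x w = 0 → w = 0 := by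
    intro x hx hx0 w hw
    let K : Submodule (ZMod p) V := (LinearMap.ker x).map W.subtype
    have hKle : K ≤ W := by
      rintro _ ⟨u, _, rfl⟩
      exact u.2
    have hKI : Inv A K := by
      rintro a ha _ ⟨u, hu, rfl⟩
      refine ⟨ρ ⟨a, ha⟩ u, ?_, rfl⟩
      have h3 := congrArg (fun f : Module.End (ZMod p) W => f u) (hRc x hx ⟨a, ha⟩)
      have h4 : x (ρ ⟨a, ha⟩ u) = ρ ⟨a, ha⟩ (x u) := h3
      show x (ρ ⟨a, ha⟩ u) = 0
      rw [h4]
      have : x u = 0 := hu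
      rw [this, map_zero]
    rcases hmin K hKle hKI with hK | hK
    · have h5 : (w : V) ∈ K := ⟨w, hw, rfl⟩
      rw [hK, Submodule.mem_bot] at h5
      exact Subtype.ext h5
    · exfalso
      apply hx0
      ext u
      have h5 : (u : V) ∈ K := by rw [hK]; exact u.2
      obtain ⟨u', hu', hue⟩ := h5
      have : u' = u := Subtype.ext hue
      rw [← this]
      have h6 : x u' = 0 := hu'
      rw [h6]
      rfl
  obtain ⟨w₀, hw₀, hw₀0⟩ := (Submodule.ne_bot_iff W).1 h0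
  haveI : NoZeroDivisors R := by
    refine ⟨?_⟩
    intro x y hxy
    by_cases hx : x = 0
    · exact Or.inl hx
    right
    apply Subtype.ext
    ext w
    have h1 : (x : Module.End (ZMod p) W) ≠ 0 := fun h => hx (Subtype.ext h)
    have h2 := congrArg (fun z : R => ((z : Module.End (ZMod p) W) w)) hxy
    have h3 : (x : Module.End (ZMod p) W) ((y : Module.End (ZMod p) W) w) = 0 := h2
    have h4 := hinjR x x.2 h1 _ h3
    rw [h4]
    rfl
  haveI : Nontrivial R := by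
    refine ⟨⟨1, 0, ?_⟩⟩
    intro h1
    have h2 := congrArg (fun z : R => ((z : Module.End (ZMod p) W) ⟨w₀, hw₀⟩)) h1
    have h3 : (⟨w₀, hw₀⟩ : W) = 0 := h2
    exact hw₀0 (congrArg Subtype.val h3)
  haveI : IsDomain R := NoZeroDivisors.to_isDomain R
  let f : A →* R :=
    { toFun := fun a => ⟨ρ a, Algebra.subset_adjoin ⟨a, rfl⟩⟩
      map_one' := Subtype.ext (map_one ρ)
      map_mul' := fun a b => Subtype.ext (map_mul ρ a b) }
  refine isCyclic_of_subgroup_isDomain f ?_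
  intro a b hab
  have h1 : ρ a = ρ b := congrArg Subtype.val hab
  have h2 : ((a : H) : V ≃ₗ[ZMod p] V) w₀ = ((b : H) : V ≃ₗ[ZMod p] V) w₀ := by
    have := congrArg (fun g : Module.End (ZMod p) W => ((g ⟨w₀, hw₀⟩ : W) : V)) h1
    exact this
  have h3 : ((a : H)⁻¹ * (b : H)) = 1 := by
    apply fix_one hreg _ w₀ hw₀0
    show ((a : H) : V ≃ₗ[ZMod p] V)⁻¹ (((b : H) : V ≃ₗ[ZMod p] V) w₀) = w₀
    rw [← h2]
    exact LinearEquiv.symm_apply_apply _ w₀
  exact Subtype.ext (inv_mul_eq_one.1 h3)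

theorem cyclic_all {H : Subgroup (V ≃ₗ[ZMod p] V)}
    (hreg : ∀ v w : V, v ≠ 0 → w ≠ 0 → ∃! h : H, (h : V ≃ₗ[ZMod p] V) v = w) (hV : (⊤ : Submodule (ZMod p) V) ≠ ⊥)
    (A : Subgroup H) (hAc : IsMulCommutative A) : IsCyclic A := by
  obtain ⟨W, _, h0, hi, hmin⟩ := exists_min A ⊤ hV (fun _ _ _ _ => Submodule.mem_top)
  exact cyclic_of_min hreg A hAc W h0 hi hmin

/-- free action on the nonzero vectors of an invariant subspace. -/
theorem card_dvd {H : Subgroup (V ≃ₗ[ZMod p] V)}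
    (hreg : ∀ v w : V, v ≠ 0 → w ≠ 0 → ∃! h : H, (h : V ≃ₗ[ZMod p] V) v = w)
    (A : Subgroup H) (W : Submodule (ZMod p) V) (hi : Inv A W) :
    Nat.card A ∣ p ^ Module.finrank (ZMod p) W - 1 := by
  classical
  let X := {v : V // v ∈ W ∧ v ≠ 0}
  letI : MulAction A X :=
    { smul := fun a x => ⟨((a : H) : V ≃ₗ[ZMod p] V) x.1, hi a a.2 _ x.2.1, fun h => x.2.2 (by
        have := congrArg ((a : H) : V ≃ₗ[ZMod p] V).symm h
        simpa using this)⟩
      one_smul := fun x => Subtype.ext rfl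
      mul_smul := fun a b x => Subtype.ext rfl }
  have hfree : ∀ b : X, MulAction.stabilizer A b = ⊥ := by
    intro b
    rw [eq_bot_iff]
    intro a ha
    have h1 : ((a : H) : V ≃ₗ[ZMod p] V) b.1 = b.1 := congrArg Subtype.val (MulAction.mem_stabilizer_iff.1 ha)
    have h2 := fix_one hreg (a : H) b.1 b.2.2 h1
    rw [Subgroup.mem_bot]
    exact Subtype.ext h2
  have hcard : Nat.card X = Nat.card (Quotient (MulAction.orbitRel A X)) * Nat.card A := by
    rw [Nat.card_congr (MulAction.selfEquivOrbitsQuotientProd hfree), Nat.card_prod]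
  have hX : Nat.card X = p ^ Module.finrank (ZMod p) W - 1 := by
    have h1 : Nat.card W = p ^ Module.finrank (ZMod p) W := by
      rw [Module.natCard_eq_pow_finrank (K := ZMod p), Nat.card_zmod]
    haveI : Fintype W := Fintype.ofFinite W
    have h2 : Nat.card {w : W // w ≠ 0} = Nat.card W - 1 := by
      rw [Nat.card_eq_fintype_card, Nat.card_eq_fintype_card, Fintype.card_subtype_compl]
      simp
    rw [← h1, ← h2]
    apply Nat.card_congr
    exact
      { toFun := fun x => ⟨⟨x.1, x.2.1⟩, fun h => x.2.2 (congrArg Subtype.val h)⟩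
        invFun := fun w => ⟨w.1.1, w.1.2, fun h => w.2 (Subtype.ext h)⟩
        left_inv := fun x => rfl
        right_inv := fun w => rfl }
  rw [← hX, hcard]
  exact dvd_mul_left _ _

end

/-- Point stabiliser of a sharply doubly transitive group not of semilinear type: a maximal normal abelian subgroup `A` of a linear group `H` that is regular on non-zero vectors and has no irreducible cyclic normal subgroup is cyclic and reducible, and the order of `A` divides `p ^ k - 1` for `k` the dimension of a minimal `A`-invariant subspace. -/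
theorem result {p : ℕ} [Fact p.Prime] {V : Type*} [AddCommGroup V] [Module (ZMod p) V] [Finite V] (H : Subgroup (V ≃ₗ[ZMod p] V)) (hreg : ∀ v w : V, v ≠ 0 → w ≠ 0 → ∃! h : H, (h : V ≃ₗ[ZMod p] V) v = w) (hI : ∀ A : Subgroup H, A.Normal → IsCyclic A → ∃ W : Submodule (ZMod p) V, W ≠ ⊥ ∧ W ≠ ⊤ ∧ ∀ a ∈ A, ∀ v ∈ W, ((a : H) : V ≃ₗ[ZMod p] V) v ∈ W) (A : Subgroup H) (hAn : A.Normal) (hAc : IsMulCommutative A) (hAmax : ∀ B : Subgroup H, B.Normal → IsMulCommutative B → A ≤ B → B = A) : IsCyclic A ∧ ∃ W : Submodule (ZMod p) V, W ≠ ⊥ ∧ W ≠ ⊤ ∧ (∀ a ∈ A, ∀ v ∈ W, ((a : H) : V ≃ₗ[ZMod p] V) v ∈ W) ∧ (∀ W' : Submodule (ZMod p) V, W' ≤ W → (∀ a ∈ A, ∀ v ∈ W', ((a : H) : V ≃ₗ[ZMod p] V) v ∈ W') → W' = ⊥ ∨ W' = W) ∧ Nat.card A ∣ p ^ Module.finrank (ZMod p) W - 1 := by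
  classical
  obtain ⟨W₁, hW₁, _, _⟩ := hI ⊥ (by infer_instance) (by infer_instance)
  have hV : (⊤ : Submodule (ZMod p) V) ≠ ⊥ := fun h => hW₁ (eq_bot_iff.2 (h ▸ le_top))
  have hcyc : IsCyclic A := cyclic_all hreg hV A hAc
  refine ⟨hcyc, ?_⟩
  obtain ⟨W₀, h0, ht, hi⟩ := hI A hAn hcyc
  obtain ⟨W, hle, hW0, hWi, hmin⟩ := exists_min A W₀ h0 hi
  refine ⟨W, hW0, fun h => ht (top_le_iff.1 (h ▸ hle)), hWi, hmin, card_dvd hreg A W hWi⟩


end Cfsg.Agent.S0684
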