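import Cfsg.Statements.S0685
import Mathlib
import Cfsg.Agent.S0684

set_option autoImplicit false
open Cfsg

namespace Cfsg.Agent.S0685


open Cfsg.Agent.S0684

theorem num (p n k m : ℕ) (hp : 2 ≤ p) (hk : 0 < k) (hkn : k < n) (h1 : m ∣ p ^ k - 1)
    (h2 : m ∣ p ^ n - 1) (hle : p ^ n - 1 ≤ m * m) : False := by
  have hpow : ∀ j, 0 < j → 2 ≤ p ^ j := fun j hj =>
    le_trans hp (Nat.le_self_pow (by omega) p)
  have h3 : m ∣ p ^ (n - k) - 1 := by
    have he : p ^ n - 1 = p ^ (n - k) * (p ^ k - 1) + (p ^ (n - k) - 1) := by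
      have h5 : p ^ n = p ^ (n - k) * p ^ k := by
        rw [← pow_add]; congr 1; omega
      have h6 := hpow k hk
      have h7 := hpow (n - k) (by omega)
      obtain ⟨a, ha⟩ : ∃ a, p ^ k = a + 1 := ⟨p ^ k - 1, by omega⟩
      obtain ⟨b, hb⟩ : ∃ b, p ^ (n - k) = b + 1 := ⟨p ^ (n - k) - 1, by omega⟩
      rw [h5, ha, hb]
      simp only [Nat.add_sub_cancel]
      have : (b + 1) * (a + 1) = (b + 1) * a + b + 1 := by ring
      omega
    rw [he] at h2
    exact (Nat.dvd_add_right (dvd_mul_of_dvd_right h1 _)).1 h2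
  obtain ⟨j, hj0, hj2, hjm⟩ : ∃ j, 0 < j ∧ 2 * j ≤ n ∧ m ∣ p ^ j - 1 := by
    by_cases hc : 2 * k ≤ n
    · exact ⟨k, hk, hc, h1⟩
    · exact ⟨n - k, by omega, by omega, h3⟩
  have hq := hpow j hj0
  have hm : m ≤ p ^ j - 1 := Nat.le_of_dvd (by omega) hjm
  obtain ⟨r, hr⟩ : ∃ r, p ^ j = r + 1 := ⟨p ^ j - 1, by omega⟩
  rw [hr, Nat.add_sub_cancel] at hm
  have hr1 : 1 ≤ r := by omega
  have h8 : (r + 1) * (r + 1) ≤ p ^ n := by
    rw [← hr, ← pow_add]
    exact Nat.pow_le_pow_right (by omega) (by omega)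
  have h9 : m * m ≤ r * r := Nat.mul_le_mul hm hm
  have : (r + 1) * (r + 1) = r * r + 2 * r + 1 := by ring
  omega

/-- In a linear group over the prime field that is regular on non-zero vectors and has no irreducible cyclic normal subgroup, a maximal normal abelian subgroup is properly contained in its centraliser, which is non-abelian. -/
theorem result {p : ℕ} [Fact p.Prime] {V : Type*} [AddCommGroup V] [Module (ZMod p) V] [Finite V] (H : Subgroup (V ≃ₗ[ZMod p] V)) (hreg : ∀ v w : V, v ≠ 0 → w ≠ 0 → ∃! h : H, (h : V ≃ₗ[ZMod p] V) v = w) (hI : ∀ A : Subgroup H, A.Normal → IsCyclic A → ∃ W : Submodule (ZMod p) V, W ≠ ⊥ ∧ W ≠ ⊤ ∧ ∀ a ∈ A, ∀ v ∈ W, ((a : H) : V ≃ₗ[ZMod p] V) v ∈ W) (A : Subgroup H) (hAn : A.Normal) (hAc : IsMulCommutative A) (hAmax : ∀ B : Subgroup H, B.Normal → IsMulCommutative B → A ≤ B → B = A) : A < Subgroup.centralizer (A : Set H) ∧ ¬ IsMulCommutative (Subgroup.centralizer (A : Set H)) := by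
  classical
  obtain ⟨W₁, hW₁, _, _⟩ := hI ⊥ (by infer_instance) (by infer_instance)
  have hV : (⊤ : Submodule (ZMod p) V) ≠ ⊥ := fun h => hW₁ (eq_bot_iff.2 (h ▸ le_top))
  have hcyc : IsCyclic A := cyclic_all hreg hV A hAc
  obtain ⟨W₀, h0, ht, hi⟩ := hI A hAn hcyc
  haveI : Finite (V ≃ₗ[ZMod p] V) :=
    Finite.of_injective (fun f : V ≃ₗ[ZMod p] V => (f : V → V)) DFunLike.coe_injective
  have hp' : p.Prime := Fact.out
  have hAleC : A ≤ Subgroup.centralizer (A : Set H) := by
    intro a ha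
    rw [Subgroup.mem_centralizer_iff]
    intro b hb
    have := hAc.is_comm.comm ⟨b, hb⟩ ⟨a, ha⟩
    exact congrArg Subtype.val this
  have hCne : Subgroup.centralizer (A : Set H) ≠ A := by
    intro hC
    have hm1 : Nat.card A ∣ p ^ Module.finrank (ZMod p) W₀ - 1 := card_dvd hreg A W₀ hi
    have hm2 : Nat.card A ∣ p ^ Module.finrank (ZMod p) V - 1 := by
      have := card_dvd hreg A ⊤ (fun _ _ _ _ => Submodule.mem_top)
      rwa [finrank_top] at this
    have hk : 0 < Module.finrank (ZMod p) W₀ := by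
      rw [Module.finrank_pos_iff]
      exact Submodule.nontrivial_iff_ne_bot.2 h0
    have hkn : Module.finrank (ZMod p) W₀ < Module.finrank (ZMod p) V := Submodule.finrank_lt ht
    have hH : Nat.card H = p ^ Module.finrank (ZMod p) V - 1 := by
      have h1 : Nat.card V = p ^ Module.finrank (ZMod p) V := by
        rw [Module.natCard_eq_pow_finrank (K := ZMod p), Nat.card_zmod]
      haveI : Fintype V := Fintype.ofFinite V
      have h2 : Nat.card {w : V // w ≠ 0} = Nat.card V - 1 := by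
        rw [Nat.card_eq_fintype_card, Nat.card_eq_fintype_card, Fintype.card_subtype_compl]
        simp
      rw [← h1, ← h2]
      obtain ⟨v, _, hv⟩ := (Submodule.ne_bot_iff (⊤ : Submodule (ZMod p) V)).1 hV
      apply Nat.card_congr
      refine Equiv.ofBijective (fun h : H => ⟨(h : V ≃ₗ[ZMod p] V) v, fun h0 => hv (by
        have := congrArg (h : V ≃ₗ[ZMod p] V).symm h0
        simpa using this)⟩) ⟨?_, ?_⟩
      · intro h₁ h₂ he
        exact (hreg v _ hv (fun h0 => hv (by
          have := congrArg (h₁ : V ≃ₗ[ZMod p] V).symm h0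
          simpa using this))).unique rfl (congrArg Subtype.val he).symm
      · rintro ⟨w, hw⟩
        obtain ⟨h, hh, _⟩ := hreg v w hv hw
        exact ⟨h, Subtype.ext hh⟩
    have hle : Nat.card H ≤ Nat.card A * Nat.card A := by
      let ψ : H →* MulAut A := MulAut.conjNormal
      have hker : ψ.ker ≤ A := by
        intro h hh
        rw [← hC, Subgroup.mem_centralizer_iff]
        intro a ha
        have h1 : ψ h ⟨a, ha⟩ = ⟨a, ha⟩ := by
          rw [MonoidHom.mem_ker.1 hh]; rfl
        have h2 : h * a * h⁻¹ = a := by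
          have := congrArg Subtype.val h1
          rwa [MulAut.conjNormal_apply] at this
        exact (mul_inv_eq_iff_eq_mul.1 h2).symm
      have h3 : Nat.card ψ.ker ≤ Nat.card A := Subgroup.card_le_of_le hker
      have h4 : ψ.ker.index ≤ Nat.card A := by
        rw [Subgroup.index_ker]
        calc Nat.card ψ.range ≤ Nat.card (MulAut A) := Subgroup.card_le_card_group _
          _ = (Nat.card A).totient := IsCyclic.card_mulAut A
          _ ≤ Nat.card A := Nat.totient_le _
      rw [← ψ.ker.card_mul_index]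
      exact Nat.mul_le_mul h3 h4
    rw [hH] at hle
    exact num p _ _ _ hp'.two_le hk hkn hm1 hm2 hle
  have hCn : (Subgroup.centralizer (A : Set H)).Normal := inferInstance
  exact ⟨lt_of_le_of_ne hAleC (Ne.symm hCne), fun hcomm => hCne (hAmax _ hCn hcomm hAleC)⟩


end Cfsg.Agent.S0685
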