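import Cfsg.Statements.S0691
import Mathlib
import Cfsg.Agent.Lib.GL2Reg

set_option autoImplicit false
open Cfsg

namespace Cfsg.Agent.S0691


open Cfsg.Agent.Lib.GL2Reg

/-- the table of second columns -/
def tabT : ℕ := 63565081964156403217674002209225500

/-- the table of depths -/
def tabD : ℕ := 630436909040089378144388203330543780260334687757372803748373196698171066732470519368414461181196757224276150427844608

theorem chk_ok : chk 5 tabT tabD ⟨2, 0, 0, 3⟩ ⟨0, 4, 1, 0⟩ ⟨1, 2, 1, 3⟩ = true := by decide +kernel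

/-- An exceptional sharply doubly transitive group of degree 5^2: the listed matrices generate a subgroup of GL(2,5) of order 24 acting regularly on the non-zero vectors. -/
theorem result (A : Matrix.GeneralLinearGroup (Fin 2) (ZMod 5)) (B : Matrix.GeneralLinearGroup (Fin 2) (ZMod 5)) (C : Matrix.GeneralLinearGroup (Fin 2) (ZMod 5)) (hA : (A : Matrix (Fin 2) (Fin 2) (ZMod 5)) = !![2, 0; 0, -2]) (hB : (B : Matrix (Fin 2) (Fin 2) (ZMod 5)) = !![0, -1; 1, 0]) (hC : (C : Matrix (Fin 2) (Fin 2) (ZMod 5)) = !![1, 2; 1, -2]) : Nat.card (Subgroup.closure ({A, B, C} : Set (Matrix.GeneralLinearGroup (Fin 2) (ZMod 5)))) = 24 ∧ ∀ v w : Fin 2 → ZMod 5, v ≠ 0 → w ≠ 0 → ∃! h : Subgroup.closure ({A, B, C} : Set (Matrix.GeneralLinearGroup (Fin 2) (ZMod 5))), Matrix.mulVec ((h : Matrix.GeneralLinearGroup (Fin 2) (ZMod 5)) : Matrix (Fin 2) (Fin 2) (ZMod 5)) v = w := by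
  haveI : Fact (Nat.Prime 5) := ⟨by norm_num⟩
  have h := final (p := 5) tabT tabD ⟨2, 0, 0, 3⟩ ⟨0, 4, 1, 0⟩ ⟨1, 2, 1, 3⟩ chk_ok ({A, B, C} : Set (Matrix.GeneralLinearGroup (Fin 2) (ZMod 5))) A B C (by simp) (by simp) (by simp)
    (by
      intro g hg
      simpa using hg)
    (by rw [hA]; ext i j; fin_cases i <;> fin_cases j <;> rfl)
    (by rw [hB]; ext i j; fin_cases i <;> fin_cases j <;> rfl)
    (by rw [hC]; ext i j; fin_cases i <;> fin_cases j <;> rfl)
  refine ⟨h.1.trans (by norm_num), h.2⟩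

end Cfsg.Agent.S0691
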