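import Cfsg.Statements.S0692
import Mathlib
import Cfsg.Agent.Lib.GL2Reg

set_option autoImplicit false
open Cfsg

namespace Cfsg.Agent.S0692


open Cfsg.Agent.Lib.GL2Reg

/-- the table of second columns -/
def tabT : ℕ := 1023680225608697388012943959888221555773884460587597699588946763836862267929030428284324894330800777590142402382016351544432580559225862755822891156456045322606591029962305480370139021168103931822586108881595739348033788433449416919018550888025461246980

/-- the table of depths -/
def tabD : ℕ := 2659226845241813419747077607869713660123137257387785021814178770783676322818356611482108908173581578504045763458033955939389879266153696236194607344730289801203638315795400586700388214833929985736996233137053787583477090160712239919776961699060564748283463106033258026689747422827625914351628741779878980903835764355783524084208665414391062359473399060806054858894594856134658437748995641057632851425583827867786218474679536790372347808062020941146262250348567173172317113289489213765776556120931194941213332903962565106737746801542535112023460601975423765136473529250369751482368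

theorem chk_ok : chk 11 tabT tabD ⟨0, 10, 1, 0⟩ ⟨2, 4, 1, 8⟩ ⟨2, 4, 1, 8⟩ = true := by decide +kernel

/-- An exceptional sharply doubly transitive group of degree 11^2: the listed matrices generate a subgroup of GL(2,11) of order 120 acting regularly on the non-zero vectors. -/
theorem result (A : Matrix.GeneralLinearGroup (Fin 2) (ZMod 11)) (B : Matrix.GeneralLinearGroup (Fin 2) (ZMod 11)) (hA : (A : Matrix (Fin 2) (Fin 2) (ZMod 11)) = !![0, -1; 1, 0]) (hB : (B : Matrix (Fin 2) (Fin 2) (ZMod 11)) = !![2, 4; 1, -3]) : Nat.card (Subgroup.closure ({A, B} : Set (Matrix.GeneralLinearGroup (Fin 2) (ZMod 11)))) = 120 ∧ ∀ v w : Fin 2 → ZMod 11, v ≠ 0 → w ≠ 0 → ∃! h : Subgroup.closure ({A, B} : Set (Matrix.GeneralLinearGroup (Fin 2) (ZMod 11))), Matrix.mulVec ((h : Matrix.GeneralLinearGroup (Fin 2) (ZMod 11)) : Matrix (Fin 2) (Fin 2) (ZMod 11)) v = w := by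
  haveI : Fact (Nat.Prime 11) := ⟨by norm_num⟩
  have h := final (p := 11) tabT tabD ⟨0, 10, 1, 0⟩ ⟨2, 4, 1, 8⟩ ⟨2, 4, 1, 8⟩ chk_ok ({A, B} : Set (Matrix.GeneralLinearGroup (Fin 2) (ZMod 11))) A B B (by simp) (by simp) (by simp)
    (by
      intro g hg
      simpa using hg)
    (by rw [hA]; ext i j; fin_cases i <;> fin_cases j <;> rfl)
    (by rw [hB]; ext i j; fin_cases i <;> fin_cases j <;> rfl)
    (by rw [hB]; ext i j; fin_cases i <;> fin_cases j <;> rfl)
  refine ⟨h.1.trans (by norm_num), h.2⟩

end Cfsg.Agent.S0692
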