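import Cfsg.Statements.S0694
import Mathlib

set_option autoImplicit false
open Cfsg

namespace Cfsg.Agent.S0694


theorem dvd_of_padic {a b : ℕ} (ha : a ≠ 0) (hb : b ≠ 0) (h : ∀ u : ℕ, u.Prime → padicValNat u a ≤ padicValNat u b) : a ∣ b := by
  refine (Nat.factorization_prime_le_iff_dvd ha hb).1 (fun p hp => ?_)
  rw [Nat.factorization_def _ hp, Nat.factorization_def _ hp]
  exact h p hp

theorem pv_le_of_dvd {a b u : ℕ} (hu : u.Prime) (hb : b ≠ 0) (h : a ∣ b) : padicValNat u a ≤ padicValNat u b := by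
  have ha : a ≠ 0 := fun e => hb (Nat.eq_zero_of_zero_dvd (e ▸ h))
  have := (Nat.factorization_prime_le_iff_dvd ha hb).2 h u hu
  rwa [Nat.factorization_def _ hu, Nat.factorization_def _ hu] at this

theorem pow_sub_one_ne {q k : ℕ} (hq : 2 ≤ q) (hk : k ≠ 0) : q ^ k - 1 ≠ 0 := by
  have : 2 ^ k ≤ q ^ k := Nat.pow_le_pow_left hq k
  have h2 : 1 < 2 ^ k := Nat.one_lt_two_pow hk
  omega

theorem sub_one_dvd {q k : ℕ} : q - 1 ∣ q ^ k - 1 := by
  simpa using Nat.sub_dvd_pow_sub_pow q 1 k

/-- if `u ∣ q - 1` and `u ∤ k` then `q ^ k - 1` and `q - 1` have the same `u`-part. -/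
theorem pv_notdvd {q k u : ℕ} (hu : u.Prime) (hq : 2 ≤ q) (hk : k ≠ 0) (h1 : u ∣ q - 1) (h2 : ¬ u ∣ k) :
    padicValNat u (q ^ k - 1) = padicValNat u (q - 1) := by
  haveI : Fact u.Prime := ⟨hu⟩
  have hS : q ^ k - 1 = (q - 1) * ∑ j ∈ Finset.range k, q ^ j := by
    rw [Nat.geomSum_eq hq k, Nat.mul_div_cancel' sub_one_dvd]
  have hq1 : (q : ZMod u) = 1 := by
    have : ((q - 1 : ℕ) : ZMod u) = 0 := (ZMod.natCast_eq_zero_iff _ _).2 h1
    rw [Nat.cast_sub (by omega)] at this
    simpa [sub_eq_zero] using this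
  have hS2 : ¬ u ∣ ∑ j ∈ Finset.range k, q ^ j := by
    intro hd
    have := (ZMod.natCast_eq_zero_iff _ _).2 hd
    push_cast at this
    rw [hq1] at this
    simp only [one_pow, Finset.sum_const, Finset.card_range, nsmul_eq_mul, mul_one] at this
    exact h2 ((ZMod.natCast_eq_zero_iff _ _).1 this)
  have hne : (q - 1) ≠ 0 := by omega
  have hne2 : ∑ j ∈ Finset.range k, q ^ j ≠ 0 := by
    intro e; rw [e] at hS2; exact hS2 (dvd_zero _)
  rw [hS, padicValNat.mul hne hne2, padicValNat.eq_zero_of_not_dvd hS2, add_zero]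

theorem not_dvd_of_sub_one {q u : ℕ} (hu : u.Prime) (hq : 2 ≤ q) (h1 : u ∣ q - 1) : ¬ u ∣ q := by
  intro h
  have : u ∣ q - (q - 1) := Nat.dvd_sub h h1
  have h2 : q - (q - 1) = 1 := by omega
  rw [h2] at this
  exact hu.one_lt.ne' (Nat.dvd_one.1 this)

theorem pv_odd {q k u : ℕ} (hu : u.Prime) (hodd : u ≠ 2) (hq : 2 ≤ q) (hk : k ≠ 0) (h1 : u ∣ q - 1) :
    padicValNat u (q ^ k - 1) = padicValNat u (q - 1) + padicValNat u k := by
  haveI : Fact u.Prime := ⟨hu⟩
  have := padicValNat.pow_sub_pow (x := q) (y := 1) (p := u) (hu.odd_of_ne_two hodd) (by omega) h1 (not_dvd_of_sub_one hu hq h1) hk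
  simpa using this

theorem pv_two {q k : ℕ} (hq : 2 ≤ q) (hk : k ≠ 0) (h1 : 2 ∣ q - 1) (hev : Even k) :
    padicValNat 2 (q ^ k - 1) + 1 = padicValNat 2 (q + 1) + padicValNat 2 (q - 1) + padicValNat 2 k := by
  have := padicValNat.pow_two_sub_pow (x := q) (y := 1) (by omega) h1 (not_dvd_of_sub_one Nat.prime_two hq h1) hk hev
  simpa using this

/-- a small order modulo a prime. -/
theorem exists_small_order {q n u : ℕ} (hu : u.Prime) (hn : n ≠ 0) (h : u ∣ q ^ n - 1) (hq : 2 ≤ q) :
    ∃ t, 1 ≤ t ∧ t < u ∧ t ∣ n ∧ u ∣ q ^ t - 1 := by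
  haveI : Fact u.Prime := ⟨hu⟩
  have h1 : (q : ZMod u) ^ n = 1 := by
    have : ((q ^ n - 1 : ℕ) : ZMod u) = 0 := (ZMod.natCast_eq_zero_iff _ _).2 h
    rw [Nat.cast_sub (Nat.one_le_pow _ _ (by omega))] at this
    simpa [sub_eq_zero] using this
  have h0 : (q : ZMod u) ≠ 0 := by
    intro e
    rw [e, zero_pow hn] at h1
    exact zero_ne_one h1
  have h2 : (q : ZMod u) ^ (u - 1) = 1 := ZMod.pow_card_sub_one_eq_one h0
  have ht1 : orderOf (q : ZMod u) ∣ u - 1 := orderOf_dvd_of_pow_eq_one h2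
  have ht2 : orderOf (q : ZMod u) ∣ n := orderOf_dvd_of_pow_eq_one h1
  have hpos : 0 < orderOf (q : ZMod u) := orderOf_pos_iff.2 (isOfFinOrder_iff_pow_eq_one.2 ⟨u - 1, by have := hu.two_le; omega, h2⟩)
  refine ⟨_, hpos, ?_, ht2, ?_⟩
  · have := Nat.le_of_dvd (by have := hu.two_le; omega) ht1
    have := hu.two_le
    omega
  · rw [← ZMod.natCast_eq_zero_iff, Nat.cast_sub (Nat.one_le_pow _ _ (by omega))]
    push_cast
    rw [pow_orderOf_eq_one, sub_self]

theorem pow_sub_one_dvd_of_dvd {q s i : ℕ} (h : s ∣ i) : q ^ s - 1 ∣ q ^ i - 1 := by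
  obtain ⟨k, rfl⟩ := h
  rw [pow_mul]
  exact sub_one_dvd

/-- The Dickson pair condition: for a prime power `q` and `n > 1`, (every prime factor of `n` divides `q - 1`, and `4 ∣ n → 4 ∣ q - 1`) holds exactly when `q ^ n ≡ 1` modulo `n * (q - 1)` but `q ^ i` is not, for `0 < i < n`. -/
theorem result (q n : ℕ) (hq : IsPrimePow q) (hn : 1 < n) : ((∀ r : ℕ, r.Prime → r ∣ n → r ∣ q - 1) ∧ (4 ∣ n → 4 ∣ q - 1)) ↔ (q ^ n ≡ 1 [MOD n * (q - 1)] ∧ ∀ i : ℕ, 0 < i → i < n → ¬ q ^ i ≡ 1 [MOD n * (q - 1)]) := by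
  have hq2 : 2 ≤ q := hq.two_le
  have hq1 : q - 1 ≠ 0 := by omega
  have hn0 : n ≠ 0 := by omega
  have hmod : ∀ k, (q ^ k ≡ 1 [MOD n * (q - 1)] ↔ n * (q - 1) ∣ q ^ k - 1) := by
    intro k
    rw [Nat.ModEq.comm]
    exact Nat.modEq_iff_dvd' (Nat.one_le_pow _ _ (by omega))
  have hm0 : n * (q - 1) ≠ 0 := Nat.mul_ne_zero hn0 hq1
  constructor
  · rintro ⟨H1, H2⟩
    refine ⟨(hmod n).2 ?_, ?_⟩
    · refine dvd_of_padic hm0 (pow_sub_one_ne hq2 hn0) fun u hu => ?_
      haveI : Fact u.Prime := ⟨hu⟩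
      rw [padicValNat.mul hn0 hq1]
      by_cases hun : u ∣ n
      · have hu1 := H1 u hu hun
        by_cases hu2 : u = 2
        · subst hu2
          have hev : Even n := (even_iff_two_dvd).2 hun
          have h3 := pv_two hq2 hn0 hu1 hev
          have h4 : 1 ≤ padicValNat 2 (q + 1) := by
            apply one_le_padicValNat_of_dvd (by omega)
            omega
          omega
        · rw [pv_odd hu hu2 hq2 hn0 hu1, add_comm]
      · rw [padicValNat.eq_zero_of_not_dvd hun, zero_add]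
        exact pv_le_of_dvd hu (pow_sub_one_ne hq2 hn0) sub_one_dvd
    · intro i hi0 hin hcon
      rw [hmod] at hcon
      have hi0' : i ≠ 0 := by omega
      have hnd : ¬ n ∣ i := fun hd => absurd (Nat.le_of_dvd hi0 hd) (by omega)
      have hex : ∃ r : ℕ, r.Prime ∧ padicValNat r i < padicValNat r n := by
        by_contra hno
        push Not at hno
        exact hnd (dvd_of_padic hn0 hi0' hno)
      obtain ⟨r, hr, hlt⟩ := hex
      haveI : Fact r.Prime := ⟨hr⟩
      have hrn : r ∣ n := dvd_of_one_le_padicValNat (by omega)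
      have hr1 := H1 r hr hrn
      have hle := pv_le_of_dvd hr (pow_sub_one_ne hq2 hi0') hcon
      rw [padicValNat.mul hn0 hq1] at hle
      by_cases hr2 : r = 2
      · subst hr2
        by_cases hiev : Even i
        · have h4n : 4 ∣ n := by
            have hi1 : 1 ≤ padicValNat 2 i := one_le_padicValNat_of_dvd hi0' (even_iff_two_dvd.1 hiev)
            have : 2 ^ 2 ∣ n := (padicValNat_dvd_iff_le hn0).2 (by omega)
            simpa using this
          have h4q := H2 h4n
          have h3 := pv_two hq2 hi0' hr1 hiev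
          have h5 : padicValNat 2 (q + 1) = 1 := by
            have hq1mod : (q + 1) % 4 = 2 := by omega
            have hq1eq : q + 1 = 2 * ((q + 1) / 2) := by omega
            rw [hq1eq, padicValNat.mul (by norm_num) (by omega), padicValNat.self (by norm_num)]
            rw [padicValNat.eq_zero_of_not_dvd (by omega)]
          omega
        · have hnd2 : ¬ 2 ∣ i := fun hd => hiev (even_iff_two_dvd.2 hd)
          have := pv_notdvd Nat.prime_two hq2 hi0' hr1 hnd2
          omega
      · have := pv_odd hr hr2 hq2 hi0' hr1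
        omega
  · rintro ⟨hA, hB⟩
    rw [hmod] at hA
    have hB' : ∀ i, 0 < i → i < n → ¬ (n * (q - 1) ∣ q ^ i - 1) := by
      intro i h1 h2 h3
      exact hB i h1 h2 ((hmod i).2 h3)
    have hnq : ∀ u, u ∣ n → u ∣ q ^ n - 1 := fun u hu => (hu.trans (Dvd.intro _ rfl)).trans hA
    have H1 : ∀ r : ℕ, r.Prime → r ∣ n → r ∣ q - 1 := by
      by_contra hno
      push Not at hno
      obtain ⟨r₀, hr₀, hr₀n, hr₀q⟩ := hno
      -- the largest such prime
      let P := n.primeFactors.filter (fun u => ¬ u ∣ q - 1)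
      have hPne : P.Nonempty := ⟨r₀, Finset.mem_filter.2 ⟨Nat.mem_primeFactors.2 ⟨hr₀, hr₀n, hn0⟩, hr₀q⟩⟩
      let r := P.max' hPne
      have hrmem : r ∈ P := Finset.max'_mem _ _
      obtain ⟨hr1, hrq⟩ := Finset.mem_filter.1 hrmem
      obtain ⟨hr, hrn, _⟩ := Nat.mem_primeFactors.1 hr1
      have hmax : ∀ u : ℕ, u.Prime → u ∣ n → ¬ u ∣ q - 1 → u ≤ r := by
        intro u hu hun huq
        exact Finset.le_max' _ _ (Finset.mem_filter.2 ⟨Nat.mem_primeFactors.2 ⟨hu, hun, hn0⟩, huq⟩)
      haveI : Fact r.Prime := ⟨hr⟩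
      have hr2 : r ≠ 2 := by
        intro e
        rw [e] at hrq hrn
        have h2 := hnq 2 hrn
        have hqev : 2 ∣ q := by omega
        have h3 : 2 ∣ q ^ n := dvd_pow hqev hn0
        have h4 : 1 ≤ q ^ n := Nat.one_le_pow _ _ (by omega)
        omega
      obtain ⟨i, hi⟩ := hrn
      have hi0 : i ≠ 0 := by
        rintro rfl
        simp at hi
        omega
      have hin : i < n := by
        rw [hi]
        have := hr.two_le
        nlinarith [Nat.pos_of_ne_zero hi0]
      -- all primes in `n(q-1)` divide `q^i - 1`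
      have hsmall : ∀ u : ℕ, u.Prime → u ∣ n → ¬ u ∣ q - 1 → ∃ t, 1 ≤ t ∧ t < u ∧ t ∣ i ∧ u ∣ q ^ t - 1 := by
        intro u hu hun huq
        obtain ⟨t, ht1, ht2, ht3, ht4⟩ := exists_small_order hu hn0 (hnq u hun) hq2
        refine ⟨t, ht1, ht2, ?_, ht4⟩
        have hcop : Nat.Coprime t r := by
          rw [Nat.coprime_comm]
          apply (Nat.Prime.coprime_iff_not_dvd hr).2
          intro hd
          have := Nat.le_of_dvd ht1 hd
          have := hmax u hu hun huq
          omega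
        rw [hi] at ht3
        exact hcop.dvd_of_dvd_mul_left ht3
      refine hB' i (by omega) hin (dvd_of_padic hm0 (pow_sub_one_ne hq2 hi0) fun u hu => ?_)
      haveI : Fact u.Prime := ⟨hu⟩
      by_cases hur : u = r
      · subst hur
        rw [padicValNat.mul hn0 hq1, padicValNat.eq_zero_of_not_dvd hrq, add_zero]
        obtain ⟨t, ht1, ht2, ht3, ht4⟩ := hsmall r hr ⟨i, hi⟩ hrq
        obtain ⟨k, hk⟩ := ht3
        have hk0 : k ≠ 0 := by
          rintro rfl
          simp at hk
          exact hi0 hk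
        have hx : 2 ≤ q ^ t := by
          calc 2 ≤ q := hq2
            _ = q ^ 1 := (pow_one q).symm
            _ ≤ q ^ t := Nat.pow_le_pow_right (by omega) ht1
        have hlte := pv_odd hr hr2 hx hk0 ht4
        rw [← pow_mul, ← hk] at hlte
        rw [hlte, hi, padicValNat.mul hr.ne_zero hi0, padicValNat.self hr.one_lt, hk, padicValNat.mul (by omega) hk0,
          padicValNat.eq_zero_of_not_dvd (fun hd => by
            have := Nat.le_of_dvd ht1 hd
            omega), zero_add]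
        have : 1 ≤ padicValNat r (q ^ t - 1) := one_le_padicValNat_of_dvd (pow_sub_one_ne hq2 (by omega)) ht4
        omega
      · by_cases hum : u ∣ n * (q - 1)
        · have hui : u ∣ q ^ i - 1 := by
            by_cases huq : u ∣ q - 1
            · exact huq.trans sub_one_dvd
            · have hun : u ∣ n := ((Nat.Prime.dvd_mul hu).1 hum).resolve_right huq
              obtain ⟨t, _, _, ht3, ht4⟩ := hsmall u hu hun huq
              exact ht4.trans (pow_sub_one_dvd_of_dvd ht3)
          have hx : 2 ≤ q ^ i := by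
            calc 2 ≤ q := hq2
              _ = q ^ 1 := (pow_one q).symm
              _ ≤ q ^ i := Nat.pow_le_pow_right (by omega) (by omega)
          have hnd : ¬ u ∣ r := fun hd => hur ((Nat.prime_dvd_prime_iff_eq hu hr).1 hd)
          have h3 := pv_notdvd hu hx hr.ne_zero hui hnd
          rw [← pow_mul, mul_comm i r, ← hi] at h3
          rw [← h3]
          exact pv_le_of_dvd hu (pow_sub_one_ne hq2 hn0) hA
        · rw [padicValNat.eq_zero_of_not_dvd hum]
          exact Nat.zero_le _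
    refine ⟨H1, ?_⟩
    intro h4n
    by_contra h4q
    have h2n : 2 ∣ n := (by norm_num : 2 ∣ 4).trans h4n
    have h2q := H1 2 Nat.prime_two h2n
    obtain ⟨i, hi⟩ := h2n
    have hi0 : i ≠ 0 := by omega
    have hiev : Even i := by
      rw [even_iff_two_dvd]
      omega
    refine hB' i (by omega) (by omega) (dvd_of_padic hm0 (pow_sub_one_ne hq2 hi0) fun u hu => ?_)
    haveI : Fact u.Prime := ⟨hu⟩
    by_cases hu2 : u = 2
    · subst hu2
      rw [padicValNat.mul hn0 hq1, hi, padicValNat.mul (by norm_num) hi0, padicValNat.self (by norm_num)]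
      have h3 := pv_two hq2 hi0 h2q hiev
      have h5 : 2 ≤ padicValNat 2 (q + 1) := by
        have : 2 ^ 2 ∣ q + 1 := by
          norm_num
          omega
        exact (padicValNat_dvd_iff_le (by omega)).1 this
      omega
    · by_cases hum : u ∣ n * (q - 1)
      · have huq : u ∣ q - 1 := by
          rcases (Nat.Prime.dvd_mul hu).1 hum with h | h
          · exact H1 u hu h
          · exact h
        have hui : u ∣ q ^ i - 1 := huq.trans sub_one_dvd
        have hx : 2 ≤ q ^ i := by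
          calc 2 ≤ q := hq2
            _ = q ^ 1 := (pow_one q).symm
            _ ≤ q ^ i := Nat.pow_le_pow_right (by omega) (by omega)
        have hnd : ¬ u ∣ 2 := fun hd => hu2 ((Nat.prime_dvd_prime_iff_eq hu Nat.prime_two).1 hd)
        have h3 := pv_notdvd hu hx (by norm_num) hui hnd
        rw [← pow_mul, mul_comm i 2, ← hi] at h3
        rw [← h3]
        exact pv_le_of_dvd hu (pow_sub_one_ne hq2 hn0) hA
      · rw [padicValNat.eq_zero_of_not_dvd hum]
        exact Nat.zero_le _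


end Cfsg.Agent.S0694
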