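import Cfsg.Statements.S0695
import Mathlib

set_option autoImplicit false
open Cfsg

namespace Cfsg.Agent.S0695

open MulAction SubMulAction
open scoped Pointwise

variable {G : Type*} [Group G] {X : Type*} [MulAction G X]

theorem reg_inj {N : Subgroup G} {x : X} (hreg : MulAction.stabilizer N x = ⊥) {n m : G} (hn : n ∈ N) (hm : m ∈ N)
    (e : n • x = m • x) : n = m := by
  have h1 : (⟨m, hm⟩ : N)⁻¹ * ⟨n, hn⟩ ∈ MulAction.stabilizer N x := by
    rw [MulAction.mem_stabilizer_iff, mul_smul]
    show (⟨m, hm⟩ : N)⁻¹ • (n • x) = x
    rw [e]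
    exact inv_smul_smul (⟨m, hm⟩ : N) x
  rw [hreg, Subgroup.mem_bot] at h1
  have h2 := inv_mul_eq_one.1 h1
  exact (congrArg Subtype.val h2).symm

theorem smul_conj (g n : G) (x : X) : g • (n • x) = (g * n * g⁻¹) • (g • x) := by
  rw [mul_smul, mul_smul, inv_smul_smul]



/-- A regular normal subgroup of a doubly primitive group of finite degree at least 2 is an elementary abelian 2-group (and the degree is a power of 2), unless the degree is 3. -/
theorem result {G : Type*} [Group G] {X : Type*} [Fintype X] [MulAction G X] (hX : 2 ≤ Fintype.card X) (h2 : MulAction.IsMultiplyPreprimitive G X 2) (N : Subgroup G) [N.Normal] (htrans : MulAction.IsPretransitive N X) (hreg : ∀ x : X, MulAction.stabilizer N x = ⊥) : Fintype.card X = 3 ∨ (IsMulCommutative N ∧ (∀ n ∈ N, n ^ 2 = 1) ∧ ∃ m : ℕ, Fintype.card X = 2 ^ m) := by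
  classical
  have hne : Nonempty X := by
    rw [← Fintype.card_pos_iff]; omega
  obtain ⟨x⟩ := hne
  have hcard : Nat.card N = Fintype.card X := by
    rw [← Nat.card_eq_fintype_card]
    apply Nat.card_congr
    apply Equiv.ofBijective (fun n : N => n • x)
    constructor
    · intro n m e
      exact Subtype.ext (reg_inj (hreg x) n.2 m.2 e)
    · intro y
      exact MulAction.exists_smul_eq N x y
  have hfinN : Finite N := by
    apply Nat.finite_of_card_ne_zero
    rw [hcard]; omega
  by_cases hall : ∀ n ∈ N, n ^ 2 = 1
  · right
    refine ⟨?_, hall, ?_⟩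
    · refine ⟨⟨fun a b => ?_⟩⟩
      have h1 : ∀ a b : N, a * a = 1 → b * b = 1 → (a * b) * (a * b) = 1 → a * b = b * a := by
        intro a b ha hb hab
        have e1 : a * b * (b * a) = 1 := by
          calc a * b * (b * a) = a * (b * b) * a := by group
            _ = 1 := by rw [hb, mul_one, ha]
        calc a * b = a * b * ((b * a) * (b * a)) := by
              have : (b * a) * (b * a) = 1 := by
                have := hall _ (b * a).2
                rw [pow_two] at this
                exact Subtype.ext this
              rw [this, mul_one]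
          _ = (a * b * (b * a)) * (b * a) := by group
          _ = b * a := by rw [e1, one_mul]
      have hsq : ∀ c : N, c * c = 1 := by
        intro c
        have := hall _ c.2
        rw [pow_two] at this
        exact Subtype.ext this
      exact h1 a b (hsq a) (hsq b) (hsq _)
    · have : IsPGroup 2 N := by
        intro c
        refine ⟨1, ?_⟩
        have := hall _ c.2
        exact Subtype.ext (by simpa using this)
      have hprime : Fact (Nat.Prime 2) := ⟨Nat.prime_two⟩
      obtain ⟨m, hm⟩ := IsPGroup.iff_card.1 this
      exact ⟨m, by rw [← hcard, hm]⟩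
  · left
    push Not at hall
    obtain ⟨n, hnN, hn⟩ := hall
    have hn1 : n ≠ 1 := by
      rintro rfl
      simp at hn
    have hnn : n ≠ n⁻¹ := by
      intro e
      apply hn
      rw [pow_two]
      nth_rewrite 2 [e]
      simp
    -- points
    have hpt : ∀ u ∈ N, u ≠ 1 → u • x ≠ x := by
      intro u hu hu1 e
      apply hu1
      apply reg_inj (hreg x) hu N.one_mem
      rw [one_smul]; exact e
    let s : Set X := {x}
    have hs : s.encard + 1 = 2 := by
      simp only [s, Set.encard_singleton]
      norm_num
    have hprim := IsMultiplyPreprimitive.isPreprimitive_ofFixingSubgroup G 2 hs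
    have hmem : ∀ u ∈ N, u ≠ 1 → u • x ∈ ofFixingSubgroup G s := by
      intro u hu hu1
      rw [mem_ofFixingSubgroup_iff]
      simp only [s, Set.mem_singleton_iff]
      exact hpt u hu hu1
    let a : ofFixingSubgroup G s := ⟨n • x, hmem n hnN hn1⟩
    let b : ofFixingSubgroup G s := ⟨n⁻¹ • x, hmem n⁻¹ (N.inv_mem hnN) (by simpa using hn1)⟩
    have hfix : ∀ g : fixingSubgroup G s, (g : G) • x = x := by
      intro g
      exact (mem_fixingSubgroup_iff G).1 g.2 x rfl
    have hconj : ∀ (g : fixingSubgroup G s) (u : G), u ∈ N → (g : G) • (u • x) = ((g : G) * u * (g : G)⁻¹) • x := by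
      intro g u hu
      rw [smul_conj, hfix]
    have hcn : ∀ (g : fixingSubgroup G s) (u : G), u ∈ N → (g : G) * u * (g : G)⁻¹ ∈ N := by
      intro g u hu
      exact (inferInstance : N.Normal).conj_mem u hu g
    have hB : IsBlock (fixingSubgroup G s) ({a, b} : Set (ofFixingSubgroup G s)) := by
      rw [isBlock_iff_smul_eq_of_mem]
      intro g y hy hgy
      have hg : (g : G) * n * (g : G)⁻¹ = n ∨ (g : G) * n * (g : G)⁻¹ = n⁻¹ := by
        have hinv : (g : G) * n⁻¹ * (g : G)⁻¹ = ((g : G) * n * (g : G)⁻¹)⁻¹ := by group
        rcases hy with rfl | hy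
        · rcases hgy with h1 | h1
          · left
            have h2 := congrArg Subtype.val h1
            have h3 : (g : G) • (n • x) = n • x := h2
            rw [hconj g n hnN] at h3
            exact reg_inj (hreg x) (hcn g n hnN) hnN h3
          · right
            have h2 := congrArg Subtype.val (Set.mem_singleton_iff.1 h1)
            have h3 : (g : G) • (n • x) = n⁻¹ • x := h2
            rw [hconj g n hnN] at h3
            exact reg_inj (hreg x) (hcn g n hnN) (N.inv_mem hnN) h3
        · rw [Set.mem_singleton_iff] at hy
          subst hy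
          rcases hgy with h1 | h1
          · right
            have h2 := congrArg Subtype.val h1
            have h3 : (g : G) • (n⁻¹ • x) = n • x := h2
            rw [hconj g n⁻¹ (N.inv_mem hnN), hinv] at h3
            have h4 := reg_inj (hreg x) (N.inv_mem (hcn g n hnN)) hnN h3
            exact inv_eq_iff_eq_inv.1 h4
          · left
            have h2 := congrArg Subtype.val (Set.mem_singleton_iff.1 h1)
            have h3 : (g : G) • (n⁻¹ • x) = n⁻¹ • x := h2
            rw [hconj g n⁻¹ (N.inv_mem hnN), hinv] at h3
            have h4 := reg_inj (hreg x) (N.inv_mem (hcn g n hnN)) (N.inv_mem hnN) h3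
            exact inv_injective h4
      have hinv : (g : G) * n⁻¹ * (g : G)⁻¹ = ((g : G) * n * (g : G)⁻¹)⁻¹ := by group
      have hga : g • a = if (g : G) * n * (g : G)⁻¹ = n then a else b := by
        apply Subtype.ext
        show (g : G) • (n • x) = _
        rw [hconj g n hnN]
        split_ifs with h0
        · rw [h0]
        · rw [hg.resolve_left h0]
      have hgb : g • b = if (g : G) * n * (g : G)⁻¹ = n then b else a := by
        apply Subtype.ext
        show (g : G) • (n⁻¹ • x) = _
        rw [hconj g n⁻¹ (N.inv_mem hnN), hinv]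
        split_ifs with h0
        · rw [h0]
        · rw [hg.resolve_left h0, inv_inv]
      rw [Set.smul_set_insert, Set.smul_set_singleton, hga, hgb]
      split_ifs
      · rfl
      · exact Set.pair_comm _ _
    have hab : a ≠ b := by
      intro e
      have h1 : n • x = n⁻¹ • x := congrArg Subtype.val e
      exact hnn (reg_inj (hreg x) hnN (N.inv_mem hnN) h1)
    have huniv : ({a, b} : Set (ofFixingSubgroup G s)) = Set.univ := by
      rcases hB.subsingleton_or_eq_univ with h1 | h1
      · exact absurd (h1 (Set.mem_insert a _) (Set.mem_insert_of_mem a rfl)) hab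
      · exact h1
    have hall2 : ∀ y : X, y = x ∨ y = n • x ∨ y = n⁻¹ • x := by
      intro y
      by_cases hy : y = x
      · exact Or.inl hy
      right
      have hy' : y ∈ ofFixingSubgroup G s := by
        rw [mem_ofFixingSubgroup_iff]
        simpa [s] using hy
      have : (⟨y, hy'⟩ : ofFixingSubgroup G s) ∈ ({a, b} : Set (ofFixingSubgroup G s)) := by
        rw [huniv]; trivial
      rcases this with h1 | h1
      · left; exact congrArg Subtype.val h1
      · right; exact congrArg Subtype.val (Set.mem_singleton_iff.1 h1)
    have e : (Finset.univ : Finset X) = {x, n • x, n⁻¹ • x} := by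
      ext y
      simpa using hall2 y
    rw [← Finset.card_univ, e, Finset.card_eq_three]
    refine ⟨x, n • x, n⁻¹ • x, (hpt n hnN hn1).symm, (hpt n⁻¹ (N.inv_mem hnN) (by simpa using hn1)).symm, ?_, rfl⟩
    intro e'
    exact hnn (reg_inj (hreg x) hnN (N.inv_mem hnN) e')

end Cfsg.Agent.S0695
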