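import Cfsg.Statements.S0696
import Mathlib
import Cfsg.Agent.S0695

set_option autoImplicit false
open Cfsg

namespace Cfsg.Agent.S0696

open MulAction SubMulAction
open scoped Pointwise

variable {G : Type*} [Group G] {X : Type*} [MulAction G X]

theorem reg_inj' {N : Subgroup G} {x : X} (hreg : MulAction.stabilizer N x = ⊥) {n m : G} (hn : n ∈ N) (hm : m ∈ N)
    (e : n • x = m • x) : n = m := by
  have h1 : (⟨m, hm⟩ : N)⁻¹ * ⟨n, hn⟩ ∈ MulAction.stabilizer N x := by
    rw [MulAction.mem_stabilizer_iff, mul_smul]
    show (⟨m, hm⟩ : N)⁻¹ • (n • x) = x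
    rw [e]
    exact inv_smul_smul (⟨m, hm⟩ : N) x
  rw [hreg, Subgroup.mem_bot] at h1
  have h2 := inv_mul_eq_one.1 h1
  exact (congrArg Subtype.val h2).symm

theorem smul_conj' (g n : G) (x : X) : g • (n • x) = (g * n * g⁻¹) • (g • x) := by
  rw [mul_smul, mul_smul, inv_smul_smul]



/-- A triply primitive group of degree at least 3 having a regular normal subgroup has degree 3 or 4. -/
theorem result {G : Type*} [Group G] {X : Type*} [Fintype X] [MulAction G X] (hX : 3 ≤ Fintype.card X) (h3 : MulAction.IsMultiplyPreprimitive G X 3) (N : Subgroup G) [N.Normal] (htrans : MulAction.IsPretransitive N X) (hreg : ∀ x : X, MulAction.stabilizer N x = ⊥) : Fintype.card X = 3 ∨ Fintype.card X = 4 := by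
  classical
  by_contra hne3
  push Not at hne3
  obtain ⟨h3ne, h4ne⟩ := hne3
  have h2 : IsMultiplyPreprimitive G X 2 := isMultiplyPreprimitive_of_le G X h3 (by norm_num) (by
    rw [ENat.card_eq_coe_fintype_card]
    exact_mod_cast (by omega : 3 ≤ Fintype.card X))
  have hres := Cfsg.Agent.S0695.result (by omega) h2 N htrans hreg
  rcases hres with h | ⟨hcomm, hall, -⟩
  · exact h3ne h
  -- pick points
  have hne : Nonempty X := by
    rw [← Fintype.card_pos_iff]; omega
  obtain ⟨x⟩ := hne
  obtain ⟨y, hyx⟩ : ∃ y : X, y ≠ x := by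
    have : 1 < Fintype.card X := by omega
    exact Fintype.exists_ne_of_one_lt_card this x
  obtain ⟨⟨n, hnN⟩, hn⟩ := MulAction.exists_smul_eq N x y
  have hn' : n • x = y := hn
  have hn1 : n ≠ 1 := by
    rintro rfl
    apply hyx
    rw [← hn', one_smul]
  obtain ⟨z, hzx, hzy⟩ : ∃ z : X, z ≠ x ∧ z ≠ y := by
    by_contra hcon
    push Not at hcon
    have e : (Finset.univ : Finset X) ⊆ {x, y} := by
      intro w _
      by_cases hw : w = x
      · simp [hw]
      · simp [hcon w hw]
    have := Finset.card_le_card e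
    have h2 : ({x, y} : Finset X).card ≤ 2 := Finset.card_le_two
    rw [Finset.card_univ] at this
    omega
  obtain ⟨⟨m, hmN⟩, hm⟩ := MulAction.exists_smul_eq N x z
  have hm' : m • x = z := hm
  let s : Set X := {x, y}
  have hs : s.encard + 1 = 3 := by
    simp only [s, Set.encard_pair hyx.symm]
    norm_num
  have hprim := IsMultiplyPreprimitive.isPreprimitive_ofFixingSubgroup G 3 hs
  have hsq : ∀ u ∈ N, u * u = 1 := by
    intro u hu
    have := hall u hu
    rwa [pow_two] at this
  have hinv : ∀ u ∈ N, u⁻¹ = u := fun u hu => inv_eq_of_mul_eq_one_left (hsq u hu)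
  have hcommN : ∀ u ∈ N, ∀ v ∈ N, u * v = v * u := by
    intro u hu v hv
    have := hcomm.is_comm.comm ⟨u, hu⟩ ⟨v, hv⟩
    exact congrArg Subtype.val this
  have hfixx : ∀ g : fixingSubgroup G s, (g : G) • x = x := fun g =>
    (mem_fixingSubgroup_iff G).1 g.2 x (by simp [s])
  have hfixy : ∀ g : fixingSubgroup G s, (g : G) • y = y := fun g =>
    (mem_fixingSubgroup_iff G).1 g.2 y (by simp [s])
  have hconj : ∀ (g : fixingSubgroup G s) (u : G), (g : G) • (u • x) = ((g : G) * u * (g : G)⁻¹) • x := by
    intro g u
    rw [smul_conj', hfixx]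
  have hcn : ∀ (g : fixingSubgroup G s) (u : G), u ∈ N → (g : G) * u * (g : G)⁻¹ ∈ N := by
    intro g u hu
    exact (inferInstance : N.Normal).conj_mem u hu g
  have hgn : ∀ g : fixingSubgroup G s, (g : G) * n * (g : G)⁻¹ = n := by
    intro g
    apply reg_inj' (hreg x) (hcn g n hnN) hnN
    rw [← hconj, hn', hfixy]
  have hmem : ∀ u ∈ N, u • x ≠ x → u • x ≠ y → u • x ∈ ofFixingSubgroup G s := by
    intro u _ h1 h2
    rw [mem_ofFixingSubgroup_iff]
    simp only [s, Set.mem_insert_iff, Set.mem_singleton_iff]
    push Not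
    exact ⟨h1, h2⟩
  have hnm : (n * m) • x ≠ x := by
    intro e
    have h1 := reg_inj' (hreg x) (N.mul_mem hnN hmN) N.one_mem (by rw [one_smul]; exact e)
    apply hzy
    have h2 : m = n := by
      have h3 : m = n⁻¹ := eq_inv_of_mul_eq_one_right h1
      rwa [hinv n hnN] at h3
    rw [← hm', ← hn', h2]
  have hnm2 : (n * m) • x ≠ y := by
    intro e
    have h1 := reg_inj' (hreg x) (N.mul_mem hnN hmN) hnN (by rw [e, hn'])
    apply hzx
    have h2 : m = 1 := by simpa using h1
    rw [← hm', h2, one_smul]
  let a : ofFixingSubgroup G s := ⟨m • x, hmem m hmN (by rwa [hm']) (by rwa [hm'])⟩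
  let b : ofFixingSubgroup G s := ⟨(n * m) • x, hmem _ (N.mul_mem hnN hmN) hnm hnm2⟩
  have hB : IsBlock (fixingSubgroup G s) ({a, b} : Set (ofFixingSubgroup G s)) := by
    rw [isBlock_iff_smul_eq_of_mem]
    intro g w hw hgw
    set m' := (g : G) * m * (g : G)⁻¹ with hm'def
    have hm'N : m' ∈ N := hcn g m hmN
    have hnm' : (g : G) * (n * m) * (g : G)⁻¹ = n * m' := by
      have : (g : G) * (n * m) * (g : G)⁻¹ = ((g : G) * n * (g : G)⁻¹) * ((g : G) * m * (g : G)⁻¹) := by group
      rw [this, hgn g]
    have hg : m' = m ∨ m' = n * m := by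
      rcases hw with rfl | hw
      · rcases hgw with h1 | h1
        · left
          have h3 : (g : G) • (m • x) = m • x := congrArg Subtype.val h1
          rw [hconj g m] at h3
          exact reg_inj' (hreg x) hm'N hmN h3
        · right
          have h3 : (g : G) • (m • x) = (n * m) • x := congrArg Subtype.val (Set.mem_singleton_iff.1 h1)
          rw [hconj g m] at h3
          exact reg_inj' (hreg x) hm'N (N.mul_mem hnN hmN) h3
      · rw [Set.mem_singleton_iff] at hw
        subst hw
        rcases hgw with h1 | h1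
        · right
          have h3 : (g : G) • ((n * m) • x) = m • x := congrArg Subtype.val h1
          rw [hconj g (n * m), hnm'] at h3
          have h4 := reg_inj' (hreg x) (N.mul_mem hnN hm'N) hmN h3
          rw [← h4, ← mul_assoc, hsq n hnN, one_mul]
        · left
          have h3 : (g : G) • ((n * m) • x) = (n * m) • x := congrArg Subtype.val (Set.mem_singleton_iff.1 h1)
          rw [hconj g (n * m), hnm'] at h3
          have h4 := reg_inj' (hreg x) (N.mul_mem hnN hm'N) (N.mul_mem hnN hmN) h3
          exact mul_left_cancel h4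
    have hga : g • a = if m' = m then a else b := by
      apply Subtype.ext
      show (g : G) • (m • x) = _
      rw [hconj g m]
      split_ifs with h0
      · rw [← hm'def, h0]
      · rw [← hm'def, hg.resolve_left h0]
    have hgb : g • b = if m' = m then b else a := by
      apply Subtype.ext
      show (g : G) • ((n * m) • x) = _
      rw [hconj g (n * m), hnm']
      split_ifs with h0
      · rw [h0]
      · rw [hg.resolve_left h0, ← mul_assoc, hsq n hnN, one_mul]
    rw [Set.smul_set_insert, Set.smul_set_singleton, hga, hgb]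
    split_ifs
    · rfl
    · exact Set.pair_comm _ _
  have hab : a ≠ b := by
    intro e
    have h1 : m • x = (n * m) • x := congrArg Subtype.val e
    have h2 := reg_inj' (hreg x) hmN (N.mul_mem hnN hmN) h1
    apply hn1
    have h3 : m * m⁻¹ = n * m * m⁻¹ := by rw [← h2]
    simpa using h3.symm
  have huniv : ({a, b} : Set (ofFixingSubgroup G s)) = Set.univ := by
    rcases hB.subsingleton_or_eq_univ with h1 | h1
    · exact absurd (h1 (Set.mem_insert a _) (Set.mem_insert_of_mem a rfl)) hab
    · exact h1
  have hall2 : ∀ w : X, w = x ∨ w = y ∨ w = m • x ∨ w = (n * m) • x := by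
    intro w
    by_cases h1 : w = x
    · exact Or.inl h1
    by_cases h2 : w = y
    · exact Or.inr (Or.inl h2)
    right; right
    have hw' : w ∈ ofFixingSubgroup G s := by
      rw [mem_ofFixingSubgroup_iff]
      simp only [s, Set.mem_insert_iff, Set.mem_singleton_iff]
      push Not
      exact ⟨h1, h2⟩
    have : (⟨w, hw'⟩ : ofFixingSubgroup G s) ∈ ({a, b} : Set (ofFixingSubgroup G s)) := by
      rw [huniv]; trivial
    rcases this with h3 | h3
    · left; exact congrArg Subtype.val h3
    · right; exact congrArg Subtype.val (Set.mem_singleton_iff.1 h3)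
  have e : (Finset.univ : Finset X) ⊆ {x, y, m • x, (n * m) • x} := by
    intro w _
    simpa using hall2 w
  have h5 := Finset.card_le_card e
  have h6 : ({x, y, m • x, (n * m) • x} : Finset X).card ≤ 4 := Finset.card_le_four
  rw [Finset.card_univ] at h5
  omega

end Cfsg.Agent.S0696
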