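import Cfsg.Statements.S0701

set_option autoImplicit false
open Cfsg

namespace Cfsg.Agent.S0701

open MulAction

/-- The centraliser in the full symmetric group of a transitive permutation group `G` is semiregular, and it is transitive if and only if `G` is regular. -/
theorem result {α : Type*} (G : Subgroup (Equiv.Perm α)) [MulAction.IsPretransitive G α] : (∀ c ∈ Subgroup.centralizer (G : Set (Equiv.Perm α)), ∀ a : α, c a = a → c = 1) ∧ (MulAction.IsPretransitive (Subgroup.centralizer (G : Set (Equiv.Perm α))) α ↔ ∀ a : α, MulAction.stabilizer G a = ⊥) := by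
  constructor
  · intro c hc a hca
    ext b
    obtain ⟨g, hg⟩ := MulAction.exists_smul_eq G a b
    have hg' : (g : Equiv.Perm α) a = b := hg
    have hcomm : (g : Equiv.Perm α) * c = c * g := (Subgroup.mem_centralizer_iff.1 hc) g g.2
    have h1 : c ((g : Equiv.Perm α) a) = (g : Equiv.Perm α) (c a) := (congrArg (· a) hcomm).symm
    rw [← hg', h1, hca]
    rfl
  · constructor
    · intro htr a
      rw [eq_bot_iff]
      rintro ⟨g, hg⟩ hga
      have hga' : g a = a := hga
      rw [Subgroup.mem_bot]
      apply Subtype.ext
      show g = 1
      ext b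
      obtain ⟨c, hc⟩ := MulAction.exists_smul_eq (Subgroup.centralizer (G : Set (Equiv.Perm α))) a b
      have hc' : (c : Equiv.Perm α) a = b := hc
      have hcomm : g * (c : Equiv.Perm α) = c * g := (Subgroup.mem_centralizer_iff.1 c.2) g hg
      have h1 : g ((c : Equiv.Perm α) a) = (c : Equiv.Perm α) (g a) := congrArg (· a) hcomm
      rw [← hc', h1, hga']
      rfl
    · intro hreg
      refine ⟨fun a b => ?_⟩
      have hbij : Function.Bijective (fun g : G => g • a) := by
        constructor
        · intro g g' hgg
          have h1 : g'⁻¹ * g ∈ MulAction.stabilizer G a := by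
            rw [MulAction.mem_stabilizer_iff, mul_smul]
            have : g • a = g' • a := hgg
            rw [this, inv_smul_smul]
          rw [hreg a, Subgroup.mem_bot] at h1
          exact (inv_mul_eq_one.1 h1).symm
        · intro x
          exact MulAction.exists_smul_eq G a x
      obtain ⟨h, hh⟩ := MulAction.exists_smul_eq G a b
      let e : G ≃ α := Equiv.ofBijective _ hbij
      let c : Equiv.Perm α := (e.symm.trans (Equiv.mulRight h)).trans e
      have hc : c ∈ Subgroup.centralizer (G : Set (Equiv.Perm α)) := by
        rw [Subgroup.mem_centralizer_iff]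
        intro g hg
        ext x
        obtain ⟨y, rfl⟩ := e.surjective x
        have h1 : (g : Equiv.Perm α) (e y) = e (⟨g, hg⟩ * y) := by
          show g (y • a) = (⟨g, hg⟩ * y) • a
          rw [mul_smul]
          rfl
        show (g : Equiv.Perm α) (c (e y)) = c ((g : Equiv.Perm α) (e y))
        rw [h1]
        have h2 : ∀ z : G, c (e z) = e (z * h) := by
          intro z
          show e (Equiv.mulRight h (e.symm (e z))) = e (z * h)
          rw [e.symm_apply_apply]
          rfl
        rw [h2, h2]
        show g (e (y * h)) = e (⟨g, hg⟩ * y * h)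
        have h3 : ∀ z : G, (g : Equiv.Perm α) (e z) = e (⟨g, hg⟩ * z) := by
          intro z
          show g (z • a) = (⟨g, hg⟩ * z) • a
          rw [mul_smul]
          rfl
        rw [h3, mul_assoc]
      refine ⟨⟨c, hc⟩, ?_⟩
      show c a = b
      have h1 : a = e 1 := by
        show a = (1 : G) • a
        rw [one_smul]
      rw [h1]
      show e (Equiv.mulRight h (e.symm (e 1))) = b
      rw [e.symm_apply_apply]
      show ((1 : G) * h) • a = b
      rw [one_mul]
      exact hh

end Cfsg.Agent.S0701
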