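import Cfsg.Statements.S0702
import Mathlib

set_option autoImplicit false
open Cfsg

namespace Cfsg.Agent.S0702

open MulAction

variable {α : Type*} (G : Subgroup (Equiv.Perm α)) [MulAction.IsPretransitive G α] (a : α)

/-- a section of the orbit map -/
noncomputable def sec (x : α) : G := Classical.choose (MulAction.exists_smul_eq G a x)

theorem sec_smul (x : α) : sec G a x • a = x := Classical.choose_spec (MulAction.exists_smul_eq G a x)

/-- the right translation map -/
noncomputable def rt (h : G) (x : α) : α := (sec G a x * h) • a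

theorem rt_smul {h : G} (hh : h ∈ Subgroup.normalizer ((MulAction.stabilizer G a : Subgroup G) : Set G))
    (g : G) : rt G a h (g • a) = (g * h) • a := by
  unfold rt
  have h1 : g⁻¹ * sec G a (g • a) ∈ MulAction.stabilizer G a := by
    rw [MulAction.mem_stabilizer_iff, mul_smul, sec_smul, inv_smul_smul]
  have h2 : h⁻¹ * (g⁻¹ * sec G a (g • a)) * h ∈ MulAction.stabilizer G a := by
    have := (Subgroup.mem_normalizer_iff.1 (Subgroup.inv_mem _ hh)) (g⁻¹ * sec G a (g • a))
    have h3 := this.1 h1
    simpa using h3
  have h3 := MulAction.mem_stabilizer_iff.1 h2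
  have e : sec G a (g • a) * h = (g * h) * (h⁻¹ * (g⁻¹ * sec G a (g • a)) * h) := by group
  rw [e, mul_smul, h3]

theorem rt_comp {h h' : G} (hh : h ∈ Subgroup.normalizer ((MulAction.stabilizer G a : Subgroup G) : Set G))
    (hh' : h' ∈ Subgroup.normalizer ((MulAction.stabilizer G a : Subgroup G) : Set G)) (x : α) :
    rt G a h (rt G a h' x) = rt G a (h' * h) x := by
  obtain ⟨g, rfl⟩ := MulAction.exists_smul_eq G a x
  rw [rt_smul G a hh', rt_smul G a hh, rt_smul G a (Subgroup.mul_mem _ hh' hh), mul_assoc]

theorem rt_one (x : α) : rt G a 1 x = x := by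
  unfold rt
  rw [mul_one, sec_smul]

/-- the right translation permutation -/
noncomputable def rtPerm (h : Subgroup.normalizer ((MulAction.stabilizer G a : Subgroup G) : Set G)) : Equiv.Perm α where
  toFun := rt G a h
  invFun := rt G a h⁻¹.1
  left_inv x := by
    rw [rt_comp G a h⁻¹.2 h.2]
    have : (h : G) * (h⁻¹).1 = 1 := by simp
    rw [this, rt_one]
  right_inv x := by
    rw [rt_comp G a h.2 h⁻¹.2]
    have : (h⁻¹).1 * (h : G) = 1 := by simp
    rw [this, rt_one]

theorem rtPerm_apply (h : Subgroup.normalizer ((MulAction.stabilizer G a : Subgroup G) : Set G)) (g : G) :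
    rtPerm G a h (g • a) = (g * h.1) • a := rt_smul G a h.2 g

theorem rtPerm_base (h : Subgroup.normalizer ((MulAction.stabilizer G a : Subgroup G) : Set G)) :
    rtPerm G a h a = h.1 • a := by
  have := rtPerm_apply G a h 1
  simpa using this

theorem rtPerm_mem (h : Subgroup.normalizer ((MulAction.stabilizer G a : Subgroup G) : Set G)) :
    rtPerm G a h ∈ Subgroup.centralizer (G : Set (Equiv.Perm α)) := by
  rw [Subgroup.mem_centralizer_iff]
  intro g hg
  ext x
  obtain ⟨y, rfl⟩ := MulAction.exists_smul_eq G a x
  show g (rtPerm G a h (y • a)) = rtPerm G a h (g (y • a))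
  have : g (y • a) = (⟨g, hg⟩ * y) • a := by
    rw [mul_smul]; rfl
  rw [this, rtPerm_apply, rtPerm_apply, mul_smul, mul_assoc, mul_smul]
  rfl

theorem eq_of_central_apply {c c' : Equiv.Perm α} (hc : c ∈ Subgroup.centralizer (G : Set (Equiv.Perm α)))
    (hc' : c' ∈ Subgroup.centralizer (G : Set (Equiv.Perm α))) (e : c a = c' a) : c = c' := by
  ext x
  obtain ⟨y, rfl⟩ := MulAction.exists_smul_eq G a x
  have h1 : (y : Equiv.Perm α) * c = c * y := (Subgroup.mem_centralizer_iff.1 hc) y y.2
  have h2 : (y : Equiv.Perm α) * c' = c' * y := (Subgroup.mem_centralizer_iff.1 hc') y y.2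
  have h3 : c ((y : Equiv.Perm α) a) = (y : Equiv.Perm α) (c a) := (congrArg (· a) h1).symm
  have h4 : c' ((y : Equiv.Perm α) a) = (y : Equiv.Perm α) (c' a) := (congrArg (· a) h2).symm
  show c ((y : Equiv.Perm α) a) = c' ((y : Equiv.Perm α) a)
  rw [h3, h4, e]

theorem mem_normalizer_of_fixed [Finite α] {h : G}
    (hfix : ∀ k ∈ MulAction.stabilizer G a, k • (h • a) = h • a) :
    h ∈ Subgroup.normalizer ((MulAction.stabilizer G a : Subgroup G) : Set G) := by
  have h1 : ∀ k ∈ MulAction.stabilizer G a, h⁻¹ * k * h ∈ MulAction.stabilizer G a := by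
    intro k hk
    rw [MulAction.mem_stabilizer_iff, mul_smul, mul_smul, hfix k hk, inv_smul_smul]
  let f : MulAction.stabilizer G a → MulAction.stabilizer G a := fun k => ⟨h⁻¹ * k.1 * h, h1 k.1 k.2⟩
  have hf : Function.Injective f := by
    intro k k' e
    have := congrArg Subtype.val e
    apply Subtype.ext
    simpa [f] using this
  have hsurj : Function.Surjective f := Finite.surjective_of_injective hf
  rw [Subgroup.mem_normalizer_iff]
  intro k
  constructor
  · intro hk
    obtain ⟨k', hk'⟩ := hsurj ⟨k, hk⟩
    have h2 : h⁻¹ * k'.1 * h = k := congrArg Subtype.val hk'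
    have h3 : h * k * h⁻¹ = k'.1 := by rw [← h2]; group
    show h * k * h⁻¹ ∈ MulAction.stabilizer G a
    rw [h3]
    exact k'.2
  · intro hk
    have := h1 _ hk
    have e : h⁻¹ * (h * k * h⁻¹) * h = k := by group
    rwa [e] at this


/-- For a transitive permutation group `G` on a finite set, the centraliser of `G` in the symmetric group is isomorphic to `N_G(G_ω)/G_ω`, and its orbit of `ω` is the set of fixed points of `G_ω`. -/
theorem result {α : Type*} [Finite α] (G : Subgroup (Equiv.Perm α)) [MulAction.IsPretransitive G α] (a : α) : Nonempty (Subgroup.centralizer (G : Set (Equiv.Perm α)) ≃* Subgroup.normalizer ((MulAction.stabilizer G a : Subgroup G) : Set G) ⧸ (MulAction.stabilizer G a).subgroupOf (Subgroup.normalizer ((MulAction.stabilizer G a : Subgroup G) : Set G))) ∧ MulAction.orbit (Subgroup.centralizer (G : Set (Equiv.Perm α))) a = MulAction.fixedPoints (MulAction.stabilizer G a) α := by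
  classical
  have hfin : Finite G := inferInstance
  set K := MulAction.stabilizer G a with hK
  set N := Subgroup.normalizer ((K : Subgroup G) : Set G) with hN
  refine ⟨?_, ?_⟩
  · let φ : N →* Subgroup.centralizer (G : Set (Equiv.Perm α)) :=
      { toFun := fun h => ⟨rtPerm G a h⁻¹, rtPerm_mem G a h⁻¹⟩
        map_one' := by
          apply Subtype.ext
          ext x
          show rt G a _ x = x
          have : ((1 : N)⁻¹).1 = 1 := by simp
          rw [this, rt_one]
        map_mul' := by
          intro h h'
          apply Subtype.ext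
          ext x
          show rt G a _ x = rt G a _ (rt G a _ x)
          rw [rt_comp G a (h⁻¹).2 (h'⁻¹).2]
          simp }
    have hφ : Function.Surjective φ := by
      rintro ⟨c, hc⟩
      obtain ⟨h, hh⟩ := MulAction.exists_smul_eq G a (c a)
      have hhN : h ∈ N := by
        apply mem_normalizer_of_fixed
        intro k hk
        rw [hh]
        have e1 : (k : Equiv.Perm α) * c = c * k := (Subgroup.mem_centralizer_iff.1 hc) k k.2
        have e2 : (k : Equiv.Perm α) (c a) = c ((k : Equiv.Perm α) a) := congrArg (· a) e1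
        show (k : Equiv.Perm α) (c a) = c a
        rw [e2]
        have : (k : Equiv.Perm α) a = a := hk
        rw [this]
      refine ⟨(⟨h, hhN⟩ : N)⁻¹, ?_⟩
      apply Subtype.ext
      apply eq_of_central_apply G a (rtPerm_mem G a _) hc
      show rtPerm G a _ a = c a
      rw [rtPerm_base]
      simp only [inv_inv]
      exact hh
    have hker : φ.ker = K.subgroupOf N := by
      ext h
      rw [MonoidHom.mem_ker, Subgroup.mem_subgroupOf]
      constructor
      · intro e
        have h1 : (rtPerm G a h⁻¹) a = a := by
          have := congrArg (fun z : Subgroup.centralizer (G : Set (Equiv.Perm α)) => (z : Equiv.Perm α) a) e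
          exact this
        rw [rtPerm_base] at h1
        have h2 : (h⁻¹ : N).1 • a = a := h1
        have h3 : (h : G)⁻¹ ∈ K := by
          rw [hK, MulAction.mem_stabilizer_iff]
          exact h2
        have := K.inv_mem h3
        simpa using this
      · intro hk
        apply Subtype.ext
        apply eq_of_central_apply G a (rtPerm_mem G a _) (Subgroup.one_mem _)
        show rtPerm G a _ a = a
        rw [rtPerm_base]
        have h3 : (h : G)⁻¹ ∈ K := K.inv_mem hk
        exact h3
    have e1 := QuotientGroup.quotientKerEquivOfSurjective φ hφ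
    have e2 := QuotientGroup.quotientMulEquivOfEq hker
    exact ⟨(e1.symm.trans e2)⟩
  · ext b
    rw [MulAction.mem_orbit_iff, MulAction.mem_fixedPoints]
    constructor
    · rintro ⟨⟨c, hc⟩, rfl⟩ ⟨k, hk⟩
      have e1 : (k : Equiv.Perm α) * c = c * k := (Subgroup.mem_centralizer_iff.1 hc) k k.2
      have e2 : (k : Equiv.Perm α) (c a) = c ((k : Equiv.Perm α) a) := congrArg (· a) e1
      show (k : Equiv.Perm α) (c a) = c a
      rw [e2]
      have : (k : Equiv.Perm α) a = a := hk
      rw [this]
    · intro hb
      obtain ⟨h, hh⟩ := MulAction.exists_smul_eq G a b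
      have hhN : h ∈ N := by
        apply mem_normalizer_of_fixed
        intro k hk
        rw [hh]
        exact hb ⟨k, hk⟩
      refine ⟨⟨rtPerm G a ⟨h, hhN⟩, rtPerm_mem G a _⟩, ?_⟩
      show rtPerm G a ⟨h, hhN⟩ a = b
      rw [rtPerm_base]
      exact hh

end Cfsg.Agent.S0702
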