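import Cfsg.Statements.S0703
import Cfsg.Agent.Lib.H1PermMin

set_option autoImplicit false
open Cfsg

namespace Cfsg.Agent.S0703

/-- An abelian transitive minimal normal subgroup `M` of a permutation group on a finite set is self-centralising in the symmetric group, regular, elementary abelian, and is the unique minimal normal subgroup. -/
theorem result {α : Type*} [Finite α] (G : Subgroup (Equiv.Perm α)) (M : Subgroup G) [M.Normal] (hM : M ≠ ⊥) (hmin : ∀ L : Subgroup G, L.Normal → L ≤ M → L = ⊥ ∨ L = M) (hab : IsMulCommutative M) (htrans : MulAction.IsPretransitive M α) : Subgroup.centralizer ((M.map G.subtype : Subgroup (Equiv.Perm α)) : Set (Equiv.Perm α)) = M.map G.subtype ∧ (∀ a : α, MulAction.stabilizer M a = ⊥) ∧ (∃ p : ℕ, p.Prime ∧ ∀ m ∈ M, m ^ p = 1) ∧ ∀ L : Subgroup G, L.Normal → L ≠ ⊥ → (∀ L' : Subgroup G, L'.Normal → L' ≤ L → L' = ⊥ ∨ L' = L) → L = M := by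
  classical
  have hcoe : ∀ (x y : G), ((x * y : G) : Equiv.Perm α) = (x : Equiv.Perm α) * y := fun _ _ => rfl
  have hab' : ∀ x ∈ M, ∀ y ∈ M, x * y = y * x := fun x hx y hy => by
    have h := hab.is_comm.comm ⟨x, hx⟩ ⟨y, hy⟩
    exact congrArg Subtype.val h
  have hfix : ∀ x : Equiv.Perm α, (∀ m ∈ M, ((m : G) : Equiv.Perm α) * x = x * (m : G)) →
      ∀ a, x a = a → x = 1 := fun x hx a ha => Lib.H1PermMin.fix_of_comm G M htrans x hx a ha
  have hstab : ∀ a : α, MulAction.stabilizer M a = ⊥ := by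
    intro a
    rw [eq_bot_iff]
    intro m hm
    have hm' : ((m : G) : Equiv.Perm α) a = a := hm
    have h1 := hfix _ (fun n hn => by
      rw [← hcoe, ← hcoe, hab' n hn m m.2]) a hm'
    rw [Subgroup.mem_bot]
    exact Subtype.ext (Subtype.ext h1)
  have hne : Nonempty α := by
    by_contra hc
    rw [not_nonempty_iff] at hc
    apply hM
    rw [eq_bot_iff]
    intro m _
    rw [Subgroup.mem_bot]
    apply Subtype.ext
    ext a
    exact hc.elim a
  obtain ⟨a⟩ := hne
  have hC : Subgroup.centralizer ((M.map G.subtype : Subgroup (Equiv.Perm α)) : Set (Equiv.Perm α)) = M.map G.subtype := by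
    apply le_antisymm
    · intro x hx
      rw [Subgroup.mem_centralizer_iff] at hx
      obtain ⟨n, hn⟩ := htrans.exists_smul_eq a (x a)
      have hn' : ((n : G) : Equiv.Perm α) a = x a := hn
      have h1 : (((n : G) : Equiv.Perm α))⁻¹ * x = 1 := by
        apply hfix _ _ a
        · rw [Equiv.Perm.mul_apply, ← hn']
          simp
        · intro m hm
          have h2 := hx ((m : G) : Equiv.Perm α) ⟨m, hm, rfl⟩
          have h3 := hab' m hm (n : G) n.2
          have h4 : ((m : G) : Equiv.Perm α) * (n : G) = ((n : G) : Equiv.Perm α) * (m : G) := by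
            rw [← hcoe, ← hcoe, h3]
          have h5 : ((m : G) : Equiv.Perm α) * ((n : G) : Equiv.Perm α)⁻¹ = ((n : G) : Equiv.Perm α)⁻¹ * (m : G) := by
            rw [eq_inv_mul_iff_mul_eq, ← mul_assoc, ← h4, mul_assoc, mul_inv_cancel, mul_one]
          rw [← mul_assoc, h5, mul_assoc, h2, mul_assoc]
      have h6 : x = ((n : G) : Equiv.Perm α) := by
        have := inv_mul_eq_one.mp h1
        exact this.symm
      rw [h6]
      exact ⟨n, n.2, rfl⟩
    · rintro _ ⟨n, hn, rfl⟩
      rw [Subgroup.mem_centralizer_iff]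
      rintro _ ⟨m, hm, rfl⟩
      show ((m : G) : Equiv.Perm α) * n = (n : Equiv.Perm α) * m
      rw [← hcoe, ← hcoe, hab' m hm n hn]
  -- elementary abelian
  have hexp : ∃ p : ℕ, p.Prime ∧ ∀ m ∈ M, m ^ p = 1 := by
    haveI hnt : Nontrivial M := (Subgroup.nontrivial_iff_ne_bot M).mpr hM
    have h1 : Nat.card M ≠ 1 := fun h => (Finite.one_lt_card (α := M)).ne' h
    let p := (Nat.card M).minFac
    have hp : p.Prime := Nat.minFac_prime h1
    haveI : Fact p.Prime := ⟨hp⟩
    obtain ⟨x, hx⟩ := exists_prime_orderOf_dvd_card' p (Nat.minFac_dvd (Nat.card M))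
    let L : Subgroup G :=
      { carrier := {g | g ∈ M ∧ g ^ p = 1}
        mul_mem' := fun {u v} hu hv => by
          refine ⟨M.mul_mem hu.1 hv.1, ?_⟩
          have : Commute u v := hab' u hu.1 v hv.1
          rw [this.mul_pow, hu.2, hv.2, one_mul]
        one_mem' := ⟨M.one_mem, one_pow _⟩
        inv_mem' := fun {u} hu => ⟨M.inv_mem hu.1, by rw [inv_pow, hu.2, inv_one]⟩ }
    have hLn : L.Normal := by
      constructor
      intro u hu g
      refine ⟨‹M.Normal›.conj_mem _ hu.1 g, ?_⟩
      rw [conj_pow, hu.2, mul_one, mul_inv_cancel]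
    have hxp : (x : G) ^ p = 1 := by
      have h2 : x ^ p = 1 := by rw [← hx]; exact pow_orderOf_eq_one x
      exact congrArg Subtype.val h2
    have hx1 : (x : G) ≠ 1 := by
      intro h
      have h2 : x = 1 := Subtype.ext h
      rw [h2, orderOf_one] at hx
      exact hp.one_lt.ne hx
    rcases hmin L hLn (fun u hu => hu.1) with h | h
    · exfalso
      have h2 : (x : G) ∈ L := ⟨x.2, hxp⟩
      rw [h] at h2
      exact hx1 h2
    · refine ⟨p, hp, fun m hm => ?_⟩
      rw [← h] at hm
      exact hm.2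
  refine ⟨hC, hstab, hexp, ?_⟩
  intro L hLn hL hLmin
  haveI := hLn
  by_cases h1 : L ⊓ M = ⊥
  · exfalso
    apply hL
    have hcomm2 := Lib.H1PermMin.comm_of_inf_bot G L M h1
    rw [eq_bot_iff]
    intro l hl
    have h3 : (l : Equiv.Perm α) ∈ Subgroup.centralizer ((M.map G.subtype : Subgroup (Equiv.Perm α)) : Set (Equiv.Perm α)) := by
      rw [Subgroup.mem_centralizer_iff]
      rintro _ ⟨m', hm', rfl⟩
      show ((m' : G) : Equiv.Perm α) * l = (l : Equiv.Perm α) * m'
      rw [← hcoe, ← hcoe, hcomm2 l m' hl hm']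
    rw [hC] at h3
    obtain ⟨n, hn, hnm⟩ := h3
    have h4 : n = l := Subtype.ext hnm
    rw [h4] at hn
    have h5 : l ∈ L ⊓ M := Subgroup.mem_inf.mpr ⟨hl, hn⟩
    rw [h1] at h5
    exact h5
  · rcases hLmin (L ⊓ M) inferInstance inf_le_left with h | h
    · exact absurd h h1
    · have hle : L ≤ M := inf_eq_left.mp h
      rcases hmin L hLn hle with h3 | h3
      · exact absurd h3 hL
      · exact h3

end Cfsg.Agent.S0703
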