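import Cfsg.Statements.S0704
import Cfsg.Agent.Lib.H1PermMin

set_option autoImplicit false
open Cfsg

namespace Cfsg.Agent.S0704

/-- Two distinct transitive minimal normal subgroups `M`, `N` of a permutation group are regular, non-abelian, isomorphic, each other's centraliser in the symmetric group, and the only minimal normal subgroups. -/
theorem result {α : Type*} (G : Subgroup (Equiv.Perm α)) (M N : Subgroup G) [M.Normal] [N.Normal] (hM : M ≠ ⊥) (hN : N ≠ ⊥) (hMmin : ∀ L : Subgroup G, L.Normal → L ≤ M → L = ⊥ ∨ L = M) (hNmin : ∀ L : Subgroup G, L.Normal → L ≤ N → L = ⊥ ∨ L = N) (hMN : M ≠ N) (hMt : MulAction.IsPretransitive M α) (hNt : MulAction.IsPretransitive N α) : (∀ a : α, MulAction.stabilizer M a = ⊥) ∧ (∀ a : α, MulAction.stabilizer N a = ⊥) ∧ ¬ IsMulCommutative M ∧ Nonempty (M ≃* N) ∧ Subgroup.centralizer ((M.map G.subtype : Subgroup (Equiv.Perm α)) : Set (Equiv.Perm α)) = N.map G.subtype ∧ Subgroup.centralizer ((N.map G.subtype : Subgroup (Equiv.Perm α)) : Set (Equiv.Perm α)) =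 M.map G.subtype ∧ ∀ L : Subgroup G, L.Normal → L ≠ ⊥ → (∀ L' : Subgroup G, L'.Normal → L' ≤ L → L' = ⊥ ∨ L' = L) → L = M ∨ L = N := by
  classical
  have hinf := Lib.H1PermMin.inf_eq_bot_of_min G M N hM hMmin hNmin hMN
  have hinf' : N ⊓ M = ⊥ := by rw [inf_comm]; exact hinf
  have hcomm := Lib.H1PermMin.comm_of_inf_bot G M N hinf
  have hcoe : ∀ (x y : G), ((x * y : G) : Equiv.Perm α) = (x : Equiv.Perm α) * y := fun _ _ => rfl
  have hfixM : ∀ x : Equiv.Perm α, (∀ m ∈ M, ((m : G) : Equiv.Perm α) * x = x * (m : G)) →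
      ∀ a, x a = a → x = 1 := fun x hx a ha => Lib.H1PermMin.fix_of_comm G M hMt x hx a ha
  have hfixN : ∀ x : Equiv.Perm α, (∀ m ∈ N, ((m : G) : Equiv.Perm α) * x = x * (m : G)) →
      ∀ a, x a = a → x = 1 := fun x hx a ha => Lib.H1PermMin.fix_of_comm G N hNt x hx a ha
  have hstabM : ∀ a : α, MulAction.stabilizer M a = ⊥ := by
    intro a
    rw [eq_bot_iff]
    intro m hm
    have hm' : ((m : G) : Equiv.Perm α) a = a := hm
    have h1 := hfixN _ (fun n hn => by
      have := hcomm (m : G) n m.2 hn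
      rw [← hcoe, ← hcoe, this]) a hm'
    rw [Subgroup.mem_bot]
    exact Subtype.ext (Subtype.ext h1)
  have hstabN : ∀ a : α, MulAction.stabilizer N a = ⊥ := by
    intro a
    rw [eq_bot_iff]
    intro n hn
    have hn' : ((n : G) : Equiv.Perm α) a = a := hn
    have h1 := hfixM _ (fun m hm => by
      have := hcomm m (n : G) hm n.2
      rw [← hcoe, ← hcoe, this]) a hn'
    rw [Subgroup.mem_bot]
    exact Subtype.ext (Subtype.ext h1)
  -- α is nonempty
  have hne : Nonempty α := by
    by_contra hc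
    rw [not_nonempty_iff] at hc
    apply hM
    rw [eq_bot_iff]
    intro m _
    rw [Subgroup.mem_bot]
    apply Subtype.ext
    ext a
    exact hc.elim a
  obtain ⟨a⟩ := hne
  have hCM : Subgroup.centralizer ((M.map G.subtype : Subgroup (Equiv.Perm α)) : Set (Equiv.Perm α)) = N.map G.subtype := by
    apply le_antisymm
    · intro x hx
      rw [Subgroup.mem_centralizer_iff] at hx
      obtain ⟨n, hn⟩ := hNt.exists_smul_eq a (x a)
      have hn' : ((n : G) : Equiv.Perm α) a = x a := hn
      have h1 : (((n : G) : Equiv.Perm α))⁻¹ * x = 1 := by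
        apply hfixM _ _ a
        · rw [Equiv.Perm.mul_apply, ← hn']
          simp
        · intro m hm
          have h2 := hx ((m : G) : Equiv.Perm α) ⟨m, hm, rfl⟩
          have h3 := hcomm m (n : G) hm n.2
          have h4 : ((m : G) : Equiv.Perm α) * (n : G) = ((n : G) : Equiv.Perm α) * (m : G) := by
            rw [← hcoe, ← hcoe, h3]
          have h5 : ((m : G) : Equiv.Perm α) * ((n : G) : Equiv.Perm α)⁻¹ = ((n : G) : Equiv.Perm α)⁻¹ * (m : G) := by
            rw [eq_inv_mul_iff_mul_eq, ← mul_assoc, ← h4, mul_assoc, mul_inv_cancel, mul_one]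
          rw [← mul_assoc, h5, mul_assoc, h2, mul_assoc]
      have h6 : x = ((n : G) : Equiv.Perm α) := by
        have := inv_mul_eq_one.mp h1
        exact this.symm
      rw [h6]
      exact ⟨n, n.2, rfl⟩
    · rintro _ ⟨n, hn, rfl⟩
      rw [Subgroup.mem_centralizer_iff]
      rintro _ ⟨m, hm, rfl⟩
      show ((m : G) : Equiv.Perm α) * n = (n : Equiv.Perm α) * m
      rw [← hcoe, ← hcoe, hcomm m n hm hn]
  have hCN : Subgroup.centralizer ((N.map G.subtype : Subgroup (Equiv.Perm α)) : Set (Equiv.Perm α)) = M.map G.subtype := by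
    apply le_antisymm
    · intro x hx
      rw [Subgroup.mem_centralizer_iff] at hx
      obtain ⟨n, hn⟩ := hMt.exists_smul_eq a (x a)
      have hn' : ((n : G) : Equiv.Perm α) a = x a := hn
      have h1 : (((n : G) : Equiv.Perm α))⁻¹ * x = 1 := by
        apply hfixN _ _ a
        · rw [Equiv.Perm.mul_apply, ← hn']
          simp
        · intro m hm
          have h2 := hx ((m : G) : Equiv.Perm α) ⟨m, hm, rfl⟩
          have h3 := hcomm (n : G) m n.2 hm
          have h4 : ((m : G) : Equiv.Perm α) * (n : G) = ((n : G) : Equiv.Perm α) * (m : G) := by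
            rw [← hcoe, ← hcoe, h3]
          have h5 : ((m : G) : Equiv.Perm α) * ((n : G) : Equiv.Perm α)⁻¹ = ((n : G) : Equiv.Perm α)⁻¹ * (m : G) := by
            rw [eq_inv_mul_iff_mul_eq, ← mul_assoc, ← h4, mul_assoc, mul_inv_cancel, mul_one]
          rw [← mul_assoc, h5, mul_assoc, h2, mul_assoc]
      have h6 : x = ((n : G) : Equiv.Perm α) := by
        have := inv_mul_eq_one.mp h1
        exact this.symm
      rw [h6]
      exact ⟨n, n.2, rfl⟩
    · rintro _ ⟨n, hn, rfl⟩
      rw [Subgroup.mem_centralizer_iff]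
      rintro _ ⟨m, hm, rfl⟩
      show ((m : G) : Equiv.Perm α) * n = (n : Equiv.Perm α) * m
      rw [← hcoe, ← hcoe, hcomm n m hn hm]
  -- non-abelian
  have hna : ¬ IsMulCommutative M := by
    intro hab
    have hle : M ≤ N := by
      intro m hm
      have h1 : ((m : G) : Equiv.Perm α) ∈ Subgroup.centralizer ((M.map G.subtype : Subgroup (Equiv.Perm α)) : Set (Equiv.Perm α)) := by
        rw [Subgroup.mem_centralizer_iff]
        rintro _ ⟨m', hm', rfl⟩
        have h2 := hab.is_comm.comm ⟨m', hm'⟩ ⟨m, hm⟩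
        have h3 : m' * m = m * m' := congrArg Subtype.val h2
        show ((m' : G) : Equiv.Perm α) * m = (m : Equiv.Perm α) * m'
        rw [← hcoe, ← hcoe, h3]
      rw [hCM] at h1
      obtain ⟨n, hn, hnm⟩ := h1
      have : n = m := Subtype.ext hnm
      rwa [← this]
    rcases hNmin M inferInstance hle with h | h
    · exact hM h
    · exact hMN h
  -- isomorphism
  have hex : ∀ m : M, ∃ n : N, n • a = m • a := fun m => hNt.exists_smul_eq a (m • a)
  choose φ hφ using hex
  have hφ' : ∀ m : M, (((φ m : N) : G) : Equiv.Perm α) a = ((m : G) : Equiv.Perm α) a := hφ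
  have huniqN : ∀ n n' : N, n • a = n' • a → n = n' := by
    intro n n' h
    have h1 : n'⁻¹ * n ∈ MulAction.stabilizer N a := by
      rw [MulAction.mem_stabilizer_iff, mul_smul, h, inv_smul_smul]
    rw [hstabN a, Subgroup.mem_bot] at h1
    exact (inv_mul_eq_one.mp h1).symm
  have huniqM : ∀ n n' : M, n • a = n' • a → n = n' := by
    intro n n' h
    have h1 : n'⁻¹ * n ∈ MulAction.stabilizer M a := by
      rw [MulAction.mem_stabilizer_iff, mul_smul, h, inv_smul_smul]
    rw [hstabM a, Subgroup.mem_bot] at h1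
    exact (inv_mul_eq_one.mp h1).symm
  have hanti : ∀ x y : M, φ (x * y) = φ y * φ x := by
    intro x y
    apply huniqN
    rw [hφ, mul_smul, mul_smul, ← hφ y, hφ x]
    show ((x : G) : Equiv.Perm α) ((((φ y : N) : G) : Equiv.Perm α) a) = (((φ y : N) : G) : Equiv.Perm α) (((x : G) : Equiv.Perm α) a)
    have h1 := hcomm (x : G) ((φ y : N) : G) x.2 (φ y).2
    have h2 : ((x : G) : Equiv.Perm α) * ((φ y : N) : G) = ((φ y : N) : G) * (x : G) := by
      rw [← hcoe, ← hcoe, h1]
    have h3 := congrArg (fun f : Equiv.Perm α => f a) h2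
    exact h3
  let ψ : M →* N :=
    { toFun := fun m => (φ m)⁻¹
      map_one' := by
        have h1 : φ 1 = 1 := huniqN _ _ (by rw [hφ]; simp)
        rw [h1, inv_one]
      map_mul' := fun x y => by
        rw [hanti, mul_inv_rev] }
  have hψ : Function.Bijective ψ := by
    constructor
    · intro x y hxy
      have h1 : (φ x)⁻¹ = (φ y)⁻¹ := hxy
      have h2 : φ x = φ y := inv_injective h1
      apply huniqM
      rw [← hφ, ← hφ, h2]
    · intro n
      obtain ⟨m, hm⟩ := hMt.exists_smul_eq a (n⁻¹ • a)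
      refine ⟨m, ?_⟩
      show (φ m)⁻¹ = n
      have h1 : φ m = n⁻¹ := huniqN _ _ (by rw [hφ, hm])
      rw [h1, inv_inv]
  refine ⟨hstabM, hstabN, hna, ⟨MulEquiv.ofBijective ψ hψ⟩, hCM, hCN, ?_⟩
  intro L hLn hL hLmin
  haveI := hLn
  by_cases h1 : L ⊓ M = ⊥
  · by_cases h2 : L ⊓ N = ⊥
    · exfalso
      apply hL
      have hcomm2 := Lib.H1PermMin.comm_of_inf_bot G L M h1
      rw [eq_bot_iff]
      intro l hl
      have h3 : (l : Equiv.Perm α) ∈ Subgroup.centralizer ((M.map G.subtype : Subgroup (Equiv.Perm α)) : Set (Equiv.Perm α)) := by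
        rw [Subgroup.mem_centralizer_iff]
        rintro _ ⟨m', hm', rfl⟩
        show ((m' : G) : Equiv.Perm α) * l = (l : Equiv.Perm α) * m'
        rw [← hcoe, ← hcoe, hcomm2 l m' hl hm']
      rw [hCM] at h3
      obtain ⟨n, hn, hnm⟩ := h3
      have h4 : n = l := Subtype.ext hnm
      rw [h4] at hn
      have h5 : l ∈ L ⊓ N := Subgroup.mem_inf.mpr ⟨hl, hn⟩
      rw [h2] at h5
      exact h5
    · right
      rcases hLmin (L ⊓ N) inferInstance inf_le_left with h | h
      · exact absurd h h2
      · have hle : L ≤ N := inf_eq_left.mp h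
        rcases hNmin L hLn hle with h3 | h3
        · exact absurd h3 hL
        · exact h3
  · left
    rcases hLmin (L ⊓ M) inferInstance inf_le_left with h | h
    · exact absurd h h1
    · have hle : L ≤ M := inf_eq_left.mp h
      rcases hMmin L hLn hle with h3 | h3
      · exact absurd h3 hL
      · exact h3

end Cfsg.Agent.S0704
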