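import Cfsg.Statements.S0705
import Mathlib

set_option autoImplicit false
open scoped Pointwise
open Cfsg

namespace Cfsg.Agent.S0705

open MulAction
open scoped Pointwise

variable {α : Type*} [Fintype α] [DecidableEq α] (G : Subgroup (Equiv.Perm α)) {k : ℕ}

/-- swaps act on tuples through the group -/
theorem swap_step (hk : k < Fintype.card α)
    (hgen : ∀ s : Finset α, s.card = k + 1 → ∀ σ : Equiv.Perm ↥s, ∃ g ∈ G, ∀ x : ↥s, g (x : α) = σ x)
    (x : Fin k ↪ α) (a b : α) : ∃ g ∈ G, ∀ i, g (x i) = Equiv.swap a b (x i) := by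
  classical
  set r : Finset α := Finset.univ.map x with hr
  have hrcard : r.card = k := by simp [hr]
  by_cases hab : a = b
  · subst hab
    exact ⟨1, G.one_mem, fun i => by simp⟩
  by_cases ha : a ∈ r
  · by_cases hb : b ∈ r
    · -- both are in: choose an extra point
      have hlt : r.card < Fintype.card α := by rwa [hrcard]
      obtain ⟨c, hc⟩ : ∃ c, c ∉ r := by
        by_contra hcon
        push Not at hcon
        have : r = Finset.univ := Finset.eq_univ_iff_forall.2 hcon
        rw [this, Finset.card_univ] at hlt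
        exact lt_irrefl _ hlt
      set t := insert c r with ht
      have htcard : t.card = k + 1 := by rw [ht, Finset.card_insert_of_notMem hc, hrcard]
      have hperm : ∀ y, y ∈ t ↔ Equiv.swap a b y ∈ t := by
        intro y
        have haT : a ∈ t := Finset.mem_insert_of_mem ha
        have hbT : b ∈ t := Finset.mem_insert_of_mem hb
        by_cases hya : y = a
        · subst hya; simp [haT, hbT]
        by_cases hyb : y = b
        · subst hyb; simp [haT, hbT]
        rw [Equiv.swap_apply_of_ne_of_ne hya hyb]
      obtain ⟨g, hg, hgt⟩ := hgen t htcard ((Equiv.swap a b).subtypePerm (fun y => (hperm y).symm))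
      refine ⟨g, hg, fun i => ?_⟩
      have hmem : x i ∈ t := Finset.mem_insert_of_mem (Finset.mem_map_of_mem _ (Finset.mem_univ i))
      exact hgt ⟨x i, hmem⟩
    · set t := insert b r with ht
      have htcard : t.card = k + 1 := by rw [ht, Finset.card_insert_of_notMem hb, hrcard]
      have hperm : ∀ y, y ∈ t ↔ Equiv.swap a b y ∈ t := by
        intro y
        have haT : a ∈ t := Finset.mem_insert_of_mem ha
        have hbT : b ∈ t := Finset.mem_insert_self b r
        by_cases hya : y = a
        · subst hya; simp [haT, hbT]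
        by_cases hyb : y = b
        · subst hyb; simp [haT, hbT]
        rw [Equiv.swap_apply_of_ne_of_ne hya hyb]
      obtain ⟨g, hg, hgt⟩ := hgen t htcard ((Equiv.swap a b).subtypePerm (fun y => (hperm y).symm))
      refine ⟨g, hg, fun i => ?_⟩
      have hmem : x i ∈ t := Finset.mem_insert_of_mem (Finset.mem_map_of_mem _ (Finset.mem_univ i))
      exact hgt ⟨x i, hmem⟩
  · by_cases hb : b ∈ r
    · set t := insert a r with ht
      have htcard : t.card = k + 1 := by rw [ht, Finset.card_insert_of_notMem ha, hrcard]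
      have hperm : ∀ y, y ∈ t ↔ Equiv.swap a b y ∈ t := by
        intro y
        have haT : a ∈ t := Finset.mem_insert_self a r
        have hbT : b ∈ t := Finset.mem_insert_of_mem hb
        by_cases hya : y = a
        · subst hya; simp [haT, hbT]
        by_cases hyb : y = b
        · subst hyb; simp [haT, hbT]
        rw [Equiv.swap_apply_of_ne_of_ne hya hyb]
      obtain ⟨g, hg, hgt⟩ := hgen t htcard ((Equiv.swap a b).subtypePerm (fun y => (hperm y).symm))
      refine ⟨g, hg, fun i => ?_⟩
      have hmem : x i ∈ t := Finset.mem_insert_of_mem (Finset.mem_map_of_mem _ (Finset.mem_univ i))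
      exact hgt ⟨x i, hmem⟩
    · refine ⟨1, G.one_mem, fun i => ?_⟩
      have hmem : x i ∈ r := Finset.mem_map_of_mem _ (Finset.mem_univ i)
      have h1 : x i ≠ a := fun e => ha (e ▸ hmem)
      have h2 : x i ≠ b := fun e => hb (e ▸ hmem)
      rw [Equiv.swap_apply_of_ne_of_ne h1 h2]
      rfl

theorem perm_step (hk : k < Fintype.card α)
    (hgen : ∀ s : Finset α, s.card = k + 1 → ∀ σ : Equiv.Perm ↥s, ∃ g ∈ G, ∀ x : ↥s, g (x : α) = σ x)
    (x : Fin k ↪ α) (π : Equiv.Perm α) : ∃ g ∈ G, ∀ i, g (x i) = π (x i) := by
  induction π using Equiv.Perm.swap_induction_on with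
  | one => exact ⟨1, G.one_mem, fun i => rfl⟩
  | swap_mul π a b hab ih =>
    obtain ⟨g, hg, hgx⟩ := ih
    obtain ⟨g', hg', hgx'⟩ := swap_step G hk hgen (x.trans π.toEmbedding) a b
    refine ⟨g' * g, G.mul_mem hg' hg, fun i => ?_⟩
    show g' (g (x i)) = Equiv.swap a b (π (x i))
    rw [hgx]
    exact hgx' i


/-- A generously `k`-transitive permutation group (every `(k+1)`-subset has its full symmetric group induced by the setwise stabiliser) of degree greater than `k` is `k`-transitive, and for a `k`-subset the setwise and pointwise stabilisers have the same orbits outside it. -/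
theorem result {α : Type*} [Fintype α] [DecidableEq α] (G : Subgroup (Equiv.Perm α)) {k : ℕ} (hk : k < Fintype.card α) (hgen : ∀ s : Finset α, s.card = k + 1 → ∀ σ : Equiv.Perm ↥s, ∃ g ∈ G, ∀ x : ↥s, g (x : α) = σ x) : MulAction.IsMultiplyPretransitive G α k ∧ ∀ s : Finset α, s.card = k → ∀ a b : α, a ∉ s → b ∉ s → (∃ g ∈ G, g • s = s ∧ g a = b) → ∃ g ∈ G, (∀ x ∈ s, g x = x) ∧ g a = b := by
  classical
  refine ⟨?_, ?_⟩
  · refine ⟨fun x y => ?_⟩
    have : MulAction.IsMultiplyPretransitive (Equiv.Perm α) α k := Equiv.Perm.isMultiplyPretransitive α k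
    obtain ⟨π, hπ⟩ := MulAction.exists_smul_eq (Equiv.Perm α) x y
    obtain ⟨g, hg, hgx⟩ := perm_step G hk hgen x π
    refine ⟨⟨g, hg⟩, ?_⟩
    ext i
    rw [← hπ]
    exact hgx i
  · intro s hs a b ha hb ⟨g, hgG, hgs, hgab⟩
    by_cases hab : a = b
    · subst hab
      exact ⟨1, G.one_mem, fun x _ => rfl, rfl⟩
    -- the permutation induced by `g⁻¹` on `s`
    have hgs' : ∀ y, y ∈ s ↔ g⁻¹ y ∈ s := by
      intro y
      have h1 : ∀ z ∈ s, g z ∈ s := by
        intro z hz
        have : (g • z) ∈ g • s := Finset.smul_mem_smul_finset hz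
        rwa [hgs] at this
      constructor
      · intro hy
        have h2 : y ∈ g • s := by rwa [hgs]
        obtain ⟨z, hz, rfl⟩ := Finset.mem_smul_finset.1 h2
        have : g⁻¹ (g • z) = z := by
          show g⁻¹ (g z) = z
          simp
        rwa [this]
      · intro hy
        have := h1 _ hy
        simpa using this
    let ρ : Equiv.Perm α := Equiv.Perm.ofSubtype ((g⁻¹).subtypePerm (p := (· ∈ s)) (fun y => (hgs' y).symm))
    have hρs : ∀ y ∈ s, ρ y = g⁻¹ y := by
      intro y hy
      show Equiv.Perm.ofSubtype _ y = _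
      rw [Equiv.Perm.ofSubtype_apply_of_mem _ hy]
      rfl
    have hρb : ρ b = b := by
      show Equiv.Perm.ofSubtype _ b = _
      exact Equiv.Perm.ofSubtype_apply_of_not_mem _ hb
    set t := insert b s with ht
    have htcard : t.card = k + 1 := by rw [ht, Finset.card_insert_of_notMem hb, hs]
    have hperm : ∀ y, y ∈ t ↔ ρ y ∈ t := by
      intro y
      by_cases hyb : y = b
      · subst hyb; rw [hρb]
      by_cases hys : y ∈ s
      · have h1 : y ∈ t := Finset.mem_insert_of_mem hys
        have h2 : ρ y ∈ t := by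
          rw [hρs y hys]
          exact Finset.mem_insert_of_mem ((hgs' y).1 hys)
        simp [h1, h2]
      · have h1 : y ∉ t := by
          rw [ht, Finset.mem_insert]
          push Not
          exact ⟨hyb, hys⟩
        have h3 : ρ y = y := Equiv.Perm.ofSubtype_apply_of_not_mem _ hys
        rw [h3]
    obtain ⟨h, hh, hht⟩ := hgen t htcard (ρ.subtypePerm (fun y => (hperm y).symm))
    refine ⟨h * g, G.mul_mem hh hgG, ?_, ?_⟩
    · intro x hx
      have h1 : g x ∈ s := by
        have : (g • x) ∈ g • s := Finset.smul_mem_smul_finset hx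
        rwa [hgs] at this
      have h2 : g x ∈ t := Finset.mem_insert_of_mem h1
      have h3 := hht ⟨g x, h2⟩
      show h (g x) = x
      refine h3.trans ?_
      show ρ (g x) = x
      rw [hρs _ h1]
      simp
    · show h (g a) = b
      rw [hgab]
      have h2 : b ∈ t := Finset.mem_insert_self b s
      have h3 := hht ⟨b, h2⟩
      refine h3.trans ?_
      exact hρb

end Cfsg.Agent.S0705
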