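import Cfsg.Statements.S0706
import Cfsg.Agent.Lib.PermOrb
import Mathlib

set_option autoImplicit false
open Cfsg

namespace Cfsg.Agent.S0706

variable {α : Type*} [Fintype α] [DecidableEq α]

/-- pointwise stabiliser in `G` of a finite set. -/
def Hf (G : Subgroup (Equiv.Perm α)) (A : Finset α) : Subgroup (Equiv.Perm α) where
  carrier := {g | g ∈ G ∧ ∀ x ∈ A, g x = x}
  mul_mem' := by
    rintro a b ⟨ha, ha'⟩ ⟨hb, hb'⟩
    refine ⟨G.mul_mem ha hb, fun x hx => ?_⟩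
    rw [Equiv.Perm.mul_apply, hb' x hx, ha' x hx]
  one_mem' := ⟨G.one_mem, fun _ _ => rfl⟩
  inv_mem' := by
    rintro a ⟨ha, ha'⟩
    refine ⟨G.inv_mem ha, fun x hx => ?_⟩
    rw [Equiv.Perm.inv_eq_iff_eq]
    exact (ha' x hx).symm

lemma mem_Hf {G : Subgroup (Equiv.Perm α)} {A : Finset α} {g : Equiv.Perm α} :
    g ∈ Hf G A ↔ g ∈ G ∧ ∀ x ∈ A, g x = x := Iff.rfl

lemma card_Hf_of_image (G : Subgroup (Equiv.Perm α)) (A : Finset α) {g : Equiv.Perm α}
    (hg : g ∈ G) : Nat.card (Hf G (A.image g)) = Nat.card (Hf G A) := by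
  have key : Hf G (A.image g) = (Hf G A).map (MulAut.conj g).toMonoidHom := by
    ext h
    constructor
    · rintro ⟨hG, hfix⟩
      refine ⟨g⁻¹ * h * g, ⟨G.mul_mem (G.mul_mem (G.inv_mem hg) hG) hg, ?_⟩, ?_⟩
      · intro x hx
        have := hfix _ (Finset.mem_image_of_mem g hx)
        simp [Equiv.Perm.mul_apply, this]
      · simp [MulAut.conj_apply]
        group
    · rintro ⟨u, ⟨huG, hufix⟩, rfl⟩
      refine ⟨?_, ?_⟩
      · simpa [MulAut.conj_apply] using G.mul_mem (G.mul_mem hg huG) (G.inv_mem hg)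
      · intro y hy
        obtain ⟨x, hx, rfl⟩ := Finset.mem_image.mp hy
        simp [MulAut.conj_apply, Equiv.Perm.mul_apply, hufix x hx]
  rw [key]
  exact Subgroup.card_map_of_injective (MulAut.conj g).injective

lemma swap_mem_iff (s : Finset α) {a b : α} (ha : a ∈ s) (hb : b ∈ s) (x : α) :
    Equiv.swap a b x ∈ s ↔ x ∈ s := by
  by_cases h1 : x = a
  · subst h1; simp [ha, hb]
  by_cases h2 : x = b
  · subst h2; simp [ha, hb]
  rw [Equiv.swap_apply_of_ne_of_ne h1 h2]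

lemma homog (G : Subgroup (Equiv.Perm α)) {k : ℕ}
    (hgen : ∀ s : Finset α, s.card = k + 1 → ∀ σ : Equiv.Perm ↥s, ∃ g ∈ G, ∀ x : ↥s, g (x : α) = σ x) :
    ∀ (n : ℕ) (A B : Finset α), A.card = k → B.card = k → (A \ B).card = n →
      ∃ g ∈ G, A.image g = B := by
  intro n
  induction n with
  | zero =>
    intro A B hA hB h0
    have hsub : A ⊆ B := Finset.sdiff_eq_empty_iff_subset.mp (Finset.card_eq_zero.mp h0)
    have : A = B := Finset.eq_of_subset_of_card_le hsub (by omega)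
    exact ⟨1, G.one_mem, by subst this; simp⟩
  | succ n ih =>
    intro A B hA hB hn
    obtain ⟨a, ha⟩ : (A \ B).Nonempty := Finset.card_pos.mp (by omega)
    have hcomm : (B \ A).card = (A \ B).card := Finset.card_sdiff_comm (by omega)
    obtain ⟨b, hb⟩ : (B \ A).Nonempty := Finset.card_pos.mp (by omega)
    obtain ⟨haA, haB⟩ := Finset.mem_sdiff.mp ha
    obtain ⟨hbB, hbA⟩ := Finset.mem_sdiff.mp hb
    have hs : (insert b A).card = k + 1 := by rw [Finset.card_insert_of_notMem hbA, hA]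
    obtain ⟨g, hg, hgσ⟩ := hgen (insert b A) hs ((Equiv.swap a b).subtypePerm
      (fun x => swap_mem_iff _ (Finset.mem_insert_of_mem haA) (Finset.mem_insert_self _ _) x))
    have hgx : ∀ x ∈ A, g x = Equiv.swap a b x := by
      intro x hx
      exact hgσ ⟨x, Finset.mem_insert_of_mem hx⟩
    have himg : A.image g = insert b (A.erase a) := by
      ext y
      simp only [Finset.mem_image, Finset.mem_insert, Finset.mem_erase]
      constructor
      · rintro ⟨x, hx, rfl⟩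
        rw [hgx x hx]
        by_cases h1 : x = a
        · subst h1; left; simp
        · right
          have h2 : x ≠ b := fun e => hbA (e ▸ hx)
          rw [Equiv.swap_apply_of_ne_of_ne h1 h2]
          exact ⟨h1, hx⟩
      · rintro (rfl | ⟨h1, h2⟩)
        · exact ⟨a, haA, by rw [hgx a haA]; simp⟩
        · refine ⟨y, h2, ?_⟩
          rw [hgx y h2, Equiv.swap_apply_of_ne_of_ne h1 (by rintro rfl; exact hbA h2)]
    have hA' : (A.image g).card = k := by
      rw [Finset.card_image_of_injective _ g.injective, hA]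
    have hn' : (A.image g \ B).card = n := by
      have : A.image g \ B = (A \ B).erase a := by
        rw [himg]
        ext y
        simp only [Finset.mem_sdiff, Finset.mem_insert, Finset.mem_erase]
        constructor
        · rintro ⟨rfl | ⟨h1, h2⟩, h3⟩
          · exact absurd hbB h3
          · exact ⟨h1, h2, h3⟩
        · rintro ⟨h1, h2, h3⟩
          exact ⟨Or.inr ⟨h1, h2⟩, h3⟩
      rw [this, Finset.card_erase_of_mem ha, hn]
      rfl
    obtain ⟨g', hg', hB'⟩ := ih _ B hA' hB hn'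
    refine ⟨g' * g, G.mul_mem hg' hg, ?_⟩
    rw [← hB', Finset.image_image]
    rfl

lemma exists_fixed {p : ℕ} [hp : Fact p.Prime] (R : Subgroup (Equiv.Perm α)) (hR : IsPGroup p R)
    (O : Set α) (hinv : ∀ r ∈ R, ∀ y ∈ O, r y ∈ O) (hn : ¬ p ∣ Nat.card O) :
    ∃ y ∈ O, ∀ r ∈ R, r y = y := by
  let S : SubMulAction R α :=
    { carrier := O
      smul_mem' := fun r y hy => hinv r.1 r.2 y hy }
  have h1 := hR.card_modEq_card_fixedPoints S
  have hcS : Nat.card S = Nat.card O := rfl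
  rw [hcS] at h1
  have hne : (MulAction.fixedPoints R S).Nonempty := by
    by_contra hcon
    rw [Set.not_nonempty_iff_eq_empty] at hcon
    have h0 : Nat.card (∅ : Set S) = 0 := by simp
    rw [hcon, h0] at h1
    exact hn ((Nat.modEq_zero_iff_dvd).mp h1)
  obtain ⟨y, hy⟩ := hne
  refine ⟨y.1, y.2, fun r hr => ?_⟩
  have := hy ⟨r, hr⟩
  exact congrArg Subtype.val this

section shifts

variable {p : ℕ} [hp : Fact p.Prime] (γ : ZMod p → α) (hγ : Function.Injective γ)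

open Classical in
/-- The shift by `a` on the image of `γ`, trivial elsewhere. -/
noncomputable def T (a : ZMod p) : Equiv.Perm α :=
  (Equiv.addRight a).extendDomain (Equiv.ofInjective γ hγ)

lemma T_apply (a l : ZMod p) : T γ hγ a (γ l) = γ (l + a) := by
  classical
  have := Equiv.Perm.extendDomain_apply_image (Equiv.addRight a) (Equiv.ofInjective γ hγ) l
  simpa [T] using this

lemma T_not (a : ZMod p) {x : α} (hx : x ∉ Set.range γ) : T γ hγ a x = x := by
  classical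
  exact Equiv.Perm.extendDomain_apply_not_subtype _ _ hx

lemma T_add (a b : ZMod p) (x : α) : T γ hγ a (T γ hγ b x) = T γ hγ (a + b) x := by
  by_cases hx : x ∈ Set.range γ
  · obtain ⟨l, rfl⟩ := hx
    rw [T_apply, T_apply, T_apply]
    congr 1
    ring
  · rw [T_not γ hγ _ hx, T_not γ hγ _ hx, T_not γ hγ _ hx]

lemma T_zero (x : α) : T γ hγ 0 x = x := by
  by_cases hx : x ∈ Set.range γ
  · obtain ⟨l, rfl⟩ := hx
    rw [T_apply, add_zero]
  · rw [T_not γ hγ _ hx]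

lemma T_neg (a : ZMod p) (x : α) : T γ hγ a (T γ hγ (-a) x) = x := by
  rw [T_add, add_neg_cancel, T_zero]

lemma T_neg' (a : ZMod p) (x : α) : T γ hγ (-a) (T γ hγ a x) = x := by
  rw [T_add, neg_add_cancel, T_zero]

lemma T_mem {Γ : Finset α} (hΓ : ∀ l, γ l ∈ Γ) (a : ZMod p) {x : α} (hx : x ∈ Γ) :
    T γ hγ a x ∈ Γ := by
  by_cases h : x ∈ Set.range γ
  · obtain ⟨l, rfl⟩ := h
    rw [T_apply]
    exact hΓ _
  · rwa [T_not γ hγ _ h]

end shifts

section main

variable {p : ℕ} [hp : Fact p.Prime] (G : Subgroup (Equiv.Perm α)) (Γ : Finset α)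
  (f : Fin p → α)

/-- orbit of `f i` under the pointwise stabiliser of `Γ`. -/
def Orb (i : Fin p) : Set α := {y | ∃ h ∈ Hf G Γ, h (f i) = y}

variable {G Γ f}

lemma orb_inv {i : Fin p} {h : Equiv.Perm α} (hh : h ∈ Hf G Γ) (y : α) :
    y ∈ Orb G Γ f i ↔ h y ∈ Orb G Γ f i := by
  constructor
  · rintro ⟨u, hu, rfl⟩
    exact ⟨h * u, (Hf G Γ).mul_mem hh hu, rfl⟩
  · rintro ⟨u, hu, he⟩
    refine ⟨h⁻¹ * u, (Hf G Γ).mul_mem ((Hf G Γ).inv_mem hh) hu, ?_⟩
    rw [Equiv.Perm.mul_apply, he]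
    simp

variable (γ : ZMod p → α) (hγ : Function.Injective γ)

lemma norm_pres (hγΓ : ∀ l, γ l ∈ Γ) {i : Fin p} {u : Equiv.Perm α} (huG : u ∈ G) (a : ZMod p)
    (hu : ∀ x ∈ Γ, u x = T γ hγ a x) (hf : u (f i) = f i) (y : α) :
    y ∈ Orb G Γ f i ↔ u y ∈ Orb G Γ f i := by
  have huinv : ∀ x ∈ Γ, u⁻¹ x = T γ hγ (-a) x := by
    intro x hx
    rw [Equiv.Perm.inv_eq_iff_eq, hu _ (T_mem γ hγ hγΓ _ hx), T_neg]
  have hfinv : u⁻¹ (f i) = f i := by
    rw [Equiv.Perm.inv_eq_iff_eq]; exact hf.symm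
  constructor
  · rintro ⟨h, hh, rfl⟩
    refine ⟨u * h * u⁻¹, ⟨G.mul_mem (G.mul_mem huG hh.1) (G.inv_mem huG), ?_⟩, ?_⟩
    · intro x hx
      rw [Equiv.Perm.mul_apply, Equiv.Perm.mul_apply, huinv x hx,
        hh.2 _ (T_mem γ hγ hγΓ _ hx), hu _ (T_mem γ hγ hγΓ _ hx), T_neg]
    · rw [Equiv.Perm.mul_apply, Equiv.Perm.mul_apply, hfinv]
  · rintro ⟨h, hh, he⟩
    refine ⟨u⁻¹ * h * u, ⟨G.mul_mem (G.mul_mem (G.inv_mem huG) hh.1) huG, ?_⟩, ?_⟩
    · intro x hx
      rw [Equiv.Perm.mul_apply, Equiv.Perm.mul_apply, hu x hx,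
        hh.2 _ (T_mem γ hγ hγΓ _ hx), huinv _ (T_mem γ hγ hγΓ _ hx), T_neg']
    · rw [Equiv.Perm.mul_apply, Equiv.Perm.mul_apply, hf, he]
      simp

variable (G Γ f) in
/-- The subgroup `Y`. -/
def Y (hγΓ : ∀ l, γ l ∈ Γ) : Subgroup (Equiv.Perm α) where
  carrier := {g | g ∈ G ∧ (∃ a, ∀ x ∈ Γ, g x = T γ hγ a x) ∧
    ∀ i y, y ∈ Orb G Γ f i ↔ g y ∈ Orb G Γ f i}
  mul_mem' := by
    rintro g g' ⟨hg, ⟨a, ha⟩, ho⟩ ⟨hg', ⟨a', ha'⟩, ho'⟩
    refine ⟨G.mul_mem hg hg', ⟨a + a', fun x hx => ?_⟩, fun i y => ?_⟩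
    · rw [Equiv.Perm.mul_apply, ha' x hx, ha _ (T_mem γ hγ hγΓ _ hx), T_add]
    · rw [ho' i y, ho i]
      rfl
  one_mem' := by
    refine ⟨G.one_mem, ⟨0, fun x _ => ?_⟩, fun i y => Iff.rfl⟩
    rw [T_zero]; rfl
  inv_mem' := by
    rintro g ⟨hg, ⟨a, ha⟩, ho⟩
    refine ⟨G.inv_mem hg, ⟨-a, fun x hx => ?_⟩, fun i y => ?_⟩
    · rw [Equiv.Perm.inv_eq_iff_eq, ha _ (T_mem γ hγ hγΓ _ hx), T_neg]
    · rw [ho i (g⁻¹ y)]
      simp

include hγ in
theorem core {k : ℕ}
    (hgen : ∀ s : Finset α, s.card = k + 1 → ∀ σ : Equiv.Perm ↥s, ∃ g ∈ G, ∀ x : ↥s, g (x : α) = σ x)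
    (hΓc : Γ.card = k) (hpk : p ≤ k) (hf : ∀ i, f i ∉ Γ)
    (hdist : ∀ i j, i ≠ j → f j ∉ Orb G Γ f i) (hγΓ : ∀ l, γ l ∈ Γ)
    (hno : ∀ i, ¬ p ∣ Nat.card (Orb G Γ f i)) : False := by
  have hrange : ∀ x, x ∈ Set.range γ → x ∈ Γ := by
    rintro x ⟨l, rfl⟩; exact hγΓ l
  -- elements inducing the shifts
  have hw : ∀ (a : ZMod p) (i : Fin p), ∃ w ∈ G, (∀ x ∈ Γ, w x = T γ hγ a x) ∧ w (f i) = f i := by
    intro a i
    have hs : (insert (f i) Γ).card = k + 1 := by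
      rw [Finset.card_insert_of_notMem (hf i), hΓc]
    have hTf : ∀ b : ZMod p, T γ hγ b (f i) = f i := fun b =>
      T_not γ hγ _ (fun h => hf i (hrange _ h))
    have hinv : ∀ x, T γ hγ a x ∈ insert (f i) Γ ↔ x ∈ insert (f i) Γ := by
      have hone : ∀ (b : ZMod p) x, x ∈ insert (f i) Γ → T γ hγ b x ∈ insert (f i) Γ := by
        intro b x hx
        rcases Finset.mem_insert.mp hx with rfl | hx
        · rw [hTf]; exact Finset.mem_insert_self _ _
        · exact Finset.mem_insert_of_mem (T_mem γ hγ hγΓ _ hx)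
      intro x
      refine ⟨fun h => ?_, hone a x⟩
      have := hone (-a) _ h
      rwa [T_neg'] at this
    obtain ⟨w, hwG, hwσ⟩ := hgen _ hs ((T γ hγ a).subtypePerm hinv)
    refine ⟨w, hwG, fun x hx => hwσ ⟨x, Finset.mem_insert_of_mem hx⟩, ?_⟩
    have h7 : w (f i) = T γ hγ a (f i) := hwσ ⟨f i, Finset.mem_insert_self _ _⟩
    rw [h7, hTf]
  have hp0 : 0 < p := hp.out.pos
  -- surjectivity onto the shifts
  have hsurj : ∀ a : ZMod p, ∃ g ∈ Y G Γ f γ hγ hγΓ, ∀ x ∈ Γ, g x = T γ hγ a x := by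
    intro a
    obtain ⟨g, hgG, hg, -⟩ := hw a ⟨0, hp0⟩
    refine ⟨g, ⟨hgG, ⟨a, hg⟩, fun i y => ?_⟩, hg⟩
    obtain ⟨w, hwG, hwx, hwf⟩ := hw a i
    have hh : w⁻¹ * g ∈ Hf G Γ := by
      refine ⟨G.mul_mem (G.inv_mem hwG) hgG, fun x hx => ?_⟩
      rw [Equiv.Perm.mul_apply, Equiv.Perm.inv_eq_iff_eq, hg x hx, hwx x hx]
    rw [orb_inv hh y, norm_pres γ hγ hγΓ hwG a hwx hwf ((w⁻¹ * g) y)]
    simp
  -- order of Y
  set z := γ 0 with hz
  have hHY : Hf G Γ ≤ Y G Γ f γ hγ hγΓ := by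
    intro h hh
    refine ⟨hh.1, ⟨0, fun x hx => ?_⟩, fun i y => orb_inv hh y⟩
    rw [T_zero, hh.2 x hx]
  have hcardY : Nat.card (Y G Γ f γ hγ hγΓ) = p * Nat.card (Hf G Γ) := by
    have h1 := Cfsg.Agent.Lib.PermOrb.card_orbit_mul_stab (G := Y G Γ f γ hγ hγΓ) z
    have horb : MulAction.orbit (Y G Γ f γ hγ hγΓ) z = Set.range γ := by
      ext y
      constructor
      · rintro ⟨g, rfl⟩
        obtain ⟨-, ⟨a, ha⟩, -⟩ := g.2
        exact ⟨0 + a, (by
          have := ha z (hγΓ 0)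
          rw [hz, T_apply] at this
          exact this.symm)⟩
      · rintro ⟨a, rfl⟩
        obtain ⟨g, hg, hgx⟩ := hsurj a
        refine ⟨⟨g, hg⟩, ?_⟩
        have := hgx z (hγΓ 0)
        rw [hz, T_apply, zero_add] at this
        exact this
    have hstab : (MulAction.stabilizer (Y G Γ f γ hγ hγΓ) z).map (Y G Γ f γ hγ hγΓ).subtype
        = Hf G Γ := by
      ext g
      constructor
      · rintro ⟨⟨u, huY⟩, hu, rfl⟩
        have h2 : u z = z := hu
        clear hu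
        obtain ⟨huG, ⟨a, ha⟩, -⟩ := huY
        have h3 := ha z (hγΓ 0)
        rw [h2, hz, T_apply, zero_add] at h3
        have ha0 : a = 0 := (hγ h3).symm
        subst ha0
        refine ⟨huG, fun x hx => ?_⟩
        show u x = x
        rw [ha x hx, T_zero]
      · intro hg
        refine ⟨⟨g, hHY hg⟩, ?_, rfl⟩
        exact hg.2 z (hγΓ 0)
    have h4 : Nat.card (MulAction.stabilizer (Y G Γ f γ hγ hγΓ) z) = Nat.card (Hf G Γ) := by
      rw [← hstab]
      exact (Subgroup.card_map_of_injective (Subgroup.subtype_injective _)).symm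
    have h5 : Nat.card (Set.range γ) = p := by
      rw [Nat.card_range_of_injective hγ, Nat.card_zmod]
    rw [horb, h4, h5] at h1
    exact h1.symm
  -- Sylow subgroup
  obtain ⟨P⟩ : Nonempty (Sylow p (Y G Γ f γ hγ hγΓ)) := inferInstance
  set R : Subgroup (Equiv.Perm α) := (P : Subgroup (Y G Γ f γ hγ hγΓ)).map (Y G Γ f γ hγ hγΓ).subtype
    with hRdef
  have hR : IsPGroup p R := P.2.map _
  have hRY : R ≤ Y G Γ f γ hγ hγΓ := Subgroup.map_subtype_le _
  have hcardR : Nat.card R = Nat.card P := Subgroup.card_map_of_injective (Subgroup.subtype_injective _)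
  have hidx := Subgroup.card_mul_index (P : Subgroup (Y G Γ f γ hγ hγΓ))
  have hnd := P.not_dvd_index
  -- fixed points
  have hfx : ∀ i, ∃ y ∈ Orb G Γ f i, ∀ r ∈ R, r y = y := fun i =>
    exists_fixed R hR (Orb G Γ f i) (fun r hr y hy => ((hRY hr).2.2 i y).mp hy) (hno i)
  choose y hyO hyR using hfx
  have hyΓ : ∀ i, y i ∉ Γ := by
    intro i hi
    obtain ⟨h, hh, he⟩ := hyO i
    have h1 : h⁻¹ (y i) = y i := ((Hf G Γ).inv_mem hh).2 _ hi
    rw [← he] at h1 hi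
    have h2 : h (f i) = f i := by simpa using h1.symm
    rw [h2] at hi
    exact hf i hi
  have hyinj : Function.Injective y := by
    intro i j hij
    by_contra hne
    obtain ⟨h, hh, he⟩ := hyO i
    obtain ⟨h', hh', he'⟩ := hyO j
    apply hdist i j hne
    refine ⟨h'⁻¹ * h, (Hf G Γ).mul_mem ((Hf G Γ).inv_mem hh') hh, ?_⟩
    rw [Equiv.Perm.mul_apply, he, hij, ← he']
    simp
  classical
  set Γ' : Finset α := (Γ \ Finset.univ.image γ) ∪ Finset.univ.image y with hΓ'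
  have hcΓ' : Γ'.card = k := by
    have hdisj : Disjoint (Γ \ Finset.univ.image γ) (Finset.univ.image y) := by
      rw [Finset.disjoint_left]
      intro x hx hx'
      obtain ⟨i, -, rfl⟩ := Finset.mem_image.mp hx'
      exact hyΓ i (Finset.mem_sdiff.mp hx).1
    have hsub : Finset.univ.image γ ⊆ Γ := by
      intro x hx
      obtain ⟨l, -, rfl⟩ := Finset.mem_image.mp hx
      exact hγΓ l
    rw [hΓ', Finset.card_union_of_disjoint hdisj, Finset.card_sdiff_of_subset hsub,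
      Finset.card_image_of_injective _ hγ, Finset.card_image_of_injective _ hyinj, hΓc,
      Finset.card_univ, Finset.card_univ, ZMod.card, Fintype.card_fin]
    omega
  have hRle : R ≤ Hf G Γ' := by
    intro r hr
    obtain ⟨hrG, ⟨a, ha⟩, -⟩ := hRY hr
    refine ⟨hrG, fun x hx => ?_⟩
    rcases Finset.mem_union.mp hx with hx | hx
    · obtain ⟨hx1, hx2⟩ := Finset.mem_sdiff.mp hx
      rw [ha x hx1]
      apply T_not
      rintro ⟨l, rfl⟩
      exact hx2 (Finset.mem_image_of_mem γ (Finset.mem_univ l))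
    · obtain ⟨i, -, rfl⟩ := Finset.mem_image.mp hx
      exact hyR i r hr
  obtain ⟨g, hg, hgΓ⟩ := homog G hgen _ Γ Γ' hΓc hcΓ' rfl
  have hcards : Nat.card (Hf G Γ') = Nat.card (Hf G Γ) := by
    rw [← hgΓ]; exact card_Hf_of_image G Γ hg
  have hdvd : Nat.card R ∣ Nat.card (Hf G Γ) := by
    rw [← hcards]; exact Subgroup.card_dvd_of_le hRle
  obtain ⟨u, hu⟩ := hdvd
  rw [hcardR] at hu
  apply hnd
  refine ⟨u, ?_⟩
  have hpos : 0 < Nat.card P := Nat.card_pos
  have e1 : Nat.card P * (P : Subgroup (Y G Γ f γ hγ hγΓ)).index = Nat.card P * (p * u) := by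
    have h6 : Nat.card (P : Subgroup (Y G Γ f γ hγ hγΓ)) = Nat.card P := rfl
    rw [← h6, hidx, hcardY, hu, h6]
    ring
  exact Nat.eq_of_mul_eq_mul_left hpos e1

end main

/-- In a generously `k`-transitive permutation group, for a prime `p ≤ k` and a `k`-set `Γ`, there are no `p` points outside `Γ` lying in distinct orbits of the pointwise stabiliser of `Γ` all of length prime to `p` (at most `p - 1` such orbits). -/
theorem result {α : Type*} [Fintype α] [DecidableEq α] (G : Subgroup (Equiv.Perm α)) {k : ℕ} (hk : k < Fintype.card α) (hgen : ∀ s : Finset α, s.card = k + 1 → ∀ σ : Equiv.Perm ↥s, ∃ g ∈ G, ∀ x : ↥s, g (x : α) = σ x) {p : ℕ} (hp : p.Prime) (hpk : p ≤ k) (Γ : Finset α) (hΓ : Γ.card = k) (f : Fin p → α) (hf : ∀ i, f i ∉ Γ) (hdist : ∀ i j, i ≠ j → f j ∉ MulAction.orbit (fixingSubgroup G (Γ : Set α)) (f i)) : ∃ i, p ∣ Nat.card (MulAction.orbit (fixingSubgroup G (Γ : Set α)) (f i)) := by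

  classical
  haveI : Fact p.Prime := ⟨hp⟩
  by_contra hcon
  push Not at hcon
  have horb : ∀ i, MulAction.orbit (fixingSubgroup G (Γ : Set α)) (f i) = Orb G Γ f i := by
    intro i
    ext y
    constructor
    · rintro ⟨h, rfl⟩
      exact ⟨h.1.1, ⟨h.1.2, fun x hx => (mem_fixingSubgroup_iff G).mp h.2 x hx⟩, rfl⟩
    · rintro ⟨h, ⟨hG, hfix⟩, rfl⟩
      exact ⟨⟨⟨h, hG⟩, (mem_fixingSubgroup_iff G).mpr (fun x hx => hfix x hx)⟩, rfl⟩
  obtain ⟨e⟩ : Nonempty (ZMod p ↪ ↥Γ) := Function.Embedding.nonempty_of_card_le (by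
    rw [ZMod.card, Fintype.card_coe, hΓ]; exact hpk)
  refine core (G := G) (Γ := Γ) (f := f) (fun l => (e l : α))
    (fun a b h => e.injective (Subtype.ext h)) hgen hΓ hpk hf ?_ (fun l => (e l).2) ?_
  · intro i j hij
    rw [← horb]
    exact hdist i j hij
  · intro i
    rw [← horb]
    exact hcon i

end Cfsg.Agent.S0706
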