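import Cfsg.Statements.S0707
import Mathlib

set_option autoImplicit false
open Cfsg

namespace Cfsg.Agent.S0707

open MulAction

/-- In a primitive permutation group, distinct points have distinct stabilisers unless the group is regular of prime degree. -/
theorem result {α : Type*} (G : Subgroup (Equiv.Perm α)) [MulAction.IsPreprimitive G α] (h : ¬ (Nat.card α).Prime ∨ ∃ a : α, MulAction.stabilizer G a ≠ ⊥) {a b : α} (hab : a ≠ b) : MulAction.stabilizer G a ≠ MulAction.stabilizer G b := by
  intro he
  classical
  -- the block of points with the same stabilizer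
  let B : Set α := {x | stabilizer G x = stabilizer G a}
  have hstab : ∀ (g : G) (x : α), stabilizer G (g • x) = (stabilizer G x).map (MulAut.conj g).toMonoidHom := by
    intro g x
    exact MulAction.stabilizer_smul_eq_stabilizer_map_conj g x
  have hB : IsBlock G B := by
    rw [isBlock_iff_smul_eq_of_mem]
    intro g x hx hy
    have hy' : stabilizer G (g • x) = stabilizer G a := hy
    have hx' : stabilizer G x = stabilizer G a := hx
    have hconj : (stabilizer G a).map (MulAut.conj g).toMonoidHom = stabilizer G a := by
      rw [← hx', ← hstab, hx']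
      exact hy'
    ext z
    rw [Set.mem_smul_set_iff_inv_smul_mem]
    show stabilizer G (g⁻¹ • z) = stabilizer G a ↔ stabilizer G z = stabilizer G a
    have e : stabilizer G z = (stabilizer G (g⁻¹ • z)).map (MulAut.conj g).toMonoidHom := by
      rw [← hstab, smul_inv_smul]
    rw [e]
    constructor
    · intro h1
      rw [h1, hconj]
    · intro h1
      apply Subgroup.map_injective (f := (MulAut.conj g).toMonoidHom) (MulAut.conj g).injective
      rw [h1, hconj]
  have hall : B = Set.univ := by
    rcases hB.subsingleton_or_eq_univ with h1 | h1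
    · exact absurd (h1 (rfl : a ∈ B) (he.symm : b ∈ B)) hab
    · exact h1
  have hK : ∀ x : α, stabilizer G x = stabilizer G a := by
    intro x
    have : x ∈ B := by rw [hall]; trivial
    exact this
  have hbot : ∀ x : α, stabilizer G x = ⊥ := by
    intro x
    rw [hK x, eq_bot_iff]
    rintro g hg
    rw [Subgroup.mem_bot]
    apply Subtype.ext
    ext y
    have : g ∈ stabilizer G y := by rw [hK y]; exact hg
    exact this
  have hnt : Nontrivial α := ⟨a, b, hab⟩
  have hco : IsCoatom (⊥ : Subgroup G) := by
    rw [← hbot a]
    exact (isCoatom_stabilizer_iff_preprimitive G a).2 inferInstance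
  rcases h with h | ⟨x, hx⟩
  · apply h
    have hcardeq : Nat.card G = Nat.card α := by
      apply Nat.card_congr
      apply Equiv.ofBijective (fun g : G => g • a)
      constructor
      · intro g g' hgg
        have h1 : g'⁻¹ * g ∈ stabilizer G a := by
          rw [mem_stabilizer_iff, mul_smul]
          have : g • a = g' • a := hgg
          rw [this, inv_smul_smul]
        rw [hbot a, Subgroup.mem_bot] at h1
        exact (inv_mul_eq_one.1 h1).symm
      · intro x
        exact MulAction.exists_smul_eq G a x
    rw [← hcardeq]
    have hsub : ∀ H : Subgroup G, H = ⊥ ∨ H = ⊤ := by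
      intro H
      rcases eq_or_ne H ⊥ with h0 | h0
      · exact Or.inl h0
      · exact Or.inr (hco.2 H (bot_lt_iff_ne_bot.2 h0))
    have hntG : Nontrivial G := by
      obtain ⟨g, hg⟩ := MulAction.exists_smul_eq G a b
      refine ⟨g, 1, ?_⟩
      rintro rfl
      rw [one_smul] at hg
      exact hab hg
    obtain ⟨g, hg⟩ := exists_ne (1 : G)
    have hz : Subgroup.zpowers g = ⊤ := by
      rcases hsub (Subgroup.zpowers g) with h1 | h1
      · exfalso
        apply hg
        have : g ∈ Subgroup.zpowers g := Subgroup.mem_zpowers g
        rw [h1] at this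
        exact this
      · exact h1
    have hcomm : IsMulCommutative G := by
      refine ⟨⟨fun x y => ?_⟩⟩
      have hx : x ∈ Subgroup.zpowers g := by rw [hz]; trivial
      have hy : y ∈ Subgroup.zpowers g := by rw [hz]; trivial
      obtain ⟨m, rfl⟩ := hx
      obtain ⟨n, rfl⟩ := hy
      show g ^ m * g ^ n = g ^ n * g ^ m
      rw [← zpow_add, ← zpow_add, add_comm]
    have hsimple : IsSimpleGroup G := ⟨fun H _ => hsub H⟩
    exact (Group.is_simple_iff_prime_card (α := G)).1 hsimple
  · exact hx (hbot x)

end Cfsg.Agent.S0707
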