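import Cfsg.Statements.S0710
import Mathlib

set_option autoImplicit false
open Cfsg

namespace Cfsg.Agent.S0710

open MulAction

/-- No transitive permutation group on 13 points has order `13 * 12 * 11 * 10 * 9 * 8`. -/
theorem result {α : Type*} [Fintype α] [DecidableEq α] (hα : Fintype.card α = 13) (G : Subgroup (Equiv.Perm α)) [MulAction.IsPretransitive G α] : Nat.card G ≠ 13 * 12 * 11 * 10 * 9 * 8 := by
  classical
  intro hG
  have hp13 : Nat.Prime 13 := by norm_num
  have : Fact (Nat.Prime 13) := ⟨hp13⟩
  obtain ⟨P⟩ : Nonempty (Sylow 13 G) := inferInstance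
  have hPcard : Nat.card P = 13 := by
    have h1 : Nat.factorization (Nat.card G) 13 = 1 := by
      rw [hG, show 13 * 12 * 11 * 10 * 9 * 8 = 13 * 95040 by norm_num,
        Nat.factorization_mul (by norm_num) (by norm_num), Finsupp.add_apply,
        Nat.Prime.factorization_self hp13, Nat.factorization_eq_zero_of_not_dvd (by norm_num)]
    rw [P.card_eq_multiplicity, h1, pow_one]
  have hcyc : IsCyclic P := isCyclic_of_prime_card hPcard
  obtain ⟨x, hx⟩ := IsCyclic.exists_generator (α := P)
  have hxord : orderOf x = 13 := by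
    rw [orderOf_eq_card_of_forall_mem_zpowers hx]
    exact hPcard
  set y : Equiv.Perm α := ((x : G) : Equiv.Perm α) with hy
  have hyord : orderOf y = 13 := by
    rw [hy, Subgroup.orderOf_coe, Subgroup.orderOf_coe]
    exact hxord
  have hycyc : y.IsCycle := Equiv.Perm.isCycle_of_prime_order' (by rw [hyord]; exact hp13) (by rw [hα, hyord]; norm_num)
  have hsupp : y.support = Finset.univ := by
    apply Finset.eq_univ_of_card
    rw [← hycyc.orderOf, hyord, hα]
  have hmove : ∀ a : α, y a ≠ a := by
    intro a
    have : a ∈ y.support := by rw [hsupp]; exact Finset.mem_univ a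
    exact Equiv.Perm.mem_support.1 this
  obtain ⟨a₀⟩ : Nonempty α := by
    rw [← Fintype.card_pos_iff, hα]; norm_num
  -- elements commuting with `y` are determined by the image of a point
  have hdet : ∀ g : Equiv.Perm α, g * y = y * g → g a₀ = a₀ → g = 1 := by
    intro g hg hfix
    ext b
    obtain ⟨i, hi⟩ := hycyc.exists_pow_eq (hmove a₀) (hmove b)
    have hc : Commute g (y ^ i) := Commute.pow_right hg i
    have h1 : g ((y ^ i) a₀) = (y ^ i) (g a₀) := congrArg (· a₀) hc.eq
    rw [← hi, h1, hfix]
    rfl
  set C := Subgroup.centralizer ((P : Subgroup G) : Set G) with hC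
  have hCle : Nat.card C ≤ 13 := by
    rw [← hα, ← Nat.card_eq_fintype_card]
    apply Nat.card_le_card_of_injective (fun c : C => ((c : G) : Equiv.Perm α) a₀)
    intro c c' e
    have e' : ((c : G) : Equiv.Perm α) a₀ = ((c' : G) : Equiv.Perm α) a₀ := e
    have hc1 : ∀ d : C, ((d : G) : Equiv.Perm α) * y = y * ((d : G) : Equiv.Perm α) := by
      intro d
      have h1 := (Subgroup.mem_centralizer_iff.1 d.2) x x.2
      have h2 := congrArg (fun z : G => (z : Equiv.Perm α)) h1
      exact h2.symm
    have h2 : (c'⁻¹ * c : C) = 1 := by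
      have h3 := hdet _ (hc1 (c'⁻¹ * c)) (by
        show ((c' : G) : Equiv.Perm α)⁻¹ (((c : G) : Equiv.Perm α) a₀) = a₀
        rw [e']
        simp)
      apply Subtype.ext
      apply Subtype.ext
      exact h3
    exact (inv_mul_eq_one.1 h2).symm
  set N := Subgroup.normalizer ((P : Subgroup G) : Set G) with hN
  have hker : (P : Subgroup G).normalizerMonoidHom.ker = C.subgroupOf N := Subgroup.normalizerMonoidHom_ker _
  have hkercard : Nat.card (P : Subgroup G).normalizerMonoidHom.ker = 13 := by
    apply le_antisymm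
    · rw [hker]
      refine le_trans ?_ hCle
      exact Nat.card_le_card_of_injective (fun z : C.subgroupOf N => (⟨z.1.1, z.2⟩ : C)) (by
        intro z z' e
        apply Subtype.ext
        apply Subtype.ext
        have e' := congrArg (fun c : C => (c : G)) e
        exact e')
    · have hle : (P : Subgroup G).subgroupOf N ≤ C.subgroupOf N := by
        intro z hz
        rw [Subgroup.mem_subgroupOf] at hz ⊢
        rw [hC, Subgroup.mem_centralizer_iff]
        intro w hw
        have h1 : (⟨w, hw⟩ : P) ∈ Subgroup.zpowers x := hx _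
        have h2 : (⟨z.1, hz⟩ : P) ∈ Subgroup.zpowers x := hx _
        obtain ⟨i, hi⟩ := h1
        obtain ⟨j, hj⟩ := h2
        have h3 : (⟨w, hw⟩ : P) * ⟨z.1, hz⟩ = ⟨z.1, hz⟩ * ⟨w, hw⟩ := by
          rw [← hi, ← hj]
          exact (Commute.refl x).zpow_zpow i j
        exact congrArg Subtype.val h3
      have h2 : Nat.card ((P : Subgroup G).subgroupOf N) = 13 :=
        (Nat.card_congr (Subgroup.subgroupOfEquivOfLe Subgroup.le_normalizer).toEquiv).trans hPcard
      rw [hker]
      have h3 := Nat.le_of_dvd Nat.card_pos (Subgroup.card_dvd_of_le hle)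
      rwa [h2] at h3
  have hdvd : Nat.card (N ⧸ (P : Subgroup G).normalizerMonoidHom.ker) ∣ 12 := by
    have h1 := Subgroup.card_dvd_of_injective _ (QuotientGroup.kerLift_injective (P : Subgroup G).normalizerMonoidHom)
    have h2 : Nat.card (MulAut (P : Subgroup G)) = 12 := by
      rw [IsCyclic.card_mulAut, hPcard]
      decide
    rwa [h2] at h1
  have hNcard : Nat.card N = Nat.card (N ⧸ (P : Subgroup G).normalizerMonoidHom.ker) * 13 := by
    rw [Subgroup.card_eq_card_quotient_mul_card_subgroup (P : Subgroup G).normalizerMonoidHom.ker, hkercard]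
  have hmul : Nat.card N * N.index = Nat.card G := Subgroup.card_mul_index N
  have hmod : Nat.card (Sylow 13 G) ≡ 1 [MOD 13] := card_sylow_modEq_one 13 G
  have hind : Nat.card (Sylow 13 G) = N.index := P.card_eq_index_normalizer
  rw [hind] at hmod
  generalize Nat.card (N ⧸ (P : Subgroup G).normalizerMonoidHom.ker) = e at *
  generalize N.index = t at *
  rw [hNcard, hG] at hmul
  have hele : e ≤ 12 := Nat.le_of_dvd (by norm_num) hdvd
  have hmod' : t % 13 = 1 := hmod
  interval_cases e <;> omega

end Cfsg.Agent.S0710
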