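import Cfsg.Statements.S0711
import Cfsg.Agent.Lib.H1Jordan

set_option autoImplicit false
open Cfsg

namespace Cfsg.Agent.S0711

open Lib.H1Jordan in
theorem small_support {α : Type*} [Fintype α] [DecidableEq α] (G : Subgroup (Equiv.Perm α)) {k : ℕ}
    (hk : 3 ≤ k) (hkn : k ≤ Fintype.card α) (hG : MulAction.IsMultiplyPretransitive G α k) :
    ∀ (m : ℕ) (g : Equiv.Perm α), g ∈ G → g ≠ 1 → g.support.card = m → m < 2 * k - 2 →
      ∃ h : Equiv.Perm α, h ∈ G ∧ h ≠ 1 ∧ h.support.card ≤ 3 := by
  classical
  intro m
  induction m using Nat.strong_induction_on with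
  | _ m ih =>
    intro g hg hg1 hm hmk
    by_cases hm3 : m ≤ 3
    · exact ⟨g, hg, hg1, by omega⟩
    push Not at hm3
    -- reduction to prime order
    have hord1 : orderOf g ≠ 1 := fun h => hg1 (orderOf_eq_one_iff.mp h)
    let p := (orderOf g).minFac
    have hp : p.Prime := Nat.minFac_prime hord1
    haveI : Fact p.Prime := ⟨hp⟩
    have hpd : p ∣ orderOf g := Nat.minFac_dvd _
    have hord0 : 0 < orderOf g := orderOf_pos g
    let x := g ^ (orderOf g / p)
    have hxord : orderOf x = p := orderOf_pow_orderOf_div hord0.ne' hpd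
    have hxG : x ∈ G := G.pow_mem hg _
    have hx1 : x ≠ 1 := by
      intro h
      rw [h, orderOf_one] at hxord
      exact hp.one_lt.ne hxord
    have hxp : x ^ p = 1 := by rw [← hxord]; exact pow_orderOf_eq_one x
    have hsub : x.support ⊆ g.support := Equiv.Perm.support_pow_le g _
    by_cases hlt : x.support.card < m
    · exact ih _ hlt x hxG hx1 rfl (by omega)
    have hxm : x.support.card = m := by
      have := Finset.card_le_card hsub
      omega
    -- a smaller element or a small one
    set Δ := x.support with hΔ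
    have hxm' : x.support.card = m := hxm
    have hcomm : ∀ y ∈ G, x⁻¹ * (y⁻¹ * x * y) ∈ G := fun y hy =>
      G.mul_mem (G.inv_mem hxG) (G.mul_mem (G.mul_mem (G.inv_mem hy) hxG) hy)
    have hmovex : ∀ a ∈ Δ, x a ≠ a := fun a ha => Equiv.Perm.mem_support.mp ha
    have hxΔ : ∀ a ∈ Δ, x a ∈ Δ := fun a ha => Equiv.Perm.apply_mem_support.mpr ha
    by_cases hmkk : m ≤ k
    · -- small support
      by_cases hall : ∃ ω : α, ω ∉ Δ
      · obtain ⟨ω, hω⟩ := hall
        obtain ⟨δ, hδ⟩ : Δ.Nonempty := by
          rw [← Finset.card_pos]; omega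
        let Γ := Δ.erase δ
        have hΓc : Γ.card = m - 1 := by rw [Finset.card_erase_of_mem hδ, hxm]
        obtain ⟨y, hy, hyΓ, hyδ⟩ := exists_fix_move hG hkn Γ δ ω (Finset.notMem_erase _ _)
          (fun h => hω (Finset.mem_of_mem_erase h)) (by omega)
        have hb := supp_bound x y Γ Γ hyΓ (Finset.erase_subset _ _) (Finset.erase_subset _ _) (by
          intro d hd
          have h1 : y⁻¹ d = d := by
            rw [Equiv.Perm.inv_eq_iff_eq]
            exact (hyΓ d hd).symm
          rw [h1]
          exact Finset.mem_of_mem_erase hd)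
        have hF : Γ.card ≤ (Γ.filter (fun γ => x γ ∈ Γ)).card + 1 := by
          have h1 : Γ ⊆ (Γ.filter (fun γ => x γ ∈ Γ)) ∪ {x⁻¹ δ} := by
            intro a ha
            by_cases h2 : x a ∈ Γ
            · exact Finset.mem_union_left _ (Finset.mem_filter.mpr ⟨ha, h2⟩)
            · apply Finset.mem_union_right
              rw [Finset.mem_singleton, Equiv.Perm.eq_inv_iff_eq]
              by_contra h3
              apply h2
              exact Finset.mem_erase.mpr ⟨h3, hxΔ a (Finset.mem_of_mem_erase ha)⟩
          exact (Finset.card_le_card h1).trans ((Finset.card_union_le _ _).trans (by simp))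
        refine ⟨_, hcomm y hy, ?_, ?_⟩
        · apply comm_ne_one x y (x⁻¹ δ)
          · apply hyΓ
            refine Finset.mem_erase.mpr ⟨?_, ?_⟩
            · intro h
              apply hmovex δ hδ
              nth_rewrite 1 [← h]
              simp
            · have h1 : x (x⁻¹ δ) = δ := by simp
              rw [← h1] at hδ
              exact Equiv.Perm.apply_mem_support.mp hδ
          · have h1 : x (x⁻¹ δ) = δ := by simp
            rw [h1, hyδ]
            intro h
            exact hω (h ▸ hδ)
        · rw [← hxm] at hΓc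
          have h2 : 0 < x.support.card := by omega
          omega
      · -- the whole set
        push Not at hall
        have hcardα : Fintype.card α = m := by
          have h1 : Δ = Finset.univ := Finset.eq_univ_iff_forall.mpr hall
          rw [← hxm, h1, Finset.card_univ]
        have hGtop : G = ⊤ := by
          apply Equiv.Perm.eq_top_of_isMultiplyPretransitive
          haveI := hG
          exact MulAction.isMultiplyPretransitive_of_le (n := k)
            (by rw [Nat.card_eq_fintype_card]; omega) (by rwa [Nat.card_eq_fintype_card])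
        obtain ⟨a, ha⟩ : Δ.Nonempty := by
          rw [← Finset.card_pos]; omega
        have hne : a ≠ x a := (hmovex a ha).symm
        refine ⟨Equiv.swap a (x a), by rw [hGtop]; trivial, ?_, ?_⟩
        · intro h
          exact hne (Equiv.swap_eq_one_iff.mp h)
        · rw [Equiv.Perm.card_support_swap hne]
          omega
    · push Not at hmkk
      -- an arc of size `k - 1`
      obtain ⟨Γ, hΓ, hΓc, hB⟩ := exists_arc x (k - 1) (by omega)
      by_cases hB0 : (Γ.filter (fun γ => x γ ∉ Γ)) = ∅
      · -- invariant arc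
        have hinv : ∀ a ∈ Γ, x a ∈ Γ := by
          intro a ha
          by_contra h
          have h1 : a ∈ Γ.filter (fun γ => x γ ∉ Γ) := Finset.mem_filter.mpr ⟨ha, h⟩
          rw [hB0] at h1
          exact absurd h1 (Finset.notMem_empty _)
        have hpΓ : p ∣ Γ.card := dvd_card_of_inv x hxp Γ hinv (fun a ha => hmovex a (hΓ ha))
        have hpΔ : p ∣ Δ.card := dvd_card_of_inv x hxp Δ hxΔ hmovex
        have hm2 : m ≠ 2 * k - 3 := by
          intro h
          rw [hΓc] at hpΓ
          rw [hxm, h] at hpΔ
          have h1 : 2 * k - 3 = 2 * (k - 1) - 1 := by omega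
          rw [h1] at hpΔ
          have h2 : p ∣ 2 * (k - 1) := Dvd.dvd.mul_left hpΓ 2
          have h3 : p ∣ 1 := by
            have h4 := Nat.dvd_sub h2 hpΔ
            have h5 : 2 * (k - 1) - (2 * (k - 1) - 1) = 1 := by omega
            rwa [h5] at h4
          exact hp.one_lt.ne' (Nat.dvd_one.mp h3)
        -- the inverse also preserves
        have hinvinv : ∀ a, x a ∈ Γ → a ∈ Γ := by
          intro a ha
          let f : Γ → Γ := fun b => ⟨x b, hinv b b.2⟩
          have hf : Function.Injective f := fun b c h => Subtype.ext (x.injective (congrArg Subtype.val h))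
          have hs : Function.Surjective f := Finite.surjective_of_injective hf
          obtain ⟨b, hb⟩ := hs ⟨x a, ha⟩
          have h1 : x b = x a := congrArg Subtype.val hb
          have h2 : (b : α) = a := x.injective h1
          rw [← h2]
          exact b.2
        obtain ⟨γ1, hγ1⟩ : Γ.Nonempty := by
          rw [← Finset.card_pos]; omega
        obtain ⟨η, hηΔ, hηΓ⟩ : ∃ η ∈ Δ, η ∉ Γ := by
          apply Finset.exists_mem_notMem_of_card_lt_card
          omega
        let Γ' := insert η (Γ.erase γ1)
        have hηE : η ∉ Γ.erase γ1 := fun h => hηΓ (Finset.mem_of_mem_erase h)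
        have hΓ'c : Γ'.card = k - 1 := by
          rw [Finset.card_insert_of_notMem hηE, Finset.card_erase_of_mem hγ1, hΓc]
          omega
        have hΓ'Δ : Γ' ⊆ Δ := Finset.insert_subset hηΔ ((Finset.erase_subset _ _).trans hΓ)
        have hxη : x η ∉ Γ' := by
          intro h
          rcases Finset.mem_insert.mp h with h1 | h1
          · exact hmovex η hηΔ h1
          · exact hηΓ (hinvinv η (Finset.mem_of_mem_erase h1))
        obtain ⟨δ', hδ'Δ, hδ'Γ, hδ'ne⟩ : ∃ δ' ∈ Δ, δ' ∉ Γ' ∧ δ' ≠ x η := by
          have h1 : 1 < (Δ \ Γ').card := by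
            rw [Finset.card_sdiff_of_subset hΓ'Δ, hΓ'c, hxm]
            omega
          obtain ⟨d, hd, hdne⟩ := Finset.exists_mem_ne h1 (x η)
          obtain ⟨hd1, hd2⟩ := Finset.mem_sdiff.mp hd
          exact ⟨d, hd1, hd2, hdne⟩
        obtain ⟨y, hy, hyΓ, hyδ⟩ := exists_fix_move hG hkn Γ' (x η) δ' hxη hδ'Γ (by omega)
        have hb := supp_bound x y Γ' (insert δ' Γ') hyΓ hΓ'Δ (Finset.insert_subset hδ'Δ hΓ'Δ) (by
          intro d hd
          rcases Finset.mem_insert.mp hd with h | h
          · have h1 : y⁻¹ d = x η := by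
              rw [Equiv.Perm.inv_eq_iff_eq, hyδ, h]
            rw [h1]
            exact hxΔ η hηΔ
          · have h1 : y⁻¹ d = d := by
              rw [Equiv.Perm.inv_eq_iff_eq]
              exact (hyΓ d h).symm
            rw [h1]
            exact hΓ'Δ h)
        rw [Finset.card_insert_of_notMem hδ'Γ, hΓ'c] at hb
        have hF : k - 1 ≤ (Γ'.filter (fun γ => x γ ∈ Γ')).card + 2 := by
          have h1 : Γ' ⊆ (Γ'.filter (fun γ => x γ ∈ Γ')) ∪ {x⁻¹ γ1, η} := by
            intro a ha
            by_cases h2 : x a ∈ Γ'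
            · exact Finset.mem_union_left _ (Finset.mem_filter.mpr ⟨ha, h2⟩)
            · apply Finset.mem_union_right
              rcases Finset.mem_insert.mp ha with h3 | h3
              · simp [h3]
              · rw [Finset.mem_insert, Finset.mem_singleton]
                left
                rw [Equiv.Perm.eq_inv_iff_eq]
                by_contra h4
                apply h2
                apply Finset.mem_insert_of_mem
                exact Finset.mem_erase.mpr ⟨h4, hinv a (Finset.mem_of_mem_erase h3)⟩
          have h5 := Finset.card_le_card h1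
          rw [hΓ'c] at h5
          have h6 := Finset.card_union_le (Γ'.filter (fun γ => x γ ∈ Γ')) {x⁻¹ γ1, η}
          have h7 : ({x⁻¹ γ1, η} : Finset α).card ≤ 2 := Finset.card_le_two
          omega
        have hηΓ' : η ∈ Γ' := Finset.mem_insert_self _ _
        have hne1 := comm_ne_one x y η (hyΓ η hηΓ') (by rw [hyδ]; exact hδ'ne)
        have hcard := ih _ (by
          have : (x⁻¹ * (y⁻¹ * x * y)).support.card < m := by omega
          exact this) _ (hcomm y hy) hne1 rfl (by omega)
        exact hcard
      · -- one boundary point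
        obtain ⟨γ0, hγ0⟩ := Finset.nonempty_iff_ne_empty.mpr hB0
        obtain ⟨hγ1, hγ2⟩ := Finset.mem_filter.mp hγ0
        obtain ⟨δ', hδ'Δ, hδ'Γ, hδ'ne⟩ : ∃ δ' ∈ Δ, δ' ∉ Γ ∧ δ' ≠ x γ0 := by
          have h1 : 1 < (Δ \ Γ).card := by
            rw [Finset.card_sdiff_of_subset hΓ, hΓc, hxm]
            omega
          obtain ⟨d, hd, hdne⟩ := Finset.exists_mem_ne h1 (x γ0)
          obtain ⟨hd1, hd2⟩ := Finset.mem_sdiff.mp hd
          exact ⟨d, hd1, hd2, hdne⟩
        obtain ⟨y, hy, hyΓ, hyδ⟩ := exists_fix_move hG hkn Γ (x γ0) δ' hγ2 hδ'Γ (by omega)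
        have hb := supp_bound x y Γ (insert δ' Γ) hyΓ hΓ (Finset.insert_subset hδ'Δ hΓ) (by
          intro d hd
          rcases Finset.mem_insert.mp hd with h | h
          · have h1 : y⁻¹ d = x γ0 := by
              rw [Equiv.Perm.inv_eq_iff_eq, hyδ, h]
            rw [h1]
            exact hxΔ γ0 (hΓ hγ1)
          · have h1 : y⁻¹ d = d := by
              rw [Equiv.Perm.inv_eq_iff_eq]
              exact (hyΓ d h).symm
            rw [h1]
            exact hΓ h)
        rw [Finset.card_insert_of_notMem hδ'Γ, hΓc] at hb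
        have hF : k - 1 ≤ (Γ.filter (fun γ => x γ ∈ Γ)).card + 1 := by
          have h1 : Γ ⊆ (Γ.filter (fun γ => x γ ∈ Γ)) ∪ (Γ.filter (fun γ => x γ ∉ Γ)) := by
            intro a ha
            by_cases h2 : x a ∈ Γ
            · exact Finset.mem_union_left _ (Finset.mem_filter.mpr ⟨ha, h2⟩)
            · exact Finset.mem_union_right _ (Finset.mem_filter.mpr ⟨ha, h2⟩)
          have h5 := Finset.card_le_card h1
          rw [hΓc] at h5
          have h6 := Finset.card_union_le (Γ.filter (fun γ => x γ ∈ Γ)) (Γ.filter (fun γ => x γ ∉ Γ))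
          omega
        have hne1 := comm_ne_one x y γ0 (hyΓ γ0 hγ1) (by rw [hyδ]; exact hδ'ne)
        exact ih _ (by
          have : (x⁻¹ * (y⁻¹ * x * y)).support.card < m := by omega
          exact this) _ (hcomm y hy) hne1 rfl (by omega)
/-- A `k`-transitive permutation group (`k ≥ 3`) with a non-identity element of support smaller than `2k - 2` contains a non-identity element of support at most 3, and therefore contains the alternating group. -/
theorem result {α : Type*} [Fintype α] [DecidableEq α] (G : Subgroup (Equiv.Perm α)) {k : ℕ} (hk : 3 ≤ k) (hkn : k ≤ Fintype.card α) (hG : MulAction.IsMultiplyPretransitive G α k) (g : Equiv.Perm α) (hg : g ∈ G) (hg1 : g ≠ 1) (hsupp : g.support.card < 2 * k - 2) : (∃ h : Equiv.Perm α, h ∈ G ∧ h ≠ 1 ∧ h.support.card ≤ 3) ∧ alternatingGroup α ≤ G := by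

  classical
  obtain ⟨h, hhG, hh1, hh3⟩ := small_support G hk hkn hG _ g hg hg1 rfl hsupp
  refine ⟨⟨h, hhG, hh1, hh3⟩, ?_⟩
  have h2 : MulAction.IsMultiplyPretransitive G α 2 := by
    haveI := hG
    exact MulAction.isMultiplyPretransitive_of_le (n := k) (by omega) (by rwa [Nat.card_eq_fintype_card])
  have hprim : MulAction.IsPreprimitive G α := MulAction.isPreprimitive_of_is_two_pretransitive h2
  have hsupp0 : h.support.card ≠ 0 := by
    intro h0
    apply hh1
    exact Equiv.Perm.support_eq_empty_iff.mp (Finset.card_eq_zero.mp h0)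
  have hsupp1 : h.support.card ≠ 1 := Equiv.Perm.card_support_ne_one h
  have hcases : h.support.card = 2 ∨ h.support.card = 3 := by omega
  rcases hcases with h2' | h3'
  · have hs : h.IsSwap := Equiv.Perm.card_support_eq_two.mp h2'
    have htop := Equiv.Perm.subgroup_eq_top_of_isPreprimitive_of_isSwap_mem hprim h hs hhG
    rw [htop]
    exact le_top
  · have hs : h.IsThreeCycle := card_support_eq_three_iff.mp h3'
    exact Equiv.Perm.alternatingGroup_le_of_isPreprimitive_of_isThreeCycle_mem hprim hs hhG

end Cfsg.Agent.S0711
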