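import Cfsg.Statements.S0712

set_option autoImplicit false
open Cfsg

namespace Cfsg.Agent.S0712

open MulAction SubMulAction

theorem key {m : ℕ} : ∀ {G α : Type _} [Group G] [MulAction G α] [Finite α] (hG : IsPreprimitive G α)
    {s : Set α} (hsm : s.ncard = m) (hm : m + 2 ≤ Nat.card α)
    (h2 : IsMultiplyPretransitive (fixingSubgroup G s) (ofFixingSubgroup G s) 2),
    IsMultiplyPretransitive G α (m + 2) := by
  induction m with
  | zero =>
    intro G α _ _ _ hG s hsm hm h2
    have hs : s = ∅ := by
      rwa [Set.ncard_eq_zero (Set.toFinite s)] at hsm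
    subst hs
    rw [is_two_pretransitive_iff] at h2 ⊢
    intro a b c d hab hcd
    have hmem : ∀ x : α, x ∈ ofFixingSubgroup G (∅ : Set α) := by
      intro x
      rw [mem_ofFixingSubgroup_iff]
      simp
    obtain ⟨g, h1, h2⟩ := h2 (a := ⟨a, hmem a⟩) (b := ⟨b, hmem b⟩) (c := ⟨c, hmem c⟩) (d := ⟨d, hmem d⟩)
      (by simpa [Subtype.ext_iff] using hab) (by simpa [Subtype.ext_iff] using hcd)
    refine ⟨g.1, ?_, ?_⟩
    · exact congrArg Subtype.val h1
    · exact congrArg Subtype.val h2
  | succ n ih =>
    intro G α _ _ _ hG s hsm hm h2
    have hne : s.Nonempty := by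
      rw [← Set.ncard_pos, hsm]; exact Nat.succ_pos n
    obtain ⟨a, ha⟩ := hne
    let t : Set (ofStabilizer G a) := Subtype.val ⁻¹' s
    have hst : s = insert a (Subtype.val '' t) := by
      ext x
      by_cases hx : x = a
      · simp [hx, ha]
      · simp [hx, mem_ofStabilizer_iff, t]
    have hprim : IsPreprimitive (fixingSubgroup G s) (ofFixingSubgroup G s) :=
      isPreprimitive_of_is_two_pretransitive h2
    have h2prim : IsMultiplyPreprimitive G α 2 :=
      hG.is_two_preprimitive hsm (by omega) hprim
    have ht_prim : IsPreprimitive (stabilizer G a) (ofStabilizer G a) := by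
      rw [← is_one_preprimitive_iff]
      rw [← isMultiplyPreprimitive_succ_iff_ofStabilizer]
      · exact h2prim
      · norm_num
    have ha' : a ∉ Subtype.val '' t := by
      intro h
      obtain ⟨x, hx⟩ := h
      apply x.prop
      rw [hx.2]
      exact Set.mem_singleton a
    have htcard : t.ncard = n := by
      rw [← Set.ncard_image_of_injective t Subtype.val_injective]
      apply Nat.add_right_cancel (m := 1)
      rw [← Set.ncard_insert_of_notMem ha', ← hst, hsm]
    have hcard : n + 2 ≤ Nat.card (ofStabilizer G a) := by
      have := nat_card_ofStabilizer_add_one_eq (G := G) a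
      omega
    clear_value t
    subst hst
    have h2' : IsMultiplyPretransitive (fixingSubgroup (stabilizer G a) t) (ofFixingSubgroup (stabilizer G a) t) 2 :=
      IsPretransitive.of_embedding (f := ofFixingSubgroup_insert_map a t) ofFixingSubgroup_insert_map_bijective.surjective
    have := ih ht_prim htcard hcard h2'
    exact (ofStabilizer.isMultiplyPretransitive (n := n + 2) (a := a)).2 this

/-- Jordan: a primitive group in which the pointwise stabiliser of a set `s` is doubly transitive on the complement of `s` (which has at least 2 points) is `(|s| + 2)`-transitive. -/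
theorem result {α : Type*} [Fintype α] [DecidableEq α] (G : Subgroup (Equiv.Perm α)) (hG : MulAction.IsPreprimitive G α) (s : Set α) {m : ℕ} (hsm : s.ncard = m) (hm : m + 2 ≤ Fintype.card α) (h2 : MulAction.IsMultiplyPretransitive (fixingSubgroup G s) (SubMulAction.ofFixingSubgroup G s) 2) : MulAction.IsMultiplyPretransitive G α (m + 2) := by
  exact key hG hsm (by rwa [Nat.card_eq_fintype_card]) h2

end Cfsg.Agent.S0712
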