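import Cfsg.Statements.S0714
import Mathlib

set_option autoImplicit false
open Cfsg

namespace Cfsg.Agent.S0714

section
variable {α : Type*} [Fintype α] [DecidableEq α] {K : Type*} [Field K]

theorem exists_out (s : Finset α) (h : s.card < Fintype.card α) : ∃ x, x ∉ s := by
  by_contra hc
  push Not at hc
  have h1 : s = Finset.univ := Finset.eq_univ_iff_forall.mpr hc
  rw [h1, Finset.card_univ] at h
  exact lt_irrefl _ h

/-- A 3-cycle `p ↦ q ↦ r ↦ p` in the alternating group. -/
def rot (p q r : α) (hpq : p ≠ q) (hqr : q ≠ r) : alternatingGroup α :=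
  ⟨Equiv.swap p q * Equiv.swap q r, by
    rw [Equiv.Perm.mem_alternatingGroup, map_mul, Equiv.Perm.sign_swap hpq, Equiv.Perm.sign_swap hqr]
    rfl⟩

theorem rot_inv (p q r : α) (hpq : p ≠ q) (hqr : q ≠ r) (t : α) :
    (rot p q r hpq hqr)⁻¹ • t = Equiv.swap q r (Equiv.swap p q t) := by
  show ((Equiv.swap p q * Equiv.swap q r)⁻¹ : Equiv.Perm α) t = _
  rw [mul_inv_rev, Equiv.swap_inv, Equiv.swap_inv]
  rfl

theorem permRep_apply (g : alternatingGroup α) (f : α → K) (t : α) :
    Cfsg.permRep K (alternatingGroup α) α g f t = f (g⁻¹ • t) := rfl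

theorem permRep_single (g : alternatingGroup α) (b : α) :
    Cfsg.permRep K (alternatingGroup α) α g (Pi.single b 1) = Pi.single (g • b) 1 := by
  ext t
  rw [permRep_apply]
  by_cases h : t = g • b
  · subst h
    simp
  · have h2 : g⁻¹ • t ≠ b := by
      intro h3
      apply h
      rw [← h3, smul_inv_smul]
    simp [Pi.single_apply, h, h2]

end
/-- Over any field, the permutation module of the alternating group of degree at least 5 has exactly four invariant subspaces: zero, the constant functions, the functions with coordinate sum zero, and everything. -/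
theorem result {α : Type*} [Fintype α] [DecidableEq α] (hα : 5 ≤ Fintype.card α) {K : Type*} [Field K] (W : Subrepresentation (Cfsg.permRep K (alternatingGroup α) α)) : W.toSubmodule = ⊥ ∨ W = Cfsg.permConstants K (alternatingGroup α) α ∨ W = Cfsg.permSumZero K (alternatingGroup α) α ∨ W.toSubmodule = ⊤ := by

  classical
  have hcard := hα
  -- invariance
  have hinv : ∀ (g : alternatingGroup α) (u : α → K), u ∈ W.toSubmodule → (fun t => u (g⁻¹ • t)) ∈ W.toSubmodule :=
    fun g u hu => W.apply_mem_toSubmodule g hu
  by_cases hconst : ∀ v ∈ W.toSubmodule, ∀ a b, v a = v b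
  · -- contained in the constants
    by_cases hbot : W.toSubmodule = ⊥
    · exact Or.inl hbot
    right; left
    obtain ⟨v, hv, hv0⟩ := Submodule.exists_mem_ne_zero_of_ne_bot hbot
    obtain ⟨x0, hx0⟩ : ∃ x0, v x0 ≠ 0 := by
      by_contra hc
      push Not at hc
      exact hv0 (funext hc)
    have hone : (fun _ : α => (1 : K)) ∈ W.toSubmodule := by
      have h1 : (fun _ : α => (1 : K)) = (v x0)⁻¹ • v := by
        ext t
        rw [Pi.smul_apply, smul_eq_mul, hconst v hv t x0, inv_mul_cancel₀ hx0]
      rw [h1]
      exact W.toSubmodule.smul_mem _ hv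
    apply Subrepresentation.toSubmodule_injective
    apply le_antisymm
    · intro u hu
      refine Submodule.mem_span_singleton.mpr ⟨u x0, ?_⟩
      ext t
      rw [Pi.smul_apply, smul_eq_mul, mul_one]
      exact hconst u hu x0 t
    · show Submodule.span K {fun _ : α => (1 : K)} ≤ _
      rw [Submodule.span_singleton_le_iff_mem]
      exact hone
  · -- non-constant vector
    push Not at hconst
    obtain ⟨v, hv, a, b, hab⟩ := hconst
    have hab' : a ≠ b := fun h => hab (by rw [h])
    obtain ⟨c, hc⟩ := exists_out ({a, b} : Finset α) (by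
      have := Finset.card_le_two (a := a) (b := b)
      omega)
    obtain ⟨d, hd⟩ := exists_out ({a, b, c} : Finset α) (by
      have := Finset.card_le_three (a := a) (b := b) (c := c)
      omega)
    obtain ⟨x, hx⟩ := exists_out ({a, b, c, d} : Finset α) (by
      have := Finset.card_le_four (a := a) (b := b) (c := c) (d := d)
      omega)
    simp only [Finset.mem_insert, Finset.mem_singleton, not_or] at hc hd hx
    obtain ⟨hca, hcb⟩ := hc
    obtain ⟨hda, hdb, hdc⟩ := hd
    obtain ⟨hxa, hxb, hxc, hxd⟩ := hx
    -- first step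
    let τ := rot a b c hab' (Ne.symm hcb)
    let u : α → K := v - fun t => v (τ⁻¹ • t)
    have hu : u ∈ W.toSubmodule := W.toSubmodule.sub_mem hv (hinv τ v hv)
    have huval : ∀ t, u t = v t - v (τ⁻¹ • t) := fun t => rfl
    have hτ : ∀ t, τ⁻¹ • t = Equiv.swap b c (Equiv.swap a b t) := fun t => rot_inv a b c hab' (Ne.symm hcb) t
    have hub : u b ≠ 0 := by
      rw [huval, hτ, Equiv.swap_apply_right, Equiv.swap_apply_of_ne_of_ne hab' (Ne.symm hca)]
      intro h
      exact hab (sub_eq_zero.mp h).symm
    have hud : u d = 0 := by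
      rw [huval, hτ, Equiv.swap_apply_of_ne_of_ne hda hdb, Equiv.swap_apply_of_ne_of_ne hdb hdc, sub_self]
    have hux : u x = 0 := by
      rw [huval, hτ, Equiv.swap_apply_of_ne_of_ne hxa hxb, Equiv.swap_apply_of_ne_of_ne hxb hxc, sub_self]
    -- second step
    let ρ := rot b d x (Ne.symm hdb) (Ne.symm hxd)
    have hρ : ∀ t, ρ⁻¹ • t = Equiv.swap d x (Equiv.swap b d t) := fun t => rot_inv b d x (Ne.symm hdb) (Ne.symm hxd) t
    let w : α → K := u - fun t => u (ρ⁻¹ • t)
    have hw : w ∈ W.toSubmodule := W.toSubmodule.sub_mem hu (hinv ρ u hu)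
    have hwval : ∀ t, w t = u t - u (ρ⁻¹ • t) := fun t => rfl
    have hwe : w = (u b) • (Pi.single b 1 - Pi.single d 1) := by
      ext t
      rw [hwval, hρ]
      by_cases htb : t = b
      · subst htb
        rw [Equiv.swap_apply_left, Equiv.swap_apply_left, hux]
        simp [Pi.single_apply, Ne.symm hdb]
      by_cases htd : t = d
      · subst htd
        rw [Equiv.swap_apply_right, Equiv.swap_apply_of_ne_of_ne (Ne.symm hdb) (Ne.symm hxb), hud]
        simp [Pi.single_apply, hdb]
      by_cases htx : t = x
      · subst htx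
        rw [Equiv.swap_apply_of_ne_of_ne hxb hxd, Equiv.swap_apply_right, hux, hud]
        simp [Pi.single_apply, hxb, hxd]
      · rw [Equiv.swap_apply_of_ne_of_ne htb htd, Equiv.swap_apply_of_ne_of_ne htd htx, sub_self]
        simp [Pi.single_apply, htb, htd]
    have hbd : (Pi.single b 1 - Pi.single d 1 : α → K) ∈ W.toSubmodule := by
      have h1 : (Pi.single b 1 - Pi.single d 1 : α → K) = (u b)⁻¹ • w := by
        rw [hwe, smul_smul, inv_mul_cancel₀ hub, one_smul]
      rw [h1]
      exact W.toSubmodule.smul_mem _ hw
    -- transitivity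
    have htr : ∀ k l : α, (Pi.single k 1 - Pi.single l 1 : α → K) ∈ W.toSubmodule := by
      intro k l
      by_cases hkl : k = l
      · rw [hkl, sub_self]
        exact W.toSubmodule.zero_mem
      have h2 : MulAction.IsMultiplyPretransitive (alternatingGroup α) α 2 := by
        haveI := alternatingGroup.isMultiplyPretransitive α
        exact MulAction.isMultiplyPretransitive_of_le (n := Nat.card α - 2) (by
          rw [Nat.card_eq_fintype_card]; omega) (by omega)
      obtain ⟨g, hg1, hg2⟩ := MulAction.is_two_pretransitive_iff.mp h2 (Ne.symm hdb) hkl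
      have h3 := W.apply_mem_toSubmodule g hbd
      rw [map_sub, permRep_single, permRep_single, hg1, hg2] at h3
      exact h3
    have hne : Nonempty α := ⟨a⟩
    have hsum : ∀ f : α → K, ∑ t, f t = 0 → f ∈ W.toSubmodule := by
      intro f hf
      have h1 : f = ∑ t, f t • (Pi.single t 1 - Pi.single a 1 : α → K) := by
        ext s
        rw [Finset.sum_apply]
        simp only [Pi.smul_apply, Pi.sub_apply, smul_eq_mul, mul_sub, Finset.sum_sub_distrib]
        rw [← Finset.sum_mul, hf, zero_mul, sub_zero]
        simp [Pi.single_apply]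
      rw [h1]
      exact W.toSubmodule.sum_mem (fun t _ => W.toSubmodule.smul_mem _ (htr t a))
    by_cases hall : ∀ f ∈ W.toSubmodule, ∑ t, f t = 0
    · right; right; left
      apply Subrepresentation.toSubmodule_injective
      apply le_antisymm
      · intro f hf
        exact hall f hf
      · intro f hf
        exact hsum f hf
    · right; right; right
      push Not at hall
      obtain ⟨f0, hf0, hf0s⟩ := hall
      rw [eq_top_iff]
      intro f _
      let e : K := (∑ t, f t) * (∑ t, f0 t)⁻¹
      have h1 : f - e • f0 ∈ W.toSubmodule := by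
        apply hsum
        simp only [Pi.sub_apply, Pi.smul_apply, smul_eq_mul, Finset.sum_sub_distrib, ← Finset.mul_sum]
        simp only [e]
        rw [mul_assoc, inv_mul_cancel₀ hf0s, mul_one, sub_self]
      have h2 : f = (f - e • f0) + e • f0 := by abel
      rw [h2]
      exact W.toSubmodule.add_mem h1 (W.toSubmodule.smul_mem _ hf0)

end Cfsg.Agent.S0714
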