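import Cfsg.Statements.S0719
import Cfsg.Agent.Lib.H1WielandtM
import Mathlib

set_option autoImplicit false
open Cfsg

namespace Cfsg.Agent.S0719

open Cfsg.Agent.Lib.H1WielandtM Cfsg.Agent.Lib.H1PermChar Cfsg.Agent.Lib.H1PermChar2
open Cfsg.Agent.Lib.CharOrth Cfsg.Agent.Lib

lemma tau_J {G : Type*} [Group G] [Fintype G] {Ω : Type*} [Fintype Ω] [DecidableEq Ω] [MulAction G Ω]
    (X : Matrix Ω Ω ℂ) (hX : ∀ x y, X x y = 1) {χ : G → ℂ} (hχ : Cfsg.IsIrrCharacter G χ)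
    (h0 : Cfsg.classInner (fun _ : G => (1 : ℂ)) χ = 0) : tau X χ = 0 := by
  have h1 : ∀ g : G, (X * (permMat g : Matrix Ω Ω ℂ)).trace = Fintype.card Ω := by
    intro g
    simp only [Matrix.trace, Matrix.diag_apply, Matrix.mul_apply, hX, one_mul, permMat]
    have h2 : ∀ x : Ω, ∑ y : Ω, (if g • x = y then (1 : ℂ) else 0) = 1 := by
      intro x
      simp
    simp only [h2]
    simp
  rw [tau_sum_expand]
  simp only [h1]
  rw [← Finset.sum_mul]
  have h3 : ∑ g : G, χ g⁻¹ = (Nat.card G : ℂ) * Cfsg.classInner (fun _ : G => (1 : ℂ)) χ := by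
    have hcard := card_ne_zero' (G := G)
    simp only [Cfsg.classInner, one_mul]
    rw [← mul_assoc, mul_inv_cancel₀ hcard, one_mul]
    apply Finset.sum_congr rfl
    intro g _
    exact IsIrrCharacter.map_inv hχ g
  rw [h3, h0]
  simp

/-- Groups of Wielandt type: if a primitive group of degree `2m` has rank 3 and permutation character `1 + χ₁ + χ₂` with irreducible `χ₁, χ₂` of degrees `m - 1` and `m`, then `m = 2a² + 2a + 1` for some positive integer `a` and the two non-trivial subdegrees are `a(2a+1)` and `(a+1)(2a+1)`. -/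
theorem result {G : Type*} [Group G] [Fintype G] {Ω : Type*} [Fintype Ω] [MulAction G Ω] (hprim : MulAction.IsPreprimitive G Ω) {m : ℕ} (hm : Fintype.card Ω = 2 * m) (a₀ : Ω) (hrank : Nat.card (MulAction.orbitRel.Quotient (MulAction.stabilizer G a₀) Ω) = 3) (χ₁ χ₂ : G → ℂ) (h₁ : Cfsg.IsIrrCharacter G χ₁) (h₂ : Cfsg.IsIrrCharacter G χ₂) (hπ : (fun g : G => (Nat.card (MulAction.fixedBy Ω g) : ℂ)) = fun g => 1 + χ₁ g + χ₂ g) (hd₁ : χ₁ 1 = (m : ℂ) - 1) (hd₂ : χ₂ 1 = m) : ∃ a : ℕ, 0 < a ∧ m = 2 * a ^ 2 + 2 * a + 1 ∧ ∀ b : Ω, b ≠ a₀ → Nat.card (MulAction.orbit (MulAction.stabilizer G a₀) b) = a * (2 * a + 1) ∨ Nat.card (MulAction.orbit (MulAction.stabilizer G a₀) b) = (a + 1) * (2 * a + 1) := by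

  classical
  haveI : MulAction.IsPretransitive G Ω := hprim.toIsPretransitive
  obtain ⟨b₁, b₂, hb1, hb2, hdist, hcover⟩ := quotient_data a₀ hrank
  set A := adj G a₀ b₁ with hA
  set B := adj G a₀ b₂ with hB
  set n₁ := Nat.card (MulAction.orbit (MulAction.stabilizer G a₀) b₁) with hn₁
  set n₂ := Nat.card (MulAction.orbit (MulAction.stabilizer G a₀) b₂) with hn₂
  have hJ := one_add_entry (G := G) hb1 hb2 hdist hcover
  have hrow : n₁ + n₂ + 1 = 2 * m := by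
    have h1 : ∑ y, (1 + A + B : Matrix Ω Ω ℂ) a₀ y = Fintype.card Ω := by
      rw [Finset.sum_congr rfl (fun y _ => hJ a₀ y)]
      simp
    have h2 : ∑ y, (1 + A + B : Matrix Ω Ω ℂ) a₀ y = 1 + n₁ + n₂ := by
      simp only [Matrix.add_apply, Finset.sum_add_distrib]
      rw [hA, hB, sum_adj_row, sum_adj_row]
      have h3 : ∑ y, (1 : Matrix Ω Ω ℂ) a₀ y = 1 := by simp [Matrix.one_apply]
      rw [h3]
    rw [h1, hm] at h2
    have h3 : ((2 * m : ℕ) : ℂ) = ((1 + n₁ + n₂ : ℕ) : ℂ) := by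
      push_cast
      push_cast at h2
      exact h2
    have h4 : 2 * m = 1 + n₁ + n₂ := by exact_mod_cast h3
    omega
  have hb12 : b₂ ≠ b₁ := by
    intro e
    apply hdist
    rw [e]
    exact MulAction.mem_orbit_self _
  have hcard3 : 3 ≤ Fintype.card Ω := by
    have : 2 < (Finset.univ : Finset Ω).card :=
      Finset.two_lt_card_iff.mpr ⟨a₀, b₁, b₂, Finset.mem_univ _, Finset.mem_univ _, Finset.mem_univ _,
        hb1.symm, hb2.symm, hb12.symm⟩
    rwa [Finset.card_univ] at this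
  have hm2 : 2 ≤ m := by omega
  have hne12 : n₁ ≠ n₂ := by omega
  have hs1 := exists_swap (G := G) hb1 hcover hne12
  have hs2 := exists_swap (G := G) hb2 (fun d hd => (hcover d hd).symm) hne12.symm
  have hn1pos : 0 < n₁ := by
    haveI : Nonempty (MulAction.orbit (MulAction.stabilizer G a₀) b₁) :=
      ⟨⟨b₁, MulAction.mem_orbit_self b₁⟩⟩
    exact Nat.card_pos
  have hn2pos : 0 < n₂ := by
    haveI : Nonempty (MulAction.orbit (MulAction.stabilizer G a₀) b₂) :=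
      ⟨⟨b₂, MulAction.mem_orbit_self b₂⟩⟩
    exact Nat.card_pos
  have hn1 : 2 ≤ n₁ := by
    have := not_one_subdegree hprim hb1 hb2 hb12 hs1
    omega
  have hn2 : 2 ≤ n₂ := by
    have := not_one_subdegree hprim hb2 hb1 hb12.symm hs2
    omega
  -- characters
  have hmC : ((m : ℂ)) ≠ 0 := by
    have : m ≠ 0 := by omega
    exact_mod_cast this
  have htri : Cfsg.IsIrrCharacter G (fun _ : G => (1 : ℂ)) := CharAlg.isIrrCharacter_one
  have hinner : ∀ ψ : G → ℂ, Cfsg.classInner (fun g : G => (Nat.card (MulAction.fixedBy Ω g) : ℂ)) ψ =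
      Cfsg.classInner (fun _ : G => (1 : ℂ)) ψ + Cfsg.classInner χ₁ ψ + Cfsg.classInner χ₂ ψ := by
    intro ψ
    rw [hπ]
    simp only [Cfsg.classInner, add_mul, Finset.sum_add_distrib, mul_add]
  have hχ12 : χ₁ ≠ χ₂ := by
    intro e
    have := congrFun e 1
    rw [hd₁, hd₂] at this
    simp at this
  have hχ02 : (fun _ : G => (1 : ℂ)) ≠ χ₂ := by
    intro e
    have := congrFun e 1
    rw [hd₂] at this
    have h3 : (1 : ℕ) = m := by exact_mod_cast this
    omega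
  have h00 := inner_triv (G := G) (Ω := Ω) a₀
  have h00' : Cfsg.classInner (fun g : G => (Nat.card (MulAction.fixedBy Ω g) : ℂ)) (fun _ : G => (1 : ℂ)) = 1 := h00
  have hχ01 : (fun _ : G => (1 : ℂ)) ≠ χ₁ := by
    intro e
    rw [hinner, classInner_irr htri htri, classInner_irr h₁ htri, classInner_irr h₂ htri,
      if_pos rfl, if_pos e.symm, if_neg hχ02.symm] at h00'
    norm_num at h00'
  have h11 : Cfsg.classInner (fun g : G => (Nat.card (MulAction.fixedBy Ω g) : ℂ)) χ₁ = 1 := by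
    rw [hinner, classInner_irr htri h₁, classInner_irr h₁ h₁, classInner_irr h₂ h₁,
      if_neg hχ01, if_pos rfl, if_neg hχ12.symm]
    simp
  have h22 : Cfsg.classInner (fun g : G => (Nat.card (MulAction.fixedBy Ω g) : ℂ)) χ₂ = 1 := by
    rw [hinner, classInner_irr htri h₂, classInner_irr h₁ h₂, classInner_irr h₂ h₂,
      if_neg hχ02, if_neg hχ12, if_pos rfl]
    simp
  have hzero : ∀ ψ : G → ℂ, Cfsg.IsIrrCharacter G ψ → (fun _ : G => (1 : ℂ)) ≠ ψ → χ₁ ≠ ψ → χ₂ ≠ ψ →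
      Cfsg.classInner (fun g : G => (Nat.card (MulAction.fixedBy Ω g) : ℂ)) ψ = 0 := by
    intro ψ hψ h1 h2 h3
    rw [hinner, classInner_irr htri hψ, classInner_irr h₁ hψ, classInner_irr h₂ hψ,
      if_neg h1, if_neg h2, if_neg h3]
    simp
  -- trace formula
  let ψ₀ : Cfsg.IrrCharacter G := ⟨fun _ => 1, htri⟩
  let ψ₁ : Cfsg.IrrCharacter G := ⟨χ₁, h₁⟩
  let ψ₂ : Cfsg.IrrCharacter G := ⟨χ₂, h₂⟩
  have hψ01 : ψ₀ ≠ ψ₁ := fun e => hχ01 (congrArg Subtype.val e)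
  have hψ02 : ψ₀ ≠ ψ₂ := fun e => hχ02 (congrArg Subtype.val e)
  have hψ12 : ψ₁ ≠ ψ₂ := fun e => hχ12 (congrArg Subtype.val e)
  have hL : ∀ X : Matrix Ω Ω ℂ, X.trace = tau X (fun _ : G => (1 : ℂ)) + ((m : ℂ) - 1) * tau X χ₁ +
      (m : ℂ) * tau X χ₂ := by
    intro X
    rw [trace_eq_sum_tau (G := G) X]
    have hsub : ∑ ψ : Cfsg.IrrCharacter G, (ψ : G → ℂ) 1 * tau X (ψ : G → ℂ) =
        ∑ ψ ∈ ({ψ₀, ψ₁, ψ₂} : Finset (Cfsg.IrrCharacter G)), (ψ : G → ℂ) 1 * tau X (ψ : G → ℂ) := by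
      symm
      apply Finset.sum_subset (Finset.subset_univ _)
      intro ψ _ hψ
      simp only [Finset.mem_insert, Finset.mem_singleton, not_or] at hψ
      have h3 := hzero ψ ψ.2 (fun e => hψ.1 (Subtype.ext e.symm)) (fun e => hψ.2.1 (Subtype.ext e.symm))
        (fun e => hψ.2.2 (Subtype.ext e.symm))
      rw [tau, M_eq_zero ψ.2 h3]
      simp
    rw [hsub, Finset.sum_insert (by simp [hψ01, hψ02]), Finset.sum_insert (by simp [hψ12]),
      Finset.sum_singleton]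
    have e0 : (ψ₀ : G → ℂ) 1 = 1 := rfl
    have e1 : (ψ₁ : G → ℂ) 1 = (m : ℂ) - 1 := hd₁
    have e2 : (ψ₂ : G → ℂ) 1 = (m : ℂ) := hd₂
    rw [e0, e1, e2, one_mul, add_assoc]
  -- the values
  have hAc : ∀ g : G, A * (permMat g : Matrix Ω Ω ℂ) = (permMat g : Matrix Ω Ω ℂ) * A :=
    fun g => adj_comm a₀ b₁ g
  have hBc : ∀ g : G, B * (permMat g : Matrix Ω Ω ℂ) = (permMat g : Matrix Ω Ω ℂ) * B :=
    fun g => adj_comm a₀ b₂ g
  have htauA0 : tau A (fun _ : G => (1 : ℂ)) = n₁ := by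
    have hcard := card_ne_zero' (G := G)
    rw [tau_sum_expand]
    simp only [one_mul]
    rw [hA, sum_trace_adj, ← mul_assoc, inv_mul_cancel₀ hcard, one_mul]
  have htrA : A.trace = 0 := by
    simp only [Matrix.trace, Matrix.diag_apply]
    apply Finset.sum_eq_zero
    intro x _
    rw [hA, adj_apply, if_neg (not_rel_self hb1 x)]
  have htrB : B.trace = 0 := by
    simp only [Matrix.trace, Matrix.diag_apply]
    apply Finset.sum_eq_zero
    intro x _
    rw [hB, adj_apply, if_neg (not_rel_self hb2 x)]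
  set r := tau A χ₁ with hr
  set s := tau A χ₂ with hs
  have hEa : (n₁ : ℂ) + ((m : ℂ) - 1) * r + (m : ℂ) * s = 0 := by
    have := hL A
    rw [htrA, htauA0] at this
    exact this.symm
  have hsq := sq_formula (G := G) hb1 hb2 hdist hcover
  have hdiag : (A * A) a₀ a₀ = n₁ := sq_diag a₀ b₁ hs1
  obtain ⟨α, hα⟩ := int_entry (G := G) a₀ b₁ a₀ b₁
  obtain ⟨β, hβ⟩ := int_entry (G := G) a₀ b₁ a₀ b₂
  rw [← hA, ← hB] at hsq
  rw [← hA] at hα hβ
  rw [hdiag, hα, hβ] at hsq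
  have hEb : (n₁ : ℂ) ^ 2 + ((m : ℂ) - 1) * r ^ 2 + (m : ℂ) * s ^ 2 = 2 * (m : ℂ) * n₁ := by
    have h1 := hL (A * A)
    rw [tau_mul htri h00' A A hAc hAc, tau_mul h₁ h11 A A hAc hAc, tau_mul h₂ h22 A A hAc hAc,
      htauA0] at h1
    have h2 : (A * A).trace = 2 * (m : ℂ) * n₁ := by
      rw [hsq, Matrix.trace_add, Matrix.trace_add, Matrix.trace_smul, Matrix.trace_smul,
        Matrix.trace_smul, htrA, htrB, Matrix.trace_one, hm]
      simp only [smul_eq_mul, mul_zero, add_zero]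
      push_cast
      ring
    rw [h2] at h1
    rw [h1]
    ring
  -- quadratic equations
  have hquad : ∀ χ : G → ℂ, Cfsg.IsIrrCharacter G χ →
      Cfsg.classInner (fun g : G => (Nat.card (MulAction.fixedBy Ω g) : ℂ)) χ = 1 →
      (fun _ : G => (1 : ℂ)) ≠ χ →
      (tau A χ) ^ 2 = n₁ + α * tau A χ + β * (-1 - tau A χ) := by
    intro χ hχ h1 hne
    have h2 : tau (A * A) χ = tau A χ ^ 2 := by
      rw [tau_mul hχ h1 A A hAc hAc, sq]
    rw [← h2, hsq, tau_add, tau_add, tau_smul, tau_smul, tau_smul, tau_one, M_trace hχ, h1]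
    have h3 : tau (1 + A + B) χ = 0 := tau_J _ hJ hχ (by
      rw [classInner_irr htri hχ, if_neg hne])
    rw [tau_add, tau_add, tau_one, M_trace hχ, h1] at h3
    have h4 : tau B χ = -1 - tau A χ := by linear_combination h3
    rw [h4, mul_one]
  have hQ1 := hquad χ₁ h₁ h11 hχ01
  have hQ2 := hquad χ₂ h₂ h22 hχ02
  rw [← hr] at hQ1
  rw [← hs] at hQ2
  -- r ≠ s
  have hrs : r ≠ s := by
    intro e
    rw [← e] at hEa hEb
    have hn1C : (n₁ : ℂ) ≠ 0 := by
      have : n₁ ≠ 0 := by omega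
      exact_mod_cast this
    have h1 : (2 * (m : ℂ) - 1) * r = - n₁ := by linear_combination hEa
    have h2 : 2 * (m : ℂ) * n₁ * ((n₁ : ℂ) - (2 * (m : ℂ) - 1)) = 0 := by
      have h3 : (n₁ : ℂ) ^ 2 + (2 * (m : ℂ) - 1) * r ^ 2 = 2 * (m : ℂ) * n₁ := by
        linear_combination hEb
      linear_combination (2 * (m : ℂ) - 1) * h3 - ((2 * (m : ℂ) - 1) * r - n₁) * h1
    have h4 : (n₁ : ℂ) = 2 * (m : ℂ) - 1 := by
      rcases mul_eq_zero.mp h2 with h5 | h5
      · exfalso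
        rcases mul_eq_zero.mp h5 with h6 | h6
        · rcases mul_eq_zero.mp h6 with h7 | h7
          · norm_num at h7
          · exact hmC h7
        · exact hn1C h6
      · linear_combination h5
    have h5 : ((n₁ + 1 : ℕ) : ℂ) = ((2 * m : ℕ) : ℂ) := by
      push_cast
      rw [h4]
      ring
    have h6 : n₁ + 1 = 2 * m := by exact_mod_cast h5
    omega
  -- integrality
  have hsum : r + s = (α : ℂ) - β := by
    have h1 : (r - s) * (r + s - ((α : ℂ) - β)) = 0 := by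
      linear_combination hQ1 - hQ2
    rcases mul_eq_zero.mp h1 with h2 | h2
    · exact absurd (sub_eq_zero.mp h2) hrs
    · linear_combination h2
  set u : ℤ := β - α with hu
  have huC : (u : ℂ) = (β : ℂ) - α := by rw [hu]; push_cast; ring
  have hsum' : r + s = -(u : ℂ) := by rw [huC, hsum]; ring
  have hrval : r = (n₁ : ℂ) - m * u := by
    linear_combination -hEa + (m : ℂ) * hsum'
  have hsval : s = -(u : ℂ) - ((n₁ : ℂ) - m * u) := by
    linear_combination hsum' - hrval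
  have hE : (n₁ : ℤ) ^ 2 + ((m : ℤ) - 1) * ((n₁ : ℤ) - m * u) ^ 2 +
      m * (-u - ((n₁ : ℤ) - m * u)) ^ 2 = 2 * m * n₁ := by
    have h1 : (((n₁ : ℤ) ^ 2 + ((m : ℤ) - 1) * ((n₁ : ℤ) - m * u) ^ 2 +
      m * (-u - ((n₁ : ℤ) - m * u)) ^ 2 : ℤ) : ℂ) = ((2 * m * n₁ : ℤ) : ℂ) := by
      push_cast
      rw [← hsval, ← hrval]
      exact hEb
    exact_mod_cast h1
  obtain ⟨a, ha, hma, hcases⟩ := final_arith hm2 hn1 hn2 hrow hE
  refine ⟨a, ha, hma, fun b hb => ?_⟩
  rcases hcover b hb with hb' | hb'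
  · rw [MulAction.orbit_eq_iff.mpr hb']
    rcases hcases with ⟨h1, -⟩ | ⟨h1, -⟩
    · exact Or.inl h1
    · exact Or.inr h1
  · rw [MulAction.orbit_eq_iff.mpr hb']
    rcases hcases with ⟨-, h1⟩ | ⟨-, h1⟩
    · exact Or.inr h1
    · exact Or.inl h1

end Cfsg.Agent.S0719
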