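import Cfsg.Statements.S0721
import Cfsg.Agent.Lib.H1MinNormal

set_option autoImplicit false
open Cfsg

namespace Cfsg.Agent.S0721

theorem main_aux {H : Type*} [Group H] [Finite H] (N : Subgroup H) [N.Normal] (hN : N ≠ ⊥)
    (hmin : ∀ M : Subgroup H, M.Normal → M ≤ N → M = ⊥ ∨ M = N) (c : H →* MulAut N)
    (hc : ∀ (h : H) (x : N), ((c h x : N) : H) = h * x * h⁻¹) :
    ∃ (T : Type) (_ : Group T) (m : ℕ), IsSimpleGroup T ∧ 0 < m ∧ Nonempty (N ≃* (Fin m → T)) := by
  classical
  haveI hNF : Finite N := inferInstance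
  -- a minimal normal subgroup of `N`
  have hNne : Nontrivial N := (Subgroup.nontrivial_iff_ne_bot N).mpr hN
  obtain ⟨S, hSmem, hSmin⟩ : ∃ S : Subgroup N, (S.Normal ∧ S ≠ ⊥) ∧
      ∀ L : Subgroup N, (L.Normal ∧ L ≠ ⊥) → Nat.card S ≤ Nat.card L := by
    have hne : ∃ n, ∃ S : Subgroup N, (S.Normal ∧ S ≠ ⊥) ∧ Nat.card S = n :=
      ⟨_, ⊤, ⟨inferInstance, top_ne_bot⟩, rfl⟩
    obtain ⟨S, hS, hSc⟩ := Nat.find_spec hne
    refine ⟨S, hS, fun L hL => ?_⟩
    rw [hSc]
    exact Nat.find_min' hne ⟨L, hL, rfl⟩
  obtain ⟨hSn, hS⟩ := hSmem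
  haveI := hSn
  have hminS : ∀ L : Subgroup N, L.Normal → L ≤ S → L = ⊥ ∨ L = S := by
    intro L hL hLS
    by_cases hb : L = ⊥
    · exact Or.inl hb
    · right
      exact Subgroup.eq_of_le_of_card_ge hLS (hSmin L ⟨hL, hb⟩)
  -- conjugates of S
  let conjS : H → Subgroup N := fun h => S.map (c h).toMonoidHom
  let F : Set (Subgroup N) := Set.range conjS
  have hconjn : ∀ (h : H) (L : Subgroup N), L.Normal → (L.map (c h).toMonoidHom).Normal := by
    intro h L hL
    exact hL.map _ (c h).surjective
  have hF1 : ∀ h, (conjS h).Normal := fun h => hconjn h S hSn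
  have hF2 : ∀ h, Nonempty (conjS h ≃* S) :=
    fun h => ⟨(S.equivMapOfInjective (c h).toMonoidHom (c h).injective).symm⟩
  have hcmap : ∀ (h : H) (L : Subgroup N), (L.map (c h⁻¹).toMonoidHom).map (c h).toMonoidHom = L := by
    intro h L
    rw [Subgroup.map_map]
    have h1 : (c h).toMonoidHom.comp (c h⁻¹).toMonoidHom = MonoidHom.id N := by
      apply MonoidHom.ext
      intro x
      show c h (c h⁻¹ x) = x
      rw [← MulAut.mul_apply, ← map_mul, mul_inv_cancel, map_one]
      rfl
    rw [h1, Subgroup.map_id]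
  have hF3 : ∀ h, ∀ L : Subgroup N, L.Normal → L ≤ conjS h → L = ⊥ ∨ L = conjS h := by
    intro h L hL hle
    have h1 : L.map (c h⁻¹).toMonoidHom ≤ S := by
      have h2 := Subgroup.map_mono (f := (c h⁻¹).toMonoidHom) hle
      have h3 : (conjS h).map (c h⁻¹).toMonoidHom = S := by
        have := hcmap h⁻¹ S
        rwa [inv_inv] at this
      rwa [h3] at h2
    rcases hminS _ (hconjn h⁻¹ L hL) h1 with h2 | h2
    · left
      have h3 := hcmap h L
      rw [h2, Subgroup.map_bot] at h3
      exact h3.symm
    · right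
      have h3 := hcmap h L
      rw [h2] at h3
      exact h3.symm
  have hF4 : ∀ h, conjS h ≠ ⊥ := by
    intro h hb
    apply hS
    have h1 : S.map (c h).toMonoidHom = ⊥ := hb
    exact (Subgroup.map_eq_bot_iff_of_injective S (f := (c h).toMonoidHom) (c h).injective).mp h1
  have hc1 : ∀ (x : N), c 1 x = x := fun x => by rw [map_one]; rfl
  -- the sup of the conjugates is everything
  have htop : sSup F = ⊤ := by
    let W : Subgroup N := sSup F
    let W' : Subgroup H := W.map N.subtype
    have hWstable : ∀ h : H, W.map (c h).toMonoidHom ≤ W := by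
      intro h
      show (sSup F).map (c h).toMonoidHom ≤ sSup F
      rw [Subgroup.map_le_iff_le_comap]
      apply sSup_le
      rintro _ ⟨k, rfl⟩
      rw [← Subgroup.map_le_iff_le_comap]
      have h1 : (conjS k).map (c h).toMonoidHom = conjS (h * k) := by
        show (S.map (c k).toMonoidHom).map (c h).toMonoidHom = S.map (c (h * k)).toMonoidHom
        rw [Subgroup.map_map]
        congr 1
        apply MonoidHom.ext
        intro x
        show c h (c k x) = c (h * k) x
        rw [map_mul]
        rfl
      rw [h1]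
      exact le_sSup ⟨h * k, rfl⟩
    have hW'n : W'.Normal := by
      constructor
      rintro _ ⟨w, hw, rfl⟩ h
      have h1 : c h w ∈ W := hWstable h ⟨w, hw, rfl⟩
      exact ⟨c h w, h1, hc h w⟩
    have hW'le : W' ≤ N := by
      rintro _ ⟨w, -, rfl⟩
      exact w.2
    rcases hmin W' hW'n hW'le with h | h
    · exfalso
      have h1 : W = ⊥ := by
        rwa [Subgroup.map_eq_bot_iff_of_injective _ N.subtype_injective] at h
      have h2 : conjS 1 ≤ W := le_sSup ⟨1, rfl⟩
      rw [h1, le_bot_iff] at h2
      exact hF4 1 h2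
    · rw [eq_top_iff]
      intro x _
      have h1 : (x : H) ∈ W' := by rw [h]; exact x.2
      obtain ⟨y, hy, hyx⟩ := h1
      have : y = x := Subtype.ext hyx
      rwa [← this]
  obtain ⟨m, ⟨e⟩⟩ := Lib.H1MinNormal.minnormal_prod (S₀ := S) F (by
    rintro _ ⟨h, rfl⟩
    exact ⟨hF1 h, hF2 h, hF3 h⟩) htop (by
    rintro _ ⟨h, rfl⟩
    exact hF4 h)
  -- simplicity of S
  have hsimple : IsSimpleGroup S := by
    haveI : Nontrivial S := (Subgroup.nontrivial_iff_ne_bot S).mpr hS
    refine ⟨fun K hK => ?_⟩
    let K' : Subgroup N := K.map S.subtype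
    have hK'S : K' ≤ S := by
      rintro _ ⟨k, -, rfl⟩
      exact k.2
    have hnorm : ∀ h : H, conjS h ≤ Subgroup.normalizer (K' : Set N) := by
      intro h
      by_cases hh : conjS h = S
      · rw [hh]
        intro s hs
        rw [Subgroup.mem_normalizer_iff]
        intro x
        constructor
        · rintro ⟨k, hk, rfl⟩
          have h1 := hK.conj_mem k hk ⟨s, hs⟩
          exact ⟨_, h1, rfl⟩
        · intro hx
          obtain ⟨k, hk, hkx⟩ := hx
          have h1 := hK.conj_mem k hk (⟨s, hs⟩ : S)⁻¹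
          refine ⟨_, h1, ?_⟩
          rw [Subgroup.coe_subtype] at hkx ⊢
          have : ((k : N)) = s * x * s⁻¹ := hkx
          simp only [Subgroup.coe_mul, Subgroup.coe_inv, inv_inv, this]
          group
      · have hinf : conjS h ⊓ S = ⊥ := by
          haveI := hF1 h
          rcases hF3 h (conjS h ⊓ S) inferInstance inf_le_left with h1 | h1
          · exact h1
          · exfalso
            have hle : conjS h ≤ S := inf_eq_left.mp h1
            rcases hminS _ (hF1 h) hle with h2 | h2
            · exact hF4 h h2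
            · exact hh h2
        intro s hs
        haveI := hF1 h
        rw [Subgroup.mem_normalizer_iff]
        intro x
        constructor
        · intro hx
          have hxS := hK'S hx
          have h1 := Lib.H1MinNormal.comm_of_normal_inf (conjS h) S hinf s x hs hxS
          have h2 : s * x * s⁻¹ = x := by rw [h1]; group
          rw [h2]
          exact hx
        · intro hx
          have hxS := hK'S hx
          have hxS2 : x ∈ S := by
            have h3 := hSn.conj_mem _ hxS s⁻¹
            have h4 : s⁻¹ * (s * x * s⁻¹) * s⁻¹⁻¹ = x := by group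
            rwa [h4] at h3
          have h1 := Lib.H1MinNormal.comm_of_normal_inf (conjS h) S hinf s x hs hxS2
          have h2 : s * x * s⁻¹ = x := by rw [h1]; group
          rw [h2] at hx
          exact hx
    have hK'n : K'.Normal := by
      have htop2 : Subgroup.normalizer (K' : Set N) = ⊤ := by
        rw [eq_top_iff, ← htop]
        apply sSup_le
        rintro _ ⟨h, rfl⟩
        exact hnorm h
      exact Subgroup.normalizer_eq_top_iff.mp htop2
    rcases hminS K' hK'n hK'S with h | h
    · left
      rwa [Subgroup.map_eq_bot_iff_of_injective _ S.subtype_injective] at h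
    · right
      rw [eq_top_iff]
      intro k _
      have h1 : (k : N) ∈ K' := by rw [h]; exact k.2
      obtain ⟨y, hy, hyk⟩ := h1
      have : y = k := Subtype.ext hyk
      rwa [← this]
  -- transport to `Type`
  let n := Nat.card S
  let e₀ : S ≃ Lib.H1FrobMod.FinBox n := Finite.equivFin S
  let e' : Lib.H1FrobMod.FinBox n ≃ S := e₀.symm
  letI hG : Group (Lib.H1FrobMod.FinBox n) := e'.group
  let m' : Lib.H1FrobMod.FinBox n ≃* S := e'.mulEquiv
  have hm0 : 0 < m := by
    rcases Nat.eq_zero_or_pos m with h | h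
    · exfalso
      subst h
      haveI : Subsingleton N := e.toEquiv.subsingleton
      exact hS (Subgroup.eq_bot_of_subsingleton S)
    · exact h
  refine ⟨Lib.H1FrobMod.FinBox n, hG, m, ?_, hm0, ⟨e.trans (MulEquiv.piCongrRight (fun _ => m'.symm))⟩⟩
  exact MulEquiv.isSimpleGroup m'
/-- A minimal normal subgroup of a finite group is isomorphic to a direct power `T ^ m` of a simple group `T` (possibly of prime order). -/
theorem result {H : Type*} [Group H] [Finite H] (N : Subgroup H) [N.Normal] (hN : N ≠ ⊥) (hmin : ∀ M : Subgroup H, M.Normal → M ≤ N → M = ⊥ ∨ M = N) : ∃ (T : Type) (_ : Group T) (m : ℕ), IsSimpleGroup T ∧ 0 < m ∧ Nonempty (N ≃* (Fin m → T)) := by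

  exact main_aux N hN hmin MulAut.conjNormal (fun h x => MulAut.conjNormal_apply h x)

end Cfsg.Agent.S0721
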