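import Cfsg.Statements.S0722
import Mathlib

set_option autoImplicit false
open Cfsg

namespace Cfsg.Agent.S0722

open MulAction

/-- In a primitive group `H`, with `N` a minimal normal subgroup and `K` a point stabiliser, `K ⊓ N` is maximal among proper `K`-invariant subgroups of `N`. -/
theorem result {α : Type*} [Finite α] (H : Subgroup (Equiv.Perm α)) [MulAction.IsPreprimitive H α] (N : Subgroup H) [N.Normal] (hN : N ≠ ⊥) (hmin : ∀ M : Subgroup H, M.Normal → M ≤ N → M = ⊥ ∨ M = N) (a : α) (X : Subgroup H) (hX : X ≤ N) (hKX : MulAction.stabilizer H a ⊓ N ≤ X) (hinv : MulAction.stabilizer H a ≤ Subgroup.normalizer (X : Set H)) : X = MulAction.stabilizer H a ⊓ N ∨ X = N := by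
  classical
  have hnt : Nontrivial α := by
    by_contra hcon
    rw [not_nontrivial_iff_subsingleton] at hcon
    apply hN
    rw [eq_bot_iff]
    intro g _
    rw [Subgroup.mem_bot]
    apply Subtype.ext
    ext x
    exact Subsingleton.elim _ _
  have hKc : IsCoatom (stabilizer H a) := (isCoatom_stabilizer_iff_preprimitive H a).2 inferInstance
  have hXn : stabilizer H a ⊔ X ≤ Subgroup.normalizer (X : Set H) := sup_le hinv Subgroup.le_normalizer
  rcases eq_or_lt_of_le (le_sup_left : stabilizer H a ≤ stabilizer H a ⊔ X) with h0 | h0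
  · left
    have hXK : X ≤ stabilizer H a := by
      rw [h0]; exact le_sup_right
    exact le_antisymm (le_inf hXK hX) hKX
  · have htop := hKc.2 _ h0
    rw [htop] at hXn
    have hnorm : X.Normal := by
      rw [← Subgroup.normalizer_eq_top_iff]
      exact eq_top_iff.2 hXn
    rcases hmin X hnorm hX with h1 | h1
    · left
      apply le_antisymm _ hKX
      rw [h1]; exact bot_le
    · right; exact h1

end Cfsg.Agent.S0722
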