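import Cfsg.Statements.S0724
import Mathlib

set_option autoImplicit false
open Cfsg

namespace Cfsg.Agent.S0724


open MulAction

/-- Burnside count for tuples. -/
theorem card_dvd_sum_pow {α : Type*} [Fintype α] [DecidableEq α] (G : Subgroup (Equiv.Perm α)) [Fintype G] (k : ℕ) :
    Nat.card G ∣ ∑ g : G, (Nat.card (fixedBy α (g : Equiv.Perm α))) ^ k := by
  classical
  have hb := MulAction.sum_card_fixedBy_eq_card_orbits_mul_card_group G (Fin k → α)
  have h1 : ∀ g : G, Fintype.card (fixedBy (Fin k → α) g) = (Nat.card (fixedBy α (g : Equiv.Perm α))) ^ k := by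
    intro g
    have e : fixedBy (Fin k → α) g ≃ (Fin k → fixedBy α (g : Equiv.Perm α)) :=
      { toFun := fun f i => ⟨f.1 i, by
          have := f.2
          rw [mem_fixedBy] at this ⊢
          exact congrFun this i⟩
        invFun := fun f => ⟨fun i => (f i).1, by
          rw [mem_fixedBy]
          funext i
          have := (f i).2
          rw [mem_fixedBy] at this
          exact this⟩
        left_inv := fun f => rfl
        right_inv := fun f => rfl }
    rw [← Nat.card_eq_fintype_card, Nat.card_congr e]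
    simp [Nat.card_fun]
  rw [Nat.card_eq_fintype_card]
  have h2 : ∑ g : G, (Nat.card (fixedBy α (g : Equiv.Perm α))) ^ k = ∑ g : G, Fintype.card (fixedBy (Fin k → α) g) :=
    Finset.sum_congr rfl fun g _ => (h1 g).symm
  rw [h2, hb]
  exact Dvd.intro_left _ rfl

/-- Blichfeldt's Theorem: if a finite set `L` of natural numbers contains the number of fixed points of every non-identity element of a permutation group `G` of degree `n`, then the order of `G` divides `∏ (n - l)` over `l ∈ L`. -/
theorem result {α : Type*} [Fintype α] [DecidableEq α] (G : Subgroup (Equiv.Perm α)) (L : Finset ℕ) (hL : ∀ g ∈ G, g ≠ 1 → Nat.card (MulAction.fixedBy α g) ∈ L) : Nat.card G ∣ ∏ l ∈ L, (Fintype.card α - l) := by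
  classical
  letI : Fintype G := Fintype.ofFinite _
  by_cases hbig : ∃ l ∈ L, Fintype.card α ≤ l
  · obtain ⟨l, hl, hle⟩ := hbig
    have : ∏ l ∈ L, (Fintype.card α - l) = 0 :=
      Finset.prod_eq_zero hl (by omega)
    rw [this]
    exact dvd_zero _
  push Not at hbig
  -- the integer polynomial
  let P : Polynomial ℤ := ∏ l ∈ L, (Polynomial.X - Polynomial.C (l : ℤ))
  have hsum : ((Nat.card G : ℕ) : ℤ) ∣ ∑ g : G, P.eval ((Nat.card (fixedBy α (g : Equiv.Perm α)) : ℕ) : ℤ) := by
    simp_rw [Polynomial.eval_eq_sum_range]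
    rw [Finset.sum_comm]
    refine Finset.dvd_sum fun k _ => ?_
    simp_rw [← Finset.mul_sum]
    apply Dvd.dvd.mul_left
    have := card_dvd_sum_pow G k
    have h' := Int.natCast_dvd_natCast.2 this
    push_cast at h'
    exact h'
  have heval : ∀ g : G, g ≠ 1 → P.eval ((Nat.card (fixedBy α (g : Equiv.Perm α)) : ℕ) : ℤ) = 0 := by
    intro g hg
    simp only [P, Polynomial.eval_prod]
    apply Finset.prod_eq_zero (hL g g.2 (fun e => hg (Subtype.ext e)))
    simp
  have hsum2 : ∑ g : G, P.eval ((Nat.card (fixedBy α (g : Equiv.Perm α)) : ℕ) : ℤ) = P.eval ((Fintype.card α : ℕ) : ℤ) := by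
    rw [Finset.sum_eq_single (1 : G)]
    · congr 2
      have : Nat.card (fixedBy α ((1 : G) : Equiv.Perm α)) = Nat.card α := by
        apply Nat.card_congr
        exact Equiv.subtypeUnivEquiv (fun x => by simp)
      rw [this, Nat.card_eq_fintype_card]
    · intro g _ hg
      exact heval g hg
    · intro h; exact absurd (Finset.mem_univ _) h
  rw [hsum2] at hsum
  have hprod : P.eval ((Fintype.card α : ℕ) : ℤ) = ((∏ l ∈ L, (Fintype.card α - l) : ℕ) : ℤ) := by
    simp only [P, Polynomial.eval_prod]
    push_cast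
    refine Finset.prod_congr rfl fun l hl => ?_
    have := hbig l hl
    simp [Nat.cast_sub this.le]
  rw [hprod] at hsum
  exact Int.natCast_dvd_natCast.1 hsum


end Cfsg.Agent.S0724
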