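import Cfsg.Statements.S0726
import Mathlib

set_option autoImplicit false
open Cfsg

namespace Cfsg.Agent.S0726

open MulAction

/-- The left and right regular permutation representations of a group are each other's centralisers in the symmetric group: the centraliser of the left regular image is the right regular image, and a transitive subgroup centralising the left regular image is the whole right regular image. -/
theorem result {G : Type*} [Group G] : Subgroup.centralizer ((MulAction.toPermHom G G).range : Set (Equiv.Perm G)) = (MulAction.toPermHom Gᵐᵒᵖ G).range ∧ ∀ H : Subgroup (Equiv.Perm G), H ≤ Subgroup.centralizer ((MulAction.toPermHom G G).range : Set (Equiv.Perm G)) → MulAction.IsPretransitive H G → H = (MulAction.toPermHom Gᵐᵒᵖ G).range := by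
  have key : ∀ c ∈ Subgroup.centralizer ((MulAction.toPermHom G G).range : Set (Equiv.Perm G)),
      c = MulAction.toPermHom Gᵐᵒᵖ G (MulOpposite.op (c 1)) := by
    intro c hc
    ext x
    have h1 := (Subgroup.mem_centralizer_iff.1 hc) (MulAction.toPermHom G G x) ⟨x, rfl⟩
    have h2 := congrArg (fun σ : Equiv.Perm G => σ 1) h1
    have h3 : x • c 1 = c (x • 1) := h2
    simp only [smul_eq_mul, mul_one] at h3
    exact h3.symm
  have h1 : Subgroup.centralizer ((MulAction.toPermHom G G).range : Set (Equiv.Perm G)) = (MulAction.toPermHom Gᵐᵒᵖ G).range := by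
    apply le_antisymm
    · intro c hc
      exact ⟨_, (key c hc).symm⟩
    · rintro _ ⟨a, rfl⟩
      rw [Subgroup.mem_centralizer_iff]
      rintro _ ⟨x, rfl⟩
      ext y
      show x • (a • y) = a • (x • y)
      obtain ⟨a, rfl⟩ := MulOpposite.op_surjective a
      simp [mul_assoc]
  refine ⟨h1, ?_⟩
  intro H hH htr
  apply le_antisymm
  · rw [← h1]; exact hH
  · rintro _ ⟨a, rfl⟩
    obtain ⟨a, rfl⟩ := MulOpposite.op_surjective a
    obtain ⟨h, hh⟩ := MulAction.exists_smul_eq H (1 : G) a
    have hh' : (h : Equiv.Perm G) 1 = a := hh
    have := key h (hH h.2)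
    rw [hh'] at this
    rw [← this]
    exact h.2

end Cfsg.Agent.S0726
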