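import Cfsg.Statements.S0733
import Mathlib

set_option autoImplicit false
open Cfsg

namespace Cfsg.Agent.S0733


open scoped Pointwise

/-- A permutation group of affine type — generated by the translations of a finite vector space `V` over `ZMod p` together with a group `G₀` of linear automorphisms — is primitive on `V` if and only if `G₀` is irreducible on `V`. -/
theorem result {p : ℕ} [Fact p.Prime] {V : Type*} [AddCommGroup V] [Module (ZMod p) V] [Finite V] [Nontrivial V] (G₀ : Subgroup (V ≃ₗ[ZMod p] V)) (G : Subgroup (Equiv.Perm V)) (hG : ∀ σ : Equiv.Perm V, σ ∈ G ↔ ∃ g ∈ G₀, ∃ b : V, ∀ x : V, σ x = (g : V ≃ₗ[ZMod p] V) x + b) : MulAction.IsPreprimitive G V ↔ ∀ W : Submodule (ZMod p) V, (∀ g ∈ G₀, ∀ v ∈ W, (g : V ≃ₗ[ZMod p] V) v ∈ W) → W = ⊥ ∨ W = ⊤ := by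
  classical
  have hT : ∀ v : V, Equiv.addRight v ∈ G := fun v =>
    (hG _).2 ⟨1, G₀.one_mem, v, fun x => by simp⟩
  have hsm : ∀ (σ : G) (x : V), σ • x = (σ : Equiv.Perm V) x := fun σ x => rfl
  constructor
  · intro hprim W hW
    have hblock : MulAction.IsBlock G (W : Set V) := by
      rw [MulAction.isBlock_iff_smul_eq_of_mem]
      intro σ a ha hσa
      obtain ⟨g, hg, b, hb⟩ := (hG σ).1 σ.2
      have hb1 : b ∈ W := by
        have h1 : (g : V ≃ₗ[ZMod p] V) a ∈ W := hW g hg a ha
        have h2 : (g : V ≃ₗ[ZMod p] V) a + b ∈ W := by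
          rw [← hb, ← hsm]; exact hσa
        simpa using W.sub_mem h2 h1
      apply Set.Subset.antisymm
      · rintro _ ⟨z, hz, rfl⟩
        show σ • z ∈ W
        rw [hsm, hb]
        exact W.add_mem (hW g hg z hz) hb1
      · intro z hz
        have hz' : z ∈ W := hz
        refine ⟨(g⁻¹ : V ≃ₗ[ZMod p] V) (z - b), ?_, ?_⟩
        · exact hW g⁻¹ (G₀.inv_mem hg) _ (W.sub_mem hz' hb1)
        · show σ • _ = z
          rw [hsm, hb]
          have : (g : V ≃ₗ[ZMod p] V) ((g⁻¹ : V ≃ₗ[ZMod p] V) (z - b)) = z - b := by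
            have := LinearEquiv.apply_symm_apply g (z - b)
            exact this
          rw [this]; abel
    rcases hprim.isTrivialBlock_of_isBlock hblock with hs | hu
    · left
      rw [Submodule.eq_bot_iff]
      intro x hx
      exact hs hx W.zero_mem
    · right
      rw [eq_top_iff]
      intro x _
      have : x ∈ (W : Set V) := by rw [hu]; trivial
      exact this
  · intro h
    have htrans : MulAction.IsPretransitive G V := by
      refine ⟨fun x y => ⟨⟨Equiv.addRight (y - x), hT _⟩, ?_⟩⟩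
      rw [hsm]; simp
    refine { toIsPretransitive := htrans, isTrivialBlock_of_isBlock := ?_ }
    intro B hB
    by_cases hne : B.Nonempty
    swap
    · left
      rw [Set.not_nonempty_iff_eq_empty] at hne
      rw [hne]; exact Set.subsingleton_empty
    obtain ⟨x₀, hx₀⟩ := hne
    have hB' : ∀ (σ : G) (a : V), a ∈ B → σ • a ∈ B → ∀ z ∈ B, σ • z ∈ B := by
      intro σ a ha hσa z hz
      have := (MulAction.isBlock_iff_smul_eq_of_mem.1 hB) ha hσa
      rw [← this]
      exact ⟨z, hz, rfl⟩
    let τ : V → G := fun v => ⟨Equiv.addRight v, hT v⟩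
    have hτ : ∀ v z, (τ v) • z = z + v := fun v z => rfl
    let W₀ : AddSubgroup V :=
      { carrier := {v | ∀ z ∈ B, z + v ∈ B}
        zero_mem' := by intro z hz; simpa using hz
        add_mem' := by
          intro v w hv hw z hz
          rw [← add_assoc]
          exact hw _ (hv z hz)
        neg_mem' := by
          intro v hv z hz
          have h1 := hv x₀ hx₀
          have h2 := hB' (τ (-v)) (x₀ + v) h1 (by rw [hτ]; simpa using hx₀) z hz
          rwa [hτ] at h2 }
    let W : Submodule (ZMod p) V := AddSubgroup.toZModSubmodule p W₀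
    have hWmem : ∀ v, v ∈ W ↔ ∀ z ∈ B, z + v ∈ B := fun v => Iff.rfl
    have hinv : ∀ g ∈ G₀, ∀ v ∈ W, (g : V ≃ₗ[ZMod p] V) v ∈ W := by
      intro g hg v hv z hz
      rw [hWmem] at hv
      have hmem : (Equiv.addRight (x₀ - (g : V ≃ₗ[ZMod p] V) x₀) * (g : V ≃ₗ[ZMod p] V).toEquiv) ∈ G := by
        refine (hG _).2 ⟨g, hg, x₀ - (g : V ≃ₗ[ZMod p] V) x₀, fun x => ?_⟩
        rfl
      let h' : G := ⟨_, hmem⟩
      have hh' : ∀ x, h' • x = (g : V ≃ₗ[ZMod p] V) x + (x₀ - (g : V ≃ₗ[ZMod p] V) x₀) := fun x => rfl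
      have hfix : h' • x₀ = x₀ := by rw [hh']; abel
      have hp1 : ∀ y ∈ B, h' • y ∈ B := hB' h' x₀ hx₀ (by rw [hfix]; exact hx₀)
      have hp2 : ∀ y ∈ B, h'⁻¹ • y ∈ B := hB' h'⁻¹ x₀ hx₀ (by
        have : h'⁻¹ • x₀ = x₀ := inv_smul_eq_iff.2 hfix.symm
        rw [this]; exact hx₀)
      have hz1 := hv _ (hp2 z hz)
      have hz2 := hp1 _ hz1
      rw [hh', map_add, add_right_comm] at hz2
      rw [← hh', smul_inv_smul] at hz2
      exact hz2
    have hmemB : ∀ y, y ∈ B ↔ y - x₀ ∈ W := by
      intro y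
      constructor
      · intro hy z hz
        refine hB' (τ (y - x₀)) x₀ hx₀ (by rw [hτ]; simpa using hy) z hz
      · intro hy
        have := (hWmem _).1 hy x₀ hx₀
        simpa using this
    rcases h W hinv with hbot | htop
    · left
      intro y hy y' hy'
      have h1 := (hmemB y).1 hy
      have h2 := (hmemB y').1 hy'
      rw [hbot, Submodule.mem_bot] at h1 h2
      rw [sub_eq_zero] at h1 h2
      rw [h1, h2]
    · right
      rw [Set.eq_univ_iff_forall]
      intro y
      rw [hmemB, htop]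
      trivial


end Cfsg.Agent.S0733
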