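import Cfsg.Statements.S0734
import Mathlib

set_option autoImplicit false
open Cfsg

namespace Cfsg.Agent.S0734


open scoped Pointwise in
theorem reach_smul {G : Type*} [Group G] {Ω : Type*} [MulAction G Ω] (Γ : SimpleGraph Ω)
    (hmap : ∀ (g : G) {x y : Ω}, Γ.Adj x y → Γ.Adj (g • x) (g • y)) (g : G) {x y : Ω}
    (h : Γ.Reachable x y) : Γ.Reachable (g • x) (g • y) := by
  let φ : Γ →g Γ := ⟨fun x => g • x, fun {a b} hab => hmap g hab⟩
  exact h.map φ

theorem mem_of_reach {Ω : Type*} (Γ : SimpleGraph Ω) (B : Set Ω)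
    (hstep : ∀ (u v : Ω), u ∈ B → Γ.Adj u v → v ∈ B) {x y : Ω} (h : Γ.Reachable x y) (hx : x ∈ B) : y ∈ B := by
  obtain ⟨w⟩ := h
  induction w with
  | nil => exact hx
  | cons hadj _ ih => exact ih (hstep _ _ hx hadj)

/-- Higman's criterion for primitivity: a transitive action on a finite set is primitive if and only if every non-trivial orbital graph (edges = images of a fixed pair of distinct points) is connected. -/
theorem result {G : Type*} [Group G] {Ω : Type*} [Finite Ω] [MulAction G Ω] [MulAction.IsPretransitive G Ω] [Nontrivial Ω] : MulAction.IsPreprimitive G Ω ↔ ∀ a b : Ω, a ≠ b → (SimpleGraph.fromRel fun x y : Ω => ∃ g : G, g • a = x ∧ g • b = y).Connected := by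
  classical
  open scoped Pointwise in
  constructor
  · intro hprim a b hab
    set Γ := SimpleGraph.fromRel fun x y : Ω => ∃ g : G, g • a = x ∧ g • b = y with hΓ
    have hmap : ∀ (g : G) {x y : Ω}, Γ.Adj x y → Γ.Adj (g • x) (g • y) := by
      intro g x y h
      rw [hΓ, SimpleGraph.fromRel_adj] at h ⊢
      obtain ⟨hne, h⟩ := h
      refine ⟨fun e => hne (smul_left_cancel g e), ?_⟩
      rcases h with ⟨k, h1, h2⟩ | ⟨k, h1, h2⟩
      · exact Or.inl ⟨g * k, by rw [mul_smul, h1], by rw [mul_smul, h2]⟩
      · exact Or.inr ⟨g * k, by rw [mul_smul, h1], by rw [mul_smul, h2]⟩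
    have hreach := fun (g : G) {x y : Ω} (h : Γ.Reachable x y) => reach_smul Γ hmap g h
    have hadj : Γ.Adj a b := by
      rw [hΓ, SimpleGraph.fromRel_adj]
      exact ⟨hab, Or.inl ⟨1, by simp, by simp⟩⟩
    set B : Set Ω := {x | Γ.Reachable a x} with hB
    have hblock : MulAction.IsBlock G B := by
      rw [MulAction.isBlock_iff_smul_eq_of_nonempty]
      intro g hne
      obtain ⟨x, hx1, hx2⟩ := hne
      obtain ⟨y, hy, rfl⟩ := hx1
      have h1 : Γ.Reachable (g • a) a := (hreach g hy).trans (SimpleGraph.Reachable.symm hx2)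
      have h2 : Γ.Reachable (g⁻¹ • a) a := by
        have := hreach g⁻¹ h1
        rw [inv_smul_smul] at this
        exact this.symm
      apply Set.Subset.antisymm
      · rintro _ ⟨z, hz, rfl⟩
        exact (h1.symm).trans (hreach g hz)
      · intro z hz
        refine ⟨g⁻¹ • z, ?_, by simp⟩
        exact (h2.symm).trans (hreach g⁻¹ hz)
    have htriv := hprim.isTrivialBlock_of_isBlock hblock
    have huniv : B = Set.univ := by
      rcases htriv with hs | hu
      · exact absurd (hs (show a ∈ B from SimpleGraph.Reachable.refl a) (show b ∈ B from hadj.reachable)) hab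
      · exact hu
    have hall : ∀ x, Γ.Reachable a x := fun x => by
      have : x ∈ B := by rw [huniv]; trivial
      exact this
    exact { preconnected := fun u v => (hall u).symm.trans (hall v), nonempty := ⟨a⟩ }
  · intro h
    refine { isTrivialBlock_of_isBlock := ?_ }
    intro B hB
    by_cases hs : B.Subsingleton
    · exact Or.inl hs
    · right
      rw [Set.not_subsingleton_iff] at hs
      obtain ⟨a, ha, b, hb, hab⟩ := hs
      have hconn := h a b hab
      rw [Set.eq_univ_iff_forall]
      intro x
      have hr := hconn.preconnected a x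
      have hstep : ∀ (u v : Ω), u ∈ B → (SimpleGraph.fromRel fun x y : Ω => ∃ g : G, g • a = x ∧ g • b = y).Adj u v → v ∈ B := by
        intro u v hu huv
        rw [SimpleGraph.fromRel_adj] at huv
        rcases huv.2 with ⟨g, h1, h2⟩ | ⟨g, h1, h2⟩
        · have : g • B = B := by
            rw [MulAction.isBlock_iff_smul_eq_of_nonempty] at hB
            exact hB ⟨u, ⟨a, ha, h1⟩, hu⟩
          rw [← this, ← h2]
          exact ⟨b, hb, rfl⟩
        · have : g • B = B := by
            rw [MulAction.isBlock_iff_smul_eq_of_nonempty] at hB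
            exact hB ⟨u, ⟨b, hb, h2⟩, hu⟩
          rw [← this, ← h1]
          exact ⟨a, ha, rfl⟩
      exact mem_of_reach _ B hstep hr ha


end Cfsg.Agent.S0734
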