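import Cfsg.Statements.S0735
import Mathlib

set_option autoImplicit false
open Cfsg

namespace Cfsg.Agent.S0735

open MulAction
open scoped Pointwise

variable {α : Type*} [Fintype α] [DecidableEq α] (G : Subgroup (Equiv.Perm α))

theorem exists_pair (h2 : MulAction.IsPretransitive G (Set.powersetCard α 2)) {a b c d : α} (hab : a ≠ b) (hcd : c ≠ d) :
    ∃ g : G, (g • a = c ∧ g • b = d) ∨ (g • a = d ∧ g • b = c) := by
  let s : Set.powersetCard α 2 := ⟨{a, b}, by simp [Finset.card_pair hab]⟩
  let t : Set.powersetCard α 2 := ⟨{c, d}, by simp [Finset.card_pair hcd]⟩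
  obtain ⟨g, hg⟩ := MulAction.exists_smul_eq G s t
  have hg' : g • ({a, b} : Finset α) = {c, d} := congrArg Subtype.val hg
  have ha : g • a ∈ ({c, d} : Finset α) := by
    rw [← hg']; exact Finset.smul_mem_smul_finset (by simp)
  have hb : g • b ∈ ({c, d} : Finset α) := by
    rw [← hg']; exact Finset.smul_mem_smul_finset (by simp)
  have hne : g • a ≠ g • b := fun e => hab (MulAction.injective g e)
  rw [Finset.mem_insert, Finset.mem_singleton] at ha hb
  refine ⟨g, ?_⟩
  rcases ha with ha | ha <;> rcases hb with hb | hb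
  · exact absurd (ha.trans hb.symm) hne
  · exact Or.inl ⟨ha, hb⟩
  · exact Or.inr ⟨ha, hb⟩
  · exact absurd (ha.trans hb.symm) hne

/-- A 2-homogeneous permutation group (transitive on 2-subsets) of even order is doubly transitive; a non-trivial 2-homogeneous group is primitive. -/
theorem result {α : Type*} [Fintype α] [DecidableEq α] (G : Subgroup (Equiv.Perm α)) (h2 : MulAction.IsPretransitive G (Set.powersetCard α 2)) (hα : 3 ≤ Fintype.card α) : (Even (Nat.card G) → MulAction.IsMultiplyPretransitive G α 2) ∧ (G ≠ ⊥ → MulAction.IsPreprimitive G α) := by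
  have hpair := @exists_pair α _ _ G h2
  constructor
  · intro heven
    -- an involution
    have h2dvd : 2 ∣ Nat.card G := heven.two_dvd
    have : Fact (Nat.Prime 2) := ⟨Nat.prime_two⟩
    obtain ⟨t, ht⟩ := exists_prime_orderOf_dvd_card' 2 h2dvd
    have ht1 : t ≠ 1 := by
      rintro rfl
      simp at ht
    have ht2 : t * t = 1 := by
      have := pow_orderOf_eq_one t
      rwa [ht, pow_two] at this
    obtain ⟨a, ha⟩ : ∃ a : α, t • a ≠ a := by
      by_contra hcon
      push Not at hcon
      apply ht1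
      apply Subtype.ext
      ext x
      exact hcon x
    set b := t • a with hb
    have htb : t • b = a := by
      rw [hb, ← mul_smul, ht2, one_smul]
    have hswap : ∀ c d : α, c ≠ d → ∃ s : G, s • c = d ∧ s • d = c := by
      intro c d hcd
      obtain ⟨g, hg⟩ := hpair ha.symm hcd
      refine ⟨g * t * g⁻¹, ?_⟩
      rcases hg with ⟨h1, h2⟩ | ⟨h1, h2⟩
      · constructor
        · rw [← h1, mul_smul, mul_smul, inv_smul_smul, ← hb, h2]
        · rw [← h2, mul_smul, mul_smul, inv_smul_smul, htb, h1]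
      · constructor
        · rw [← h2, mul_smul, mul_smul, inv_smul_smul, htb, h1]
        · rw [← h1, mul_smul, mul_smul, inv_smul_smul, ← hb, h2]
    rw [is_two_pretransitive_iff]
    intro c d e f hcd hef
    obtain ⟨g, hg⟩ := hpair hcd hef
    rcases hg with hg | ⟨h1, h2⟩
    · exact ⟨g, hg⟩
    · obtain ⟨s, hs1, hs2⟩ := hswap e f hef
      refine ⟨s * g, ?_, ?_⟩
      · rw [mul_smul, h1, hs2]
      · rw [mul_smul, h2, hs1]
  · intro _
    have h3 : 3 ≤ ENat.card α := by
      rw [ENat.card_eq_coe_fintype_card]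
      exact_mod_cast hα
    have htr : MulAction.IsPretransitive G α := by
      refine ⟨fun a b => ?_⟩
      by_cases hab : a = b
      · exact ⟨1, by rw [hab, one_smul]⟩
      obtain ⟨c, hca, hcb⟩ := ENat.exists_ne_ne_of_three_le h3 a b
      obtain ⟨g, hg⟩ := hpair (a := a) (b := c) (c := b) (d := c) hca.symm hcb.symm
      rcases hg with ⟨h1, -⟩ | ⟨h1, h2⟩
      · exact ⟨g, h1⟩
      · exact ⟨g * g, by rw [mul_smul, h1, h2]⟩
    refine { htr with isTrivialBlock_of_isBlock := ?_ }
    intro B hB
    by_cases hsub : B.Subsingleton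
    · exact Or.inl hsub
    right
    rw [Set.not_subsingleton_iff] at hsub
    obtain ⟨a, ha, b, hb, hab⟩ := hsub
    rw [Set.eq_univ_iff_forall]
    intro c
    by_cases hca : c = a
    · rw [hca]; exact ha
    obtain ⟨g, hg⟩ := hpair (a := a) (b := b) (c := a) (d := c) hab (Ne.symm hca)
    have hgB : g • B = B := by
      apply hB.smul_eq_of_nonempty
      rcases hg with ⟨h1, -⟩ | ⟨-, h2⟩
      · exact ⟨a, ⟨a, ha, h1⟩, ha⟩
      · exact ⟨a, ⟨b, hb, h2⟩, ha⟩
    rw [← hgB]
    rcases hg with ⟨-, h2⟩ | ⟨h1, -⟩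
    · exact ⟨b, hb, h2⟩
    · exact ⟨a, ha, h1⟩

end Cfsg.Agent.S0735
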