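import Cfsg.Statements.S0736
import Mathlib.Data.Nat.Choose.Lucas

set_option autoImplicit false
open Cfsg
open scoped Pointwise

namespace Cfsg.Agent.S0736

lemma choose_one_mod (p : ℕ) [hp : Fact p.Prime] (e m : ℕ) :
    Nat.choose (p ^ e * m + p ^ e - 1) (p ^ e - 1) ≡ 1 [MOD p] := by
  induction e generalizing m with
  | zero => simp [Nat.ModEq]
  | succ e ih =>
    have hp1 : 1 ≤ p := hp.out.one_lt.le
    have hpe : 1 ≤ p ^ e := Nat.one_le_pow _ _ hp.out.pos
    have h1 := Choose.choose_modEq_choose_mod_mul_choose_div_nat (p := p)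
      (n := p ^ (e + 1) * m + p ^ (e + 1) - 1) (k := p ^ (e + 1) - 1)
    have e1 : p ^ (e + 1) - 1 = p * (p ^ e - 1) + (p - 1) := by
      rw [pow_succ', Nat.mul_sub, mul_one]
      have : p ≤ p * p ^ e := Nat.le_mul_of_pos_right _ (by omega)
      omega
    have e2 : p ^ (e + 1) * m + p ^ (e + 1) - 1 = p * (p ^ e * m + p ^ e - 1) + (p - 1) := by
      set X := p ^ e * m + p ^ e - 1 with hX
      have a1 : X + 1 = p ^ e * m + p ^ e := by omega
      have a2 : p - 1 + 1 = p := by omega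
      have : p * X + (p - 1) + 1 = p ^ (e + 1) * m + p ^ (e + 1) := by
        calc p * X + (p - 1) + 1 = p * X + (p - 1 + 1) := by ring
          _ = p * X + p := by rw [a2]
          _ = p * (X + 1) := by ring
          _ = p * (p ^ e * m + p ^ e) := by rw [a1]
          _ = _ := by ring
      omega
    have hlt : p - 1 < p := by omega
    have m1 : (p ^ (e + 1) - 1) % p = p - 1 := by
      rw [e1, Nat.mul_add_mod, Nat.mod_eq_of_lt hlt]
    have m2 : (p ^ (e + 1) * m + p ^ (e + 1) - 1) % p = p - 1 := by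
      rw [e2, Nat.mul_add_mod, Nat.mod_eq_of_lt hlt]
    have d1 : (p ^ (e + 1) - 1) / p = p ^ e - 1 := by
      rw [e1, Nat.mul_add_div hp.out.pos, Nat.div_eq_of_lt hlt, add_zero]
    have d2 : (p ^ (e + 1) * m + p ^ (e + 1) - 1) / p = p ^ e * m + p ^ e - 1 := by
      rw [e2, Nat.mul_add_div hp.out.pos, Nat.div_eq_of_lt hlt, add_zero]
    rw [m1, m2, d1, d2, Nat.choose_self, one_mul] at h1
    exact h1.trans (ih m)

lemma coprime_choose {p e k : ℕ} (hp : p.Prime) (he : p ^ e ∣ k) :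
    Nat.Coprime (p ^ e) (Nat.choose (k + p ^ e - 1) (p ^ e - 1)) := by
  haveI : Fact p.Prime := ⟨hp⟩
  obtain ⟨m, rfl⟩ := he
  have h1 := choose_one_mod p e m
  apply Nat.Coprime.pow_left
  rw [hp.coprime_iff_not_dvd]
  intro hd
  have h2 : Nat.choose (p ^ e * m + p ^ e - 1) (p ^ e - 1) % p = 0 := Nat.mod_eq_zero_of_dvd hd
  have h3 : 1 % p = 0 := by rw [← h2]; exact h1.symm
  rw [Nat.mod_eq_of_lt hp.one_lt] at h3
  omega

open Classical in
/-- Double counting. -/
lemma double_count {α : Type*} [DecidableEq α] (O : Set (Finset α)) (T : Finset α) (k a : ℕ)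
    (hk : 1 ≤ k) (ha : ∀ K : Finset α, K.card = k → (K.filter (fun x => K.erase x ∈ O)).card = a)
    (q : ℕ) (hT : T.card = k - 1 + q) :
    a * Nat.choose T.card k = q * ((T.powersetCard (k - 1)).filter (fun L => L ∈ O)).card := by
  have h1 : ∑ K ∈ T.powersetCard k, (K.filter (fun x => K.erase x ∈ O)).card
      = a * Nat.choose T.card k := by
    rw [Finset.sum_congr rfl (g := fun _ => a), Finset.sum_const, Finset.card_powersetCard,
      smul_eq_mul, mul_comm]
    intro K hK
    exact ha K (Finset.mem_powersetCard.mp hK).2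
  have h2 : ∑ L ∈ (T.powersetCard (k - 1)).filter (fun L => L ∈ O), (T \ L).card
      = q * ((T.powersetCard (k - 1)).filter (fun L => L ∈ O)).card := by
    rw [Finset.sum_congr rfl (g := fun _ => q), Finset.sum_const, smul_eq_mul, mul_comm]
    intro L hL
    obtain ⟨hL1, -⟩ := Finset.mem_filter.mp hL
    obtain ⟨hL2, hL3⟩ := Finset.mem_powersetCard.mp hL1
    rw [Finset.card_sdiff_of_subset hL2, hT, hL3]
    omega
  rw [← h1, ← h2, ← Finset.card_sigma, ← Finset.card_sigma]
  refine Finset.card_bij' (fun y _ => ⟨y.1.erase y.2, y.2⟩) (fun y _ => ⟨insert y.2 y.1, y.2⟩)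
    ?_ ?_ ?_ ?_
  · rintro ⟨K, x⟩ hy
    simp only [Finset.mem_sigma, Finset.mem_filter, Finset.mem_powersetCard] at hy ⊢
    obtain ⟨⟨hK, hc⟩, hx, hO⟩ := hy
    refine ⟨⟨⟨(Finset.erase_subset _ _).trans hK, ?_⟩, hO⟩, ?_⟩
    · rw [Finset.card_erase_of_mem hx, hc]
    · exact Finset.mem_sdiff.mpr ⟨hK hx, Finset.notMem_erase _ _⟩
  · rintro ⟨L, x⟩ hy
    simp only [Finset.mem_sigma, Finset.mem_filter, Finset.mem_powersetCard,
      Finset.mem_sdiff] at hy ⊢
    obtain ⟨⟨⟨hL, hc⟩, hO⟩, hx, hxL⟩ := hy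
    refine ⟨⟨Finset.insert_subset hx hL, ?_⟩, Finset.mem_insert_self _ _, ?_⟩
    · rw [Finset.card_insert_of_notMem hxL, hc]; omega
    · rwa [Finset.erase_insert hxL]
  · rintro ⟨K, x⟩ hy
    simp only [Finset.mem_sigma, Finset.mem_filter] at hy
    simp [Finset.insert_erase hy.2.1]
  · rintro ⟨L, x⟩ hy
    simp only [Finset.mem_sigma, Finset.mem_filter, Finset.mem_sdiff] at hy
    simp [Finset.erase_insert hy.2.2]

open Classical in
lemma core {α : Type*} [Fintype α] [DecidableEq α] (G : Subgroup (Equiv.Perm α)) {k : ℕ}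
    (hk : 2 ≤ k)
    (hG : ∀ K K' : Finset α, K.card = k → K'.card = k → ∃ g ∈ G, K.image g = K')
    (hq : ∀ q : ℕ, IsPrimePow q → q ∣ k → k + q - 1 ≤ Fintype.card α)
    (L₀ L₁ : Finset α) (h0 : L₀.card = k - 1) (h1 : L₁.card = k - 1) :
    ∃ g ∈ G, L₀.image g = L₁ := by
  -- orbit
  obtain ⟨O, hO⟩ : ∃ O : Set (Finset α), O = {L | ∃ g ∈ G, L₀.image g = L} := ⟨_, rfl⟩
  have hOdef : ∀ L, L ∈ O ↔ ∃ g ∈ G, L₀.image g = L := by
    intro L; rw [hO]; rfl
  have hOinv : ∀ g ∈ G, ∀ L : Finset α, L ∈ O → L.image g ∈ O := by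
    intro g hg L hL
    obtain ⟨h, hh, rfl⟩ := (hOdef L).mp hL
    exact (hOdef _).mpr ⟨g * h, G.mul_mem hg hh, by rw [Finset.image_image]; rfl⟩
  have hOinv' : ∀ g ∈ G, ∀ L : Finset α, L.image g ∈ O ↔ L ∈ O := by
    intro g hg L
    refine ⟨fun hL => ?_, hOinv g hg L⟩
    have := hOinv g⁻¹ (G.inv_mem hg) _ hL
    rwa [Finset.image_image, show (⇑g⁻¹ ∘ ⇑g : α → α) = id from by ext x; simp,
      Finset.image_id] at this
  -- a constant
  set A : Finset α → ℕ := fun K => (K.filter (fun x => K.erase x ∈ O)).card with hA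
  have hAinv : ∀ g ∈ G, ∀ K : Finset α, A (K.image g) = A K := by
    intro g hg K
    simp only [hA]
    have : (K.image g).filter (fun x => (K.image g).erase x ∈ O)
        = (K.filter (fun x => K.erase x ∈ O)).image g := by
      ext y
      simp only [Finset.mem_filter, Finset.mem_image]
      constructor
      · rintro ⟨⟨x, hx, rfl⟩, hy⟩
        refine ⟨x, ⟨hx, ?_⟩, rfl⟩
        rw [← Finset.image_erase g.injective] at hy
        exact (hOinv' g hg _).mp hy
      · rintro ⟨x, ⟨hx, hy⟩, rfl⟩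
        refine ⟨⟨x, hx, rfl⟩, ?_⟩
        rw [← Finset.image_erase g.injective]
        exact hOinv g hg _ hy
    rw [this, Finset.card_image_of_injective _ g.injective]
  -- existence of a prime dividing k gives card bound
  have hcard : k + 1 ≤ Fintype.card α := by
    obtain ⟨p, hp, hpk⟩ := Nat.exists_prime_and_dvd (n := k) (by omega)
    have := hq p hp.isPrimePow hpk
    have := hp.two_le
    omega
  -- a k-set containing L₀
  have hext : ∀ L : Finset α, L.card = k - 1 → ∃ y, y ∉ L := by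
    intro L hL
    by_contra hcon
    push Not at hcon
    have : L = Finset.univ := Finset.eq_univ_iff_forall.mpr hcon
    rw [this, Finset.card_univ] at hL
    omega
  obtain ⟨y₀, hy₀⟩ := hext L₀ h0
  set K₀ := insert y₀ L₀ with hK₀
  have hK₀c : K₀.card = k := by rw [hK₀, Finset.card_insert_of_notMem hy₀, h0]; omega
  set a := A K₀ with ha
  have hconst : ∀ K : Finset α, K.card = k → A K = a := by
    intro K hK
    obtain ⟨g, hg, rfl⟩ := hG K₀ K hK₀c hK
    exact hAinv g hg K₀
  have hapos : 0 < a := by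
    apply Finset.card_pos.mpr
    refine ⟨y₀, Finset.mem_filter.mpr ⟨Finset.mem_insert_self _ _, ?_⟩⟩
    rw [hK₀, Finset.erase_insert hy₀]
    exact (hOdef _).mpr ⟨1, G.one_mem, by simp⟩
  have hale : a ≤ k := by
    rw [← hK₀c]; exact Finset.card_filter_le _ _
  -- prime powers divide a
  have hdvd : k ∣ a := by
    rw [Nat.dvd_iff_prime_pow_dvd_dvd]
    intro p e hp hpe
    rcases Nat.eq_zero_or_pos e with rfl | hepos
    · simp
    have hq' := hq (p ^ e) (hp.isPrimePow.pow hepos.ne') hpe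
    have hpe1 : 1 ≤ p ^ e := Nat.one_le_pow _ _ hp.pos
    -- take T
    obtain ⟨T, hT⟩ := Finset.exists_subset_card_eq (s := (Finset.univ : Finset α))
      (n := k - 1 + p ^ e) (by rw [Finset.card_univ]; omega)
    have hTc := hT.2
    have := double_count O T k a (by omega) hconst (p ^ e) hTc
    have hco := coprime_choose hp hpe
    have e1 : Nat.choose T.card k = Nat.choose (k + p ^ e - 1) (p ^ e - 1) := by
      rw [hTc, show k - 1 + p ^ e = k + p ^ e - 1 by omega]
      have : k + p ^ e - 1 - (p ^ e - 1) = k := by omega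
      rw [← Nat.choose_symm (show p ^ e - 1 ≤ k + p ^ e - 1 by omega), this]
    rw [e1] at this
    have hd : p ^ e ∣ a * Nat.choose (k + p ^ e - 1) (p ^ e - 1) := ⟨_, this⟩
    exact hco.dvd_of_dvd_mul_right hd
  have hak : a = k := Nat.le_antisymm hale (Nat.le_of_dvd hapos hdvd)
  -- conclude
  obtain ⟨y₁, hy₁⟩ := hext L₁ h1
  set K₁ := insert y₁ L₁ with hK₁
  have hK₁c : K₁.card = k := by rw [hK₁, Finset.card_insert_of_notMem hy₁, h1]; omega
  have hall := hconst K₁ hK₁c
  rw [hak] at hall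
  have heq : K₁.filter (fun x => K₁.erase x ∈ O) = K₁ :=
    Finset.eq_of_subset_of_card_le (Finset.filter_subset _ _) (by
      rw [hK₁c]; exact hall.ge)
  have hmem : y₁ ∈ K₁.filter (fun x => K₁.erase x ∈ O) := by
    rw [heq]; exact Finset.mem_insert_self _ _
  have := (Finset.mem_filter.mp hmem).2
  rw [hK₁, Finset.erase_insert hy₁] at this
  exact (hOdef _).mp this

/-- A `k`-homogeneous permutation group of degree `n`, `k ≥ 2`, with `k + q - 1 ≤ n` for every prime power `q` dividing `k`, is `(k-1)`-homogeneous. -/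
theorem result {α : Type*} [Fintype α] [DecidableEq α] (G : Subgroup (Equiv.Perm α)) {k : ℕ} (hk : 2 ≤ k) (hG : MulAction.IsPretransitive G (Set.powersetCard α k)) (hq : ∀ q : ℕ, IsPrimePow q → q ∣ k → k + q - 1 ≤ Fintype.card α) : MulAction.IsPretransitive G (Set.powersetCard α (k - 1)) := by

  classical
  have himg : ∀ (g : G) (s : Finset α), (g • s : Finset α) = s.image (g : Equiv.Perm α) := by
    intro g s
    ext x
    simp only [Finset.mem_smul_finset, Finset.mem_image]
    rfl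
  constructor
  intro L₀ L₁
  obtain ⟨g, hg, h⟩ := core G hk (by
      intro K K' hK hK'
      obtain ⟨g, hg⟩ := hG.exists_smul_eq (⟨K, hK⟩ : Set.powersetCard α k) ⟨K', hK'⟩
      refine ⟨g, g.2, ?_⟩
      have h2 : g • K = K' := congrArg Subtype.val hg
      rw [← himg]
      exact h2) hq L₀.1 L₁.1 L₀.2 L₁.2
  refine ⟨⟨g, hg⟩, ?_⟩
  apply Subtype.ext
  change (⟨g, hg⟩ : G) • L₀.1 = L₁.1
  rw [himg]
  exact h

end Cfsg.Agent.S0736
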