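import Cfsg.Statements.S0738
import Cfsg.Agent.Lib.SubCount
import Cfsg.Agent.Lib.PermOrb
import Cfsg.Agent.Lib.FrobCount
import Mathlib

set_option autoImplicit false
open Cfsg

namespace Cfsg.Agent.S0738

lemma free_count {H X : Type*} [Group H] [Finite H] [Finite X] [MulAction H X] (A : X → Prop)
    (hinv : ∀ (h : H) x, A x → A (h • x)) (hfree : ∀ (h : H) x, A x → h • x = x → h = 1) :
    Nat.card H ∣ Nat.card {x // A x} := by
  apply Cfsg.Agent.Lib.SubCount.dvd_card_of_invariant (G := H) A hinv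
  intro x hx
  have h2 := Cfsg.Agent.Lib.PermOrb.card_orbit_mul_stab (G := H) x
  have h3 : MulAction.stabilizer H x = ⊥ := by
    ext h
    rw [MulAction.mem_stabilizer_iff, Subgroup.mem_bot]
    exact ⟨hfree h x hx, by rintro rfl; simp⟩
  rw [h3, Subgroup.card_bot, mul_one] at h2
  rw [h2]

/-- The arithmetic step. -/
lemma arith {n d k p : ℕ} (hd : 0 < d) (h1 : n = 1 + (n - 1)) (hmd : d ∣ n - 1) (hn : 2 ≤ n) (h2d : n - 1 ≤ 2 * d)
    (hk : k * d ≤ n - 1) (hp : p.Prime) (hpn : p ∣ n) (hpk : p ∣ 1 + k * d) : k * d = n - 1 := by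
  obtain ⟨m, hm⟩ := hmd
  have hm2 : m ≤ 2 := by
    by_contra h
    push Not at h
    have : d * 3 ≤ d * m := Nat.mul_le_mul_left d h
    omega
  have hm0 : m ≠ 0 := by
    rintro rfl
    omega
  rw [hm] at hk h1 ⊢
  have hkm : k ≤ m := by
    rw [mul_comm] at hk
    exact Nat.le_of_mul_le_mul_left hk hd
  have hp1 : ¬ p ∣ 1 := hp.one_lt.ne' ∘ Nat.dvd_one.mp
  have hm12 : m = 1 ∨ m = 2 := by omega
  rcases hm12 with rfl | rfl
  · have hk01 : k = 0 ∨ k = 1 := by omega
    rcases hk01 with rfl | rfl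
    · exact absurd (by simpa using hpk) hp1
    · ring
  · have hk01 : k = 0 ∨ k = 1 ∨ k = 2 := by omega
    rcases hk01 with rfl | rfl | rfl
    · exact absurd (by simpa using hpk) hp1
    · exfalso
      rw [h1] at hpn
      have h3 : p ∣ d := by
        have h4 : p ∣ (1 + d * 2) - (1 + 1 * d) := Nat.dvd_sub hpn hpk
        have h5 : (1 + d * 2) - (1 + 1 * d) = d := by omega
        rwa [h5] at h4
      have h6 : p ∣ 1 := by
        have h4 : p ∣ (1 + 1 * d) - d := Nat.dvd_sub hpk h3
        have h5 : (1 + 1 * d) - d = 1 := by omega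
        rwa [h5] at h4
      exact hp1 h6
    · ring

lemma arith2 {n d k : ℕ} (hd : 0 < d) (hmd : d ∣ n - 1) (hn : 2 ≤ n) (h2d : n - 1 ≤ 2 * d)
    (hk : k * d ≤ n - 1) (hk1 : 1 ≤ k) (hz : (1 + k * d) ∣ n) : k * d = n - 1 := by
  obtain ⟨m, hm⟩ := hmd
  have hm2 : m ≤ 2 := by
    by_contra h
    push Not at h
    have : d * 3 ≤ d * m := Nat.mul_le_mul_left d h
    omega
  have hm0 : m ≠ 0 := by
    rintro rfl
    omega
  have hn' : n = 1 + (n - 1) := by omega
  rw [hm] at hk hn' ⊢
  have hkm : k ≤ m := by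
    rw [mul_comm] at hk
    exact Nat.le_of_mul_le_mul_left hk hd
  have hm12 : m = 1 ∨ m = 2 := by omega
  rcases hm12 with rfl | rfl
  · have hk01 : k = 1 := by omega
    subst hk01
    ring
  · have hk01 : k = 1 ∨ k = 2 := by omega
    rcases hk01 with rfl | rfl
    · exfalso
      rw [hn'] at hz
      have h4 : (1 + 1 * d) ∣ 2 * (1 + 1 * d) - (1 + d * 2) :=
        Nat.dvd_sub (Dvd.intro_left 2 rfl) hz
      have h5 : 2 * (1 + 1 * d) - (1 + d * 2) = 1 := by omega
      rw [h5] at h4
      have := Nat.le_of_dvd (by norm_num) h4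
      omega
    · ring

lemma card_split {X : Type*} [Finite X] (S : X → Prop) (e : X) (he : S e) :
    Nat.card {x // S x} = 1 + Nat.card {x // S x ∧ x ≠ e} := by
  classical
  haveI := Fintype.ofFinite X
  rw [Nat.card_eq_fintype_card, Nat.card_eq_fintype_card, Fintype.card_subtype,
    Fintype.card_subtype]
  have : Finset.univ.filter S = insert e (Finset.univ.filter (fun x => S x ∧ x ≠ e)) := by
    ext x
    simp only [Finset.mem_filter, Finset.mem_univ, true_and, Finset.mem_insert]
    constructor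
    · intro hx
      by_cases h : x = e
      · exact Or.inl h
      · exact Or.inr ⟨hx, h⟩
    · rintro (rfl | ⟨hx, -⟩)
      · exact he
      · exact hx
  rw [this, Finset.card_insert_of_notMem (by simp)]
  omega

lemma all_of_card {X : Type*} [Finite X] (P Q : X → Prop) (h : ∀ x, P x → Q x)
    (hc : Nat.card {x // Q x} ≤ Nat.card {x // P x}) : ∀ x, Q x → P x := by
  classical
  haveI := Fintype.ofFinite X
  rw [Nat.card_eq_fintype_card, Nat.card_eq_fintype_card, Fintype.card_subtype,
    Fintype.card_subtype] at hc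
  have hsub : Finset.univ.filter P ⊆ Finset.univ.filter Q := by
    intro x hx
    simp only [Finset.mem_filter, Finset.mem_univ, true_and] at hx ⊢
    exact h x hx
  have heq := Finset.eq_of_subset_of_card_le hsub hc
  intro x hx
  have : x ∈ Finset.univ.filter Q := by simp [hx]
  rw [← heq] at this
  simpa using this

/-- Let a finite Zassenhaus group of degree `n + 1` have two-point stabilisers of order `d` with `2d ≥ n - 1`. Then a normal subgroup of a point stabiliser acting regularly on the remaining points is elementary abelian, and the degree is a prime power plus one. -/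
theorem result {G Ω : Type*} [Group G] [Finite G] [MulAction G Ω] [Fintype Ω] (hZ : Cfsg.IsZassenhausGroup G Ω) {a b : Ω} (hab : a ≠ b) (hd : Fintype.card Ω - 2 ≤ 2 * Nat.card ↥(MulAction.stabilizer G a ⊓ MulAction.stabilizer G b)) (F : Subgroup G) (hFle : F ≤ MulAction.stabilizer G a) (hFn : (F.subgroupOf (MulAction.stabilizer G a)).Normal) (hreg : ∀ y z : Ω, y ≠ a → z ≠ a → ∃! u : F, (u : G) • y = z) : IsMulCommutative F ∧ ∃ p f : ℕ, p.Prime ∧ (∀ u ∈ F, u ^ p = 1) ∧ Fintype.card Ω = p ^ f + 1 := by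

  classical
  obtain ⟨hfaith, h2, h3, ⟨g₀, hg₀, a', b', hab', hga, hgb⟩, -⟩ := hZ
  set H := MulAction.stabilizer G a ⊓ MulAction.stabilizer G b with hH
  have hdpos : 0 < Nat.card H := Nat.card_pos
  -- conjugation
  have hconj : ∀ h ∈ MulAction.stabilizer G a, ∀ u ∈ F, h * u * h⁻¹ ∈ F := by
    intro h hh u hu
    have h1 : (⟨u, hFle hu⟩ : MulAction.stabilizer G a) ∈ F.subgroupOf (MulAction.stabilizer G a) :=
      Subgroup.mem_subgroupOf.mpr hu
    have h4 := hFn.conj_mem _ h1 ⟨h, hh⟩
    exact Subgroup.mem_subgroupOf.mp h4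
  -- regularity
  have hone : ∀ u : F, (u : G) • b = b → u = 1 := by
    intro u hu
    obtain ⟨w, -, hw⟩ := hreg b b hab.symm hab.symm
    rw [hw u hu, hw 1 (by simp)]
  have huba : ∀ u : F, (u : G) • b ≠ a := by
    intro u e
    have h5 : (u : G) • a = a := hFle u.2
    exact hab (smul_left_cancel (u : G) (h5.trans e.symm))
  have hcardF : Nat.card F + 1 = Fintype.card Ω := by
    have hbij : Function.Bijective (fun u : F => (⟨(u : G) • b, huba u⟩ : {y : Ω // y ≠ a})) := by
      constructor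
      · intro u v huv
        have h5 : (u : G) • b = (v : G) • b := congrArg Subtype.val huv
        have h6 : ((v⁻¹ * u : F) : G) • b = b := by
          rw [Subgroup.coe_mul, mul_smul, h5]
          simp
        have h7 := hone _ h6
        rw [inv_mul_eq_one] at h7
        exact h7.symm
      · rintro ⟨y, hy⟩
        obtain ⟨w, hw, -⟩ := hreg b y hab.symm hy
        exact ⟨w, Subtype.ext hw⟩
    have h5 := Nat.card_eq_of_bijective _ hbij
    have h6 : Nat.card {y : Ω // y ≠ a} + 1 = Fintype.card Ω := by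
      rw [Nat.card_eq_fintype_card, Fintype.card_subtype, Finset.filter_ne',
        Finset.card_erase_of_mem (Finset.mem_univ _), Finset.card_univ]
      have : 0 < Fintype.card Ω := Fintype.card_pos_iff.mpr ⟨a⟩
      omega
    omega
  -- a third point
  have h3pt : 3 ≤ Fintype.card Ω := by
    obtain ⟨x, hx⟩ : ∃ x : Ω, g₀ • x ≠ x := by
      by_contra hcon
      push Not at hcon
      apply hg₀
      apply hfaith.eq_of_smul_eq_smul
      intro y
      rw [hcon y, one_smul]
    have h1 : x ≠ a' := fun e => hx (by rw [e, hga])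
    have h4 : x ≠ b' := fun e => hx (by rw [e, hgb])
    have : 2 < (Finset.univ : Finset Ω).card :=
      Finset.two_lt_card_iff.mpr ⟨a', b', x, Finset.mem_univ _, Finset.mem_univ _, Finset.mem_univ _,
        hab', h1.symm, h4.symm⟩
    rwa [Finset.card_univ] at this
  set n := Nat.card F with hn
  have hn2 : 2 ≤ n := by omega
  have hn2d : n - 1 ≤ 2 * Nat.card H := by omega
  -- the action
  letI act : MulAction H F :=
    { smul := fun h u => ⟨(h : G) * u * (h : G)⁻¹, hconj h h.2.1 u u.2⟩
      one_smul := fun u => Subtype.ext (by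
        change ((1 : H) : G) * u * ((1 : H) : G)⁻¹ = u
        simp)
      mul_smul := fun h k u => Subtype.ext (by
        change ((h * k : H) : G) * u * ((h * k : H) : G)⁻¹
          = (h : G) * ((k : G) * u * (k : G)⁻¹) * (h : G)⁻¹
        rw [Subgroup.coe_mul]
        group) }
  have hsm : ∀ (h : H) (u : F), ((h • u : F) : G) = (h : G) * u * (h : G)⁻¹ := fun _ _ => rfl
  have hfr : ∀ (h : H) (u : F), u ≠ 1 → h • u = u → h = 1 := by
    intro h u hu he
    have h1 : (h : G) * u * (h : G)⁻¹ = u := by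
      rw [← hsm, he]
    have h4 : (h : G) * u = u * h := by
      rw [mul_inv_eq_iff_eq_mul] at h1
      exact h1
    have hfa : (h : G) • a = a := h.2.1
    have hfb : (h : G) • b = b := h.2.2
    have h5 : (h : G) • ((u : G) • b) = (u : G) • b := by
      rw [← mul_smul, h4, mul_smul, hfb]
    have h6 : (u : G) • b ≠ b := fun e => hu (hone u e)
    have := h3 (h : G) a b ((u : G) • b) hab h6.symm (huba u).symm hfa hfb h5
    exact Subtype.ext this
  have hcount : ∀ A : F → Prop, (∀ (h : H) x, A x → A (h • x)) → (∀ x, A x → x ≠ 1) →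
      Nat.card H ∣ Nat.card {x // A x} := fun A hA hA1 =>
    free_count A hA (fun h x hx he => hfr h x (hA1 x hx) he)
  have hsmne : ∀ (h : H) (x : F), x ≠ 1 → h • x ≠ 1 := by
    intro h x hx he
    apply hx
    have h1 : (h : G) * x * (h : G)⁻¹ = 1 := by
      rw [← hsm, he]; rfl
    have h4 : (x : G) = 1 := by
      rw [mul_inv_eq_one, mul_eq_left] at h1
      exact h1
    exact Subtype.ext h4
  have hne1 : Nat.card {x : F // True ∧ x ≠ 1} = n - 1 := by
    have h1 := card_split (fun _ : F => True) 1 trivial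
    have h4 : Nat.card {x : F // True} = n := by
      rw [hn]
      exact Nat.card_congr (Equiv.subtypeUnivEquiv (fun _ => trivial))
    omega
  have hdn : Nat.card H ∣ n - 1 := by
    rw [← hne1]
    exact hcount _ (fun h x hx => ⟨trivial, hsmne h x hx.2⟩) (fun x hx => hx.2)
  -- prime
  have hn1 : n ≠ 1 := by omega
  set p := n.minFac with hp
  have hpp : p.Prime := Nat.minFac_prime hn1
  have hpn : p ∣ n := Nat.minFac_dvd n
  haveI : Fact p.Prime := ⟨hpp⟩
  -- exponent
  have hfrob := Cfsg.Agent.Lib.FrobCount.dvd_card_pow_eq_one (G := F) (m := p) hpn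
  have hsplit := card_split (fun x : F => x ^ p = 1) 1 (one_pow p)
  have hAp : Nat.card H ∣ Nat.card {x : F // x ^ p = 1 ∧ x ≠ 1} := by
    apply hcount _ _ (fun x hx => hx.2)
    intro h x hx
    refine ⟨?_, hsmne h x hx.2⟩
    apply Subtype.ext
    rw [Subgroup.coe_pow, hsm, conj_pow, ← Subgroup.coe_pow, hx.1]
    simp
  have hle : Nat.card {x : F // x ^ p = 1 ∧ x ≠ 1} ≤ n - 1 := by
    rw [← hne1]
    exact Nat.card_le_card_of_injective
      (fun x => (⟨x.1, trivial, x.2.2⟩ : {x : F // True ∧ x ≠ 1}))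
      (fun x y h => Subtype.ext (congrArg (fun z : {x : F // True ∧ x ≠ 1} => z.1) h))
  obtain ⟨k, hk⟩ := hAp
  have hkeq := arith (n := n) (d := Nat.card H) (k := k) (p := p) hdpos (by omega) hdn hn2 hn2d
    (by rw [mul_comm, ← hk]; exact hle) hpp hpn (by rw [mul_comm k, ← hk, ← hsplit]; exact hfrob)
  have hexp : ∀ x : F, x ^ p = 1 := by
    intro x
    by_cases hx : x = 1
    · rw [hx, one_pow]
    · have := all_of_card (fun x : F => x ^ p = 1 ∧ x ≠ 1) (fun x : F => True ∧ x ≠ 1)
        (fun x hx => ⟨trivial, hx.2⟩) (by rw [hne1, hk, mul_comm, hkeq]) x ⟨trivial, hx⟩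
      exact this.1
  have hpg : IsPGroup p F := fun x => ⟨1, by rw [pow_one]; exact hexp x⟩
  obtain ⟨f, hf⟩ := IsPGroup.iff_card.mp hpg
  haveI hnt : Nontrivial F := by
    rw [← Finite.one_lt_card_iff_nontrivial]
    omega
  -- centre
  have hZnt := hpg.center_nontrivial
  have hsplitZ := card_split (fun x : F => x ∈ Subgroup.center F) 1 (Subgroup.one_mem _)
  have hAZ : Nat.card H ∣ Nat.card {x : F // x ∈ Subgroup.center F ∧ x ≠ 1} := by
    apply hcount _ _ (fun x hx => hx.2)
    intro h x hx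
    refine ⟨?_, hsmne h x hx.2⟩
    rw [Subgroup.mem_center_iff]
    intro y
    apply Subtype.ext
    have hcomm := (Subgroup.mem_center_iff.mp hx.1) ((h⁻¹ : H) • y)
    have hc' := congrArg Subtype.val hcomm
    rw [Subgroup.coe_mul, Subgroup.coe_mul, hsm] at hc'
    rw [Subgroup.coe_mul, Subgroup.coe_mul, hsm]
    have hinv : ((h⁻¹ : H) : G) = (h : G)⁻¹ := rfl
    rw [hinv, inv_inv] at hc'
    have h6 := congrArg (fun z => (h : G) * z * (h : G)⁻¹) hc'
    beta_reduce at h6
    have l : (h : G) * ((h : G)⁻¹ * (y : G) * (h : G) * (x : G)) * (h : G)⁻¹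
        = (y : G) * ((h : G) * (x : G) * (h : G)⁻¹) := by group
    have r : (h : G) * ((x : G) * ((h : G)⁻¹ * (y : G) * (h : G))) * (h : G)⁻¹
        = ((h : G) * (x : G) * (h : G)⁻¹) * (y : G) := by group
    rw [l, r] at h6
    exact h6
  have hleZ : Nat.card {x : F // x ∈ Subgroup.center F ∧ x ≠ 1} ≤ n - 1 := by
    rw [← hne1]
    exact Nat.card_le_card_of_injective
      (fun x => (⟨x.1, trivial, x.2.2⟩ : {x : F // True ∧ x ≠ 1}))
      (fun x y h => Subtype.ext (congrArg (fun z : {x : F // True ∧ x ≠ 1} => z.1) h))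
  obtain ⟨k', hk'⟩ := hAZ
  have hcZ : Nat.card {x : F // x ∈ Subgroup.center F} = Nat.card (Subgroup.center F) := rfl
  have hZdvd : Nat.card (Subgroup.center F) ∣ n := Subgroup.card_subgroup_dvd_card _
  have hk'1 : 1 ≤ k' := by
    by_contra h
    have h0 : k' = 0 := by omega
    rw [h0, mul_zero] at hk'
    rw [hk', hcZ] at hsplitZ
    obtain ⟨z, hz⟩ := (Subgroup.nontrivial_iff_exists_ne_one _).mp hZnt
    have h7 : Nat.card (Subgroup.center F) = 1 := hsplitZ
    have h8 := (Finite.one_lt_card_iff_nontrivial (α := Subgroup.center F)).mpr hZnt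
    omega
  have hk'eq := arith2 (n := n) (d := Nat.card H) (k := k') hdpos hdn hn2 hn2d
    (by rw [mul_comm, ← hk']; exact hleZ) hk'1 (by
      rw [mul_comm k', ← hk', ← hsplitZ, hcZ]; exact hZdvd)
  have hcentral : ∀ x : F, x ∈ Subgroup.center F := by
    intro x
    by_cases hx : x = 1
    · rw [hx]; exact Subgroup.one_mem _
    · have := all_of_card (fun x : F => x ∈ Subgroup.center F ∧ x ≠ 1) (fun x : F => True ∧ x ≠ 1)
        (fun x hx => ⟨trivial, hx.2⟩) (by rw [hne1, hk', mul_comm, hk'eq]) x ⟨trivial, hx⟩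
      exact this.1
  refine ⟨⟨⟨fun x y => (Subgroup.mem_center_iff.mp (hcentral x) y).symm⟩⟩, p, f, hpp, ?_, ?_⟩
  · intro u hu
    have := hexp ⟨u, hu⟩
    exact congrArg Subtype.val this
  · rw [← hcardF, hn, hf]

end Cfsg.Agent.S0738
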