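import Cfsg.Statements.S0740
import Mathlib

set_option autoImplicit false
open Cfsg

namespace Cfsg.Agent.S0740


theorem card_fixedBy_le {G Ω : Type*} [Group G] [MulAction G Ω] [Fintype Ω]
    (hZ : Cfsg.IsZassenhausGroup G Ω) (s : G) (hs : s ≠ 1) : Nat.card (MulAction.fixedBy Ω s) ≤ 2 := by
  classical
  obtain ⟨_, _, h3, _, _⟩ := hZ
  by_contra hcon
  push Not at hcon
  rw [Nat.card_eq_fintype_card, ← Set.toFinset_card] at hcon
  rw [Finset.two_lt_card] at hcon
  obtain ⟨a, ha, b, hb, c, hc, hab, hac, hbc⟩ := hcon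
  rw [Set.mem_toFinset, MulAction.mem_fixedBy] at ha hb hc
  exact hs (h3 s a b c hab hbc hac ha hb hc)

theorem card_fixedBy_parity {G Ω : Type*} [Group G] [MulAction G Ω] [Fintype Ω]
    (s : G) (hs : s ^ 2 = 1) : (Fintype.card Ω + Nat.card (MulAction.fixedBy Ω s)) % 2 = 0 := by
  classical
  have h1 : (MulAction.toPerm s : Equiv.Perm Ω) ^ 2 = 1 := by
    ext x
    have : (s ^ 2) • x = x := by rw [hs, one_smul]
    rw [pow_two, mul_smul] at this
    simpa [pow_two] using this
  have h2 := Equiv.Perm.two_dvd_card_support h1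
  have h3 : (MulAction.toPerm s : Equiv.Perm Ω).support.card + Nat.card (MulAction.fixedBy Ω s) = Fintype.card Ω := by
    rw [Nat.card_eq_fintype_card, ← Set.toFinset_card, ← Finset.card_univ]
    rw [← Finset.card_sdiff_add_card_eq_card (Finset.subset_univ (MulAction.fixedBy Ω s).toFinset)]
    congr 2
    ext x
    simp [Equiv.Perm.mem_support, MulAction.mem_fixedBy]
  omega

theorem exists_moved {G Ω : Type*} [Group G] [MulAction G Ω] [FaithfulSMul G Ω] (s : G) (hs : s ≠ 1) :
    ∃ c : Ω, s • c ≠ c := by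
  by_contra hcon
  push Not at hcon
  apply hs
  apply FaithfulSMul.eq_of_smul_eq_smul (α := Ω)
  intro x
  rw [one_smul, hcon]

/-- In a finite Zassenhaus group any two points `a ≠ b` are swapped by an involution; every such involution has exactly one fixed point when the degree is odd and 0 or 2 fixed points when the degree is even; and if the two-point stabiliser has even order, some such involution has exactly 2 fixed points. -/
theorem result {G Ω : Type*} [Group G] [Finite G] [MulAction G Ω] [Fintype Ω] (hZ : Cfsg.IsZassenhausGroup G Ω) {a b : Ω} (hab : a ≠ b) : (∃ s : G, orderOf s = 2 ∧ s • a = b ∧ s • b = a) ∧ (∀ s : G, orderOf s = 2 → s • a = b → s • b = a → (Odd (Fintype.card Ω) → Nat.card (MulAction.fixedBy Ω s) = 1) ∧ (Even (Fintype.card Ω) → Nat.card (MulAction.fixedBy Ω s) = 0 ∨ Nat.card (MulAction.fixedBy Ω s) = 2)) ∧ (Even (Fintype.card Ω) → Even (Nat.card ↥(MulAction.stabilizer G a ⊓ MulAction.stabilizer G b)) → ∃ s : G, orderOf s = 2 ∧ s • a = b ∧ s • b = a ∧ Nat.card (MulAction.fixedBy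 Ω s) = 2) := by
  classical
  have hZ' := hZ
  obtain ⟨hf, h2, h3, hex, _⟩ := hZ
  have := hf
  have := h2
  have htr : ∀ a b c d : Ω, a ≠ b → c ≠ d → ∃ g : G, g • a = c ∧ g • b = d := by
    intro a b c d h1 h2'
    exact MulAction.is_two_pretransitive_iff.1 h2 h1 h2'
  -- conjugating an involution that moves a point onto the pair (a,b)
  have hconj : ∀ (t : G), orderOf t = 2 → ∃ s : G, orderOf s = 2 ∧ s • a = b ∧ s • b = a ∧ ∃ h : G, s = h * t * h⁻¹ := by
    intro t ht
    have ht1 : t ≠ 1 := by
      intro e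
      rw [e, orderOf_one] at ht
      omega
    obtain ⟨c, hc⟩ := exists_moved (Ω := Ω) t ht1
    have htt : t * t = 1 := by
      rw [← pow_two, ← ht, pow_orderOf_eq_one]
    obtain ⟨h, h1, h2'⟩ := htr c (t • c) a b (Ne.symm hc) hab
    refine ⟨h * t * h⁻¹, ?_, ?_, ?_, h, rfl⟩
    · rw [show h * t * h⁻¹ = MulAut.conj h t from rfl, MulEquiv.orderOf_eq]; exact ht
    · rw [← h1, ← mul_smul]
      simp only [mul_assoc, inv_mul_cancel, mul_one]
      rw [mul_smul, h2']
    · rw [← h2', ← mul_smul]
      simp only [mul_assoc, inv_mul_cancel, mul_one]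
      rw [mul_smul, ← mul_smul t t, htt, one_smul, h1]
  have hFix : ∀ s : G, orderOf s = 2 → (Odd (Fintype.card Ω) → Nat.card (MulAction.fixedBy Ω s) = 1) ∧ (Even (Fintype.card Ω) → Nat.card (MulAction.fixedBy Ω s) = 0 ∨ Nat.card (MulAction.fixedBy Ω s) = 2) := by
    intro s hs
    have hs1 : s ≠ 1 := by
      intro e
      rw [e, orderOf_one] at hs
      omega
    have hle := card_fixedBy_le hZ' s hs1
    have hpar := card_fixedBy_parity (Ω := Ω) s (by rw [← hs, pow_orderOf_eq_one])
    constructor
    · intro hodd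
      rw [Nat.odd_iff] at hodd
      omega
    · intro heven
      rw [Nat.even_iff] at heven
      omega
  refine ⟨?_, fun s hs _ _ => hFix s hs, ?_⟩
  · -- some involution exists
    obtain ⟨g, hg1, hg2⟩ := htr a b b a hab (Ne.symm hab)
    have hgodd : ¬ Odd (orderOf g) := by
      intro hodd
      obtain ⟨k, hk⟩ := hodd
      have h1 : ∀ n : ℕ, g ^ (2 * n + 1) • a = b := by
        intro n
        induction n with
        | zero => simpa using hg1
        | succ n ih =>
          rw [show 2 * (n + 1) + 1 = 2 + (2 * n + 1) by ring, pow_add, mul_smul, ih, pow_two, mul_smul, hg2, hg1]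
      have := h1 k
      rw [← hk, pow_orderOf_eq_one, one_smul] at this
      exact hab this
    have heven : Even (orderOf g) := by
      rwa [Nat.not_odd_iff_even] at hgodd
    obtain ⟨m, hm⟩ := heven
    have hm0 : orderOf g ≠ 0 := by
      intro h0
      exact absurd (orderOf_eq_zero_iff.1 h0) (by simp [isOfFinOrder_of_finite])
    have : orderOf (g ^ m) = 2 := by
      have h2m : orderOf g = m * 2 := by omega
      have hmpos : 0 < m := by omega
      rw [orderOf_pow_of_dvd (by omega) ⟨2, h2m⟩, h2m]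
      exact Nat.mul_div_cancel_left 2 hmpos
    obtain ⟨s, h1, h2', h3', _⟩ := hconj _ this
    exact ⟨s, h1, h2', h3'⟩
  · intro heven hD
    have h2dvd : 2 ∣ Nat.card ↥(MulAction.stabilizer G a ⊓ MulAction.stabilizer G b) := by
      rwa [← even_iff_two_dvd]
    haveI : Fact (Nat.Prime 2) := ⟨Nat.prime_two⟩
    obtain ⟨t, ht⟩ := exists_prime_orderOf_dvd_card' 2 h2dvd
    have ht' : orderOf (t : G) = 2 := by
      rw [Subgroup.orderOf_coe]; exact ht
    obtain ⟨s, h1, h2', h3', h, rfl⟩ := hconj _ ht'
    refine ⟨_, h1, h2', h3', ?_⟩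
    rcases (hFix _ h1).2 heven with h0 | h2''
    · exfalso
      have hmem : h • a ∈ MulAction.fixedBy Ω (h * (t : G) * h⁻¹) := by
        rw [MulAction.mem_fixedBy]
        have hta : (t : G) • a = a := (Subgroup.mem_inf.1 t.2).1
        rw [mul_smul, mul_smul, inv_smul_smul, hta]
      have := (Nat.card_eq_zero.1 h0)
      rcases this with he | hi
      · exact he.false ⟨_, hmem⟩
      · exact (not_finite_iff_infinite.2 hi) inferInstance
    · exact h2''


end Cfsg.Agent.S0740
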