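import Cfsg.Statements.S0743
import Mathlib
import Cfsg.Agent.Lib.PermOrb

set_option autoImplicit false
open Cfsg

namespace Cfsg.Agent.S0743


open Cfsg.Agent.Lib.PermOrb

/-- Gleason's Lemma: let `p` be a prime and `1 ≤ k < n`; if every `k`-subset of the `n` points is exactly the fixed-point set of some `p`-subgroup of `G`, then `G` is `k`-transitive. -/
theorem result {α : Type*} [Fintype α] [DecidableEq α] (G : Subgroup (Equiv.Perm α)) {p k : ℕ} (hp : p.Prime) (hk : 1 ≤ k) (hkn : k < Fintype.card α) (h : ∀ s : Finset α, s.card = k → ∃ P : Subgroup G, IsPGroup p P ∧ MulAction.fixedPoints P α = (s : Set α)) : MulAction.IsMultiplyPretransitive G α k := by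
  classical
  have : Fact p.Prime := ⟨hp⟩
  apply isMultiplyPretransitive_of_fixing k
  intro s hs a b ha hb
  by_contra hcon
  push Not at hcon
  let O : Finset α := Finset.univ.filter (fun c => ∃ g : G, (∀ x ∈ s, g • x = x) ∧ g • a = c)
  have haO : a ∈ O := by
    simp only [O, Finset.mem_filter, Finset.mem_univ, true_and]
    exact ⟨1, fun x _ => by simp, by simp⟩
  have hbO : b ∉ O := by
    simp only [O, Finset.mem_filter, Finset.mem_univ, true_and, not_exists, not_and]
    exact fun g hg => hcon g hg
  have hab : a ≠ b := fun e => hbO (e ▸ haO)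
  have key : ∀ T : Finset α, T.card = k → s ⊆ T → O.card ≡ (O ∩ T).card [MOD p] := by
    intro T hTk hsT
    obtain ⟨P, hP, hfix⟩ := h T hTk
    refine card_modEq_inter hP O ?_ T hfix
    intro u c hc
    simp only [O, Finset.mem_filter, Finset.mem_univ, true_and] at hc ⊢
    obtain ⟨g, hg1, hg2⟩ := hc
    have hu : ∀ x ∈ s, (u : G) • x = x := by
      intro x hx
      have : x ∈ MulAction.fixedPoints P α := by
        rw [hfix]; exact hsT hx
      exact this u
    refine ⟨(u : G) * g, ?_, ?_⟩
    · intro x hx
      rw [mul_smul, hg1 x hx, hu x hx]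
    · rw [mul_smul, hg2]; rfl
  have hsub : insert a s ⊆ Finset.univ.erase b := by
    intro x hx
    rw [Finset.mem_insert] at hx
    rw [Finset.mem_erase]
    refine ⟨?_, Finset.mem_univ _⟩
    rcases hx with rfl | hx
    · exact hab
    · intro e; exact hb (e ▸ hx)
  have hc1 : (insert a s).card ≤ k := by
    rw [Finset.card_insert_of_notMem ha]; omega
  have hc2 : k ≤ (Finset.univ.erase b).card := by
    rw [Finset.card_erase_of_mem (Finset.mem_univ _), Finset.card_univ]; omega
  obtain ⟨T, hT1, hT2, hT3⟩ := Finset.exists_subsuperset_card_eq hsub hc1 hc2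
  have haT : a ∈ T := hT1 (Finset.mem_insert_self _ _)
  have hbT : b ∉ T := fun hb' => (Finset.mem_erase.1 (hT2 hb')).1 rfl
  have hsT : s ⊆ T := fun x hx => hT1 (Finset.mem_insert_of_mem hx)
  let T' : Finset α := insert b (T.erase a)
  have hT'card : T'.card = k := by
    have hk1 : (T.erase a).card + 1 = T.card := Finset.card_erase_add_one haT
    rw [Finset.card_insert_of_notMem (fun h' => hbT (Finset.mem_of_mem_erase h')), hk1, hT3]
  have hsT' : s ⊆ T' := by
    intro x hx
    refine Finset.mem_insert_of_mem (Finset.mem_erase.2 ⟨?_, hsT hx⟩)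
    intro e; exact ha (e ▸ hx)
  have h1 := key T hT3 hsT
  have h2 := key T' hT'card hsT'
  have heq : O ∩ T = insert a (O ∩ T') := by
    ext x
    simp only [T', Finset.mem_inter, Finset.mem_insert, Finset.mem_erase]
    constructor
    · rintro ⟨hxO, hxT⟩
      by_cases hxa : x = a
      · exact Or.inl hxa
      · exact Or.inr ⟨hxO, Or.inr ⟨hxa, hxT⟩⟩
    · rintro (rfl | ⟨hxO, hx⟩)
      · exact ⟨haO, haT⟩
      · refine ⟨hxO, ?_⟩
        rcases hx with rfl | ⟨_, hx⟩
        · exact absurd hxO hbO
        · exact hx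
  have hcard : (O ∩ T).card = (O ∩ T').card + 1 := by
    rw [heq, Finset.card_insert_of_notMem]
    intro hmem
    have := (Finset.mem_inter.1 hmem).2
    simp only [T', Finset.mem_insert, Finset.mem_erase] at this
    rcases this with e | ⟨e, _⟩
    · exact hab e
    · exact e rfl
  have h3 : (O ∩ T').card ≡ (O ∩ T').card + 1 [MOD p] := by
    rw [← hcard]
    exact h2.symm.trans h1
  have h4 := (Nat.modEq_iff_dvd' (Nat.le_succ _)).1 h3
  simp only [Nat.succ_eq_add_one, Nat.add_sub_cancel_left] at h4
  exact hp.one_lt.ne' (Nat.dvd_one.1 h4)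


end Cfsg.Agent.S0743
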