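import Cfsg.Statements.S0744
import Mathlib
import Cfsg.Agent.Lib.PermOrb

set_option autoImplicit false
open Cfsg

namespace Cfsg.Agent.S0744


open Cfsg.Agent.Lib.PermOrb

theorem step {α : Type*} [Fintype α] [DecidableEq α] (G : Subgroup (Equiv.Perm α)) (s : Finset α) (l m : ℕ) (hl : 1 < l)
    (h1 : ∀ x, x ∉ s → Nat.card (fixingSubgroup G ((insert x s : Finset α) : Set α)) = l)
    (h2 : ∀ x y, x ∉ s → y ∉ s → x ≠ y → Nat.card (fixingSubgroup G ((insert x (insert y s) : Finset α) : Set α)) = m) :
    MulAction.IsPretransitive (fixingSubgroup G (s : Set α)) (SubMulAction.ofFixingSubgroup G (s : Set α)) := by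
  classical
  have : FaithfulSMul (fixingSubgroup G (s : Set α)) (SubMulAction.ofFixingSubgroup G (s : Set α)) := by
    refine ⟨fun {u v} huv => ?_⟩
    apply Subtype.ext
    apply Subtype.ext
    ext x
    by_cases hx : x ∈ s
    · have hu := (mem_fixingSubgroup_iff G).1 u.2 x hx
      have hv := (mem_fixingSubgroup_iff G).1 v.2 x hx
      exact hu.trans hv.symm
    · exact congrArg Subtype.val (huv ⟨x, fun h => hx h⟩)
  refine pretransitive_of_stabilizers l m hl ?_ ?_
  · intro x
    have hx : (x : α) ∉ s := fun h => x.2 h
    rw [← h1 x hx]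
    refine Nat.card_congr ⟨fun u => ⟨u.1.1, ?_⟩, fun u => ⟨⟨u.1, ?_⟩, ?_⟩, fun _ => rfl, fun _ => rfl⟩
    · rw [mem_fixingSubgroup_iff]
      intro y hy
      simp only [Finset.coe_insert, Set.mem_insert_iff, Finset.mem_coe] at hy
      rcases hy with rfl | hy
      · exact congrArg Subtype.val u.2
      · exact (mem_fixingSubgroup_iff G).1 u.1.2 y hy
    · rw [mem_fixingSubgroup_iff]
      intro y hy
      exact (mem_fixingSubgroup_iff G).1 u.2 y (by simp only [Finset.coe_insert]; exact Set.mem_insert_of_mem _ hy)
    · refine MulAction.mem_stabilizer_iff.2 ?_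
      apply Subtype.ext
      exact (mem_fixingSubgroup_iff G).1 u.2 _ (by simp only [Finset.coe_insert]; exact Set.mem_insert _ _)
  · intro x y hxy
    have hx : (x : α) ∉ s := fun h => x.2 h
    have hy : (y : α) ∉ s := fun h => y.2 h
    have hxy' : (x : α) ≠ y := fun e => hxy (Subtype.ext e)
    rw [← h2 x y hx hy hxy']
    refine Nat.card_congr ⟨fun u => ⟨u.1.1, ?_⟩, fun u => ⟨⟨u.1, ?_⟩, ?_, ?_⟩, fun _ => rfl, fun _ => rfl⟩
    · rw [mem_fixingSubgroup_iff]
      intro z hz
      simp only [Finset.coe_insert, Set.mem_insert_iff, Finset.mem_coe] at hz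
      rcases hz with rfl | rfl | hz
      · exact congrArg Subtype.val u.2.1
      · exact congrArg Subtype.val u.2.2
      · exact (mem_fixingSubgroup_iff G).1 u.1.2 z hz
    · rw [mem_fixingSubgroup_iff]
      intro z hz
      exact (mem_fixingSubgroup_iff G).1 u.2 z (by
        simp only [Finset.coe_insert, Set.mem_insert_iff, Finset.mem_coe]; exact Or.inr (Or.inr hz))
    · refine MulAction.mem_stabilizer_iff.2 ?_
      apply Subtype.ext
      exact (mem_fixingSubgroup_iff G).1 u.2 _ (by
        simp only [Finset.coe_insert, Set.mem_insert_iff, Finset.mem_coe]; simp)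
    · refine MulAction.mem_stabilizer_iff.2 ?_
      apply Subtype.ext
      exact (mem_fixingSubgroup_iff G).1 u.2 _ (by
        simp only [Finset.coe_insert, Set.mem_insert_iff, Finset.mem_coe]; simp)

/-- If for some `k > 1` the pointwise stabilisers of all `(k-1)`-subsets have the same order `> 1` and those of all `k`-subsets have the same order, then the group is `(k-1)`-transitive. -/
theorem result {α : Type*} [Fintype α] [DecidableEq α] (G : Subgroup (Equiv.Perm α)) {k : ℕ} (hk : 1 < k) (hkn : k ≤ Fintype.card α) (l m : ℕ) (hl : 1 < l) (hkm1 : ∀ s : Finset α, s.card = k - 1 → Nat.card (fixingSubgroup G (s : Set α)) = l) (hkm : ∀ s : Finset α, s.card = k → Nat.card (fixingSubgroup G (s : Set α)) = m) : MulAction.IsMultiplyPretransitive G α (k - 1) := by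
  classical
  -- the downward induction
  have hT : ∀ j : ℕ, j + 2 ≤ k → (∃ L, 1 < L ∧ ∀ s : Finset α, s.card = j + 1 → Nat.card (fixingSubgroup G (s : Set α)) = L) ∧ ∃ M, ∀ s : Finset α, s.card = j + 2 → Nat.card (fixingSubgroup G (s : Set α)) = M := by
    have : ∀ d j : ℕ, j + 2 + d = k → (∃ L, 1 < L ∧ ∀ s : Finset α, s.card = j + 1 → Nat.card (fixingSubgroup G (s : Set α)) = L) ∧ ∃ M, ∀ s : Finset α, s.card = j + 2 → Nat.card (fixingSubgroup G (s : Set α)) = M := by
      intro d
      induction d with
      | zero =>
        intro j hj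
        refine ⟨⟨l, hl, fun s hs => hkm1 s (by omega)⟩, m, fun s hs => hkm s (by omega)⟩
      | succ d ih =>
        intro j hj
        obtain ⟨⟨L, hL, hL'⟩, M, hM⟩ := ih (j + 1) (by omega)
        refine ⟨⟨(Fintype.card α - (j + 1)) * L, ?_, ?_⟩, L, fun s hs => hL' s (by omega)⟩
        · have : 0 < Fintype.card α - (j + 1) := by omega
          nlinarith
        · intro s hs
          have hins1 : ∀ x, x ∉ s → Nat.card (fixingSubgroup G ((insert x s : Finset α) : Set α)) = L := by
            intro x hx
            exact hL' _ (by rw [Finset.card_insert_of_notMem hx, hs])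
          have hins2 : ∀ x y, x ∉ s → y ∉ s → x ≠ y → Nat.card (fixingSubgroup G ((insert x (insert y s) : Finset α) : Set α)) = M := by
            intro x y hx hy hxy
            refine hM _ ?_
            rw [Finset.card_insert_of_notMem, Finset.card_insert_of_notMem hy, hs]
            rw [Finset.mem_insert]
            rintro (e | e)
            · exact hxy e
            · exact hx e
          have htrans := step G s L M hL hins1 hins2
          have hne : ∃ x, x ∉ s := by
            by_contra hcon
            push Not at hcon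
            have : s = Finset.univ := Finset.eq_univ_iff_forall.2 hcon
            rw [this, Finset.card_univ] at hs
            omega
          obtain ⟨x, hx⟩ := hne
          let x' : SubMulAction.ofFixingSubgroup G (s : Set α) := ⟨x, fun h => hx h⟩
          have e1 := card_orbit_mul_stab (G := fixingSubgroup G (s : Set α)) x'
          have e2 : Nat.card (MulAction.orbit (fixingSubgroup G (s : Set α)) x') = Fintype.card α - (j + 1) := by
            rw [MulAction.orbit_eq_univ, Nat.card_coe_set_eq, Set.ncard_univ]
            have : Nat.card (SubMulAction.ofFixingSubgroup G (s : Set α)) = (sᶜ : Finset α).card := by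
              have e : Nat.card (SubMulAction.ofFixingSubgroup G (s : Set α)) = Nat.card {x // x ∈ (sᶜ : Finset α)} :=
                Nat.card_congr ⟨fun y => ⟨y.1, Finset.mem_compl.2 (fun h => y.2 h)⟩, fun y => ⟨y.1, fun h => (Finset.mem_compl.1 y.2) h⟩, fun _ => rfl, fun _ => rfl⟩
              rw [e, Nat.card_eq_fintype_card, Fintype.card_coe]
            rw [this, Finset.card_compl, hs]
          have e3 : Nat.card (MulAction.stabilizer (fixingSubgroup G (s : Set α)) x') = L := by
            rw [← hins1 x hx]
            refine Nat.card_congr ⟨fun u => ⟨u.1.1, ?_⟩, fun u => ⟨⟨u.1, ?_⟩, ?_⟩, fun _ => rfl, fun _ => rfl⟩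
            · rw [mem_fixingSubgroup_iff]
              intro y hy
              simp only [Finset.coe_insert, Set.mem_insert_iff, Finset.mem_coe] at hy
              rcases hy with rfl | hy
              · exact congrArg Subtype.val u.2
              · exact (mem_fixingSubgroup_iff G).1 u.1.2 y hy
            · rw [mem_fixingSubgroup_iff]
              intro y hy
              exact (mem_fixingSubgroup_iff G).1 u.2 y (by simp only [Finset.coe_insert]; exact Set.mem_insert_of_mem _ hy)
            · refine MulAction.mem_stabilizer_iff.2 ?_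
              apply Subtype.ext
              exact (mem_fixingSubgroup_iff G).1 u.2 _ (by simp only [Finset.coe_insert]; exact Set.mem_insert _ _)
          rw [← e1, e2, e3]
    intro j hj
    exact this (k - (j + 2)) j (by omega)
  apply isMultiplyPretransitive_of_fixing (k - 1)
  intro s hs a b ha hb
  obtain ⟨⟨L, hL, hL'⟩, M, hM⟩ := hT s.card (by omega)
  have hins1 : ∀ x, x ∉ s → Nat.card (fixingSubgroup G ((insert x s : Finset α) : Set α)) = L := by
    intro x hx
    exact hL' _ (by rw [Finset.card_insert_of_notMem hx])
  have hins2 : ∀ x y, x ∉ s → y ∉ s → x ≠ y → Nat.card (fixingSubgroup G ((insert x (insert y s) : Finset α) : Set α)) = M := by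
    intro x y hx hy hxy
    refine hM _ ?_
    rw [Finset.card_insert_of_notMem, Finset.card_insert_of_notMem hy]
    rw [Finset.mem_insert]
    rintro (e | e)
    · exact hxy e
    · exact hx e
  have htrans := step G s L M hL hins1 hins2
  obtain ⟨u, hu⟩ := htrans.exists_smul_eq ⟨a, fun h => ha h⟩ ⟨b, fun h => hb h⟩
  refine ⟨u.1, fun x hx => (mem_fixingSubgroup_iff G).1 u.2 x hx, ?_⟩
  exact congrArg Subtype.val hu


end Cfsg.Agent.S0744
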