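import Cfsg.Statements.S0753
import Mathlib

set_option autoImplicit false
open Cfsg

namespace Cfsg.Agent.S0753

theorem result {F V : Type*} [Field F] [AddCommGroup V] [Module F V] (σ : F →+* F) (hσ : σ ≠ RingHom.id F) (B : V →ₛₗ[σ] V →ₗ[F] F) (hS : B.IsSymm) (h0 : ∀ v : V, B v v = 0) : B = 0 := by
  -- σ is not the identity: pick a with σ a ≠ a
  obtain ⟨a, ha⟩ : ∃ a : F, σ a ≠ a := by
    by_contra h
    push Not at h
    exact hσ (RingHom.ext h)
  have hsymm : ∀ x y : V, σ (B x y) = B y x := fun x y => hS.eq x y
  have key : ∀ (c : F) (x y : V), σ c * B x y + c * B y x = 0 := by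
    intro c x y
    have h := h0 (c • x + y)
    simp only [map_add, map_smulₛₗ, LinearMap.add_apply, LinearMap.smul_apply, smul_eq_mul, h0, mul_zero, add_zero, zero_add] at h
    rw [add_comm] at h
    linear_combination h
  ext x y
  have h1 := key 1 x y
  have h2 := key a x y
  simp only [map_one, one_mul] at h1
  simp only [LinearMap.zero_apply]
  have h3 : (σ a - a) * B x y = 0 := by
    linear_combination h2 - a * h1
  rcases mul_eq_zero.mp h3 with h4 | h4
  · exact absurd (sub_eq_zero.mp h4) ha
  · exact h4

end Cfsg.Agent.S0753
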