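import Cfsg.Statements.S0755
import Cfsg.Agent.Lib.HermBasic

set_option autoImplicit false
open Cfsg

namespace Cfsg.Agent.S0755

variable {F V : Type*} [Field F] [Finite F] [AddCommGroup V] [Module F V] [FiniteDimensional F V]

theorem aux (σ : F →+* F) (hσ : σ ≠ RingHom.id F) (hσ2 : ∀ a : F, σ (σ a) = a) (B : V →ₛₗ[σ] V →ₗ[F] F) (hS : B.IsSymm)
    (W : Submodule F V) (hW : ∀ x ∈ W, (∀ y ∈ W, B x y = 0) → x = 0) :
    ∃ (n : ℕ) (e : Fin n → V), (∀ i, e i ∈ W) ∧ (∀ i j, B (e i) (e j) = if i = j then 1 else 0) ∧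
      Submodule.span F (Set.range e) = W := by
  classical
  have hsymm : ∀ a b, σ (B a b) = B b a := fun a b => hS.eq a b
  induction' h : Module.finrank F W using Nat.strong_induction_on with n ih generalizing W
  by_cases hW0 : W = ⊥
  · subst hW0
    refine ⟨0, Fin.elim0, fun i => i.elim0, fun i => i.elim0, ?_⟩
    simp
  -- an anisotropic vector
  obtain ⟨x, hxW, hxx⟩ : ∃ x ∈ W, B x x ≠ 0 := by
    by_contra hcon
    push Not at hcon
    obtain ⟨a, ha⟩ : ∃ a : F, σ a ≠ a := by
      by_contra h'
      push Not at h'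
      exact hσ (RingHom.ext h')
    have key : ∀ (c : F), ∀ x ∈ W, ∀ y ∈ W, σ c * B x y + c * B y x = 0 := by
      intro c x hx y hy
      have h := hcon (c • x + y) (W.add_mem (W.smul_mem _ hx) hy)
      simp only [map_add, map_smulₛₗ, LinearMap.add_apply, LinearMap.smul_apply, smul_eq_mul, hcon x hx, hcon y hy, mul_zero, add_zero, zero_add] at h
      rw [add_comm] at h
      linear_combination h
    have hzero : ∀ x ∈ W, ∀ y ∈ W, B x y = 0 := by
      intro x hx y hy
      have h1 := key 1 x hx y hy
      have h2 := key a x hx y hy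
      simp only [map_one, one_mul] at h1
      have h3 : (σ a - a) * B x y = 0 := by
        linear_combination h2 - a * h1
      rcases mul_eq_zero.mp h3 with h4 | h4
      · exact absurd (sub_eq_zero.mp h4) ha
      · exact h4
    apply hW0
    rw [eq_bot_iff]
    intro x hx
    exact hW x hx (hzero x hx)
  -- normalise
  obtain ⟨a, ha0, ha⟩ := Lib.HermBasic.norm_surj σ hσ hσ2 (B x x)⁻¹ (by rw [map_inv₀, hsymm]) (inv_ne_zero hxx)
  set e0 := a • x with he0
  have he0W : e0 ∈ W := W.smul_mem _ hxW
  have he0e0 : B e0 e0 = 1 := by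
    simp only [he0, map_smulₛₗ, LinearMap.smul_apply, LinearMap.map_smul, smul_eq_mul]
    have h3 : (a * σ a) * B x x = 1 := by rw [ha, inv_mul_cancel₀ hxx]
    linear_combination h3
  let W' : Submodule F V := W ⊓ LinearMap.ker (B e0)
  have hW'mem : ∀ {x}, x ∈ W' ↔ x ∈ W ∧ B e0 x = 0 := by
    intro x
    simp [W', Submodule.mem_inf, LinearMap.mem_ker]
  have hlt : W' < W := by
    refine lt_of_le_of_ne (fun x hx => (hW'mem.mp hx).1) ?_
    intro heq
    have : e0 ∈ W' := by rw [heq]; exact he0W
    have := (hW'mem.mp this).2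
    rw [he0e0] at this
    exact one_ne_zero this
  have hdim : Module.finrank F W' < n := h ▸ Submodule.finrank_lt_finrank_of_lt hlt
  have hproj : ∀ w ∈ W, w - (B e0 w) • e0 ∈ W' := by
    intro w hw
    rw [hW'mem]
    refine ⟨W.sub_mem hw (W.smul_mem _ he0W), ?_⟩
    rw [LinearMap.map_sub, LinearMap.map_smul, he0e0]
    simp
  have hW'nd : ∀ x ∈ W', (∀ y ∈ W', B x y = 0) → x = 0 := by
    intro x hx hxy
    apply hW x (hW'mem.mp hx).1
    intro y hy
    have h1 := hxy _ (hproj y hy)
    rw [LinearMap.map_sub, LinearMap.map_smul, ← hsymm e0 x, (hW'mem.mp hx).2, map_zero] at h1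
    simpa using h1
  obtain ⟨m, e', he', horth, hsp⟩ := ih _ hdim W' hW'nd rfl
  have h0' : ∀ i, B e0 (e' i) = 0 := fun i => (hW'mem.mp (he' i)).2
  have h0'' : ∀ i, B (e' i) e0 = 0 := fun i => by rw [← hsymm, h0', map_zero]
  refine ⟨m + 1, Fin.cons e0 e', ?_, ?_, ?_⟩
  · intro i
    refine Fin.cases ?_ (fun i => ?_) i
    · simpa using he0W
    · simpa using (hW'mem.mp (he' i)).1
  · intro i j
    refine Fin.cases ?_ (fun i => ?_) i <;> refine Fin.cases ?_ (fun j => ?_) j
    · simpa using he0e0
    · simpa [(Fin.succ_ne_zero j).symm] using h0' j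
    · simpa [Fin.succ_ne_zero] using h0'' i
    · simpa [Fin.succ_inj] using horth i j
  · apply le_antisymm
    · rw [Submodule.span_le]
      rintro _ ⟨i, rfl⟩
      refine Fin.cases ?_ (fun i => ?_) i
      · simpa using he0W
      · simpa using (hW'mem.mp (he' i)).1
    · intro w hw
      set T := Submodule.span F (Set.range (Fin.cons e0 e' : Fin (m + 1) → V)) with hT
      have h0T : e0 ∈ T := Submodule.subset_span ⟨0, by simp⟩
      have hW'T : W' ≤ T := by
        rw [← hsp, Submodule.span_le]
        rintro _ ⟨i, rfl⟩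
        exact Submodule.subset_span ⟨i.succ, by simp⟩
      have h1 := hW'T (hproj w hw)
      have h2 : w = (w - (B e0 w) • e0) + (B e0 w) • e0 := by abel
      rw [h2]
      exact T.add_mem h1 (T.smul_mem _ h0T)

/-- Classification of Hermitian forms over finite fields: if σ is a non-identity involutive automorphism of the finite field F and B is a non-degenerate conjugate-symmetric σ-sesquilinear form on the finite-dimensional space V, then V has a B-orthonormal basis. -/
theorem result {F V : Type*} [Field F] [Finite F] [AddCommGroup V] [Module F V] [FiniteDimensional F V] (σ : F →+* F) (hσ : σ ≠ RingHom.id F) (hσ2 : ∀ a : F, σ (σ a) = a) (B : V →ₛₗ[σ] V →ₗ[F] F) (hS : B.IsSymm) (hB : B.Nondegenerate) : ∃ b : Module.Basis (Fin (Module.finrank F V)) F V, ∀ i j, B (b i) (b j) = if i = j then 1 else 0 := by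
  obtain ⟨n, e, -, horth, hsp⟩ := aux σ hσ hσ2 B hS ⊤ (fun x _ h => hB.1 x (fun y => h y trivial))
  have hli : LinearIndependent F e := by
    rw [Fintype.linearIndependent_iff]
    intro g hg j
    have h1 := congrArg (B (e j)) hg
    simp only [map_sum, map_smul, map_zero, horth, smul_eq_mul, mul_ite, mul_one, mul_zero] at h1
    simpa using h1
  let b := Module.Basis.mk hli (by rw [hsp])
  have hn : n = Module.finrank F V := by
    rw [Module.finrank_eq_card_basis b]
    simp
  subst hn
  refine ⟨b, fun i j => ?_⟩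
  simpa [b] using horth i j

end Cfsg.Agent.S0755
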