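import Cfsg.Statements.S0756
import Mathlib

set_option autoImplicit false
open Cfsg

namespace Cfsg.Agent.S0756

variable {F V : Type*} [Field F] [Finite F] [AddCommGroup V] [Module F V] [FiniteDimensional F V]

/-- `a s² + b t² = 1` is solvable. -/
theorem exists_rep (h2 : (2 : F) ≠ 0) {a b : F} (ha : a ≠ 0) (hb : b ≠ 0) : ∃ s t : F, a * s ^ 2 + b * t ^ 2 = 1 := by
  classical
  haveI : Fintype F := Fintype.ofFinite F
  have hchar : ringChar F ≠ 2 := by
    intro h
    apply h2
    have := ringChar.Nat.cast_ringChar (R := F)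
    rw [h] at this
    exact_mod_cast this
  have hodd : Fintype.card F % 2 = 1 := FiniteField.odd_card_of_char_ne_two hchar
  have hf : (Polynomial.C a * Polynomial.X ^ 2 + Polynomial.C 0 * Polynomial.X + Polynomial.C 0 : Polynomial F).degree = 2 :=
    Polynomial.degree_quadratic ha
  have hg : (Polynomial.C b * Polynomial.X ^ 2 + Polynomial.C 0 * Polynomial.X + Polynomial.C (-1) : Polynomial F).degree = 2 :=
    Polynomial.degree_quadratic hb
  obtain ⟨s, t, hst⟩ := FiniteField.exists_root_sum_quadratic hf hg hodd
  refine ⟨s, t, ?_⟩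
  simp only [Polynomial.eval_add, Polynomial.eval_mul, Polynomial.eval_C, Polynomial.eval_pow, Polynomial.eval_X] at hst
  linear_combination hst

/-- Non-squares: quotient is a square. -/
theorem exists_scale (h2 : (2 : F) ≠ 0) {a α : F} (ha : a ≠ 0) (hna : ¬ IsSquare a) (hα : ¬ IsSquare α) :
    ∃ c : F, c ≠ 0 ∧ a * c ^ 2 = α := by
  classical
  haveI : Fintype F := Fintype.ofFinite F
  have hchar : ringChar F ≠ 2 := by
    intro h
    apply h2
    have := ringChar.Nat.cast_ringChar (R := F)
    rw [h] at this
    exact_mod_cast this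
  have hα0 : α ≠ 0 := by
    rintro rfl
    exact hα (IsSquare.zero)
  have h1 := (quadraticChar_neg_one_iff_not_isSquare (a := a)).mpr hna
  have h2' := (quadraticChar_neg_one_iff_not_isSquare (a := α)).mpr hα
  have h3 : quadraticChar F (α / a) = 1 := by
    have e : α = (α / a) * a := by field_simp
    have h5 := congrArg (quadraticChar F) e
    rw [map_mul, h1, h2'] at h5
    linarith
  have h4 : IsSquare (α / a) := by
    rw [quadraticChar_one_iff_isSquare (div_ne_zero hα0 ha)] at h3
    exact h3
  obtain ⟨c, hc⟩ := h4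
  have hc0 : c ≠ 0 := by
    rintro rfl
    have : α / a ≠ 0 := div_ne_zero hα0 ha
    simp at hc
    rcases hc with h | h
    · exact hα0 h
    · exact ha h
  refine ⟨c, hc0, ?_⟩
  rw [sq, ← hc]
  field_simp

theorem aux (h2 : (2 : F) ≠ 0) (B : LinearMap.BilinForm F V) (hS : B.IsSymm) (α : F) (hα : ¬ IsSquare α)
    (W : Submodule F V) (hW : ∀ x ∈ W, (∀ y ∈ W, B x y = 0) → x = 0) (hW0 : W ≠ ⊥) :
    ∃ (k : ℕ) (e : Fin (k + 1) → V), (∀ i, e i ∈ W) ∧ (∀ i j, i ≠ j → B (e i) (e j) = 0) ∧
      (∀ i, i ≠ Fin.last k → B (e i) (e i) = 1) ∧ (B (e (Fin.last k)) (e (Fin.last k)) = 1 ∨ B (e (Fin.last k)) (e (Fin.last k)) = α) ∧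
      Submodule.span F (Set.range e) = W := by
  classical
  have hsymm : ∀ a b, B a b = B b a := fun a b => hS.eq a b
  -- anisotropic vectors exist in non-zero non-degenerate subspaces
  have haniso : ∀ U : Submodule F V, (∀ x ∈ U, (∀ y ∈ U, B x y = 0) → x = 0) → U ≠ ⊥ → ∃ x ∈ U, B x x ≠ 0 := by
    intro U hU hU0
    by_contra hcon
    push Not at hcon
    apply hU0
    rw [eq_bot_iff]
    intro x hx
    apply hU x hx
    intro y hy
    have h1 := hcon (x + y) (U.add_mem hx hy)
    simp only [map_add, LinearMap.add_apply, hcon x hx, hcon y hy, add_zero, zero_add, hsymm y x] at h1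
    have h3 : (2 : F) * B x y = 0 := by linear_combination h1
    exact (mul_eq_zero.mp h3).resolve_left h2
  -- orthogonal complement of an anisotropic vector in `U`
  have hperp : ∀ U : Submodule F V, (∀ x ∈ U, (∀ y ∈ U, B x y = 0) → x = 0) → ∀ v ∈ U, B v v ≠ 0 →
      ((∀ x ∈ U ⊓ LinearMap.ker (B v), (∀ y ∈ U ⊓ LinearMap.ker (B v), B x y = 0) → x = 0) ∧
        ∀ w ∈ U, w - (B v w / B v v) • v ∈ U ⊓ LinearMap.ker (B v)) := by
    intro U hU v hv hvv
    have hproj : ∀ w ∈ U, w - (B v w / B v v) • v ∈ U ⊓ LinearMap.ker (B v) := by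
      intro w hw
      rw [Submodule.mem_inf, LinearMap.mem_ker]
      refine ⟨U.sub_mem hw (U.smul_mem _ hv), ?_⟩
      rw [LinearMap.map_sub, LinearMap.map_smul, smul_eq_mul]
      field_simp
      ring
    refine ⟨?_, hproj⟩
    intro x hx hxy
    rw [Submodule.mem_inf, LinearMap.mem_ker] at hx
    apply hU x hx.1
    intro y hy
    have h1 := hxy _ (hproj y hy)
    rw [LinearMap.map_sub, LinearMap.map_smul, hsymm x v, hx.2] at h1
    simpa using h1
  induction' h : Module.finrank F W using Nat.strong_induction_on with n ih generalizing W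
  obtain ⟨x, hxW, hxx⟩ := haniso W hW hW0
  obtain ⟨hnd1, hproj1⟩ := hperp W hW x hxW hxx
  by_cases hW1 : W ⊓ LinearMap.ker (B x) = ⊥
  · -- one-dimensional case
    have hspan : Submodule.span F {x} = W := by
      apply le_antisymm
      · rw [Submodule.span_singleton_le_iff_mem]; exact hxW
      · intro w hw
        have := hproj1 w hw
        rw [hW1, Submodule.mem_bot] at this
        rw [sub_eq_zero.mp this]
        exact Submodule.smul_mem _ _ (Submodule.mem_span_singleton_self _)
    -- normalise
    obtain ⟨c, hc0, hc⟩ : ∃ c : F, c ≠ 0 ∧ (B x x * c ^ 2 = 1 ∨ B x x * c ^ 2 = α) := by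
      by_cases hsq : IsSquare (B x x)
      · obtain ⟨d, hd⟩ := hsq
        have hd0 : d ≠ 0 := by
          rintro rfl
          simp at hd
          exact hxx hd
        refine ⟨d⁻¹, inv_ne_zero hd0, Or.inl ?_⟩
        rw [hd]
        field_simp
      · obtain ⟨c, hc0, hc⟩ := exists_scale h2 hxx hsq hα
        exact ⟨c, hc0, Or.inr hc⟩
    have hval : B (c • x) (c • x) = B x x * c ^ 2 := by
      simp only [map_smul, LinearMap.smul_apply, smul_eq_mul]
      ring
    refine ⟨0, fun _ => c • x, fun _ => W.smul_mem _ hxW, fun i j hij => absurd (Subsingleton.elim (α := Fin 1) i j) hij,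
      fun i hi => absurd (Subsingleton.elim (α := Fin 1) i _) hi, ?_, ?_⟩
    · show B (c • x) (c • x) = 1 ∨ B (c • x) (c • x) = α
      rw [hval]
      exact hc
    · rw [← hspan]
      have : Set.range (fun _ : Fin 1 => c • x) = {c • x} := by
        ext y; simp [eq_comm]
      rw [this]
      exact Submodule.span_singleton_smul_eq (IsUnit.mk0 c hc0) x
  · -- dimension at least two
    obtain ⟨y, hyW1, hyy⟩ := haniso _ hnd1 hW1
    have hyW : y ∈ W := (Submodule.mem_inf.mp hyW1).1
    have hxy : B x y = 0 := by
      have := (Submodule.mem_inf.mp hyW1).2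
      rwa [LinearMap.mem_ker] at this
    have hyx : B y x = 0 := by rw [hsymm, hxy]
    obtain ⟨s, t, hst⟩ := exists_rep h2 hxx hyy
    set v := s • x + t • y with hv
    have hvW : v ∈ W := W.add_mem (W.smul_mem _ hxW) (W.smul_mem _ hyW)
    have hvv : B v v = 1 := by
      simp only [hv, map_add, map_smul, LinearMap.add_apply, LinearMap.smul_apply, smul_eq_mul, hxy, hyx]
      linear_combination hst
    obtain ⟨hnd2, hproj2⟩ := hperp W hW v hvW (by rw [hvv]; exact one_ne_zero)
    set W' := W ⊓ LinearMap.ker (B v) with hW'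
    have hW'mem : ∀ {z}, z ∈ W' ↔ z ∈ W ∧ B v z = 0 := by
      intro z
      simp [hW', Submodule.mem_inf, LinearMap.mem_ker]
    have hW'0 : W' ≠ ⊥ := by
      intro h0
      have hp : ∀ w ∈ W, w = (B v w) • v := by
        intro w hw
        have := hproj2 w hw
        rw [h0, Submodule.mem_bot, hvv, div_one] at this
        exact sub_eq_zero.mp this
      have h1 := hp x hxW
      have h3 := hp y hyW
      have h4 : B x y = B v x * B v y := by
        calc B x y = B ((B v x) • v) ((B v y) • v) := by rw [← h1, ← h3]
          _ = (B v x) * (B v y) * B v v := by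
            simp only [map_smul, LinearMap.smul_apply, smul_eq_mul]
            ring
          _ = B v x * B v y := by rw [hvv, mul_one]
      rw [hxy] at h4
      rcases mul_eq_zero.mp h4.symm with h5 | h5
      · apply hxx
        rw [h1, h5]
        simp
      · apply hyy
        rw [h3, h5]
        simp
    have hlt : W' < W := by
      refine lt_of_le_of_ne (fun z hz => (hW'mem.mp hz).1) ?_
      intro heq
      have : v ∈ W' := by rw [heq]; exact hvW
      have := (hW'mem.mp this).2
      rw [hvv] at this
      exact one_ne_zero this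
    have hdim : Module.finrank F W' < n := h ▸ Submodule.finrank_lt_finrank_of_lt hlt
    obtain ⟨k, e', he', horth, hone, hlast, hsp⟩ := ih _ hdim W' hnd2 hW'0 rfl
    have h0' : ∀ i, B v (e' i) = 0 := fun i => (hW'mem.mp (he' i)).2
    have h0'' : ∀ i, B (e' i) v = 0 := fun i => by rw [hsymm, h0']
    refine ⟨k + 1, Fin.cons v e', ?_, ?_, ?_, ?_, ?_⟩
    · intro i
      refine Fin.cases ?_ (fun i => ?_) i
      · simpa using hvW
      · simpa using (hW'mem.mp (he' i)).1
    · intro i j
      refine Fin.cases ?_ (fun i => ?_) i <;> refine Fin.cases ?_ (fun j => ?_) j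
      · intro hij; exact absurd rfl hij
      · intro _; simpa using h0' j
      · intro _; simpa using h0'' i
      · intro hij
        simpa using horth i j (fun h => hij (by rw [h]))
    · intro i
      refine Fin.cases ?_ (fun i => ?_) i
      · intro _; simpa using hvv
      · intro hi
        have : i ≠ Fin.last k := by
          rintro rfl
          exact hi (Fin.succ_last k)
        simpa using hone i this
    · rw [← Fin.succ_last]
      simpa using hlast
    · apply le_antisymm
      · rw [Submodule.span_le]
        rintro _ ⟨i, rfl⟩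
        refine Fin.cases ?_ (fun i => ?_) i
        · simpa using hvW
        · simpa using (hW'mem.mp (he' i)).1
      · intro w hw
        set T := Submodule.span F (Set.range (Fin.cons v e' : Fin (k + 1 + 1) → V)) with hT
        have h0T : v ∈ T := Submodule.subset_span ⟨0, by simp⟩
        have hW'T : W' ≤ T := by
          rw [← hsp, Submodule.span_le]
          rintro _ ⟨i, rfl⟩
          exact Submodule.subset_span ⟨i.succ, by simp⟩
        have h1 := hW'T (hproj2 w hw)
        have h3 : w = (w - (B v w / B v v) • v) + (B v w / B v v) • v := by abel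
        rw [h3]
        exact T.add_mem h1 (T.smul_mem _ h0T)

/-- Classification of symmetric bilinear forms over finite fields of odd characteristic: if B is non-degenerate symmetric on V of dimension n + 1 and α is a fixed non-square of F, there is an orthogonal basis b_0, ..., b_n with B(b_i, b_i) = 1 for i < n and B(b_n, b_n) ∈ {1, α}. -/
theorem result {F V : Type*} [Field F] [Finite F] [AddCommGroup V] [Module F V] [FiniteDimensional F V] (h2 : (2 : F) ≠ 0) (B : LinearMap.BilinForm F V) (hS : B.IsSymm) (hB : B.Nondegenerate) {n : ℕ} (hn : Module.finrank F V = n + 1) (α : F) (hα : ¬ IsSquare α) : ∃ b : Module.Basis (Fin (n + 1)) F V, (∀ i j, i ≠ j → B (b i) (b j) = 0) ∧ (∀ i, i ≠ Fin.last n → B (b i) (b i) = 1) ∧ (B (b (Fin.last n)) (b (Fin.last n)) = 1 ∨ B (b (Fin.last n)) (b (Fin.last n)) = α) := by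
  have hV : (⊤ : Submodule F V) ≠ ⊥ := by
    intro h
    have : Module.finrank F (⊤ : Submodule F V) = 0 := by rw [h]; simp
    rw [finrank_top] at this
    omega
  obtain ⟨k, e, -, horth, hone, hlast, hsp⟩ := aux h2 B hS α hα ⊤ (fun x _ h => hB.1 x (fun y => h y trivial)) hV
  have hα0 : α ≠ 0 := by
    rintro rfl
    exact hα IsSquare.zero
  have hnz : ∀ i, B (e i) (e i) ≠ 0 := by
    intro i
    by_cases hi : i = Fin.last k
    · subst hi
      rcases hlast with h | h <;> rw [h]
      · exact one_ne_zero
      · exact hα0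
    · rw [hone i hi]; exact one_ne_zero
  have hli : LinearIndependent F e := by
    rw [Fintype.linearIndependent_iff]
    intro g hg j
    have h1 := congrArg (B (e j)) hg
    simp only [map_sum, map_smul, map_zero, smul_eq_mul] at h1
    rw [Finset.sum_eq_single j (fun i _ hij => by rw [horth j i hij.symm, mul_zero]) (by simp)] at h1
    exact (mul_eq_zero.mp h1).resolve_right (hnz j)
  let b := Module.Basis.mk hli (by rw [hsp])
  have hk : k = n := by
    have := Module.finrank_eq_card_basis b
    rw [hn] at this
    simpa using this.symm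
  subst hk
  refine ⟨b, ?_, ?_, ?_⟩
  · intro i j hij
    simpa [b] using horth i j hij
  · intro i hi
    simpa [b] using hone i hi
  · simpa [b] using hlast

end Cfsg.Agent.S0756
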