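import Cfsg.Statements.S0757
import Mathlib

set_option autoImplicit false
open Cfsg

namespace Cfsg.Agent.S0757

theorem toMatrix_wss {F : Type*} [Field F] (h2 : (2 : F) ≠ 0) {ι : Type*} [Fintype ι] [DecidableEq ι] (w : ι → F) :
    letI : Invertible (2 : F) := invertibleOfNonzero h2
    QuadraticForm.toMatrix' (QuadraticMap.weightedSumSquares F w : QuadraticForm F (ι → F)) = Matrix.diagonal w := by
  letI : Invertible (2 : F) := invertibleOfNonzero h2
  ext i j
  rw [QuadraticForm.toMatrix', LinearMap.toMatrix₂'_apply]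
  rw [QuadraticMap.associated_apply]
  simp only [QuadraticMap.weightedSumSquares_apply]
  have key : (∑ x, w x • ((Pi.single i 1 + Pi.single j 1 : ι → F) x * (Pi.single i 1 + Pi.single j 1 : ι → F) x) -
          ∑ x, w x • ((Pi.single i 1 : ι → F) x * (Pi.single i 1 : ι → F) x) -
        ∑ x, w x • ((Pi.single j 1 : ι → F) x * (Pi.single j 1 : ι → F) x)) = 2 * Matrix.diagonal w i j := by
    rw [← Finset.sum_sub_distrib, ← Finset.sum_sub_distrib]
    have h1 : ∀ x, w x • ((Pi.single i 1 + Pi.single j 1 : ι → F) x * (Pi.single i 1 + Pi.single j 1 : ι → F) x) -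
          w x • ((Pi.single i 1 : ι → F) x * (Pi.single i 1 : ι → F) x) -
        w x • ((Pi.single j 1 : ι → F) x * (Pi.single j 1 : ι → F) x) = if x = i then (if x = j then 2 * w x else 0) else 0 := by
      intro x
      simp only [Pi.add_apply, Pi.single_apply, smul_eq_mul]
      split_ifs <;> ring
    simp only [h1, Finset.sum_ite_eq', Finset.mem_univ, if_true]
    by_cases hij : i = j
    · subst hij; simp
    · simp [hij, Matrix.diagonal_apply_ne _ hij]
  rw [key, Module.End.smul_def, QuadraticMap.half_moduleEnd_apply_eq_half_smul, smul_eq_mul, ← mul_assoc, invOf_mul_self, one_mul]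

/-- The two diagonal forms Σ x_i^2 and Σ_(i<n) x_i^2 + α x_n^2 on F^(n+1), with α a non-square and 2 ≠ 0 in F, are inequivalent quadratic forms (so over a finite field of odd order there are exactly two classes of non-singular symmetric bilinear forms in each dimension). -/
theorem result {F : Type*} [Field F] (h2 : (2 : F) ≠ 0) (n : ℕ) (α : F) (hα : ¬ IsSquare α) : ¬ (QuadraticMap.weightedSumSquares F (fun _ : Fin (n + 1) => (1 : F))).Equivalent (QuadraticMap.weightedSumSquares F (fun i : Fin (n + 1) => if i = Fin.last n then α else (1 : F))) := by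
  rintro ⟨e⟩
  letI : Invertible (2 : F) := invertibleOfNonzero h2
  set Q₁ := QuadraticMap.weightedSumSquares F (fun _ : Fin (n + 1) => (1 : F)) with hQ₁
  set Q₂ := QuadraticMap.weightedSumSquares F (fun i : Fin (n + 1) => if i = Fin.last n then α else (1 : F)) with hQ₂
  have hcomp : Q₁ = Q₂.comp (e.toLinearEquiv : (Fin (n+1) → F) →ₗ[F] (Fin (n+1) → F)) := by
    ext x
    rw [QuadraticMap.comp_apply]
    exact (e.map_app x).symm
  have h1 : QuadraticForm.discr' Q₁ = 1 := by
    rw [QuadraticForm.discr', hQ₁, toMatrix_wss h2]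
    simp
  have h3 : QuadraticForm.discr' Q₂ = α := by
    rw [QuadraticForm.discr', hQ₂, toMatrix_wss h2, Matrix.det_diagonal, Fin.prod_univ_castSucc]
    simp [Fin.castSucc_ne_last]
  have h4 := QuadraticForm.discr'_comp (Q := Q₂) (e.toLinearEquiv : (Fin (n+1) → F) →ₗ[F] (Fin (n+1) → F))
  rw [← hcomp, h1, h3] at h4
  set d := (LinearMap.toMatrix' (e.toLinearEquiv : (Fin (n+1) → F) →ₗ[F] (Fin (n+1) → F))).det
  have hd : d ≠ 0 := by
    rintro h
    rw [h] at h4
    simp at h4
  apply hα
  refine ⟨d⁻¹, ?_⟩
  field_simp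
  linear_combination -h4

end Cfsg.Agent.S0757
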