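import Cfsg.Statements.S0758
import Mathlib

set_option autoImplicit false
open Cfsg

namespace Cfsg.Agent.S0758

theorem isotropic_iff {F : Type*} [Field F] (a : F) (ha : a ≠ 0) :
    (∃ x y : F, (x ≠ 0 ∨ y ≠ 0) ∧ x ^ 2 + a * y ^ 2 = 0) ↔ IsSquare (-a) := by
  constructor
  · rintro ⟨x, y, hxy, h⟩
    have hy : y ≠ 0 := by
      rintro rfl
      simp at h
      simp [h] at hxy
    refine ⟨x / y, ?_⟩
    field_simp
    linear_combination -h
  · rintro ⟨r, hr⟩
    refine ⟨r, 1, Or.inr one_ne_zero, ?_⟩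
    linear_combination -hr

/-- For a finite field F of odd order q and a non-square α: the form x² + y² is isotropic iff q ≡ 1 mod 4, and the form x² + α y² is isotropic iff q ≡ 3 mod 4. -/
theorem result {F : Type*} [Field F] [Fintype F] (h2 : (2 : F) ≠ 0) (α : F) (hα : ¬ IsSquare α) : ((∃ x y : F, (x ≠ 0 ∨ y ≠ 0) ∧ x ^ 2 + y ^ 2 = 0) ↔ Fintype.card F % 4 = 1) ∧ ((∃ x y : F, (x ≠ 0 ∨ y ≠ 0) ∧ x ^ 2 + α * y ^ 2 = 0) ↔ Fintype.card F % 4 = 3) := by
  classical
  have hchar : ringChar F ≠ 2 := by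
    intro h
    apply h2
    have : CharP F 2 := h ▸ ringChar.charP F
    exact CharTwo.two_eq_zero
  have hodd : Fintype.card F % 2 = 1 := FiniteField.odd_card_of_char_ne_two hchar
  have hq : Fintype.card F % 4 = 1 ∨ Fintype.card F % 4 = 3 := by omega
  have hα0 : α ≠ 0 := by
    rintro rfl
    exact hα (IsSquare.zero)
  have hm1 : IsSquare (-1 : F) ↔ Fintype.card F % 4 ≠ 3 := FiniteField.isSquare_neg_one_iff
  constructor
  · have := isotropic_iff (1 : F) one_ne_zero
    simp only [one_mul] at this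
    rw [this, hm1]
    omega
  · rw [isotropic_iff α hα0]
    have hχα : quadraticChar F α = -1 := quadraticChar_neg_one_iff_not_isSquare.mpr hα
    have h5 : IsSquare (-α) ↔ ¬ IsSquare (-1 : F) := by
      have h6 : quadraticChar F (-α) = - quadraticChar F (-1) := by
        rw [← neg_one_mul α, map_mul, hχα]
        ring
      have hm10 : (-1 : F) ≠ 0 := neg_ne_zero.mpr one_ne_zero
      have hma0 : -α ≠ 0 := neg_ne_zero.mpr hα0
      rw [← quadraticChar_one_iff_isSquare hma0, ← quadraticChar_one_iff_isSquare hm10, h6]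
      have h7 := quadraticChar_dichotomy hm10
      rcases h7 with h7 | h7 <;> rw [h7] <;> norm_num
    rw [h5, hm1]
    omega

end Cfsg.Agent.S0758
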