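import Cfsg.Statements.S0759
import Mathlib

set_option autoImplicit false
open Cfsg Matrix

namespace Cfsg.Agent.S0759

variable {F : Type*} [Field F]

/-- Determinant of the block swap matrix. -/
theorem det_swap (m : ℕ) : det (fromBlocks (0 : Matrix (Fin m) (Fin m) F) (1 : Matrix (Fin m) (Fin m) F) (1 : Matrix (Fin m) (Fin m) F) (0 : Matrix (Fin m) (Fin m) F)) = (-1) ^ m := by
  let I : Matrix (Fin m) (Fin m) F := 1
  have h : fromBlocks (0 : Matrix (Fin m) (Fin m) F) 1 1 0 =
      fromBlocks I I 0 I * fromBlocks I 0 (-I) I * fromBlocks I I 0 I * fromBlocks (-I) 0 0 I := by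
    simp [fromBlocks_multiply, I]
  rw [h, det_mul, det_mul, det_mul, det_fromBlocks_zero₂₁, det_fromBlocks_zero₁₂, det_fromBlocks_zero₂₁]
  simp [Matrix.det_neg, I]

/-- Determinant of an anti-triangular block matrix. -/
theorem det_anti {m : ℕ} (C D : Matrix (Fin m) (Fin m) F) :
    det (fromBlocks 0 C Cᵀ D) = (-1) ^ m * det C ^ 2 := by
  have h : fromBlocks 0 C Cᵀ D * fromBlocks (0 : Matrix (Fin m) (Fin m) F) (1 : Matrix (Fin m) (Fin m) F) (1 : Matrix (Fin m) (Fin m) F) (0 : Matrix (Fin m) (Fin m) F) = fromBlocks C 0 D Cᵀ := by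
    simp [fromBlocks_multiply]
  have h1 := congrArg det h
  rw [det_mul, det_swap, det_fromBlocks_zero₁₂, det_transpose] at h1
  have h2 : ((-1 : F) ^ m) * (-1) ^ m = 1 := by
    rw [← mul_pow]; simp
  calc det (fromBlocks 0 C Cᵀ D) = det (fromBlocks 0 C Cᵀ D) * ((-1) ^ m * (-1) ^ m) := by rw [h2, mul_one]
    _ = (det (fromBlocks 0 C Cᵀ D) * (-1) ^ m) * (-1) ^ m := by ring
    _ = _ := by rw [h1]; ring

/-- Forward direction: totally singular half-dimensional subspace gives a square root of `(-1)^m`. -/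
theorem exists_sqrt [Fintype F] (h2 : (2 : F) ≠ 0) (m : ℕ) (W : Submodule F (Fin (2 * m) → F)) (hW : Module.finrank F W = m)
    (hQ : ∀ w ∈ W, ∑ i, w i ^ 2 = 0) : ∃ c : F, c ^ 2 = (-1) ^ m := by
  classical
  -- polar form vanishes on W
  have hpol : ∀ u ∈ W, ∀ v ∈ W, ∑ i, u i * v i = 0 := by
    intro u hu v hv
    have h1 := hQ (u + v) (W.add_mem hu hv)
    have h3 : ∑ i, (u + v) i ^ 2 = ∑ i, u i ^ 2 + ∑ i, v i ^ 2 + 2 * ∑ i, u i * v i := by
      rw [Finset.mul_sum, ← Finset.sum_add_distrib, ← Finset.sum_add_distrib]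
      refine Finset.sum_congr rfl fun i _ => ?_
      simp only [Pi.add_apply]
      ring
    rw [h3, hQ u hu, hQ v hv, zero_add, zero_add] at h1
    exact (mul_eq_zero.mp h1).resolve_left h2
  -- extend to a basis
  obtain ⟨U, hU⟩ := Submodule.exists_isCompl W
  have hdimV : Module.finrank F (Fin (2 * m) → F) = 2 * m := by simp
  have hU' : Module.finrank F U = m := by
    have := Submodule.finrank_add_eq_of_isCompl hU
    omega
  let bW : Module.Basis (Fin m) F W := Module.finBasisOfFinrankEq F W hW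
  let bU : Module.Basis (Fin m) F U := Module.finBasisOfFinrankEq F U hU'
  let c : Module.Basis (Fin m ⊕ Fin m) F (Fin (2 * m) → F) := (bW.prod bU).map (Submodule.prodEquivOfIsCompl W U hU)
  have hc1 : ∀ i, c (Sum.inl i) = (bW i : Fin (2 * m) → F) := by
    intro i
    simp [c]
  have hc1' : ∀ i, c (Sum.inl i) ∈ W := fun i => by rw [hc1]; exact (bW i).2
  let e : Fin m ⊕ Fin m ≃ Fin (2 * m) := finSumFinEquiv.trans (finCongr (by omega))
  let P : Matrix (Fin m ⊕ Fin m) (Fin m ⊕ Fin m) F := Matrix.of fun i j => c j (e i)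
  have hPdet : det P ≠ 0 := by
    have hinj : Function.Injective P.mulVec := by
      intro x y hxy
      have h0 : P.mulVec (x - y) = 0 := by rw [Matrix.mulVec_sub, hxy, sub_self]
      have h1 : ∑ j, (x - y) j • c j = 0 := by
        ext k
        have := congrFun h0 (e.symm k)
        simp only [Matrix.mulVec, dotProduct, P, Matrix.of_apply, Equiv.apply_symm_apply, Pi.zero_apply] at this
        simp only [Finset.sum_apply, Pi.smul_apply, smul_eq_mul, Pi.zero_apply]
        rw [← this]
        exact Finset.sum_congr rfl fun j _ => mul_comm _ _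
      have h3 := (Fintype.linearIndependent_iff.mp c.linearIndependent) _ h1
      funext j
      exact sub_eq_zero.mp (h3 j)
    exact (Matrix.isUnit_iff_isUnit_det _).mp (Matrix.mulVec_injective_iff_isUnit.mp hinj) |>.ne_zero
  have hentry : ∀ a b, (Pᵀ * P) a b = ∑ k, c a k * c b k := by
    intro a b
    simp only [Matrix.mul_apply, Matrix.transpose_apply, P, Matrix.of_apply]
    exact Equiv.sum_comp e (fun k => c a k * c b k)
  have hG : Pᵀ * P = fromBlocks 0 (Pᵀ * P).toBlocks₁₂ ((Pᵀ * P).toBlocks₁₂)ᵀ (Pᵀ * P).toBlocks₂₂ := by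
    have h11 : (Pᵀ * P).toBlocks₁₁ = 0 := by
      ext i j
      simp only [Matrix.toBlocks₁₁, Matrix.of_apply, Matrix.zero_apply]
      rw [hentry]
      exact hpol _ (hc1' i) _ (hc1' j)
    have h21 : (Pᵀ * P).toBlocks₂₁ = ((Pᵀ * P).toBlocks₁₂)ᵀ := by
      ext i j
      simp only [Matrix.toBlocks₂₁, Matrix.toBlocks₁₂, Matrix.of_apply, Matrix.transpose_apply]
      rw [hentry, hentry]
      exact Finset.sum_congr rfl fun k _ => mul_comm _ _
    conv_lhs => rw [← fromBlocks_toBlocks (Pᵀ * P), h11, h21]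
  have h5 : det P ^ 2 = (-1) ^ m * det ((Pᵀ * P).toBlocks₁₂) ^ 2 := by
    rw [← det_anti, ← hG, det_mul, det_transpose]
    ring
  have hC : det ((Pᵀ * P).toBlocks₁₂) ≠ 0 := by
    intro h0
    rw [h0] at h5
    simp at h5
    exact hPdet h5
  refine ⟨det P / det ((Pᵀ * P).toBlocks₁₂), ?_⟩
  rw [div_pow, h5]
  field_simp

/-- A matrix with `Mᵀ M = -1` gives a totally singular half-dimensional subspace. -/
theorem exists_W_of_matrix {m : ℕ} (M : Matrix (Fin m) (Fin m) F) (hM : Mᵀ * M = -1) :
    ∃ W : Submodule F (Fin (2 * m) → F), Module.finrank F W = m ∧ ∀ w ∈ W, ∑ i, w i ^ 2 = 0 := by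
  classical
  let e : Fin m ⊕ Fin m ≃ Fin (2 * m) := finSumFinEquiv.trans (finCongr (by omega))
  let L : (Fin m → F) →ₗ[F] (Fin (2 * m) → F) :=
    { toFun := fun t k => Sum.elim t (M.mulVec t) (e.symm k)
      map_add' := by
        intro x y
        funext k
        show Sum.elim (x + y) (M.mulVec (x + y)) (e.symm k) = Sum.elim x (M.mulVec x) (e.symm k) + Sum.elim y (M.mulVec y) (e.symm k)
        generalize e.symm k = a
        rcases a with i | i <;> simp [Matrix.mulVec_add]
      map_smul' := by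
        intro c x
        funext k
        show Sum.elim (c • x) (M.mulVec (c • x)) (e.symm k) = c • Sum.elim x (M.mulVec x) (e.symm k)
        generalize e.symm k = a
        rcases a with i | i <;> simp [Matrix.mulVec_smul] }
  have hL : ∀ t k, L t k = Sum.elim t (M.mulVec t) (e.symm k) := fun t k => rfl
  have hinj : Function.Injective L := by
    intro x y hxy
    funext i
    have := congrFun hxy (e (Sum.inl i))
    simpa [hL] using this
  refine ⟨LinearMap.range L, ?_, ?_⟩
  · rw [LinearMap.finrank_range_of_inj hinj]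
    simp
  · rintro _ ⟨t, rfl⟩
    have h1 : ∑ k, L t k ^ 2 = ∑ a, (Sum.elim t (M.mulVec t) a) ^ 2 := by
      rw [← Equiv.sum_comp e]
      refine Finset.sum_congr rfl fun a _ => ?_
      rw [hL, Equiv.symm_apply_apply]
    rw [h1, Fintype.sum_sum_type]
    simp only [Sum.elim_inl, Sum.elim_inr]
    have h3 : ∑ i, M.mulVec t i ^ 2 = M.mulVec t ⬝ᵥ M.mulVec t := by
      simp [dotProduct, sq]
    have h4 : M.mulVec t ⬝ᵥ M.mulVec t = t ⬝ᵥ (Mᵀ * M).mulVec t := by
      rw [← Matrix.mulVec_mulVec, Matrix.mulVec_transpose, Matrix.dotProduct_mulVec]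
      simp [dotProduct_comm]
    rw [h3, h4, hM]
    simp [Matrix.neg_mulVec, dotProduct, sq]

/-- The main statement. -/
theorem result {F : Type*} [Field F] [Fintype F] (h2 : (2 : F) ≠ 0) (m : ℕ) (hm : 1 ≤ m) : (∃ W : Submodule F (Fin (2 * m) → F), Module.finrank F W = m ∧ ∀ w ∈ W, ∑ i, w i ^ 2 = 0) ↔ ¬ (Fintype.card F % 4 = 3 ∧ Odd m) := by
  classical
  constructor
  · rintro ⟨W, hW, hQ⟩ ⟨h3, hodd⟩
    obtain ⟨c, hc⟩ := exists_sqrt h2 m W hW hQ
    rw [hodd.neg_one_pow] at hc
    have : IsSquare (-1 : F) := ⟨c, by rw [← hc, sq]⟩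
    exact FiniteField.isSquare_neg_one_iff.mp this h3
  · intro hnot
    by_cases hsq : IsSquare (-1 : F)
    · obtain ⟨i, hi⟩ := hsq
      apply exists_W_of_matrix (i • (1 : Matrix (Fin m) (Fin m) F))
      simp only [Matrix.transpose_smul, Matrix.transpose_one, Matrix.smul_mul, Matrix.mul_smul, Matrix.mul_one, smul_smul]
      rw [← hi]
      simp
    · have h3 : Fintype.card F % 4 = 3 := by
        by_contra h
        exact hsq (FiniteField.isSquare_neg_one_iff.mpr h)
      have heven : Even m := by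
        rw [← Nat.not_odd_iff_even]
        exact fun h => hnot ⟨h3, h⟩
      obtain ⟨n, rfl⟩ := heven
      -- `a² + b² = -1`
      obtain ⟨a, b, hab⟩ : ∃ a b : F, a ^ 2 + b ^ 2 = -1 := by
        have hchar : ringChar F ≠ 2 := by
          intro h
          apply h2
          have := ringChar.Nat.cast_ringChar (R := F)
          rw [h] at this
          exact_mod_cast this
        have hodd : Fintype.card F % 2 = 1 := FiniteField.odd_card_of_char_ne_two hchar
        have hf : (Polynomial.C 1 * Polynomial.X ^ 2 + Polynomial.C 0 * Polynomial.X + Polynomial.C 0 : Polynomial F).degree = 2 :=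
          Polynomial.degree_quadratic one_ne_zero
        have hg : (Polynomial.C 1 * Polynomial.X ^ 2 + Polynomial.C 0 * Polynomial.X + Polynomial.C 1 : Polynomial F).degree = 2 :=
          Polynomial.degree_quadratic one_ne_zero
        obtain ⟨s, t, hst⟩ := FiniteField.exists_root_sum_quadratic hf hg hodd
        refine ⟨s, t, ?_⟩
        simp only [Polynomial.eval_add, Polynomial.eval_mul, Polynomial.eval_C, Polynomial.eval_pow, Polynomial.eval_X] at hst
        linear_combination hst
      let M0 : Matrix (Fin n ⊕ Fin n) (Fin n ⊕ Fin n) F :=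
        fromBlocks (a • 1) ((-b) • 1) (b • 1) (a • 1)
      have hM0 : M0ᵀ * M0 = -1 := by
        simp only [M0, fromBlocks_transpose, fromBlocks_multiply, Matrix.transpose_smul, Matrix.transpose_one, Matrix.smul_mul, Matrix.mul_smul, Matrix.mul_one, smul_smul, ← add_smul]
        have e1 : a * a + b * b = -1 := by linear_combination hab
        have e2 : -b * a + a * b = 0 := by ring
        have e3 : a * -b + b * a = 0 := by ring
        have e4 : -b * -b + a * a = -1 := by linear_combination hab
        rw [e1, e2, e3, e4]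
        rw [← fromBlocks_one, fromBlocks_neg]
        simp
      let e : Fin n ⊕ Fin n ≃ Fin (n + n) := finSumFinEquiv
      apply exists_W_of_matrix (M0.submatrix e.symm e.symm)
      rw [Matrix.transpose_submatrix, Matrix.submatrix_mul_equiv, hM0]
      ext i j
      simp [Matrix.neg_apply, Matrix.one_apply]

end Cfsg.Agent.S0759
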