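import Cfsg.Statements.S0760
import Cfsg.Agent.Lib.WittQuad

set_option autoImplicit false
open Cfsg

namespace Cfsg.Agent.S0760

variable {F V : Type*} [Field F] [AddCommGroup V] [Module F V] [FiniteDimensional F V]

/-- A maximal totally singular subspace has dimension at least that of any other. -/
theorem le_of_max (Q : QuadraticForm F V) (hQ : (QuadraticMap.polarBilin Q).Nondegenerate) (W₁ W₂ : Submodule F V) (h₁ : ∀ w ∈ W₁, Q w = 0) (h₂ : ∀ w ∈ W₂, Q w = 0)
    (hmax₂ : ∀ W : Submodule F V, W₂ ≤ W → (∀ w ∈ W, Q w = 0) → W = W₂) :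
    Module.finrank F W₁ ≤ Module.finrank F W₂ := by
  by_contra hlt
  push Not at hlt
  obtain ⟨φ, hφ⟩ := finrank_le_iff_exists_linearMap.mp hlt.le
  obtain ⟨g, hg, hg'⟩ := Lib.WittQuad.witt_quad Q hQ W₂ (W₁.subtype.comp φ) (fun a b h => hφ (Subtype.ext h))
    (fun x => by
      show Q (φ x : V) = Q x
      rw [h₁ _ (φ x).2, h₂ _ x.2])
  -- the pull back of `W₁`
  have h1 := hmax₂ (W₁.comap g.toLinearMap) (by
    intro x hx
    show g x ∈ W₁
    have := hg' ⟨x, hx⟩
    simp only at this
    rw [this]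
    exact (φ ⟨x, hx⟩).2) (by
    intro w hw
    have := h₁ _ hw
    rw [← hg w]
    exact this)
  have h2 : Module.finrank F (W₁.comap g.toLinearMap) = Module.finrank F W₁ := by
    have e : W₁.comap g.toLinearMap = W₁.map g.symm.toLinearMap := by
      ext x
      simp [Submodule.mem_map, Submodule.mem_comap]
    rw [e]
    exact LinearEquiv.finrank_map_eq g.symm W₁
  rw [h1] at h2
  omega

/-- Witt index is well defined: if Q is a quadratic form on a finite-dimensional space V over a finite field with non-degenerate polar form, and W₁, W₂ are subspaces on which Q vanishes that are maximal with this property, then W₁ and W₂ have the same dimension, and twice this dimension is at most dim V. -/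
theorem result {F V : Type*} [Field F] [Finite F] [AddCommGroup V] [Module F V] [FiniteDimensional F V] (Q : QuadraticForm F V) (hQ : (QuadraticMap.polarBilin Q).Nondegenerate) (W₁ W₂ : Submodule F V) (h₁ : ∀ w ∈ W₁, Q w = 0) (h₂ : ∀ w ∈ W₂, Q w = 0) (hmax₁ : ∀ W : Submodule F V, W₁ ≤ W → (∀ w ∈ W, Q w = 0) → W = W₁) (hmax₂ : ∀ W : Submodule F V, W₂ ≤ W → (∀ w ∈ W, Q w = 0) → W = W₂) : Module.finrank F W₁ = Module.finrank F W₂ ∧ 2 * Module.finrank F W₁ ≤ Module.finrank F V := by
  refine ⟨le_antisymm (le_of_max Q hQ W₁ W₂ h₁ h₂ hmax₂) (le_of_max Q hQ W₂ W₁ h₂ h₁ hmax₁), ?_⟩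
  -- W₁ is contained in its orthogonal complement
  have hrefl : (QuadraticMap.polarBilin Q).IsRefl := by
    intro x y h
    show QuadraticMap.polar Q y x = 0
    rw [QuadraticMap.polar_comm]
    exact h
  have hle : W₁ ≤ LinearMap.BilinForm.orthogonal (QuadraticMap.polarBilin Q) W₁ := by
    intro x hx
    rw [LinearMap.BilinForm.mem_orthogonal_iff]
    intro y hy
    show QuadraticMap.polar Q y x = 0
    unfold QuadraticMap.polar
    rw [h₁ _ (W₁.add_mem hy hx), h₁ _ hy, h₁ _ hx]
    simp
  have h3 := Submodule.finrank_mono hle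
  have h4 := LinearMap.BilinForm.finrank_orthogonal hQ W₁
  have h5 := Submodule.finrank_le W₁
  omega

end Cfsg.Agent.S0760
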