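import Cfsg.Statements.S0761
import Mathlib

set_option autoImplicit false
open Cfsg

namespace Cfsg.Agent.S0761

/-- Hyperbolic partners: let B be a non-degenerate bilinear form on a finite-dimensional space, either alternating, or symmetric with 2 ≠ 0. If Z is a subspace on which B vanishes, x ∉ Z is isotropic and orthogonal to Z, then there is an isotropic y with B x y = 1 which is orthogonal to Z. -/
theorem result {F V : Type*} [Field F] [AddCommGroup V] [Module F V] [FiniteDimensional F V] (B : LinearMap.BilinForm F V) (hB : B.Nondegenerate) (hform : B.IsAlt ∨ (B.IsSymm ∧ (2 : F) ≠ 0)) (x : V) (Z : Submodule F V) (hxZ : x ∉ Z) (hx : B x x = 0) (hxz : ∀ z ∈ Z, B x z = 0) (hZ : ∀ z ∈ Z, ∀ z' ∈ Z, B z z' = 0) : ∃ y : V, B y y = 0 ∧ B x y = 1 ∧ ∀ z ∈ Z, B z y = 0 := by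
  -- a functional vanishing on Z and equal to 1 on x
  obtain ⟨f, hfx, hfZ⟩ := Submodule.exists_dual_map_eq_bot_of_notMem (p := Z) hxZ inferInstance
  have hf : ∀ z ∈ Z, f z = 0 := by
    intro z hz
    have : f z ∈ Z.map f := Submodule.mem_map_of_mem hz
    rw [hfZ] at this
    simpa using this
  -- y₀ with B u y₀ = f u / f x
  have hB' : B.flip.Nondegenerate := hB.flip
  let y₀ := (B.flip.toDual hB').symm ((f x)⁻¹ • f)
  have hy₀ : ∀ u, B u y₀ = (f x)⁻¹ * f u := by
    intro u
    have : B.flip y₀ u = ((f x)⁻¹ • f) u := LinearMap.BilinForm.apply_toDual_symm_apply (B := B.flip) (hB := hB') ((f x)⁻¹ • f) u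
    have h2 : B.flip y₀ u = B u y₀ := rfl
    rw [h2] at this
    simpa using this
  have hx1 : B x y₀ = 1 := by rw [hy₀, inv_mul_cancel₀ hfx]
  have hz0 : ∀ z ∈ Z, B z y₀ = 0 := fun z hz => by rw [hy₀, hf z hz, mul_zero]
  rcases hform with hA | ⟨hS, h2⟩
  · refine ⟨y₀, hA y₀, hx1, hz0⟩
  · refine ⟨y₀ - (B y₀ y₀ / 2) • x, ?_, ?_, ?_⟩
    · have hsym : B y₀ x = 1 := by rw [← hx1]; exact (hS.eq _ _).symm
      simp only [map_sub, map_smul, LinearMap.sub_apply, LinearMap.smul_apply, smul_eq_mul, hx, hx1, hsym]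
      field_simp
      ring
    · simp [hx, hx1]
    · intro z hz
      have hzx : B z x = 0 := by rw [← hS.eq]; simpa using hxz z hz
      simp [hzx, hz0 z hz]

end Cfsg.Agent.S0761
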