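import Cfsg.Statements.S0762
import Mathlib

set_option autoImplicit false
open Cfsg

namespace Cfsg.Agent.S0762

variable {F V : Type*} [Field F] [Finite F] [CharP F 2] [AddCommGroup V] [Module F V]

theorem exists_singular_of_orth (Q : QuadraticForm F V) (r v : V) (hli : LinearIndependent F ![r, v])
    (hp : QuadraticMap.polar ⇑Q r v = 0) : ∃ w : V, w ≠ 0 ∧ Q w = 0 := by
  by_cases hr : Q r = 0
  · exact ⟨r, hli.ne_zero 0, hr⟩
  · -- every element is a square
    have hchar : ringChar F = 2 := ringChar.eq F 2
    obtain ⟨t, ht⟩ := FiniteField.isSquare_of_char_two hchar (Q v / Q r)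
    refine ⟨t • r + v, ?_, ?_⟩
    · intro h
      have := (LinearIndependent.pair_iff.mp hli) t 1 (by simpa using h)
      exact one_ne_zero this.2
    · have h1 : QuadraticMap.polar ⇑Q (t • r) v = 0 := by
        rw [QuadraticMap.polar_smul_left, hp, smul_zero]
      rw [QuadraticMap.map_add (⇑Q), h1, QuadraticMap.map_smul]
      simp only [smul_eq_mul, add_zero]
      have h2 : t * t * Q r = Q v := by rw [← ht]; field_simp
      rw [h2]
      exact CharTwo.add_self_eq_zero (Q v)

/-- In characteristic two over a finite field, a quadratic form on a space of dimension at least 3 vanishes on some non-zero vector. -/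
theorem result {F V : Type*} [Field F] [Finite F] [CharP F 2] [AddCommGroup V] [Module F V] [FiniteDimensional F V] (Q : QuadraticForm F V) (h3 : 3 ≤ Module.finrank F V) : ∃ v : V, v ≠ 0 ∧ Q v = 0 := by
  -- choose three independent vectors
  obtain ⟨b⟩ : Nonempty (Module.Basis (Fin (Module.finrank F V)) F V) := ⟨Module.finBasis F V⟩
  let i0 : Fin (Module.finrank F V) := ⟨0, by omega⟩
  let i1 : Fin (Module.finrank F V) := ⟨1, by omega⟩
  let i2 : Fin (Module.finrank F V) := ⟨2, by omega⟩
  have h01 : i0 ≠ i1 := by simp [i0, i1, Fin.ext_iff]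
  have h02 : i0 ≠ i2 := by simp [i0, i2, Fin.ext_iff]
  have h12 : i1 ≠ i2 := by simp [i1, i2, Fin.ext_iff]
  set u := b i0 with hu
  set v := b i1 with hv
  set w := b i2 with hw
  have hself : ∀ x : V, QuadraticMap.polar ⇑Q x x = 0 := by
    intro x
    rw [QuadraticMap.polar_self, two_nsmul]
    exact CharTwo.add_self_eq_zero (Q x)
  by_cases hγ : QuadraticMap.polar ⇑Q u v = 0
  · apply exists_singular_of_orth Q u v _ hγ
    rw [LinearIndependent.pair_iff]
    intro s t hst
    have h1 := congrArg (b.coord i0) hst
    have h2 := congrArg (b.coord i1) hst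
    simp only [map_add, map_smul, Module.Basis.coord_apply, Module.Basis.repr_self, hu, hv, map_zero, smul_eq_mul, Finsupp.single_apply, h01, h01.symm, if_true, if_false, mul_one, mul_zero, add_zero, zero_add] at h1 h2
    exact ⟨h1, h2⟩
  · set α := QuadraticMap.polar ⇑Q v w with hα
    set β := QuadraticMap.polar ⇑Q u w with hβ
    set γ := QuadraticMap.polar ⇑Q u v with hγ'
    apply exists_singular_of_orth Q (α • u + β • v + γ • w) u
    · rw [LinearIndependent.pair_iff]
      intro s t hst
      have h1 := congrArg (b.coord i2) hst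
      have h2 := congrArg (b.coord i0) hst
      simp only [map_add, map_smul, Module.Basis.coord_apply, Module.Basis.repr_self, hu, hv, hw, map_zero, smul_eq_mul, Finsupp.single_apply, h01, h02, h12, h01.symm, h02.symm, h12.symm, if_true, if_false, mul_one, mul_zero, add_zero, zero_add] at h1 h2
      have hs : s = 0 := (mul_eq_zero.mp h1).resolve_right hγ
      subst hs
      simpa using h2
    · rw [QuadraticMap.polar_add_left, QuadraticMap.polar_add_left, QuadraticMap.polar_smul_left, QuadraticMap.polar_smul_left, QuadraticMap.polar_smul_left, hself, QuadraticMap.polar_comm (⇑Q) v u, QuadraticMap.polar_comm (⇑Q) w u]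
      simp only [smul_eq_mul, mul_zero, zero_add]
      rw [mul_comm γ β, ← two_mul]
      have : (2 : F) = 0 := CharTwo.two_eq_zero
      rw [this, zero_mul]

end Cfsg.Agent.S0762
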