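import Cfsg.Statements.S0763
import Cfsg.Agent.Lib.WittQuad

set_option autoImplicit false
open Cfsg

namespace Cfsg.Agent.S0763

open QuadraticMap

/-- Binary quadratic forms in characteristic two over a finite field: if Q is a quadratic form on a 2-dimensional space whose polar form is non-degenerate, then either there are vectors v, w with Q v = Q w = 0 and polar value 1 (Q is xy in these coordinates), or there are v, w and μ with Q v = 1, Q w = μ, polar value 1 and x² + x + μ without roots in F (Q is x² + xy + μy²). -/
theorem result {F V : Type*} [Field F] [Finite F] [CharP F 2] [AddCommGroup V] [Module F V] (Q : QuadraticForm F V) (h2 : Module.finrank F V = 2) (hQ : (QuadraticMap.polarBilin Q).Nondegenerate) : (∃ v w : V, LinearIndependent F ![v, w] ∧ Q v = 0 ∧ Q w = 0 ∧ QuadraticMap.polar Q v w = 1) ∨ (∃ (v w : V) (μ : F), LinearIndependent F ![v, w] ∧ (∀ x : F, x ^ 2 + x + μ ≠ 0) ∧ Q v = 1 ∧ Q w = μ ∧ QuadraticMap.polar Q v w = 1) := by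
  haveI : FiniteDimensional F V := by
    apply Module.finite_of_finrank_pos
    omega
  have hchar : (2 : F) = 0 := CharTwo.two_eq_zero
  -- polar with 1
  have hex : ∀ v : V, v ≠ 0 → ∃ w, polar Q v w = 1 := by
    intro v hv
    obtain ⟨w, hw⟩ : ∃ w, polar Q v w ≠ 0 := by
      by_contra hcon
      push Not at hcon
      exact hv (hQ.1 v hcon)
    refine ⟨(polar Q v w)⁻¹ • w, ?_⟩
    rw [polar_smul_right, smul_eq_mul, inv_mul_cancel₀ hw]
  have hself : ∀ v : V, polar Q v v = 0 := by
    intro v
    rw [polar_self, two_nsmul, ← two_mul, hchar, zero_mul]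
  have hind : ∀ v w : V, polar Q v w = 1 → LinearIndependent F ![v, w] := by
    intro v w h
    rw [LinearIndependent.pair_iff]
    intro s t hst
    have h1 := congrArg (fun z => polar Q v z) hst
    simp only [polar_add_right, polar_smul_right, hself, h, smul_eq_mul, mul_zero, mul_one, zero_add, polar_zero_right] at h1
    subst h1
    have hv : v ≠ 0 := by
      rintro rfl
      simp at h
    simpa [hv] using hst
  by_cases hsing : ∃ v : V, v ≠ 0 ∧ Q v = 0
  · left
    obtain ⟨v, hv0, hv⟩ := hsing
    obtain ⟨w0, hw0⟩ := hex v hv0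
    refine ⟨v, w0 - Q w0 • v, ?_, hv, ?_, ?_⟩
    · apply hind
      rw [polar_sub_right, polar_smul_right, hself, hw0]
      simp
    · have h1 := Lib.WittQuad.Q_add_smul Q w0 v (-(Q w0))
      rw [sub_eq_add_neg, ← neg_smul, h1, hv, polar_comm, hw0]
      ring
    · rw [polar_sub_right, polar_smul_right, hself, hw0]
      simp
  · right
    push Not at hsing
    -- pick a nonzero vector
    have hV : Nontrivial V := by
      apply Module.finrank_pos_iff (R := F) |>.mp
      omega
    obtain ⟨v0, hv0⟩ := exists_ne (0 : V)
    have hQv0 : Q v0 ≠ 0 := hsing v0 hv0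
    -- every element is a square
    haveI : Fintype F := Fintype.ofFinite F
    have hsq : IsSquare (Q v0)⁻¹ := by
      have : ringChar F = 2 := ringChar.eq F 2
      exact FiniteField.isSquare_of_char_two this _
    obtain ⟨c, hc⟩ := hsq
    have hc0 : c ≠ 0 := by
      rintro rfl
      simp at hc
      exact hQv0 hc
    set v := c • v0 with hv
    have hQv : Q v = 1 := by
      rw [hv, QuadraticMap.map_smul, smul_eq_mul, ← hc, inv_mul_cancel₀ hQv0]
    have hv0' : v ≠ 0 := by
      rw [hv]
      exact smul_ne_zero hc0 hv0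
    obtain ⟨w, hw⟩ := hex v hv0'
    refine ⟨v, w, Q w, hind v w hw, ?_, hQv, rfl, hw⟩
    intro x hx
    have h1 := Lib.WittQuad.Q_add_smul Q w v x
    rw [hQv, polar_comm, hw] at h1
    have h3 : Q (w + x • v) = 0 := by
      rw [h1]
      linear_combination hx
    have h4 : w + x • v ≠ 0 := by
      intro h5
      have h6 : polar Q v (w + x • v) = 0 := by rw [h5]; simp
      rw [polar_add_right, polar_smul_right, hself, hw] at h6
      simp at h6
    exact hsing _ h4 h3

end Cfsg.Agent.S0763
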