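import Cfsg.Statements.S0769
import Mathlib

set_option autoImplicit false
open Cfsg

namespace Cfsg.Agent.S0769

theorem card_lt (n : ℕ) : (Finset.univ.filter (fun p : Fin n × Fin n => p.2 < p.1)).card = n * (n - 1) / 2 := by
  classical
  rw [Finset.card_filter, Fintype.sum_prod_type]
  have : ∀ i : Fin n, ∑ j : Fin n, (if (i, j).2 < (i, j).1 then 1 else 0) = (i : ℕ) := by
    intro i
    rw [← Finset.card_filter]
    simp only
    rw [Finset.filter_gt_eq_Iio, Fin.card_Iio]
  simp only [this]
  rw [Fin.sum_univ_eq_sum_range (fun i => i) n, Finset.sum_range_id]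

theorem card_eq (n : ℕ) : (Finset.univ.filter (fun p : Fin n × Fin n => p.1 = p.2)).card = n := by
  classical
  have : Finset.univ.filter (fun p : Fin n × Fin n => p.1 = p.2) = (Finset.univ : Finset (Fin n)).diag := by
    ext p
    simp [Finset.mem_diag]
  rw [this, Finset.diag_card]
  simp

/-- Order of the Borel subgroup of GL_n(q): the invertible lower-triangular n × n matrices over a field with q elements number q^(n(n-1)/2) (q-1)^n (unitriangular part times the diagonal torus). -/
theorem result {F : Type*} [Field F] [Fintype F] {q : ℕ} (hF : Fintype.card F = q) (n : ℕ) : Nat.card {g : Matrix.GeneralLinearGroup (Fin n) F // ∀ i j : Fin n, i < j → (g : Matrix (Fin n) (Fin n) F) i j = 0} = q ^ (n * (n - 1) / 2) * (q - 1) ^ n := by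
  classical
  let S : Fin n × Fin n → Finset F := fun p =>
    if p.1 < p.2 then {0} else if p.1 = p.2 then Finset.univ.erase 0 else Finset.univ
  let T := Fintype.piFinset S
  have hT : T.card = q ^ (n * (n - 1) / 2) * (q - 1) ^ n := by
    rw [Fintype.card_piFinset]
    have : ∀ p : Fin n × Fin n, (S p).card = (if p.2 < p.1 then q else 1) * (if p.1 = p.2 then q - 1 else 1) := by
      intro p
      simp only [S]
      by_cases h1 : p.1 < p.2
      · have h2 : ¬ p.2 < p.1 := not_lt.mpr h1.le
        have h3 : p.1 ≠ p.2 := h1.ne
        simp [h1, h2, h3]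
      · by_cases h3 : p.1 = p.2
        · have h2 : ¬ p.2 < p.1 := by rw [h3]; exact lt_irrefl _
          simp [h1, h2, h3, Finset.card_erase_of_mem, hF]
        · have h2 : p.2 < p.1 := by
            rcases lt_trichotomy p.1 p.2 with h | h | h
            · exact absurd h h1
            · exact absurd h h3
            · exact h
          simp [h1, h2, h3, hF]
    simp only [this, Finset.prod_mul_distrib, Finset.prod_ite, Finset.prod_const, one_pow, mul_one, one_mul]
    rw [card_lt, card_eq]
  have hbij : Function.Bijective (fun g : {g : Matrix.GeneralLinearGroup (Fin n) F // ∀ i j : Fin n, i < j → (g : Matrix (Fin n) (Fin n) F) i j = 0} =>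
      (⟨fun p : Fin n × Fin n => (g.1 : Matrix (Fin n) (Fin n) F) p.1 p.2, by
        rw [Fintype.mem_piFinset]
        intro p
        simp only [S]
        by_cases h1 : p.1 < p.2
        · simp [h1, g.2 _ _ h1]
        · by_cases h3 : p.1 = p.2
          · rw [if_neg h1, if_pos h3, Finset.mem_erase]
            refine ⟨?_, Finset.mem_univ _⟩
            intro h0
            have hd : (g.1 : Matrix (Fin n) (Fin n) F).det = ∏ i, (g.1 : Matrix (Fin n) (Fin n) F) i i :=
              Matrix.det_of_lowerTriangular _ (fun i j hij => g.2 i j hij)
            have hu : IsUnit (g.1 : Matrix (Fin n) (Fin n) F).det := (Matrix.isUnit_iff_isUnit_det _).mp g.1.isUnit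
            rw [hd] at hu
            have : ∏ i, (g.1 : Matrix (Fin n) (Fin n) F) i i = 0 := Finset.prod_eq_zero (Finset.mem_univ p.2) (by
              have key : ∀ a b : Fin n, a = b → (g.1 : Matrix (Fin n) (Fin n) F) a b = 0 →
                  (g.1 : Matrix (Fin n) (Fin n) F) b b = 0 := by
                rintro a _ rfl h
                exact h
              exact key _ _ h3 h0)
            rw [this] at hu
            exact not_isUnit_zero hu
          · simp [h1, h3]⟩ : {f // f ∈ T})) := by
    constructor
    · intro g h hgh
      apply Subtype.ext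
      apply Units.ext
      ext i j
      have := congrArg Subtype.val hgh
      exact congrFun this (i, j)
    · rintro ⟨f, hf⟩
      rw [Fintype.mem_piFinset] at hf
      have hlow : ∀ i j : Fin n, i < j → Matrix.of (fun i j => f (i, j)) i j = 0 := by
        intro i j hij
        have := hf (i, j)
        simp only [S, hij, if_true, Finset.mem_singleton] at this
        simpa using this
      have hdiag : ∀ i, f (i, i) ≠ 0 := by
        intro i
        have := hf (i, i)
        simp only [S, lt_irrefl, if_false, if_true, Finset.mem_erase, Finset.mem_univ, and_true] at this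
        exact this
      have hdet : (Matrix.of (fun i j => f (i, j)) : Matrix (Fin n) (Fin n) F).det ≠ 0 := by
        rw [Matrix.det_of_lowerTriangular _ hlow]
        exact Finset.prod_ne_zero_iff.mpr fun i _ => hdiag i
      refine ⟨⟨Matrix.GeneralLinearGroup.mkOfDetNeZero _ hdet, hlow⟩, ?_⟩
      apply Subtype.ext
      funext p
      rfl
  rw [Nat.card_eq_of_bijective _ hbij, Nat.card_eq_fintype_card, Fintype.card_coe, hT]

end Cfsg.Agent.S0769
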