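import Cfsg.Statements.S0770


set_option autoImplicit false
open Cfsg

namespace Cfsg.Agent.S0770

open Matrix

/-- For a field with at least 3 elements, an invertible matrix normalises the subgroup of invertible diagonal matrices of GL_n if and only if it is monomial (exactly one non-zero entry in each row). -/
theorem result {F : Type*} [Field F] (hF : ∃ a : F, a ≠ 0 ∧ a ≠ 1) (n : ℕ) (g : Matrix.GeneralLinearGroup (Fin n) F) : g ∈ Subgroup.normalizer ((Units.map (Matrix.diagonalRingHom (Fin n) F).toMonoidHom).range : Subgroup (Matrix.GeneralLinearGroup (Fin n) F)) ↔ ∀ i : Fin n, ∃! j : Fin n, (g : Matrix (Fin n) (Fin n) F) i j ≠ 0 := by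
  classical
  have hT : ∀ h : Matrix.GeneralLinearGroup (Fin n) F, h ∈ ((Units.map (Matrix.diagonalRingHom (Fin n) F).toMonoidHom).range : Subgroup (Matrix.GeneralLinearGroup (Fin n) F)) ↔ ∃ d : Fin n → F, (h : Matrix (Fin n) (Fin n) F) = Matrix.diagonal d := by
    intro h
    constructor
    · rintro ⟨u, rfl⟩
      exact ⟨u.1, rfl⟩
    · rintro ⟨d, hd⟩
      have hdet : (h : Matrix (Fin n) (Fin n) F).det ≠ 0 := by
        have := (Matrix.isUnit_iff_isUnit_det _).1 h.isUnit
        exact this.ne_zero
      have hd0 : ∀ i, d i ≠ 0 := by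
        rw [hd, Matrix.det_diagonal] at hdet
        exact fun i => Finset.prod_ne_zero_iff.1 hdet i (Finset.mem_univ i)
      refine ⟨⟨d, fun i => (d i)⁻¹, ?_, ?_⟩, ?_⟩
      · funext i
        simp [hd0 i]
      · funext i
        simp [hd0 i]
      · apply Units.ext
        show Matrix.diagonal d = _
        rw [hd]
  have hdiag : ∀ (d : Fin n → F), (∀ i, d i ≠ 0) → ∃ h : Matrix.GeneralLinearGroup (Fin n) F, (h : Matrix (Fin n) (Fin n) F) = Matrix.diagonal d := by
    intro d hd0
    refine ⟨⟨Matrix.diagonal d, Matrix.diagonal (fun i => (d i)⁻¹), ?_, ?_⟩, rfl⟩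
    · rw [Matrix.diagonal_mul_diagonal, ← Matrix.diagonal_one]
      congr 1
      funext i
      simp [hd0 i]
    · rw [Matrix.diagonal_mul_diagonal, ← Matrix.diagonal_one]
      congr 1
      funext i
      simp [hd0 i]
  obtain ⟨a, ha0, ha1⟩ := hF
  constructor
  · intro hg i
    rw [Subgroup.mem_normalizer_iff] at hg
    -- each row is non-zero
    have hrow : ∃ j, (g : Matrix (Fin n) (Fin n) F) i j ≠ 0 := by
      by_contra hcon
      push Not at hcon
      have h1 : ((g : Matrix (Fin n) (Fin n) F) * ((g⁻¹ : Matrix.GeneralLinearGroup (Fin n) F) : Matrix (Fin n) (Fin n) F)) i i = 1 := by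
        rw [← Units.val_mul, mul_inv_cancel]
        simp
      rw [Matrix.mul_apply] at h1
      simp [hcon] at h1
    obtain ⟨j, hj⟩ := hrow
    refine ⟨j, hj, fun k hk => ?_⟩
    by_contra hne
    obtain ⟨h, hh⟩ := hdiag (fun l => if l = k then a else 1) (by
      intro l
      by_cases hl : l = k <;> simp [hl, ha0])
    have hmem : h ∈ ((Units.map (Matrix.diagonalRingHom (Fin n) F).toMonoidHom).range : Subgroup (Matrix.GeneralLinearGroup (Fin n) F)) := (hT h).2 ⟨_, hh⟩
    obtain ⟨e, he⟩ := (hT _).1 ((hg h).1 hmem)
    have hcomm : (g : Matrix (Fin n) (Fin n) F) * (h : Matrix (Fin n) (Fin n) F) = Matrix.diagonal e * (g : Matrix (Fin n) (Fin n) F) := by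
      rw [← he, ← Units.val_mul, ← Units.val_mul]
      congr 1
      group
    have h1 := congrFun (congrFun hcomm i) k
    have h3 := congrFun (congrFun hcomm i) j
    rw [hh, Matrix.mul_diagonal, Matrix.diagonal_mul] at h1 h3
    simp only [if_true] at h1
    rw [if_neg (Ne.symm hne)] at h3
    have h5 : a = e i := by
      apply mul_right_cancel₀ hk
      rw [← h1]
      ring
    have h6 : (1 : F) = e i := by
      apply mul_right_cancel₀ hj
      rw [← h3]
      ring
    exact ha1 (h5.trans h6.symm)
  · intro hmono
    choose σ hσ hσu using hmono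
    rw [Subgroup.mem_normalizer_iff]
    -- σ is injective
    have hinj : Function.Injective σ := by
      intro i j hij
      by_contra hne
      -- rows i, j are proportional
      have hdet := (Matrix.isUnit_iff_isUnit_det _).1 g.isUnit
      have hz : ∀ k, k ≠ σ i → (g : Matrix (Fin n) (Fin n) F) i k = 0 := by
        intro k hk
        by_contra h
        exact hk (hσu i k h)
      have hz' : ∀ k, k ≠ σ i → (g : Matrix (Fin n) (Fin n) F) j k = 0 := by
        intro k hk
        by_contra h
        exact hk ((hσu j k h).trans hij.symm)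
      --  applied: use a non-zero combination
      let w : Fin n → F := fun l => if l = i then (g : Matrix (Fin n) (Fin n) F) j (σ i) else if l = j then -(g : Matrix (Fin n) (Fin n) F) i (σ i) else 0
      have hw : w ᵥ* (g : Matrix (Fin n) (Fin n) F) = 0 := by
        funext k
        rw [Matrix.vecMul, dotProduct, ← Finset.add_sum_erase Finset.univ _ (Finset.mem_univ i),
          ← Finset.add_sum_erase _ _ (Finset.mem_erase.2 ⟨Ne.symm hne, Finset.mem_univ j⟩),
          Finset.sum_eq_zero]
        · simp only [w, if_true, if_neg (Ne.symm hne)]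
          by_cases hk : k = σ i
          · subst hk
            simp
            ring
          · rw [hz k hk, hz' k hk]
            simp
        · intro l hl
          simp only [Finset.mem_erase] at hl
          simp [w, hl.1, hl.2.1]
      have hw0 : w = 0 := by
        have h5 := congrArg (fun v => v ᵥ* ((g⁻¹ : Matrix.GeneralLinearGroup (Fin n) F) : Matrix (Fin n) (Fin n) F)) hw
        simp only [Matrix.vecMul_vecMul] at h5
        rw [← Units.val_mul, mul_inv_cancel] at h5
        simpa using h5
      have h6 := congrFun hw0 j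
      simp only [w, if_neg (Ne.symm hne), if_true, Pi.zero_apply, neg_eq_zero] at h6
      exact hσ i h6
    have hbij : Function.Bijective σ := Finite.injective_iff_bijective.1 hinj
    let e := Equiv.ofBijective σ hbij
    have hsupp : ∀ i j, (g : Matrix (Fin n) (Fin n) F) i j ≠ 0 → j = σ i := fun i j h => hσu i j h
    have key : ∀ d : Fin n → F, (g : Matrix (Fin n) (Fin n) F) * Matrix.diagonal d = Matrix.diagonal (d ∘ σ) * (g : Matrix (Fin n) (Fin n) F) := by
      intro d
      ext i j
      rw [Matrix.mul_diagonal, Matrix.diagonal_mul]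
      by_cases h : (g : Matrix (Fin n) (Fin n) F) i j = 0
      · rw [h]
        simp
      · rw [hsupp i j h]
        simp
        ring
    intro h
    rw [hT, hT]
    constructor
    · rintro ⟨d, hd⟩
      refine ⟨d ∘ σ, ?_⟩
      have h5 := key d
      rw [← hd] at h5
      have h6 : ((g * h * g⁻¹ : Matrix.GeneralLinearGroup (Fin n) F) : Matrix (Fin n) (Fin n) F) * (g : Matrix (Fin n) (Fin n) F) = Matrix.diagonal (d ∘ σ) * (g : Matrix (Fin n) (Fin n) F) := by
        rw [← h5, ← Units.val_mul, ← Units.val_mul]
        congr 1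
        group
      have h7 := congrArg (fun m => m * ((g⁻¹ : Matrix.GeneralLinearGroup (Fin n) F) : Matrix (Fin n) (Fin n) F)) h6
      simp only [Matrix.mul_assoc] at h7
      rw [← Units.val_mul, mul_inv_cancel] at h7
      simpa using h7
    · rintro ⟨d, hd⟩
      refine ⟨d ∘ e.symm, ?_⟩
      have h5 := key (d ∘ e.symm)
      have h8 : (d ∘ e.symm) ∘ σ = d := by
        funext i
        simp only [Function.comp]
        congr 1
        exact e.symm_apply_apply i
      rw [h8, ← hd] at h5
      have h6 : (g : Matrix (Fin n) (Fin n) F) * (h : Matrix (Fin n) (Fin n) F) = (g : Matrix (Fin n) (Fin n) F) * Matrix.diagonal (d ∘ e.symm) := by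
        rw [h5, ← Units.val_mul, ← Units.val_mul]
        congr 1
        group
      exact (Units.isUnit g).mul_left_cancel h6

end Cfsg.Agent.S0770
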