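import Cfsg.Statements.S0771
import Cfsg.Agent.Lib.GLBlock

set_option autoImplicit false
open Cfsg

namespace Cfsg.Agent.S0771

/-- Maximal parabolic of GL_n(q): the stabiliser of the coordinate subspace spanned by the first k basis vectors has order q^(k(n-k)) · |GL_k(q)| · |GL_(n-k)(q)| (unipotent radical of order q^(k(n-k)) and Levi complement GL_k × GL_(n-k)). -/
theorem result {F : Type*} [Field F] [Fintype F] {q : ℕ} (hF : Fintype.card F = q) (n k : ℕ) (hk : k ≤ n) : Nat.card ↥(Cfsg.stabilizing (Cfsg.glToMat (Fin n) F) {v : Fin n → F | ∀ i : Fin n, k ≤ (i : ℕ) → v i = 0}) = q ^ (k * (n - k)) * (∏ i : Fin k, (q ^ k - q ^ (i : ℕ))) * ∏ i : Fin (n - k), (q ^ (n - k) - q ^ (i : ℕ)) := by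
  classical
  subst hF
  have h : k + (n - k) = n := by omega
  have e := Nat.card_congr (Cfsg.Agent.Lib.GLBlock.stabEquiv (F := F) h)
  rw [Nat.card_prod, Nat.card_prod, Matrix.card_GL_field, Matrix.card_GL_field] at e
  have e2 : Nat.card (Matrix (Fin k) (Fin (n - k)) F) = Fintype.card F ^ (k * (n - k)) := by
    rw [Nat.card_eq_fintype_card]
    show Fintype.card (Fin k → Fin (n - k) → F) = _
    simp only [Fintype.card_fun, Fintype.card_fin]
    rw [← pow_mul, mul_comm]
  rw [e2] at e
  refine Eq.trans e ?_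
  ring

end Cfsg.Agent.S0771
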