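import Cfsg.Statements.S0772
import Cfsg.Agent.Lib.SLStab

set_option autoImplicit false
open Cfsg

namespace Cfsg.Agent.S0772

open Matrix Cfsg.Geo Cfsg.Agent.Lib.TvGL Cfsg.Agent.Lib.FormVec Cfsg.Agent.Lib.SLStab

/-- Maximal parabolics are maximal: over a finite field, for 0 < k < n the stabiliser in GL_n of the span of the first k coordinate vectors is a maximal proper subgroup. -/
theorem result {F : Type*} [Field F] [Finite F] (n k : ℕ) (hk0 : 0 < k) (hkn : k < n) : IsCoatom (Cfsg.stabilizing (Cfsg.glToMat (Fin n) F) {v : Fin n → F | ∀ i : Fin n, k ≤ (i : ℕ) → v i = 0}) := by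
  classical
  let W : Submodule F (Fin n → F) :=
    { carrier := {v : Fin n → F | ∀ i : Fin n, k ≤ (i : ℕ) → v i = 0}
      add_mem' := by
        intro a b ha hb i hi
        simp [ha i hi, hb i hi]
      zero_mem' := by
        intro i _
        rfl
      smul_mem' := by
        intro c a ha i hi
        simp [ha i hi] }
  have hE : Cfsg.stabilizing (Cfsg.glToMat (Fin n) F) {v : Fin n → F | ∀ i : Fin n, k ≤ (i : ℕ) → v i = 0} = subspaceStabilizer W := rfl
  rw [hE]
  have hW0 : W ≠ ⊥ := by
    intro h
    have : (Pi.single (⟨0, by omega⟩ : Fin n) (1 : F)) ∈ W := by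
      intro i hi
      have : i ≠ ⟨0, by omega⟩ := by
        intro e
        rw [e] at hi
        simp at hi
        omega
      simp [Pi.single_apply, this]
    rw [h] at this
    have h2 := congrFun ((Submodule.mem_bot F).mp this) ⟨0, by omega⟩
    simp at h2
  have hW1 : W ≠ ⊤ := by
    intro h
    have : (Pi.single (⟨k, hkn⟩ : Fin n) (1 : F)) ∈ W := by
      rw [h]; trivial
    have h2 := this ⟨k, hkn⟩ (le_refl _)
    simp at h2
  constructor
  · intro h
    obtain ⟨g, -, hg'⟩ := exists_not_stab W hW0 hW1
    rw [h] at hg'
    exact hg' trivial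
  · intro M hM
    obtain ⟨g, hgM, hg⟩ := SetLike.exists_of_lt hM
    have hSL := sl_le_of_stab W (le_trans inf_le_left hM.le) hgM hg
    rw [eq_top_iff]
    intro x _
    -- decompose
    let i₀ : Fin n := ⟨0, by omega⟩
    let d : GL (Fin n) F := Matrix.GeneralLinearGroup.mkOfDetNeZero
      (Matrix.diagonal (Function.update (1 : Fin n → F) i₀ (x : Matrix (Fin n) (Fin n) F).det)) (by
        rw [Matrix.det_diagonal, Finset.prod_update_of_mem (Finset.mem_univ _)]
        simp [Matrix.GeneralLinearGroup.det]
        exact (Matrix.GeneralLinearGroup.det x).ne_zero)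
    have hdS : d ∈ subspaceStabilizer W := by
      rw [mem_stab_iff]
      intro v
      have hdi : ∀ i, Function.update (1 : Fin n → F) i₀ (x : Matrix (Fin n) (Fin n) F).det i ≠ 0 := by
        intro i
        by_cases hi : i = i₀
        · subst hi
          rw [Function.update_self]
          exact (Matrix.GeneralLinearGroup.det x).ne_zero
        · rw [Function.update_of_ne hi]
          simp
      have hd : ((d : GL (Fin n) F) : Matrix (Fin n) (Fin n) F) *ᵥ v = fun i => Function.update (1 : Fin n → F) i₀ (x : Matrix (Fin n) (Fin n) F).det i * v i := by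
        funext i
        show (Matrix.diagonal _ *ᵥ v) i = _
        rw [Matrix.mulVec_diagonal]
      rw [hd]
      constructor
      · intro hv i hi
        show _ * v i = 0
        rw [hv i hi, mul_zero]
      · intro hv i hi
        have h1 : _ * v i = 0 := hv i hi
        exact (mul_eq_zero.mp h1).resolve_left (hdi i)
    have hdM : d ∈ M := hM.le hdS
    have hs : x * d⁻¹ ∈ specialLinear (Fin n) F := by
      rw [mem_SL_iff]
      have e : ((x * d⁻¹ : GL (Fin n) F) : Matrix (Fin n) (Fin n) F) * (d : Matrix (Fin n) (Fin n) F) = x := by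
        rw [← Units.val_mul, inv_mul_cancel_right]
      have hdet : ((d : GL (Fin n) F) : Matrix (Fin n) (Fin n) F).det = (x : Matrix (Fin n) (Fin n) F).det := by
        show (Matrix.diagonal _).det = _
        rw [Matrix.det_diagonal, Finset.prod_update_of_mem (Finset.mem_univ _)]
        simp
      have h3 := congrArg Matrix.det e
      rw [Matrix.det_mul, hdet] at h3
      have hne : (x : Matrix (Fin n) (Fin n) F).det ≠ 0 := (Matrix.GeneralLinearGroup.det x).ne_zero
      exact mul_right_cancel₀ hne (by rw [h3, one_mul])
    have := M.mul_mem (hSL hs) hdM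
    rwa [inv_mul_cancel_right] at this

end Cfsg.Agent.S0772
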