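import Cfsg.Statements.S0773
import Cfsg.Agent.Lib.GLBlock
import Cfsg.Agent.Lib.TvGL

set_option autoImplicit false
open Cfsg

namespace Cfsg.Agent.S0773

open Matrix Cfsg.Agent.Lib.GLBlock Cfsg.Agent.Lib.TvGL

variable {F : Type*} [Field F] {n k m : ℕ}

theorem sum_single (u : Fin n → F) : ∑ i, u i • (Pi.single i 1 : Fin n → F) = u := by
  classical
  funext x
  simp [Finset.sum_apply, Pi.single_apply]

theorem trichotomy (h : k + m = n) (hk : 0 < k) (U : Submodule F (Fin n → F))
    (hU : ∀ x ∈ Cfsg.stabilizing (Cfsg.glToMat (Fin n) F) (SS n k F), ∀ u ∈ U, ((x : GL (Fin n) F) : Matrix (Fin n) (Fin n) F) *ᵥ u ∈ U) :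
    U = ⊥ ∨ U = WW n k F ∨ U = ⊤ := by
  classical
  let e : Fin n → (Fin n → F) := fun i => Pi.single i 1
  have he : ∀ i j, e j ⬝ᵥ e i = if i = j then 1 else 0 := by
    intro i j
    simp [e, single_one_dotProduct, Pi.single_apply]
  have hL : ∀ u ∈ U, ∀ i j : Fin n, i ≠ j → ((i : ℕ) < k ∨ k ≤ (j : ℕ)) → u j ≠ 0 → e i ∈ U := by
    intro u hu i j hij hcond hj
    have hd : e j ⬝ᵥ e i = 0 := by rw [he, if_neg hij]
    have hx : tv (e i) (e j) hd ∈ Cfsg.stabilizing (Cfsg.glToMat (Fin n) F) (SS n k F) := by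
      rw [mem_stab_iff h]
      intro a b ha hb
      rw [tv_val, Matrix.add_apply, Matrix.one_apply, vecMulVec_apply, if_neg]
      · simp only [zero_add, e, Pi.single_apply]
        by_cases h1 : a = i
        · by_cases h2 : b = j
          · exfalso
            subst h1
            subst h2
            omega
          · simp [h2]
        · simp [h1]
      · rintro rfl
        omega
    have h1 := hU _ hx u hu
    rw [tv_mulVec] at h1
    have h2 : u j • e i ∈ U := by
      have h3 := U.sub_mem h1 hu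
      rw [add_sub_cancel_left] at h3
      have h5 : e j ⬝ᵥ u = u j := by simp [e, single_one_dotProduct]
      rwa [h5] at h3
    have h3 := U.smul_mem (u j)⁻¹ h2
    rwa [smul_smul, inv_mul_cancel₀ hj, one_smul] at h3
  have hcombo : ∀ u ∈ U, ∀ j : Fin n, u j ≠ 0 → (∀ i, i ≠ j → u i ≠ 0 → e i ∈ U) → e j ∈ U := by
    intro u hu j hj hi
    have h1 : u j • e j = u - ∑ i ∈ Finset.univ.erase j, u i • e i := by
      have h2 := sum_single u
      rw [← Finset.add_sum_erase _ _ (Finset.mem_univ j)] at h2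
      rw [eq_sub_iff_add_eq]
      exact h2
    have h2 : u j • e j ∈ U := by
      rw [h1]
      apply U.sub_mem hu
      apply U.sum_mem
      intro i hi'
      by_cases h3 : u i = 0
      · rw [h3, zero_smul]
        exact U.zero_mem
      · exact U.smul_mem _ (hi i (Finset.ne_of_mem_erase hi') h3)
    have h3 := U.smul_mem (u j)⁻¹ h2
    rwa [smul_smul, inv_mul_cancel₀ hj, one_smul] at h3
  by_cases hbot : U = ⊥
  · exact Or.inl hbot
  right
  obtain ⟨u, hu, hu0⟩ := (Submodule.ne_bot_iff _).1 hbot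
  have hstep1 : ∀ i : Fin n, (i : ℕ) < k → e i ∈ U := by
    by_cases hc : ∃ j : Fin n, k ≤ (j : ℕ) ∧ u j ≠ 0
    · obtain ⟨j, hj, hj0⟩ := hc
      intro i hi
      exact hL u hu i j (by rintro rfl; omega) (Or.inl hi) hj0
    · push Not at hc
      obtain ⟨j, hj0⟩ := Function.ne_iff.1 hu0
      have hjk : (j : ℕ) < k := by
        by_contra hcon
        exact hj0 (hc j (by omega))
      have hother : ∀ i : Fin n, (i : ℕ) < k → i ≠ j → e i ∈ U := fun i hi hij => hL u hu i j hij (Or.inl hi) hj0
      have hj' : e j ∈ U := by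
        apply hcombo u hu j hj0
        intro i hij hi0
        apply hother i _ hij
        by_contra hcon
        exact hi0 (hc i (by omega))
      intro i hi
      by_cases hij : i = j
      · rw [hij]
        exact hj'
      · exact hother i hi hij
  have hsum : ∀ v : Fin n → F, (∀ i, v i ≠ 0 → e i ∈ U) → v ∈ U := by
    intro v hv
    rw [← sum_single v]
    apply U.sum_mem
    intro i _
    by_cases h3 : v i = 0
    · rw [h3, zero_smul]
      exact U.zero_mem
    · exact U.smul_mem _ (hv i h3)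
  have hWU : WW n k F ≤ U := by
    intro v hv
    apply hsum
    intro i hi
    apply hstep1
    by_contra hcon
    exact hi (hv i (by omega))
  by_cases hUW : U ≤ WW n k F
  · left
    exact le_antisymm hUW hWU
  · right
    obtain ⟨u', hu', hu'W⟩ := SetLike.not_le_iff_exists.1 hUW
    have : ∃ j : Fin n, k ≤ (j : ℕ) ∧ u' j ≠ 0 := by
      by_contra hcon
      push Not at hcon
      exact hu'W hcon
    obtain ⟨j, hj, hj0⟩ := this
    have hother : ∀ i, i ≠ j → e i ∈ U := fun i hij => hL u' hu' i j hij (Or.inr hj) hj0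
    have hj' : e j ∈ U := hcombo u' hu' j hj0 (fun i hij _ => hother i hij)
    rw [eq_top_iff]
    intro v _
    apply hsum
    intro i _
    by_cases hij : i = j
    · rw [hij]
      exact hj'
    · exact hother i hij

/-- The stabilisers in GL_n(F), F finite, of the coordinate subspaces of dimensions k and n − k are isomorphic groups, but when 2k ≠ n (and 0 < k < n) no element of GL_n conjugates one onto the other. -/
theorem result {F : Type*} [Field F] [Finite F] (n k : ℕ) (hk0 : 0 < k) (hkn : k < n) (h2 : 2 * k ≠ n) : Nonempty (↥(Cfsg.stabilizing (Cfsg.glToMat (Fin n) F) {v : Fin n → F | ∀ i : Fin n, k ≤ (i : ℕ) → v i = 0}) ≃* ↥(Cfsg.stabilizing (Cfsg.glToMat (Fin n) F) {v : Fin n → F | ∀ i : Fin n, n - k ≤ (i : ℕ) → v i = 0})) ∧ ∀ g : Matrix.GeneralLinearGroup (Fin n) F, (Cfsg.stabilizing (Cfsg.glToMat (Fin n) F) {v : Fin n → F | ∀ i : Fin n, k ≤ (i : ℕ) → v i = 0}).map (MulAut.conj g).toMonoidHom ≠ Cfsg.stabilizing (Cfsg.glToMat (Fin n) F) {v : Fin n → F | ∀ i : Fin n, n - k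 ≤ (i : ℕ) → v i = 0} := by
  refine ⟨⟨stabMulEquiv (F := F) (k := k) (n := n) hkn.le⟩, ?_⟩
  intro g hg
  have h1 : (n - k) + k = n := by omega
  have h1' : k + (n - k) = n := by omega
  let T := Matrix.mulVecLin ((g : Matrix (Fin n) (Fin n) F))
  have hT : Function.Injective T := by
    intro x y hxy
    have h2 := congrArg (fun w => ((g⁻¹ : Matrix.GeneralLinearGroup (Fin n) F) : Matrix (Fin n) (Fin n) F) *ᵥ w) hxy
    simp only [T, Matrix.mulVecLin_apply, Matrix.mulVec_mulVec] at h2
    rw [← Units.val_mul, inv_mul_cancel] at h2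
    simpa using h2
  let U : Submodule F (Fin n → F) := (WW n k F).map T
  have hfr : Module.finrank F U = k := by
    have := (Submodule.equivMapOfInjective T hT (WW n k F)).finrank_eq
    rw [finrank_WW h1'] at this
    exact this.symm
  have hU : ∀ x ∈ Cfsg.stabilizing (Cfsg.glToMat (Fin n) F) (SS n (n - k) F), ∀ u ∈ U, ((x : Matrix.GeneralLinearGroup (Fin n) F) : Matrix (Fin n) (Fin n) F) *ᵥ u ∈ U := by
    intro x hx u hu
    have hx' : x ∈ (Cfsg.stabilizing (Cfsg.glToMat (Fin n) F) {v : Fin n → F | ∀ i : Fin n, k ≤ (i : ℕ) → v i = 0}).map (MulAut.conj g).toMonoidHom := by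
      rw [hg]
      exact hx
    obtain ⟨y, hy, rfl⟩ := hx'
    obtain ⟨w, hw, rfl⟩ := hu
    refine ⟨((y : Matrix.GeneralLinearGroup (Fin n) F) : Matrix (Fin n) (Fin n) F) *ᵥ w, (hy w).1 hw, ?_⟩
    simp only [T, Matrix.mulVecLin_apply, Matrix.mulVec_mulVec]
    show _ = ((((g * y * g⁻¹ : Matrix.GeneralLinearGroup (Fin n) F)) : Matrix (Fin n) (Fin n) F) * (g : Matrix (Fin n) (Fin n) F)) *ᵥ w
    rw [← Units.val_mul, ← Units.val_mul]
    congr 2
    group
  rcases trichotomy h1 (by omega) U hU with h2 | h2 | h2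
  · rw [h2, finrank_bot] at hfr
    omega
  · rw [h2, finrank_WW h1] at hfr
    omega
  · rw [h2, finrank_top] at hfr
    simp at hfr
    omega

end Cfsg.Agent.S0773
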