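import Cfsg.Statements.S0774
import Cfsg.Agent.Lib.SpFrames

set_option autoImplicit false
open Cfsg

namespace Cfsg.Agent.S0774


open Matrix Cfsg.Agent.Lib.SpFrames Cfsg.Agent.Lib.TICount

/-- the coordinate subspaces -/
def WW (F : Type*) [Field F] (m k : ℕ) : Submodule F (Fin m ⊕ Fin m → F) where
  carrier := {v | (∀ i : Fin m, k < (i : ℕ) → v (Sum.inl i) = 0) ∧ ∀ i : Fin m, v (Sum.inr i) = 0}
  add_mem' := by
    rintro a b ⟨h1, h2⟩ ⟨h3, h4⟩
    exact ⟨fun i hi => by simp [h1 i hi, h3 i hi], fun i => by simp [h2 i, h4 i]⟩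
  zero_mem' := ⟨fun _ _ => rfl, fun _ => rfl⟩
  smul_mem' := by
    rintro c a ⟨h1, h2⟩
    exact ⟨fun i hi => by simp [h1 i hi], fun i => by simp [h2 i]⟩

theorem WW_mono (F : Type*) [Field F] (m : ℕ) {j k : ℕ} (h : j ≤ k) : WW F m j ≤ WW F m k := by
  rintro v ⟨h1, h2⟩
  exact ⟨fun i hi => h1 i (by omega), h2⟩

theorem card_WW (F : Type*) [Field F] [Fintype F] (m k : ℕ) (hk : k < m) :
    Nat.card (WW F m k) = Fintype.card F ^ (k + 1) := by
  classical
  let S : Fin m ⊕ Fin m → Finset F := Sum.elim (fun i => if (i : ℕ) ≤ k then Finset.univ else {0}) (fun _ => {0})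
  have h1 : Nat.card (WW F m k) = (Fintype.piFinset S).card := by
    apply Nat.subtype_card
    intro x
    rw [Fintype.mem_piFinset]
    constructor
    · intro h
      refine ⟨fun i hi => ?_, fun i => ?_⟩
      · have := h (Sum.inl i)
        simp only [S, Sum.elim_inl, if_neg (show ¬ (i : ℕ) ≤ k by omega), Finset.mem_singleton] at this
        exact this
      · simpa [S] using h (Sum.inr i)
    · rintro ⟨h1, h2⟩ j
      rcases j with j | j
      · simp only [S, Sum.elim_inl]
        split_ifs with hj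
        · simp
        · simpa using h1 j (by omega)
      · simpa [S] using h2 j
  rw [h1, Fintype.card_piFinset, Fintype.prod_sum_type]
  have h2 : ∀ i : Fin m, (S (Sum.inl i)).card = if i ≤ (⟨k, hk⟩ : Fin m) then Fintype.card F else 1 := by
    intro i
    simp only [S, Sum.elim_inl, Fin.le_def]
    split_ifs <;> simp
  have h3 : ∀ i : Fin m, (S (Sum.inr i)).card = 1 := by
    intro i
    simp [S]
  simp only [h2, h3, Finset.prod_const_one, mul_one]
  rw [Finset.prod_ite, Finset.prod_const, Finset.prod_const_one, mul_one]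
  have h4 : (Finset.univ.filter (fun x : Fin m => x ≤ (⟨k, hk⟩ : Fin m))) = Finset.Iic ⟨k, hk⟩ := by
    ext x
    simp
  rw [h4, Fin.card_Iic]

theorem card_Y (F : Type*) [Field F] [Fintype F] (m : ℕ) :
    Nat.card {f : Fin m → (Fin m ⊕ Fin m → F) // LinearIndependent F f ∧ ∀ j : Fin m, f j ∈ WW F m j} =
      ∏ i ∈ Finset.range m, (Fintype.card F ^ (i + 1) - Fintype.card F ^ i) := by
  apply card_chain (fun k (f : Fin k → (Fin m ⊕ Fin m → F)) => ∀ j : Fin k, f j ∈ WW F m j) (fun k _ => WW F m k)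
    (fun k => Fintype.card F ^ (k + 1)) m
  · intro f i
    exact i.elim0
  · intro k _ f v _
    constructor
    · intro h
      refine ⟨fun i => ?_, ?_⟩
      · have := h i.castSucc
        rwa [Fin.snoc_castSucc] at this
      · have := h (Fin.last k)
        rwa [Fin.snoc_last] at this
    · rintro ⟨h1, h2⟩ i
      refine Fin.lastCases ?_ (fun j => ?_) i
      · rwa [Fin.snoc_last]
      · rw [Fin.snoc_castSucc]
        exact h1 j
  · intro k hk f _ h
    refine ⟨?_, card_WW F m k hk⟩
    rw [Submodule.span_le]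
    rintro _ ⟨i, rfl⟩
    exact WW_mono F m (le_of_lt i.2) (h i)

theorem prod_tri (q m : ℕ) :
    ∏ i ∈ Finset.range m, (q ^ (i + 1) - q ^ i) = q ^ (m * (m - 1) / 2) * (q - 1) ^ m := by
  have h1 : ∀ i ∈ Finset.range m, q ^ (i + 1) - q ^ i = q ^ i * (q - 1) := by
    intro i _
    rw [pow_succ, Nat.mul_sub_one]
  rw [Finset.prod_congr rfl h1, Finset.prod_mul_distrib, Finset.prod_pow_eq_pow_sum, Finset.sum_range_id,
    Finset.prod_const, Finset.card_range]


/-- Borel subgroup of the symplectic group: the elements of Sp_2m(q) stabilising each of the totally isotropic coordinate subspaces ⟨e_0, ..., e_k⟩ (k < m) form a subgroup of order q^(m²) (q − 1)^m. -/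
theorem result {F : Type*} [Field F] [Fintype F] {q : ℕ} (hF : Fintype.card F = q) (m : ℕ) : Nat.card ↥(⨅ k : Fin m, Cfsg.stabilizing (Cfsg.spToMat m F) {v : Fin m ⊕ Fin m → F | (∀ i : Fin m, (k : ℕ) < (i : ℕ) → v (Sum.inl i) = 0) ∧ ∀ i : Fin m, v (Sum.inr i) = 0}) = q ^ (m ^ 2) * (q - 1) ^ m := by
  classical
  subst hF
  let e : Fin m → (Fin m ⊕ Fin m → F) := fun j => Pi.single (Sum.inl j) 1
  have he : LinearIndependent F e := by
    have h := (Pi.basisFun F (Fin m ⊕ Fin m)).linearIndependent.comp Sum.inl Sum.inl_injective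
    have e2 : (⇑(Pi.basisFun F (Fin m ⊕ Fin m)) ∘ Sum.inl) = e := by
      funext j
      simp [e]
    rwa [e2] at h
  have hinr : ∀ {u v : Fin m ⊕ Fin m → F}, (∀ i, u (Sum.inr i) = 0) → (∀ i, v (Sum.inr i) = 0) → Cfsg.sympForm m F u v = 0 := by
    intro u v hu hv
    rw [Cfsg.Agent.Lib.SympBasic.sympForm_apply]
    simp [hu, hv]
  have heW : ∀ j : Fin m, e j ∈ WW F m j := by
    intro j
    refine ⟨fun i hi => ?_, fun i => ?_⟩
    · have : (Sum.inl i : Fin m ⊕ Fin m) ≠ Sum.inl j := by
        intro h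
        rw [Sum.inl.injEq] at h
        subst h
        omega
      simp [e, this]
    · simp [e]
  have heT : TIf e := fun i j => hinr (heW i).2 (heW j).2
  have h := card_orbit e he heT (⨅ k : Fin m, Cfsg.stabilizing (Cfsg.spToMat m F) {v : Fin m ⊕ Fin m → F | (∀ i : Fin m, (k : ℕ) < (i : ℕ) → v (Sum.inl i) = 0) ∧ ∀ i : Fin m, v (Sum.inr i) = 0})
    (fun f => LinearIndependent F f ∧ ∀ j : Fin m, f j ∈ WW F m j) (by
      intro g
      constructor
      · intro hg
        refine ⟨sp_li he g, fun j => ?_⟩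
        have h1 := Subgroup.mem_iInf.1 hg j
        exact (h1 _).1 (heW j)
      · rintro ⟨-, hg⟩
        apply Subgroup.mem_iInf.2
        intro k
        have := mem_stabilizing_of_map (WW F m k) g ?_
        · exact this
        intro v hv
        have hdec : v = ∑ i : Fin m, v (Sum.inl i) • e i := by
          funext j
          rcases j with j | j
          · simp [e, Finset.sum_apply, Pi.single_apply]
          · simp [e, Finset.sum_apply, hv.2 j]
        have hg2 : (g : Matrix (Fin m ⊕ Fin m) (Fin m ⊕ Fin m) F) *ᵥ v = ∑ i : Fin m, v (Sum.inl i) • ((g : Matrix (Fin m ⊕ Fin m) (Fin m ⊕ Fin m) F) *ᵥ e i) := by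
          conv_lhs => rw [hdec]
          rw [← Matrix.mulVecLin_apply, map_sum]
          simp
        rw [hg2]
        apply Submodule.sum_mem
        intro i _
        by_cases hik : (i : ℕ) ≤ k
        · exact Submodule.smul_mem _ _ (WW_mono F m hik (hg i))
        · rw [hv.1 i (by omega), zero_smul]
          exact Submodule.zero_mem _) (by
      rintro f ⟨h1, h2⟩
      exact ⟨h1, fun i j => hinr (h2 i).2 (h2 j).2⟩)
  rw [card_Y, Cfsg.Agent.Lib.SympOrder.card_Sp] at h
  have hpos : 0 < Nat.card {f : Fin m → (Fin m ⊕ Fin m → F) // LinearIndependent F f ∧ TIf f} := by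
    haveI : Nonempty {f : Fin m → (Fin m ⊕ Fin m → F) // LinearIndependent F f ∧ TIf f} := ⟨⟨e, he, heT⟩⟩
    exact Nat.card_pos
  apply Nat.eq_of_mul_eq_mul_right hpos
  rw [h, card_frames m (by omega), prod_frames_eq _ m m le_rfl Fintype.card_pos]
  have h3 := prod_split (Fintype.card F) 0 m
  rw [zero_add] at h3
  simp only [Finset.range_zero, Finset.prod_empty, one_mul, zero_add] at h3
  rw [h3, prod_tri]
  ring

end Cfsg.Agent.S0774
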