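import Cfsg.Statements.S0775
import Cfsg.Agent.Lib.SpFrames

set_option autoImplicit false
open Cfsg

namespace Cfsg.Agent.S0775


open Matrix Cfsg.Agent.Lib.SpFrames


/-- Maximal parabolics of the symplectic group: if W is a k-dimensional subspace of F^(2m) on which the symplectic form vanishes identically, its stabiliser in Sp_2m(q) has order q^(k(k+1)/2 + 2k(m−k)) · |Sp_(2m−2k)(q)| · |GL_k(q)|. -/
theorem result {F : Type*} [Field F] [Fintype F] {q : ℕ} (hF : Fintype.card F = q) (m k : ℕ) (hk : k ≤ m) (W : Submodule F (Fin m ⊕ Fin m → F)) (hWk : Module.finrank F W = k) (hW : ∀ u ∈ W, ∀ v ∈ W, Cfsg.sympForm m F u v = 0) : Nat.card ↥(Cfsg.stabilizing (Cfsg.spToMat m F) (W : Set (Fin m ⊕ Fin m → F))) = q ^ (k * (k + 1) / 2 + 2 * k * (m - k)) * (q ^ ((m - k) ^ 2) * ∏ i ∈ Finset.range (m - k), (q ^ (2 * (i + 1)) - 1)) * ∏ i : Fin k, (q ^ k - q ^ (i : ℕ)) := by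
  classical
  subst hF
  let b := Module.finBasisOfFinrankEq F W hWk
  let e : Fin k → (Fin m ⊕ Fin m → F) := fun i => (b i : (Fin m ⊕ Fin m → F))
  have he : LinearIndependent F e := b.linearIndependent.map' W.subtype (Submodule.ker_subtype W)
  have hspan : Submodule.span F (Set.range e) = W := by
    have h1 : Submodule.map W.subtype (Submodule.span F (Set.range b)) = Submodule.span F (Set.range e) := by
      rw [Submodule.map_span, ← Set.range_comp]
      rfl
    rw [← h1, b.span_eq, Submodule.map_top, Submodule.range_subtype]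
  have heT : TIf e := fun i j => hW _ (b i).2 _ (b j).2
  have h := card_orbit e he heT (Cfsg.stabilizing (Cfsg.spToMat m F) (W : Set (Fin m ⊕ Fin m → F)))
    (fun f => LinearIndependent F f ∧ ∀ i, f i ∈ W) (by
      intro g
      constructor
      · intro hg
        exact ⟨sp_li he g, fun i => (hg _).1 (b i).2⟩
      · rintro ⟨-, hg⟩
        apply mem_stabilizing_of_map
        intro v hv
        rw [← hspan] at hv
        have h2 : Submodule.span F (Set.range e) ≤ W.comap (g : Matrix (Fin m ⊕ Fin m) (Fin m ⊕ Fin m) F).mulVecLin := by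
          rw [Submodule.span_le]
          rintro _ ⟨i, rfl⟩
          exact hg i
        exact h2 hv) (by
      rintro f ⟨h1, h2⟩
      exact ⟨h1, fun i j => hW _ (h2 i) _ (h2 j)⟩)
  rw [card_frames_in W k, hWk, Cfsg.Agent.Lib.SympOrder.card_Sp] at h
  have hpos : 0 < Nat.card {f : Fin k → (Fin m ⊕ Fin m → F) // LinearIndependent F f ∧ TIf f} := by
    haveI : Nonempty {f : Fin k → (Fin m ⊕ Fin m → F) // LinearIndependent F f ∧ TIf f} := ⟨⟨e, he, heT⟩⟩
    exact Nat.card_pos
  apply Nat.eq_of_mul_eq_mul_right hpos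
  rw [h, card_frames k (by omega), prod_frames_eq _ m k hk Fintype.card_pos]
  obtain ⟨l, rfl⟩ := Nat.exists_eq_add_of_le' hk
  rw [prod_split, Nat.add_sub_cancel, ← Fin.prod_univ_eq_prod_range (fun i => Fintype.card F ^ k - Fintype.card F ^ i) k]
  have hexp : (l + k) ^ 2 = k * (k + 1) / 2 + 2 * k * l + l ^ 2 + k * (k - 1) / 2 := by
    have := tri_add k
    nlinarith [this]
  rw [hexp]
  simp only [pow_add]
  ring

end Cfsg.Agent.S0775
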