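import Cfsg.Statements.S0776
import Cfsg.Agent.Lib.SpDecomp

set_option autoImplicit false
open Cfsg

namespace Cfsg.Agent.S0776


open Matrix Cfsg Cfsg.Geo Cfsg.Agent.Lib.SympBasic Cfsg.Agent.Lib.FormVec Cfsg.Agent.Lib.SpGL Cfsg.Agent.Lib.SpDecomp

section

variable {F : Type*} [Field F] {m : ℕ}

local notation "BB" => toB (symp_bilinear (m := m) (F := F))

/-- the abstract statement: a decomposition gives the group isomorphism -/
theorem decomp_iso {k l : ℕ} (W : Submodule F (Fin m ⊕ Fin m → F))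
    (E : ((Fin k ⊕ Fin k → F) × (Fin l ⊕ Fin l → F)) ≃ₗ[F] (Fin m ⊕ Fin m → F))
    (hE : ∀ a b a' b', Cfsg.sympForm m F (E (a, b)) (E (a', b')) = Cfsg.sympForm k F a a' + Cfsg.sympForm l F b b')
    (hW : ∀ a b, E (a, b) ∈ W ↔ b = 0) :
    Nonempty (↥(Cfsg.stabilizing (Cfsg.spToMat m F) (W : Set (Fin m ⊕ Fin m → F))) ≃* Matrix.symplecticGroup (Fin k) F × Matrix.symplecticGroup (Fin l) F) := by
  classical
  -- the matrices
  let MM : (Matrix.symplecticGroup (Fin k) F × Matrix.symplecticGroup (Fin l) F) → Matrix (Fin m ⊕ Fin m) (Fin m ⊕ Fin m) F :=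
    fun p => LinearMap.toMatrix' (E.toLinearMap ∘ₗ ((p.1 : Matrix (Fin k ⊕ Fin k) (Fin k ⊕ Fin k) F).mulVecLin.prodMap (p.2 : Matrix (Fin l ⊕ Fin l) (Fin l ⊕ Fin l) F).mulVecLin) ∘ₗ E.symm.toLinearMap)
  have hMM : ∀ p a b, MM p *ᵥ E (a, b) = E ((p.1 : Matrix (Fin k ⊕ Fin k) (Fin k ⊕ Fin k) F) *ᵥ a, (p.2 : Matrix (Fin l ⊕ Fin l) (Fin l ⊕ Fin l) F) *ᵥ b) := by
    intro p a b
    show LinearMap.toMatrix' _ *ᵥ _ = _
    rw [LinearMap.toMatrix'_mulVec]
    simp
  have hext : ∀ X Y : Matrix (Fin m ⊕ Fin m) (Fin m ⊕ Fin m) F, (∀ a b, X *ᵥ E (a, b) = Y *ᵥ E (a, b)) → X = Y := by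
    intro X Y h
    apply Matrix.mulVec_injective
    funext v
    obtain ⟨⟨a, b⟩, rfl⟩ := E.surjective v
    exact h a b
  have hmem : ∀ p, MM p ∈ Matrix.symplecticGroup (Fin m) F := by
    intro p
    apply (preserves_iff_mem _).1
    intro u v
    obtain ⟨⟨a, b⟩, rfl⟩ := E.surjective u
    obtain ⟨⟨a', b'⟩, rfl⟩ := E.surjective v
    rw [hMM, hMM, hE, hE, (preserves_iff_mem _).2 p.1.2, (preserves_iff_mem _).2 p.2.2]
  have hone : MM 1 = 1 := by
    apply hext
    intro a b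
    rw [hMM]
    simp
  have hmul : ∀ p r, MM (p * r) = MM p * MM r := by
    intro p r
    apply hext
    intro a b
    rw [← Matrix.mulVec_mulVec, hMM, hMM, hMM]
    simp [Matrix.mulVec_mulVec]
  let Φ₀ : (Matrix.symplecticGroup (Fin k) F × Matrix.symplecticGroup (Fin l) F) →* Matrix.symplecticGroup (Fin m) F :=
    { toFun := fun p => ⟨MM p, hmem p⟩
      map_one' := Subtype.ext hone
      map_mul' := fun p r => Subtype.ext (hmul p r) }
  have hstab : ∀ p, Φ₀ p ∈ Cfsg.stabilizing (Cfsg.spToMat m F) (W : Set (Fin m ⊕ Fin m → F)) := by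
    intro p v
    obtain ⟨⟨a, b⟩, rfl⟩ := E.surjective v
    show E (a, b) ∈ W ↔ MM p *ᵥ E (a, b) ∈ W
    rw [hMM, hW, hW]
    constructor
    · rintro rfl
      simp
    · intro h
      have h2 := Cfsg.Agent.Lib.SympPerfect.sp_inv_mul_cancel' p.2 b
      rw [h, Matrix.mulVec_zero] at h2
      exact h2.symm
  let Φ : (Matrix.symplecticGroup (Fin k) F × Matrix.symplecticGroup (Fin l) F) →* ↥(Cfsg.stabilizing (Cfsg.spToMat m F) (W : Set (Fin m ⊕ Fin m → F))) :=
    Φ₀.codRestrict _ hstab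
  have hΦ : ∀ p a b, ((Φ p : Matrix.symplecticGroup (Fin m) F) : Matrix (Fin m ⊕ Fin m) (Fin m ⊕ Fin m) F) *ᵥ E (a, b) = E ((p.1 : Matrix (Fin k ⊕ Fin k) (Fin k ⊕ Fin k) F) *ᵥ a, (p.2 : Matrix (Fin l ⊕ Fin l) (Fin l ⊕ Fin l) F) *ᵥ b) := hMM
  have hinj : Function.Injective Φ := by
    rw [injective_iff_map_eq_one]
    intro p hp
    have h1 : ∀ a b, (p.1 : Matrix (Fin k ⊕ Fin k) (Fin k ⊕ Fin k) F) *ᵥ a = a ∧ (p.2 : Matrix (Fin l ⊕ Fin l) (Fin l ⊕ Fin l) F) *ᵥ b = b := by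
      intro a b
      have h2 := hΦ p a b
      rw [hp] at h2
      simp only [OneMemClass.coe_one, Matrix.one_mulVec] at h2
      have h3 := E.injective h2
      exact ⟨(congrArg Prod.fst h3).symm, (congrArg Prod.snd h3).symm⟩
    apply Prod.ext
    · apply Subtype.ext
      apply Matrix.mulVec_injective
      funext a
      rw [(h1 a 0).1]
      simp
    · apply Subtype.ext
      apply Matrix.mulVec_injective
      funext b
      rw [(h1 0 b).2]
      simp
  have hsurj : Function.Surjective Φ := by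
    rintro ⟨g, hg⟩
    have hg1 : ∀ v, v ∈ W ↔ (g : Matrix (Fin m ⊕ Fin m) (Fin m ⊕ Fin m) F) *ᵥ v ∈ W := hg
    have hginv : g⁻¹ ∈ Cfsg.stabilizing (Cfsg.spToMat m F) (W : Set (Fin m ⊕ Fin m → F)) := inv_mem hg
    have hg2 : ∀ v, v ∈ W ↔ ((g⁻¹ : Matrix.symplecticGroup (Fin m) F) : Matrix (Fin m ⊕ Fin m) (Fin m ⊕ Fin m) F) *ᵥ v ∈ W := hginv
    have hpres := (preserves_iff_mem _).2 g.2
    -- the action on the first summand
    have h1 : ∀ a, ∃ a', (g : Matrix (Fin m ⊕ Fin m) (Fin m ⊕ Fin m) F) *ᵥ E (a, 0) = E (a', 0) := by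
      intro a
      obtain ⟨⟨a', b'⟩, hab⟩ := E.surjective ((g : Matrix (Fin m ⊕ Fin m) (Fin m ⊕ Fin m) F) *ᵥ E (a, 0))
      have h3 : (g : Matrix (Fin m ⊕ Fin m) (Fin m ⊕ Fin m) F) *ᵥ E (a, 0) ∈ W := (hg1 _).1 ((hW a 0).2 rfl)
      rw [← hab, hW] at h3
      subst h3
      exact ⟨a', hab.symm⟩
    have h2 : ∀ b, ∃ b', (g : Matrix (Fin m ⊕ Fin m) (Fin m ⊕ Fin m) F) *ᵥ E (0, b) = E (0, b') := by
      intro b
      obtain ⟨⟨a', b'⟩, hab⟩ := E.surjective ((g : Matrix (Fin m ⊕ Fin m) (Fin m ⊕ Fin m) F) *ᵥ E (0, b))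
      have ha0 : a' = 0 := by
        by_contra hne
        obtain ⟨c, hc⟩ := (symp_nondeg (m := k) (F := F) a' hne).1
        obtain ⟨c', hc'⟩ : ∃ c', ((g⁻¹ : Matrix.symplecticGroup (Fin m) F) : Matrix (Fin m ⊕ Fin m) (Fin m ⊕ Fin m) F) *ᵥ E (c, 0) = E (c', 0) := by
          obtain ⟨⟨x, y⟩, hxy⟩ := E.surjective (((g⁻¹ : Matrix.symplecticGroup (Fin m) F) : Matrix (Fin m ⊕ Fin m) (Fin m ⊕ Fin m) F) *ᵥ E (c, 0))
          have h3 := (hg2 _).1 ((hW c 0).2 rfl)
          rw [← hxy, hW] at h3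
          subst h3
          exact ⟨x, hxy.symm⟩
        apply hc
        have e1 : (g : Matrix (Fin m ⊕ Fin m) (Fin m ⊕ Fin m) F) *ᵥ E (c', 0) = E (c, 0) := by
          rw [← hc']
          exact Cfsg.Agent.Lib.SympPerfect.sp_inv_mul_cancel g _
        have h5 : Cfsg.sympForm m F (E (c, 0)) (E (a', b')) = 0 := by
          rw [← e1, hab, hpres, hE]
          simp [Cfsg.sympForm]
        rw [hE] at h5
        simpa [Cfsg.sympForm] using h5
      subst ha0
      exact ⟨b', hab.symm⟩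
    choose A hA using h1
    choose B hB using h2
    let LA : (Fin k ⊕ Fin k → F) →ₗ[F] (Fin k ⊕ Fin k → F) :=
      (LinearMap.fst F _ _) ∘ₗ E.symm.toLinearMap ∘ₗ (g : Matrix (Fin m ⊕ Fin m) (Fin m ⊕ Fin m) F).mulVecLin ∘ₗ E.toLinearMap ∘ₗ (LinearMap.inl F _ _)
    let LB : (Fin l ⊕ Fin l → F) →ₗ[F] (Fin l ⊕ Fin l → F) :=
      (LinearMap.snd F _ _) ∘ₗ E.symm.toLinearMap ∘ₗ (g : Matrix (Fin m ⊕ Fin m) (Fin m ⊕ Fin m) F).mulVecLin ∘ₗ E.toLinearMap ∘ₗ (LinearMap.inr F _ _)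
    have hLA : ∀ a, LinearMap.toMatrix' LA *ᵥ a = A a := by
      intro a
      rw [LinearMap.toMatrix'_mulVec]
      show (E.symm ((g : Matrix (Fin m ⊕ Fin m) (Fin m ⊕ Fin m) F) *ᵥ E (a, 0))).1 = _
      rw [hA]
      simp
    have hLB : ∀ b, LinearMap.toMatrix' LB *ᵥ b = B b := by
      intro b
      rw [LinearMap.toMatrix'_mulVec]
      show (E.symm ((g : Matrix (Fin m ⊕ Fin m) (Fin m ⊕ Fin m) F) *ᵥ E (0, b))).2 = _
      rw [hB]
      simp
    have hmemA : LinearMap.toMatrix' LA ∈ Matrix.symplecticGroup (Fin k) F := by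
      apply (preserves_iff_mem _).1
      intro u v
      rw [hLA, hLA]
      have h5 := hE (A u) 0 (A v) 0
      rw [← hA, ← hA, hpres, hE] at h5
      simpa [Cfsg.sympForm] using h5.symm
    have hmemB : LinearMap.toMatrix' LB ∈ Matrix.symplecticGroup (Fin l) F := by
      apply (preserves_iff_mem _).1
      intro u v
      rw [hLB, hLB]
      have h5 := hE 0 (B u) 0 (B v)
      rw [← hB, ← hB, hpres, hE] at h5
      simpa [Cfsg.sympForm] using h5.symm
    refine ⟨(⟨_, hmemA⟩, ⟨_, hmemB⟩), ?_⟩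
    apply Subtype.ext
    apply Subtype.ext
    apply hext
    intro a b
    show MM _ *ᵥ E (a, b) = _
    rw [hMM]
    show E (LinearMap.toMatrix' LA *ᵥ a, LinearMap.toMatrix' LB *ᵥ b) = _
    rw [hLA, hLB]
    have h6 : ∀ (x : Fin k ⊕ Fin k → F) (y : Fin l ⊕ Fin l → F), E (x, y) = E (x, 0) + E (0, y) := by
      intro x y
      rw [← map_add]
      simp
    rw [h6 (A a), h6 a, Matrix.mulVec_add, hA, hB]
  exact ⟨(MulEquiv.ofBijective Φ ⟨hinj, hsurj⟩).symm⟩

end


/-- If W ≤ F^(2m) is a 2k-dimensional subspace on which the symplectic form is non-degenerate, then the stabiliser of W in Sp_2m(F) is isomorphic to Sp_2k(F) × Sp_(2m−2k)(F). -/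
theorem result {F : Type*} [Field F] (m k : ℕ) (hk : k ≤ m) (W : Submodule F (Fin m ⊕ Fin m → F)) (hWk : Module.finrank F W = 2 * k) (hW : ∀ u ∈ W, (∀ v ∈ W, Cfsg.sympForm m F u v = 0) → u = 0) : Nonempty (↥(Cfsg.stabilizing (Cfsg.spToMat m F) (W : Set (Fin m ⊕ Fin m → F))) ≃* Matrix.symplecticGroup (Fin k) F × Matrix.symplecticGroup (Fin (m - k)) F) := by
  classical
  have hnd : IsNondegenerateOn (Cfsg.sympForm m F) W := by
    intro w hw hw0
    have h1 : ∃ x ∈ W, Cfsg.sympForm m F w x ≠ 0 := by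
      by_contra hcon
      push Not at hcon
      exact hw0 (hW w hw hcon)
    obtain ⟨x, hx, hwx⟩ := h1
    refine ⟨⟨x, hx, ?_⟩, ⟨x, hx, hwx⟩⟩
    rw [sympForm_skew]
    simpa using hwx
  have hc := perp_isCompl W hnd
  set W' := LinearMap.BilinForm.orthogonal (toB (symp_bilinear (m := m) (F := F))) W with hW'
  have hdim := Submodule.finrank_add_eq_of_isCompl hc
  have hV : Module.finrank F (Fin m ⊕ Fin m → F) = 2 * m := by
    simp
    omega
  rw [hV, hWk] at hdim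
  have hdim' : Module.finrank F W' = 2 * (m - k) := by omega
  have hperp : ∀ x ∈ W, ∀ y ∈ W', Cfsg.sympForm m F x y = 0 := fun x hx y hy => by
    have := LinearMap.BilinForm.mem_orthogonal_iff.1 hy x hx
    exact this
  have hperp' : ∀ x ∈ W, ∀ y ∈ W', Cfsg.sympForm m F y x = 0 := fun x hx y hy => by
    rw [sympForm_skew, hperp x hx y hy, neg_zero]
  -- the restricted forms
  let B₁ : LinearMap.BilinForm F W := (toB (symp_bilinear (m := m) (F := F))).restrict W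
  let B₂ : LinearMap.BilinForm F W' := (toB (symp_bilinear (m := m) (F := F))).restrict W'
  have hA₁ : B₁.IsAlt := fun x => symp_B_alt _
  have hA₂ : B₂.IsAlt := fun x => symp_B_alt _
  have hN₁ : B₁.Nondegenerate := by
    constructor
    · intro x hx
      apply Subtype.ext
      exact hW x x.2 (fun v hv => hx ⟨v, hv⟩)
    · intro y hy
      apply Subtype.ext
      refine hW y y.2 (fun v hv => ?_)
      rw [sympForm_skew]
      have := hy ⟨v, hv⟩
      have h2 : Cfsg.sympForm m F v y = 0 := this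
      rw [h2, neg_zero]
  have hN₂ : B₂.Nondegenerate := by
    have key : ∀ x ∈ W', (∀ y ∈ W', Cfsg.sympForm m F x y = 0) → x = 0 := by
      intro x hx h
      by_contra h0
      obtain ⟨v, hv⟩ := (symp_nondeg (m := m) (F := F) x h0).2
      apply hv
      have hv' : v ∈ W ⊔ W' := by rw [hc.sup_eq_top]; trivial
      obtain ⟨w, hw, w', hw', rfl⟩ := Submodule.mem_sup.1 hv'
      rw [sympForm_add_right, h w' hw', hperp' w hw x hx, add_zero]
    constructor
    · intro x hx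
      apply Subtype.ext
      exact key x x.2 (fun v hv => hx ⟨v, hv⟩)
    · intro y hy
      apply Subtype.ext
      refine key y y.2 (fun v hv => ?_)
      rw [sympForm_skew]
      have := hy ⟨v, hv⟩
      have h2 : Cfsg.sympForm m F v y = 0 := this
      rw [h2, neg_zero]
  obtain ⟨e₁, he₁⟩ := exists_alt_isom B₁ (toB (symp_bilinear (m := k) (F := F))) hA₁ symp_B_alt hN₁ (toB_nondeg symp_bilinear symp_nondeg) (by rw [hWk]; simp; omega)
  obtain ⟨e₂, he₂⟩ := exists_alt_isom B₂ (toB (symp_bilinear (m := m - k) (F := F))) hA₂ symp_B_alt hN₂ (toB_nondeg symp_bilinear symp_nondeg) (by rw [hdim']; simp; omega)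
  let E : ((Fin k ⊕ Fin k → F) × (Fin (m - k) ⊕ Fin (m - k) → F)) ≃ₗ[F] (Fin m ⊕ Fin m → F) :=
    (e₁.symm.prodCongr e₂.symm).trans (Submodule.prodEquivOfIsCompl W W' hc)
  have hEv : ∀ a b, E (a, b) = (e₁.symm a : Fin m ⊕ Fin m → F) + (e₂.symm b : Fin m ⊕ Fin m → F) := by
    intro a b
    rfl
  refine decomp_iso W E ?_ ?_
  · intro a b a' b'
    rw [hEv, hEv, sympForm_add_left, sympForm_add_right, sympForm_add_right,
      hperp _ (e₁.symm a).2 _ (e₂.symm b').2, hperp' _ (e₁.symm a').2 _ (e₂.symm b).2]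
    have h1 := he₁ (e₁.symm a) (e₁.symm a')
    have h2 := he₂ (e₂.symm b) (e₂.symm b')
    simp only [LinearEquiv.apply_symm_apply, toB_apply] at h1 h2
    rw [h1, h2]
    simp only [B₁, B₂, add_zero, zero_add]
    rfl
  · intro a b
    rw [hEv]
    constructor
    · intro h
      have h1 : (e₂.symm b : Fin m ⊕ Fin m → F) ∈ W := by
        have := W.sub_mem h (e₁.symm a).2
        simpa using this
      have h2 : (e₂.symm b : Fin m ⊕ Fin m → F) ∈ W' := (e₂.symm b).2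
      have h3 := (Submodule.disjoint_def.1 hc.disjoint) _ h1 h2
      have h4 : e₂.symm b = 0 := Subtype.ext h3
      simpa using h4
    · rintro rfl
      simp

end Cfsg.Agent.S0776
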