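import Cfsg.Statements.S0777
import Mathlib
import Cfsg.Agent.Lib.SympBasic

set_option autoImplicit false
open Cfsg

namespace Cfsg.Agent.S0777


open Matrix Cfsg.Agent.Lib.SympBasic

variable {F : Type*} [Field F] {m : ℕ}

noncomputable abbrev ee (x : Fin m ⊕ Fin m) : Fin m ⊕ Fin m → F := Pi.single x (1 : F)

noncomputable def TT (m : ℕ) (F : Type*) [Field F] : Subgroup ↥(Matrix.symplecticGroup (Fin m) F) :=
  ⨅ i : Fin m ⊕ Fin m, Cfsg.stabilizing (Cfsg.spToMat m F) ((Submodule.span F {(Pi.single i (1 : F) : Fin m ⊕ Fin m → F)} : Submodule F (Fin m ⊕ Fin m → F)) : Set (Fin m ⊕ Fin m → F))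

theorem inv_mul_v (g : ↥(Matrix.symplecticGroup (Fin m) F)) (v : Fin m ⊕ Fin m → F) :
    (g⁻¹).1 *ᵥ (g.1 *ᵥ v) = v := by
  rw [mulVec_mulVec]
  have h : (g⁻¹).1 * g.1 = 1 := congrArg Subtype.val (inv_mul_cancel g)
  rw [h, one_mulVec]

theorem mul_inv_v (g : ↥(Matrix.symplecticGroup (Fin m) F)) (v : Fin m ⊕ Fin m → F) :
    g.1 *ᵥ ((g⁻¹).1 *ᵥ v) = v := by
  rw [mulVec_mulVec]
  have h : g.1 * (g⁻¹).1 = 1 := congrArg Subtype.val (mul_inv_cancel g)
  rw [h, one_mulVec]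

theorem ee_ne (x : Fin m ⊕ Fin m) : (ee x : Fin m ⊕ Fin m → F) ≠ 0 := by
  intro h
  have := congrFun h x
  simp at this

theorem mem_TT (h : ↥(Matrix.symplecticGroup (Fin m) F)) :
    h ∈ TT m F ↔ ∀ x, ∃ c : F, h.1 *ᵥ ee x = c • ee x := by
  unfold TT
  rw [Subgroup.mem_iInf]
  constructor
  · intro H x
    have h1 := (H x (ee x)).mp (Submodule.mem_span_singleton_self _)
    obtain ⟨c, hc⟩ := Submodule.mem_span_singleton.mp h1
    exact ⟨c, hc.symm⟩
  · intro H x
    obtain ⟨c, hc⟩ := H x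
    have hc0 : c ≠ 0 := by
      rintro rfl
      have := inv_mul_v h (ee x)
      rw [hc, zero_smul, mulVec_zero] at this
      exact ee_ne x this.symm
    have h2 : (h⁻¹).1 *ᵥ ee x = c⁻¹ • ee x := by
      have h3 := inv_mul_v h (ee x)
      rw [hc, mulVec_smul] at h3
      calc (h⁻¹).1 *ᵥ ee x = c⁻¹ • (c • (h⁻¹).1 *ᵥ ee x) := by
            rw [smul_smul, inv_mul_cancel₀ hc0, one_smul]
        _ = c⁻¹ • ee x := by rw [h3]
    intro v
    constructor
    · intro hv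
      obtain ⟨a, rfl⟩ := Submodule.mem_span_singleton.mp hv
      refine Submodule.mem_span_singleton.mpr ⟨a * c, ?_⟩
      change _ = h.1 *ᵥ (a • ee x)
      rw [mulVec_smul, hc, smul_smul]
    · intro hv
      obtain ⟨a, ha⟩ := Submodule.mem_span_singleton.mp hv
      have h3 : v = (a * c⁻¹) • ee x := by
        have h4 := inv_mul_v h v
        have h5 : h.1 *ᵥ v = a • ee x := ha.symm
        rw [h5, mulVec_smul, h2, smul_smul] at h4
        exact h4.symm
      rw [h3]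
      exact Submodule.mem_span_singleton.mpr ⟨_, rfl⟩

theorem conj_apply (g h : ↥(Matrix.symplecticGroup (Fin m) F)) (v : Fin m ⊕ Fin m → F) :
    (g * h * g⁻¹).1 *ᵥ v = g.1 *ᵥ (h.1 *ᵥ ((g⁻¹).1 *ᵥ v)) := by
  rw [mulVec_mulVec, mulVec_mulVec]
  rfl

section Mono
variable (g : ↥(Matrix.symplecticGroup (Fin m) F)) {π : Fin m ⊕ Fin m → Fin m ⊕ Fin m}
  {c : Fin m ⊕ Fin m → F}

theorem inv_ee (hg : ∀ x, g.1 *ᵥ ee x = c x • ee (π x)) (hc : ∀ x, c x ≠ 0) (x : Fin m ⊕ Fin m) :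
    (g⁻¹).1 *ᵥ ee (π x) = (c x)⁻¹ • ee x := by
  have h3 := inv_mul_v g (ee x)
  rw [hg, mulVec_smul] at h3
  calc (g⁻¹).1 *ᵥ ee (π x) = (c x)⁻¹ • (c x • (g⁻¹).1 *ᵥ ee (π x)) := by
        rw [smul_smul, inv_mul_cancel₀ (hc x), one_smul]
    _ = (c x)⁻¹ • ee x := by rw [h3]

theorem conj_mem (hg : ∀ x, g.1 *ᵥ ee x = c x • ee (π x)) (hc : ∀ x, c x ≠ 0)
    (hπ : Function.Surjective π) (h : ↥(Matrix.symplecticGroup (Fin m) F)) (hh : h ∈ TT m F) :
    g * h * g⁻¹ ∈ TT m F := by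
  rw [mem_TT] at hh ⊢
  intro y
  obtain ⟨x, rfl⟩ := hπ y
  obtain ⟨l, hl⟩ := hh x
  refine ⟨l, ?_⟩
  rw [conj_apply, inv_ee g hg hc, mulVec_smul, hl, mulVec_smul, mulVec_smul, hg, smul_smul, smul_smul]
  congr 1
  field_simp [hc x]

theorem conj_mem' (hg : ∀ x, g.1 *ᵥ ee x = c x • ee (π x)) (hc : ∀ x, c x ≠ 0)
    (h : ↥(Matrix.symplecticGroup (Fin m) F)) (hh : g * h * g⁻¹ ∈ TT m F) :
    h ∈ TT m F := by
  rw [mem_TT] at hh ⊢
  intro x
  obtain ⟨μ, hμ⟩ := hh (π x)
  refine ⟨μ, ?_⟩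
  rw [conj_apply, inv_ee g hg hc] at hμ
  have h1 := congrArg (fun v => (g⁻¹).1 *ᵥ v) hμ
  simp only [inv_mul_v, mulVec_smul] at h1
  rw [inv_ee g hg hc] at h1
  have h2 := congrArg (fun v => c x • v) h1
  simp only [smul_smul, mul_inv_cancel₀ (hc x), one_smul] at h2
  rw [h2, mul_comm, mul_assoc, inv_mul_cancel₀ (hc x), mul_one]

end Mono

/-- signed permutation of the indices -/
def pp (σ : Equiv.Perm (Fin m)) (s : Fin m → Bool) : Fin m ⊕ Fin m → Fin m ⊕ Fin m :=
  Sum.elim (fun a => if s a then Sum.inr (σ a) else Sum.inl (σ a))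
    (fun a => if s a then Sum.inl (σ a) else Sum.inr (σ a))

noncomputable def cc (s : Fin m → Bool) (d : Fin m → Fˣ) : Fin m ⊕ Fin m → F :=
  Sum.elim (fun a => (d a : F)) (fun a => if s a then -(((d a)⁻¹ : Fˣ) : F) else (((d a)⁻¹ : Fˣ) : F))

noncomputable def MM (σ : Equiv.Perm (Fin m)) (s : Fin m → Bool) (d : Fin m → Fˣ) :
    Matrix (Fin m ⊕ Fin m) (Fin m ⊕ Fin m) F :=
  Matrix.of fun y x => if y = pp σ s x then cc s d x else 0

theorem MM_ee (σ : Equiv.Perm (Fin m)) (s : Fin m → Bool) (d : Fin m → Fˣ) (x : Fin m ⊕ Fin m) :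
    MM σ s d *ᵥ (ee x : Fin m ⊕ Fin m → F) = cc s d x • ee (pp σ s x) := by
  ext y
  rw [ee, mulVec_single_one]
  by_cases h : y = pp σ s x <;> simp [MM, h, Pi.single_apply]

theorem cc_ne (s : Fin m → Bool) (d : Fin m → Fˣ) (x : Fin m ⊕ Fin m) : (cc s d x : F) ≠ 0 := by
  rcases x with a | a
  · simp [cc]
  · by_cases h : s a <;> simp [cc, h]

theorem pp_surj (σ : Equiv.Perm (Fin m)) (s : Fin m → Bool) : Function.Surjective (pp σ s) := by
  rintro (b | b)
  · by_cases h : s (σ.symm b)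
    · exact ⟨Sum.inr (σ.symm b), by simp [pp, h]⟩
    · exact ⟨Sum.inl (σ.symm b), by simp [pp, h]⟩
  · by_cases h : s (σ.symm b)
    · exact ⟨Sum.inl (σ.symm b), by simp [pp, h]⟩
    · exact ⟨Sum.inr (σ.symm b), by simp [pp, h]⟩

theorem mem_of_basis (A : Matrix (Fin m ⊕ Fin m) (Fin m ⊕ Fin m) F)
    (h : ∀ x y, Cfsg.sympForm m F (A *ᵥ ee x) (A *ᵥ ee y) = Cfsg.sympForm m F (ee x) (ee y)) :
    A ∈ Matrix.symplecticGroup (Fin m) F := by
  rw [SymplecticGroup.mem_iff']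
  ext i j
  have := h i j
  rw [sympForm_mulVec_mulVec] at this
  unfold Cfsg.sympForm at this
  simpa [Matrix.mulVec_single_one] using this

theorem f_ll (a b : Fin m) : Cfsg.sympForm m F (ee (Sum.inl a)) (ee (Sum.inl b)) = 0 := by
  rw [sympForm_apply]; simp
theorem f_rr (a b : Fin m) : Cfsg.sympForm m F (ee (Sum.inr a)) (ee (Sum.inr b)) = 0 := by
  rw [sympForm_apply]; simp
theorem f_lr (a b : Fin m) : Cfsg.sympForm m F (ee (Sum.inl a)) (ee (Sum.inr b)) = if a = b then -1 else 0 := by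
  rw [sympForm_apply]
  by_cases h : a = b
  · subst h; simp [Pi.single_apply, Finset.sum_ite_eq']
  · simp [Pi.single_apply, Finset.sum_ite_eq', h, Ne.symm h]
theorem f_rl (a b : Fin m) : Cfsg.sympForm m F (ee (Sum.inr a)) (ee (Sum.inl b)) = if a = b then 1 else 0 := by
  rw [sympForm_apply]
  by_cases h : a = b
  · subst h; simp [Pi.single_apply, Finset.sum_ite_eq']
  · simp [Pi.single_apply, Finset.sum_ite_eq', h, Ne.symm h]

theorem MM_mem (σ : Equiv.Perm (Fin m)) (s : Fin m → Bool) (d : Fin m → Fˣ) :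
    MM σ s d ∈ Matrix.symplecticGroup (Fin m) F := by
  apply mem_of_basis
  intro x y
  rw [MM_ee, MM_ee, sympForm_smul_left, sympForm_smul_right]
  rcases x with a | a <;> rcases y with b | b <;> by_cases ha : s a <;> by_cases hb : s b <;>
    by_cases hab : a = b <;>
    first
      | (subst hab; simp_all [pp, cc, f_ll, f_rr, f_lr, f_rl]; done)
      | simp [pp, cc, ha, hb, f_ll, f_rr, f_lr, f_rl, hab, σ.injective.eq_iff]

noncomputable def SpM (σ : Equiv.Perm (Fin m)) (s : Fin m → Bool) (d : Fin m → Fˣ) :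
    ↥(Matrix.symplecticGroup (Fin m) F) := ⟨MM σ s d, MM_mem σ s d⟩

theorem SpM_ee (σ : Equiv.Perm (Fin m)) (s : Fin m → Bool) (d : Fin m → Fˣ) (x : Fin m ⊕ Fin m) :
    (SpM σ s d : ↥(Matrix.symplecticGroup (Fin m) F)).1 *ᵥ (ee x : Fin m ⊕ Fin m → F) = cc s d x • ee (pp σ s x) :=
  MM_ee σ s d x

theorem SpM_norm (σ : Equiv.Perm (Fin m)) (s : Fin m → Bool) (d : Fin m → Fˣ) :
    (SpM σ s d : ↥(Matrix.symplecticGroup (Fin m) F)) ∈ Subgroup.normalizer (TT m F : Set ↥(Matrix.symplecticGroup (Fin m) F)) := by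
  rw [Subgroup.mem_normalizer_iff]
  intro h
  exact ⟨conj_mem _ (SpM_ee σ s d) (cc_ne s d) (pp_surj σ s) h,
    conj_mem' _ (SpM_ee σ s d) (cc_ne s d) h⟩

theorem diag_coord {A : Matrix (Fin m ⊕ Fin m) (Fin m ⊕ Fin m) F} {ε : Fin m ⊕ Fin m → F}
    (h : ∀ z, A *ᵥ ee z = ε z • ee z) (w : Fin m ⊕ Fin m → F) (y : Fin m ⊕ Fin m) :
    (A *ᵥ w) y = ε y * w y := by
  have h1 : ∀ z, A y z = if y = z then ε z else 0 := by
    intro z
    have := congrFun (h z) y
    rw [ee, mulVec_single_one] at this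
    by_cases hz : y = z <;> simpa [hz, Pi.single_apply] using this
  rw [Matrix.mulVec, dotProduct, Finset.sum_eq_single y]
  · rw [h1]; simp
  · intro z _ hz
    rw [h1, if_neg (Ne.symm hz), zero_mul]
  · simp

/-- separating elements of the torus -/
theorem sep (t : Fˣ) (ht : t ^ 2 ≠ 1) (x : Fin m ⊕ Fin m) :
    ∃ D ∈ TT m F, ∃ δ : Fin m ⊕ Fin m → F, (∀ y, D.1 *ᵥ ee y = δ y • ee y) ∧ ∀ y, δ y = δ x → y = x := by
  have hpp : ∀ y, pp 1 (fun _ => false) y = (y : Fin m ⊕ Fin m) := by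
    rintro (a | a) <;> simp [pp]
  have key : ∀ (u : Fˣ) (a : Fin m), u ^ 2 ≠ 1 → ∃ D ∈ TT m F, ∃ δ : Fin m ⊕ Fin m → F,
      (∀ y, D.1 *ᵥ ee y = δ y • ee y) ∧ δ (Sum.inl a) = u ∧ δ (Sum.inr a) = ((u⁻¹ : Fˣ) : F) ∧
      (∀ b, b ≠ a → δ (Sum.inl b) = 1 ∧ δ (Sum.inr b) = 1) := by
    intro u a _
    classical
    let dd : Fin m → Fˣ := Function.update 1 a u
    refine ⟨SpM 1 (fun _ => false) dd, ?_, cc (fun _ => false) dd, ?_, ?_, ?_, ?_⟩
    · rw [mem_TT]
      intro x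
      refine ⟨cc (fun _ => false) dd x, ?_⟩
      rw [SpM_ee, hpp]
    · intro y
      rw [SpM_ee, hpp]
    · simp [cc, dd]
    · simp [cc, dd]
    · intro b hb
      simp [cc, dd, Function.update_of_ne hb]
  have ht1 : (t : F) ≠ 1 := by
    intro h
    apply ht
    have : t = 1 := Units.ext h
    rw [this, one_pow]
  have ht2 : ((t⁻¹ : Fˣ) : F) ≠ t := by
    intro h
    apply ht
    have h1 : t⁻¹ = t := Units.ext h
    calc t ^ 2 = t * t := sq t
      _ = t⁻¹ * t := by rw [h1]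
      _ = 1 := inv_mul_cancel t
  have ht3 : ((t⁻¹ : Fˣ) : F) ≠ 1 := by
    intro h
    apply ht1
    have h1 : t⁻¹ = 1 := Units.ext h
    have : t = 1 := by simpa using h1
    rw [this]; simp
  rcases x with a | a
  · obtain ⟨D, hD, δ, h1, h2, h3, h4⟩ := key t a ht
    refine ⟨D, hD, δ, h1, ?_⟩
    rintro (b | b) hb
    · by_cases hba : b = a
      · rw [hba]
      · rw [(h4 b hba).1, h2] at hb
        exact absurd hb.symm ht1
    · by_cases hba : b = a
      · subst hba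
        rw [h3, h2] at hb
        exact absurd hb ht2
      · rw [(h4 b hba).2, h2] at hb
        exact absurd hb.symm ht1
  · obtain ⟨D, hD, δ, h1, h2, h3, h4⟩ := key t a ht
    refine ⟨D, hD, δ, h1, ?_⟩
    rintro (b | b) hb
    · by_cases hba : b = a
      · subst hba
        rw [h3, h2] at hb
        exact absurd hb.symm ht2
      · rw [(h4 b hba).1, h3] at hb
        exact absurd hb.symm ht3
    · by_cases hba : b = a
      · rw [hba]
      · rw [(h4 b hba).2, h3] at hb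
        exact absurd hb.symm ht3

theorem key (t : Fˣ) (ht : t ^ 2 ≠ 1) (g : ↥(Matrix.symplecticGroup (Fin m) F))
    (hg : g ∈ Subgroup.normalizer (TT m F : Set ↥(Matrix.symplecticGroup (Fin m) F))) (x : Fin m ⊕ Fin m) :
    ∃ y, ∃ c : F, c ≠ 0 ∧ g.1 *ᵥ ee x = c • ee y := by
  obtain ⟨D, hD, δ, hδ, hsep⟩ := sep t ht x
  have hE : g * D * g⁻¹ ∈ TT m F := (Subgroup.mem_normalizer_iff.mp hg D).mp hD
  rw [mem_TT] at hE
  choose ε hε using hE
  have hw : (g * D * g⁻¹).1 *ᵥ (g.1 *ᵥ ee x) = δ x • (g.1 *ᵥ ee x) := by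
    rw [conj_apply, inv_mul_v, hδ, mulVec_smul]
  have hw0 : (g.1 *ᵥ ee x) ≠ 0 := by
    intro h
    have := inv_mul_v g (ee x)
    rw [h, mulVec_zero] at this
    exact ee_ne x this.symm
  obtain ⟨y, hy⟩ : ∃ y, (g.1 *ᵥ ee x) y ≠ 0 := by
    by_contra hh
    push Not at hh
    exact hw0 (funext hh)
  have h1 : ε y = δ x := by
    have h2 := congrFun hw y
    rw [diag_coord hε] at h2
    exact mul_right_cancel₀ hy h2
  have h3 : D.1 *ᵥ ((g⁻¹).1 *ᵥ ee y) = δ x • ((g⁻¹).1 *ᵥ ee y) := by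
    have h4 := hε y
    rw [conj_apply, h1] at h4
    have h5 := congrArg (fun v => (g⁻¹).1 *ᵥ v) h4
    simpa only [inv_mul_v, mulVec_smul] using h5
  have h4 : ∀ z, z ≠ x → ((g⁻¹).1 *ᵥ ee y) z = 0 := by
    intro z hz
    by_contra hne
    have h5 := congrFun h3 z
    rw [diag_coord hδ] at h5
    exact hz (hsep z (mul_right_cancel₀ hne h5))
  obtain ⟨l, hl⟩ : ∃ l, l = ((g⁻¹).1 *ᵥ ee y) x := ⟨_, rfl⟩
  have h5 : (g⁻¹).1 *ᵥ ee y = l • ee x := by
    rw [hl]
    ext z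
    by_cases hz : z = x
    · subst hz; simp
    · rw [h4 z hz]; simp [hz]
  have h6 : ee y = l • (g.1 *ᵥ ee x) := by
    have h7 := mul_inv_v g (ee y)
    rw [h5, mulVec_smul] at h7
    exact h7.symm
  have h7 : l ≠ 0 := by
    intro h
    rw [h, zero_smul] at h6
    exact ee_ne y h6
  refine ⟨y, l⁻¹, inv_ne_zero h7, ?_⟩
  rw [h6]
  rw [smul_smul, inv_mul_cancel₀ h7, one_smul]

theorem f_ne {x y : Fin m ⊕ Fin m} (h : Cfsg.sympForm m F (ee x) (ee y) ≠ 0) : y = Sum.swap x := by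
  rcases x with a | a <;> rcases y with b | b
  · exact absurd (f_ll a b) h
  · rw [f_lr] at h
    by_cases hab : a = b
    · subst hab; rfl
    · simp [hab] at h
  · rw [f_rl] at h
    by_cases hab : a = b
    · subst hab; rfl
    · simp [hab] at h
  · exact absurd (f_rr a b) h

theorem f_swap (x : Fin m ⊕ Fin m) : Cfsg.sympForm m F (ee x) (ee (Sum.swap x)) ≠ 0 := by
  rcases x with a | a
  · change Cfsg.sympForm m F (ee (Sum.inl a)) (ee (Sum.inr a)) ≠ 0
    rw [f_lr]; simp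
  · change Cfsg.sympForm m F (ee (Sum.inr a)) (ee (Sum.inl a)) ≠ 0
    rw [f_rl]; simp

theorem mat_ext {A B : Matrix (Fin m ⊕ Fin m) (Fin m ⊕ Fin m) F} (h : ∀ x, A *ᵥ ee x = B *ᵥ ee x) : A = B := by
  ext y x
  have := congrFun (h x) y
  rw [ee, mulVec_single_one, mulVec_single_one] at this
  exact this

theorem surj (t : Fˣ) (ht : t ^ 2 ≠ 1) (g : ↥(Matrix.symplecticGroup (Fin m) F))
    (hg : g ∈ Subgroup.normalizer (TT m F : Set ↥(Matrix.symplecticGroup (Fin m) F))) :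
    ∃ (σ : Equiv.Perm (Fin m)) (s : Fin m → Bool) (d : Fin m → Fˣ), SpM σ s d = g := by
  choose π c hc hgc using key t ht g hg
  have hinj : Function.Injective π := by
    intro x y hxy
    have h1 : g.1 *ᵥ ee y = (c y * (c x)⁻¹) • (g.1 *ᵥ ee x) := by
      rw [hgc, hgc, hxy, smul_smul]
      congr 1
      field_simp [hc x]
    have h2 := congrArg (fun v => (g⁻¹).1 *ᵥ v) h1
    simp only [inv_mul_v, mulVec_smul] at h2
    by_contra hne
    have h3 := congrFun h2 y
    simp [Pi.single_apply, Ne.symm hne] at h3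
  have hf : ∀ x y, Cfsg.sympForm m F (g.1 *ᵥ ee x) (g.1 *ᵥ ee y) = Cfsg.sympForm m F (ee x) (ee y) :=
    fun x y => (preserves_iff_mem g.1).mpr g.2 _ _
  have hfc : ∀ x y, c x * c y * Cfsg.sympForm m F (ee (π x)) (ee (π y)) = Cfsg.sympForm m F (ee x) (ee y) := by
    intro x y
    rw [← hf x y, hgc x, hgc y, sympForm_smul_left, sympForm_smul_right, mul_assoc]
  have hsw : ∀ x, π (Sum.swap x) = Sum.swap (π x) := by
    intro x
    apply f_ne (F := F)
    intro h0
    apply f_swap (F := F) x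
    rw [← hfc, h0, mul_zero]
  have hσinj : Function.Injective (fun a : Fin m => Sum.elim id id (π (Sum.inl a))) := by
    intro a b hab
    have hr := hsw (Sum.inl b)
    change π (Sum.inr b) = _ at hr
    rcases ha : π (Sum.inl a) with k | k <;> rcases hb : π (Sum.inl b) with l | l <;>
      simp only [ha, hb, Sum.elim_inl, Sum.elim_inr, id] at hab <;> subst hab
    · have := hinj (ha.trans hb.symm); simpa using this
    · rw [hb] at hr
      have := hinj (ha.trans hr.symm); simp at this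
    · rw [hb] at hr
      have := hinj (ha.trans hr.symm); simp at this
    · have := hinj (ha.trans hb.symm); simpa using this
  let σ : Equiv.Perm (Fin m) := Equiv.ofBijective _ (Finite.injective_iff_bijective.mp hσinj)
  have hσ : ∀ a, σ a = Sum.elim id id (π (Sum.inl a)) := fun a => rfl
  let s : Fin m → Bool := fun a => (π (Sum.inl a)).isRight
  let d : Fin m → Fˣ := fun a => Units.mk0 (c (Sum.inl a)) (hc _)
  refine ⟨σ, s, d, Subtype.ext (mat_ext fun x => ?_)⟩
  rw [hgc]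
  change MM σ s d *ᵥ _ = _
  rw [MM_ee]
  have h1 : ∀ a, π (Sum.inl a) = pp σ s (Sum.inl a) := by
    intro a
    rcases h : π (Sum.inl a) with k | k <;> simp [pp, s, h, hσ]
  have h2 : ∀ a, π (Sum.inr a) = pp σ s (Sum.inr a) := by
    intro a
    have hr := hsw (Sum.inl a)
    change π (Sum.inr a) = _ at hr
    rw [hr]
    rcases h : π (Sum.inl a) with k | k <;> simp [pp, s, h, hσ]
  have h3 : ∀ x, c x = (cc s d x : F) := by
    rintro (a | a)
    · rfl
    · have hr := hsw (Sum.inl a)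
      change π (Sum.inr a) = _ at hr
      have h4 := hfc (Sum.inl a) (Sum.inr a)
      rw [hr, f_lr, if_pos rfl] at h4
      have hca := hc (Sum.inl a)
      rcases h : π (Sum.inl a) with k | k
      · rw [h] at h4
        change _ * _ * Cfsg.sympForm m F (ee (Sum.inl k)) (ee (Sum.inr k)) = _ at h4
        rw [f_lr, if_pos rfl] at h4
        have hs : s a = false := by simp [s, h]
        simp only [cc, Sum.elim_inr, hs, d]
        simp only [Bool.false_eq_true, if_false, Units.val_inv_eq_inv_val, Units.val_mk0]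
        field_simp
        linear_combination -h4
      · rw [h] at h4
        change _ * _ * Cfsg.sympForm m F (ee (Sum.inr k)) (ee (Sum.inl k)) = _ at h4
        rw [f_rl, if_pos rfl] at h4
        have hs : s a = true := by simp [s, h]
        simp only [cc, Sum.elim_inr, hs, d]
        simp only [if_true, Units.val_inv_eq_inv_val, Units.val_mk0]
        field_simp
        linear_combination h4
  have h4 : π x = pp σ s x := by
    rcases x with a | a
    · exact h1 a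
    · exact h2 a
  rw [h4, h3 x]

theorem inj (σ σ' : Equiv.Perm (Fin m)) (s s' : Fin m → Bool) (d d' : Fin m → Fˣ)
    (h : (SpM σ s d : ↥(Matrix.symplecticGroup (Fin m) F)) = SpM σ' s' d') :
    σ = σ' ∧ s = s' ∧ d = d' := by
  have h1 : ∀ x, cc s d x • (ee (pp σ s x) : Fin m ⊕ Fin m → F) = cc s' d' x • ee (pp σ' s' x) := by
    intro x
    rw [← SpM_ee, ← SpM_ee, h]
  have h2 : ∀ a, pp σ s (Sum.inl a) = pp σ' s' (Sum.inl a) := by
    intro a
    by_contra hne
    have := congrFun (h1 (Sum.inl a)) (pp σ s (Sum.inl a))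
    simp [Pi.single_apply, hne, cc] at this
  have h3 : ∀ a, σ a = σ' a ∧ s a = s' a := by
    intro a
    have := h2 a
    by_cases ha : s a <;> by_cases hb : s' a <;> simp [pp, ha, hb] at this ⊢ <;> exact this
  have h4 : ∀ a, (d a : F) = d' a := by
    intro a
    have := congrFun (h1 (Sum.inl a)) (pp σ s (Sum.inl a))
    rw [← h2 a] at this
    simpa [Pi.single_apply, cc] using this
  refine ⟨Equiv.ext fun a => (h3 a).1, funext fun a => (h3 a).2, funext fun a => Units.ext (h4 a)⟩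

theorem exists_t {q : ℕ} [Fintype F] (hF : Fintype.card F = q) (hq : 4 ≤ q) : ∃ t : Fˣ, t ^ 2 ≠ 1 := by
  classical
  have h1 : ∃ t : F, t ∉ ({0, 1, -1} : Finset F) := by
    by_contra hh
    push Not at hh
    have h2 : (Finset.univ : Finset F) ⊆ {0, 1, -1} := fun x _ => hh x
    have h3 := Finset.card_le_card h2
    have h4 : ({0, 1, -1} : Finset F).card ≤ 3 := Finset.card_le_three
    rw [Finset.card_univ, hF] at h3
    omega
  obtain ⟨t, ht⟩ := h1
  simp only [Finset.mem_insert, Finset.mem_singleton, not_or] at ht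
  refine ⟨Units.mk0 t ht.1, ?_⟩
  intro h
  have h2 : t ^ 2 = 1 := by
    have := congrArg Units.val h
    simpa using this
  have h3 : (t - 1) * (t + 1) = 0 := by linear_combination h2
  rcases mul_eq_zero.mp h3 with h4 | h4
  · exact ht.2.1 (sub_eq_zero.mp h4)
  · exact ht.2.2 (eq_neg_of_add_eq_zero_left h4)


/-- Weyl group of type C_m: for q ≥ 4 the diagonal matrices of Sp_2m(q) form a torus T ≅ (C_(q−1))^m (the elements stabilising every coordinate axis), and the normaliser of T in Sp_2m(q) has order 2^m · m! · (q − 1)^m. -/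
theorem result {F : Type*} [Field F] [Fintype F] {q : ℕ} (hF : Fintype.card F = q) (hq : 4 ≤ q) (m : ℕ) : Nat.card ↥(Subgroup.normalizer (⨅ i : Fin m ⊕ Fin m, Cfsg.stabilizing (Cfsg.spToMat m F) ((Submodule.span F {(Pi.single i (1 : F) : Fin m ⊕ Fin m → F)} : Submodule F (Fin m ⊕ Fin m → F)) : Set (Fin m ⊕ Fin m → F)) : Set (Matrix.symplecticGroup (Fin m) F))) = 2 ^ m * Nat.factorial m * (q - 1) ^ m := by
  classical
  have hcoe : ∀ S : (Fin m ⊕ Fin m) → Subgroup ↥(Matrix.symplecticGroup (Fin m) F),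
      (⨅ i, (S i : Set ↥(Matrix.symplecticGroup (Fin m) F))) = ((⨅ i, S i : Subgroup _) : Set _) :=
    fun S => Subgroup.coe_iInf.symm
  rw [hcoe]
  change Nat.card ↥(Subgroup.normalizer (TT m F : Set ↥(Matrix.symplecticGroup (Fin m) F))) = _
  obtain ⟨t, ht⟩ := exists_t hF hq
  let Φ : Equiv.Perm (Fin m) × (Fin m → Bool) × (Fin m → Fˣ) →
      ↥(Subgroup.normalizer (TT m F : Set ↥(Matrix.symplecticGroup (Fin m) F))) :=
    fun p => ⟨SpM p.1 p.2.1 p.2.2, SpM_norm _ _ _⟩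
  have hbij : Function.Bijective Φ := by
    constructor
    · rintro ⟨σ, s, d⟩ ⟨σ', s', d'⟩ h
      obtain ⟨h1, h2, h3⟩ := inj σ σ' s s' d d' (congrArg Subtype.val h)
      rw [h1, h2, h3]
    · rintro ⟨g, hg⟩
      obtain ⟨σ, s, d, h⟩ := surj t ht g hg
      exact ⟨⟨σ, s, d⟩, Subtype.ext h⟩
  rw [← Nat.card_congr (Equiv.ofBijective Φ hbij), Nat.card_prod, Nat.card_prod,
    Nat.card_eq_fintype_card (α := Equiv.Perm (Fin m)), Fintype.card_perm, Fintype.card_fin,
    Nat.card_fun, Nat.card_fun, Nat.card_eq_fintype_card (α := Bool), Nat.card_eq_fintype_card (α := Fin m),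
    Nat.card_eq_fintype_card (α := Fˣ), Fintype.card_units, hF, Fintype.card_bool, Fintype.card_fin]
  ring

end Cfsg.Agent.S0777
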