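import Cfsg.Statements.S0778
import Cfsg.Agent.Lib.SympBasic

set_option autoImplicit false
open Cfsg Matrix

namespace Cfsg.Agent.S0778

variable {F : Type*} [Field F] {m : ℕ}

local notation "M" => Matrix (Fin m ⊕ Fin m) (Fin m ⊕ Fin m) F

theorem block_mem (X : GL (Fin m) F) :
    fromBlocks (X : Matrix (Fin m) (Fin m) F) 0 0 ((X⁻¹ : GL (Fin m) F) : Matrix (Fin m) (Fin m) F)ᵀ ∈ Matrix.symplecticGroup (Fin m) F := by
  rw [SymplecticGroup.mem_iff']
  have h1 : ((X : Matrix (Fin m) (Fin m) F))ᵀ * ((X⁻¹ : GL (Fin m) F) : Matrix (Fin m) (Fin m) F)ᵀ = 1 := by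
    rw [← Matrix.transpose_mul]
    simp
  have h2 : ((X⁻¹ : GL (Fin m) F) : Matrix (Fin m) (Fin m) F) * (X : Matrix (Fin m) (Fin m) F) = 1 := by
    simp
  simp only [Matrix.J, fromBlocks_transpose, fromBlocks_multiply, Matrix.transpose_zero, Matrix.transpose_transpose, Matrix.zero_mul, Matrix.mul_zero, add_zero, zero_add, Matrix.mul_neg, Matrix.mul_one, Matrix.one_mul, Matrix.neg_mul, h1, h2, neg_zero]

/-- The block-diagonal embedding. -/
noncomputable def psi : GL (Fin m) F →* Matrix.symplecticGroup (Fin m) F where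
  toFun X := ⟨_, block_mem X⟩
  map_one' := by
    apply Subtype.ext
    simp
  map_mul' X Y := by
    apply Subtype.ext
    simp [Matrix.fromBlocks_multiply, _root_.mul_inv_rev, Matrix.transpose_mul]

theorem psi_coe (X : GL (Fin m) F) : ((psi X : Matrix.symplecticGroup (Fin m) F) : M) =
    fromBlocks (X : Matrix (Fin m) (Fin m) F) 0 0 ((X⁻¹ : GL (Fin m) F) : Matrix (Fin m) (Fin m) F)ᵀ := rfl

theorem psi_injective : Function.Injective (psi (m := m) (F := F)) := by
  intro X Y h
  have := congrArg (fun A : Matrix.symplecticGroup (Fin m) F => ((A : M)).toBlocks₁₁) h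
  simp only [psi_coe, toBlocks_fromBlocks₁₁] at this
  exact Units.ext this

theorem psi_range : (psi (m := m) (F := F)).range = Cfsg.stabilizing (Cfsg.spToMat m F) {v : Fin m ⊕ Fin m → F | ∀ i : Fin m, v (Sum.inr i) = 0} ⊓ Cfsg.stabilizing (Cfsg.spToMat m F) {v : Fin m ⊕ Fin m → F | ∀ i : Fin m, v (Sum.inl i) = 0} := by
  classical
  ext A
  constructor
  · rintro ⟨X, rfl⟩
    have hmul : ∀ v : Fin m ⊕ Fin m → F, ((psi X : Matrix.symplecticGroup (Fin m) F) : M) *ᵥ v =
        Sum.elim ((X : Matrix (Fin m) (Fin m) F) *ᵥ (v ∘ Sum.inl)) (((X⁻¹ : GL (Fin m) F) : Matrix (Fin m) (Fin m) F)ᵀ *ᵥ (v ∘ Sum.inr)) := by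
      intro v
      rw [psi_coe, fromBlocks_mulVec]
      simp
    have hY : ((X : Matrix (Fin m) (Fin m) F))ᵀ * ((X⁻¹ : GL (Fin m) F) : Matrix (Fin m) (Fin m) F)ᵀ = 1 := by
      rw [← Matrix.transpose_mul]
      simp
    have hX : ((X⁻¹ : GL (Fin m) F) : Matrix (Fin m) (Fin m) F) * (X : Matrix (Fin m) (Fin m) F) = 1 := by
      simp
    constructor
    · intro v
      show (∀ i, v (Sum.inr i) = 0) ↔ (∀ i, (((psi X : Matrix.symplecticGroup (Fin m) F) : M) *ᵥ v) (Sum.inr i) = 0)
      rw [hmul]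
      simp only [Sum.elim_inr]
      constructor
      · intro h i
        have : v ∘ Sum.inr = 0 := funext h
        rw [this]
        simp
      · intro h i
        have h0 : ((X⁻¹ : GL (Fin m) F) : Matrix (Fin m) (Fin m) F)ᵀ *ᵥ (v ∘ Sum.inr) = 0 := funext h
        have := congrArg (fun w => ((X : Matrix (Fin m) (Fin m) F))ᵀ *ᵥ w) h0
        simp only [Matrix.mulVec_mulVec, hY, Matrix.one_mulVec, Matrix.mulVec_zero] at this
        exact congrFun this i
    · intro v
      show (∀ i, v (Sum.inl i) = 0) ↔ (∀ i, (((psi X : Matrix.symplecticGroup (Fin m) F) : M) *ᵥ v) (Sum.inl i) = 0)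
      rw [hmul]
      simp only [Sum.elim_inl]
      constructor
      · intro h i
        have : v ∘ Sum.inl = 0 := funext h
        rw [this]
        simp
      · intro h i
        have h0 : (X : Matrix (Fin m) (Fin m) F) *ᵥ (v ∘ Sum.inl) = 0 := funext h
        have := congrArg (fun w => ((X⁻¹ : GL (Fin m) F) : Matrix (Fin m) (Fin m) F) *ᵥ w) h0
        simp only [Matrix.mulVec_mulVec, hX, Matrix.one_mulVec, Matrix.mulVec_zero] at this
        exact congrFun this i
  · rintro ⟨h1, h2⟩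
    have hB12 : (A : M).toBlocks₁₂ = 0 := by
      ext i j
      have := (h2 (Pi.single (Sum.inr j) 1)).mp (by intro i; simp)
      have h3 := this i
      simpa [Matrix.toBlocks₁₂, Matrix.mulVec_single_one] using h3
    have hB21 : (A : M).toBlocks₂₁ = 0 := by
      ext i j
      have := (h1 (Pi.single (Sum.inl j) 1)).mp (by intro i; simp)
      have h3 := this i
      simpa [Matrix.toBlocks₂₁, Matrix.mulVec_single_one] using h3
    have hA : (A : M) = fromBlocks (A : M).toBlocks₁₁ 0 0 (A : M).toBlocks₂₂ := by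
      conv_lhs => rw [← fromBlocks_toBlocks (A : M), hB12, hB21]
    have hS := (SymplecticGroup.mem_iff' (A := (A : M))).mp A.2
    rw [hA] at hS
    simp only [Matrix.J, fromBlocks_transpose, fromBlocks_multiply, Matrix.transpose_zero, Matrix.zero_mul, Matrix.mul_zero, add_zero, zero_add, Matrix.mul_neg, Matrix.mul_one, Matrix.one_mul, Matrix.neg_mul, neg_zero] at hS
    have hS' := (fromBlocks_inj.mp hS)
    obtain ⟨-, h12, -, -⟩ := hS'
    set X := (A : M).toBlocks₁₁ with hXdef
    set Y := (A : M).toBlocks₂₂ with hYdef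
    have h12' : Xᵀ * Y = 1 := neg_inj.mp h12
    have h12'' : Y * Xᵀ = 1 := mul_eq_one_comm.mp h12'
    have h3 : X * Yᵀ = 1 := by
      have := congrArg Matrix.transpose h12''
      simpa [Matrix.transpose_mul] using this
    have h4 : Yᵀ * X = 1 := mul_eq_one_comm.mp h3
    let U : GL (Fin m) F := ⟨X, Yᵀ, h3, h4⟩
    refine ⟨U, ?_⟩
    apply Subtype.ext
    rw [psi_coe, hA]
    show fromBlocks X 0 0 (Yᵀ)ᵀ = fromBlocks X 0 0 Y
    rw [Matrix.transpose_transpose]

/-- The elements of Sp_2m(F) stabilising both W = ⟨e_1..e_m⟩ and U = ⟨f_1..f_m⟩ form a subgroup isomorphic to GL_m(F) (block-diagonal matrices diag(X, X^(−ᵀ)) up to the sign convention of J), for m ≥ 1 or m = 0 alike. -/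
theorem result {F : Type*} [Field F] (m : ℕ) : Nonempty (↥(Cfsg.stabilizing (Cfsg.spToMat m F) {v : Fin m ⊕ Fin m → F | ∀ i : Fin m, v (Sum.inr i) = 0} ⊓ Cfsg.stabilizing (Cfsg.spToMat m F) {v : Fin m ⊕ Fin m → F | ∀ i : Fin m, v (Sum.inl i) = 0}) ≃* Matrix.GeneralLinearGroup (Fin m) F) := by
  refine ⟨?_⟩
  rw [← psi_range]
  exact (MonoidHom.ofInjective psi_injective).symm

end Cfsg.Agent.S0778
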