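import Cfsg.Statements.S0779
import Cfsg.Agent.Lib.HermForm

set_option autoImplicit false
open Cfsg

namespace Cfsg.Agent.S0779

open Cfsg.Agent.Lib.HermStd Cfsg.Agent.Lib.HermForm

theorem ut_mulVec {F : Type*} [Field F] {q n : ℕ} (v : Fin n → F) (c : F) (x : Fin n → F) :
    (Cfsg.unitaryTransvection n q v c).mulVec x = x + (c * Cfsg.hermForm n F q x v) • v := by
  ext i
  have : ∑ j, (fun j => v j ^ q) j * x j = ∑ j, x j * v j ^ q :=
    Finset.sum_congr rfl fun j _ => mul_comm _ _
  simp only [Cfsg.unitaryTransvection, Matrix.add_mulVec, Matrix.one_mulVec, Matrix.smul_mulVec,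
    Matrix.vecMulVec_mulVec, Pi.add_apply, Pi.smul_apply, smul_eq_mul, Cfsg.hermForm, dotProduct,
    MulOpposite.smul_eq_mul_unop, MulOpposite.unop_op, this]
  ring

/-- Unitary transvections: let |F| = q², h the standard Hermitian form Σ x_i y_i^q and v ≠ 0 with h(v, v) = 0. The linear map x ↦ x + c h(x, v) v is an isometry of h if and only if c = 0 or c^(q−1) = −1. -/
theorem result {F : Type*} [Field F] [Fintype F] {q : ℕ} (hF : Fintype.card F = q ^ 2) (n : ℕ) (v : Fin n → F) (hv : v ≠ 0) (hv0 : Cfsg.hermForm n F q v v = 0) (c : F) : (∀ x y : Fin n → F, Cfsg.hermForm n F q ((Cfsg.unitaryTransvection n q v c).mulVec x) ((Cfsg.unitaryTransvection n q v c).mulVec y) = Cfsg.hermForm n F q x y) ↔ (c = 0 ∨ c ^ (q - 1) = -1) := by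
  have hq1 := one_lt_q hF
  have key : ∀ x y : Fin n → F, Cfsg.hermForm n F q ((Cfsg.unitaryTransvection n q v c).mulVec x) ((Cfsg.unitaryTransvection n q v c).mulVec y)
      = Cfsg.hermForm n F q x y + (c + c ^ q) * (Cfsg.hermForm n F q x v * Cfsg.hermForm n F q v y) := by
    intro x y
    rw [ut_mulVec, ut_mulVec, hf_add_left, hf_add_right hF, hf_add_right hF, hf_smul_left, hf_smul_left,
      hf_smul_right hF, hf_smul_right hF, hv0, mul_pow, ← hf_conj hF]
    ring
  have hcq : c ^ q = c ^ (q - 1) * c := by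
    rw [← pow_succ]
    congr 1
    omega
  constructor
  · intro h
    obtain ⟨x, hx⟩ := hf_nondeg_left hF hv
    obtain ⟨y, hy⟩ := hf_nondeg_right hF hv
    have h1 := h x y
    rw [key] at h1
    have h2 : (c + c ^ q) * (Cfsg.hermForm n F q x v * Cfsg.hermForm n F q v y) = 0 := by
      linear_combination h1
    have h3 : c + c ^ q = 0 := by
      rcases mul_eq_zero.mp h2 with h | h
      · exact h
      · exact absurd h (mul_ne_zero hx hy)
    by_cases hc : c = 0
    · exact Or.inl hc
    · right
      rw [hcq] at h3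
      have : (c ^ (q - 1) + 1) * c = 0 := by linear_combination h3
      rcases mul_eq_zero.mp this with h | h
      · linear_combination h
      · exact absurd h hc
  · intro h x y
    rw [key]
    rcases h with rfl | h
    · rw [zero_pow (by omega)]; simp
    · rw [hcq, h]; ring

end Cfsg.Agent.S0779
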