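import Cfsg.Statements.S0781
import Cfsg.Agent.Lib.UnitGen2

set_option autoImplicit false
open Cfsg

namespace Cfsg.Agent.S0781

/-- In SU_n(q) with n ≥ 4, or n = 3 and q > 2, every element whose matrix is a unitary transvection x ↦ x + c h(x, v) v (v isotropic) is a commutator ⁅B, C⁆ of two elements of SU_n(q). -/
theorem result {F : Type*} [Field F] [Fintype F] {q : ℕ} (hF : Fintype.card F = q ^ 2) (n : ℕ) (hn : 4 ≤ n ∨ (n = 3 ∧ 3 ≤ q)) (A : ↥(Cfsg.SU n F q)) (v : Fin n → F) (c : F) (hv0 : Cfsg.hermForm n F q v v = 0) (hA : ((A : Matrix.SpecialLinearGroup (Fin n) F) : Matrix (Fin n) (Fin n) F) = Cfsg.unitaryTransvection n q v c) : A ∈ commutatorSet ↥(Cfsg.SU n F q) := by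
  have hT : Cfsg.Agent.Lib.UnitGen.HasTriple n F q := by
    obtain ⟨m, rfl⟩ : ∃ m, n = m + 3 := ⟨n - 3, by omega⟩
    exact Cfsg.Agent.Lib.UnitGen.hasTriple hF m
  obtain ⟨B, C, e⟩ := Cfsg.Agent.Lib.UnitGen2.tv_commutator hF hT A hv0 hA
  exact ⟨B, C, by rw [commutatorElement_def]; exact e⟩

end Cfsg.Agent.S0781
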