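import Cfsg.Statements.S0782
import Cfsg.Agent.Lib.HermFrames

set_option autoImplicit false
open Cfsg

namespace Cfsg.Agent.S0782


open Matrix Cfsg Cfsg.Agent.Lib.HermFrames Cfsg.Agent.Lib.UnitBasic Cfsg.Agent.Lib.SUBasic Cfsg.Agent.Lib.HermCount Cfsg.Agent.Lib.SpFrames
open scoped MatrixGroups

/-- the factors -/
def DD' (q i : ℕ) : ℕ := if Even i then q ^ (i + 1) + 1 else q ^ (i + 1) - 1

section

variable {F : Type*} [Field F] [Fintype F] {q : ℕ}

theorem iso_eq (hF : Fintype.card F = q ^ 2) (j : ℕ) :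
    Nat.card {v : Fin (j + 2) → F // hermForm (j + 2) F q v v = 0} = DD' q (j + 1) * DD' q j + 1 := by
  rw [card_isotropic hF]
  simp only [DD', Nat.add_sub_cancel, show j + 2 - 1 = j + 1 by omega, show j + 1 + 1 = j + 2 by omega]
  rcases Nat.even_or_odd j with h | h
  · have h1 : Even (j + 2) := by simpa [Nat.even_add] using h
    have h2 : ¬ Even (j + 1) := by simpa [Nat.even_add_one] using h
    simp [h, h1, h2]
  · have h0 : ¬ Even j := Nat.not_even_iff_odd.2 h
    have h1 : ¬ Even (j + 2) := by simpa [Nat.even_add] using h0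
    have h2 : Even (j + 1) := by simpa [Nat.even_add_one] using h0
    simp [h0, h1, h2]

theorem prod_split_D (q m k : ℕ) :
    ∏ i ∈ Finset.range (m + 2 * k), DD' q i =
      (∏ i ∈ Finset.range m, DD' q i) * ∏ j ∈ Finset.range k, (DD' q (m + 2 * j + 1) * DD' q (m + 2 * j)) := by
  induction k with
  | zero => simp
  | succ k ih =>
    rw [show m + 2 * (k + 1) = m + 2 * k + 1 + 1 by ring, Finset.prod_range_succ, Finset.prod_range_succ, ih,
      Finset.prod_range_succ]
    ring

theorem card_Fr' (hF : Fintype.card F = q ^ 2) (m k : ℕ) :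
    Nat.card {f : Fin k → Fin (m + 2 * k) → F // LinearIndependent F f ∧ TIf q f} =
      q ^ (k * (k - 1)) * ∏ j ∈ Finset.range k, (DD' q (m + 2 * j + 1) * DD' q (m + 2 * j)) := by
  rw [card_Fr hF k (by omega)]
  have h1 : ∀ i ∈ Finset.range k,
      (q ^ (2 * i) * Nat.card {v : Fin (m + 2 * k - 2 * i) → F // hermForm (m + 2 * k - 2 * i) F q v v = 0} - (Fintype.card F) ^ i) =
        q ^ (2 * i) * (DD' q (m + 2 * (k - 1 - i) + 1) * DD' q (m + 2 * (k - 1 - i))) := by
    intro i hi
    have hi' : i < k := Finset.mem_range.1 hi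
    have e : m + 2 * k - 2 * i = (m + 2 * (k - 1 - i)) + 2 := by omega
    rw [e, iso_eq hF, hF, ← pow_mul, Nat.mul_add, mul_one, Nat.add_sub_cancel]
  rw [Finset.prod_congr rfl h1, Finset.prod_mul_distrib, Finset.prod_pow_eq_pow_sum]
  have h2 : ∑ i ∈ Finset.range k, 2 * i = k * (k - 1) := by
    rw [← Finset.mul_sum, mul_comm, Finset.sum_range_id_mul_two]
  rw [h2]
  congr 1
  exact Finset.prod_range_reflect (fun j => DD' q (m + 2 * j + 1) * DD' q (m + 2 * j)) k

theorem tri_eq (m k : ℕ) :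
    (m + 2 * k) * (m + 2 * k - 1) / 2 = k * (2 * m + k) + m * (m - 1) / 2 + k * (k - 1) := by
  induction k with
  | zero => simp
  | succ k ih =>
    have e : m + 2 * (k + 1) = (m + 2 * k + 1) + 1 := by ring
    rw [e, tri_succ, tri_succ, ih]
    have h3 : k * (k - 1) + k = k * k := by
      rcases k with _ | k
      · simp
      · simp only [Nat.add_sub_cancel]
        ring
    have h4 : (k + 1) * (k + 1 - 1) = k * k + k := by
      simp only [Nat.add_sub_cancel]
      ring
    rw [h4]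
    nlinarith [h3]

/-- the GU-stabiliser's matrix map -/
abbrev toM (n : ℕ) (F : Type*) [Field F] (q : ℕ) : (GU n F q) →* Matrix (Fin n) (Fin n) F :=
  (Units.coeHom (Matrix (Fin n) (Fin n) F)).comp (GU n F q).subtype

theorem gl_li {n k : ℕ} {f : Fin k → Fin n → F} (hf : LinearIndependent F f) (g : GL (Fin n) F) :
    LinearIndependent F (fun i => (g : Matrix (Fin n) (Fin n) F) *ᵥ f i) := by
  have h1 : LinearMap.ker ((g : Matrix (Fin n) (Fin n) F).mulVecLin) = ⊥ := by
    rw [LinearMap.ker_eq_bot]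
    exact (Cfsg.Agent.Lib.UnitCount.mv g).injective
  have h2 := hf.map' (g : Matrix (Fin n) (Fin n) F).mulVecLin h1
  have e : ((g : Matrix (Fin n) (Fin n) F).mulVecLin ∘ f) = fun i => (g : Matrix (Fin n) (Fin n) F) *ᵥ f i := by
    funext i
    simp
  rwa [e] at h2

theorem mem_T_of_map {n : ℕ} (W : Submodule F (Fin n → F)) (g : GU n F q)
    (hg : ∀ v ∈ W, ((g : GL (Fin n) F) : Matrix (Fin n) (Fin n) F) *ᵥ v ∈ W) :
    g ∈ Cfsg.stabilizing (toM n F q) (W : Set (Fin n → F)) := by
  intro v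
  constructor
  · exact hg v
  · intro hv
    let r : W → W := fun x => ⟨((g : GL (Fin n) F) : Matrix (Fin n) (Fin n) F) *ᵥ x.1, hg x.1 x.2⟩
    have hr : Function.Injective r := by
      intro x y hxy
      exact Subtype.ext ((Cfsg.Agent.Lib.UnitCount.mv g.1).injective (congrArg Subtype.val hxy))
    obtain ⟨x, hx⟩ := (Finite.injective_iff_surjective.1 hr) ⟨_, hv⟩
    have e : ((g : GL (Fin n) F) : Matrix (Fin n) (Fin n) F) *ᵥ x.1 = ((g : GL (Fin n) F) : Matrix (Fin n) (Fin n) F) *ᵥ v :=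
      congrArg Subtype.val hx
    have e' : x.1 = v := (Cfsg.Agent.Lib.UnitCount.mv g.1).injective e
    rw [← e']
    exact x.2

theorem det_surj_stab (hF : Fintype.card F = q ^ 2) {n : ℕ} (hn : 1 ≤ n) (W : Submodule F (Fin n → F))
    (hW : ∀ u ∈ W, ∀ v ∈ W, hermForm n F q u v = 0) (x : Fˣ) (hx : (x : F) ^ (q + 1) = 1) :
    ∃ g : GL (Fin n) F, g ∈ GU n F q ∧ (g : Matrix (Fin n) (Fin n) F).det = x ∧
      ∀ v ∈ W, (g : Matrix (Fin n) (Fin n) F) *ᵥ v ∈ W := by
  classical
  rcases hk : Module.finrank F W with _ | k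
  · obtain ⟨⟨g, hg⟩, hg2⟩ := DD_surj hF n hn ⟨x, mem_NN.2 hx⟩
    refine ⟨g, hg, congrArg (fun y : NN F q => ((y : Fˣ) : F)) hg2, ?_⟩
    have hbot : W = ⊥ := Submodule.finrank_eq_zero.1 hk
    subst hbot
    intro v hv
    have hv0 : v = 0 := by simpa using hv
    subst hv0
    rw [Matrix.mulVec_zero]
    exact Submodule.zero_mem _
  · let b := Module.finBasisOfFinrankEq F W hk
    let e : Fin (k + 1) → (Fin n → F) := fun i => (b i : (Fin n → F))
    have he : LinearIndependent F e := b.linearIndependent.map' W.subtype (Submodule.ker_subtype W)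
    have hspan : Submodule.span F (Set.range e) = W := by
      have h1 : Submodule.map W.subtype (Submodule.span F (Set.range b)) = Submodule.span F (Set.range e) := by
        rw [Submodule.map_span, ← Set.range_comp]
        rfl
      rw [← h1, b.span_eq, Submodule.map_top, Submodule.range_subtype]
    have heT : TIf q e := fun i j => hW _ (b i).2 _ (b j).2
    obtain ⟨g, hg, hdet, ⟨c, hc⟩, hg2⟩ := exists_scale hF e he heT x hx
    refine ⟨g, hg, hdet, ?_⟩
    intro v hv
    rw [← hspan] at hv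
    have h2 : Submodule.span F (Set.range e) ≤ W.comap (g : Matrix (Fin n) (Fin n) F).mulVecLin := by
      rw [Submodule.span_le]
      rintro _ ⟨i, rfl⟩
      refine Fin.cases ?_ (fun i' => ?_) i
      · show (g : Matrix (Fin n) (Fin n) F) *ᵥ e 0 ∈ W
        rw [hc]
        exact Submodule.smul_mem _ _ (b 0).2
      · show (g : Matrix (Fin n) (Fin n) F) *ᵥ e i'.succ ∈ W
        rw [hg2]
        exact (b i'.succ).2
    exact h2 hv

theorem card_T_eq (hF : Fintype.card F = q ^ 2) {n : ℕ} (hn : 1 ≤ n) (W : Submodule F (Fin n → F))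
    (hW : ∀ u ∈ W, ∀ v ∈ W, hermForm n F q u v = 0) :
    (q + 1) * Nat.card ↥((Cfsg.stabilizing (Cfsg.slToMat n F) (W : Set (Fin n → F))).subgroupOf (Cfsg.SU n F q)) =
      Nat.card (Cfsg.stabilizing (toM n F q) (W : Set (Fin n → F))) := by
  classical
  let T := Cfsg.stabilizing (toM n F q) (W : Set (Fin n → F))
  let D : T →* NN F q := (DD hF n).comp T.subtype
  have hDs : Function.Surjective D := by
    rintro ⟨x, hx⟩
    obtain ⟨g, hg, hdet, hgW⟩ := det_surj_stab hF hn W hW x (mem_NN.1 hx)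
    refine ⟨⟨⟨g, hg⟩, mem_T_of_map W ⟨g, hg⟩ hgW⟩, ?_⟩
    apply Subtype.ext
    apply Units.ext
    exact hdet
  have hc := Subgroup.card_eq_card_quotient_mul_card_subgroup D.ker
  rw [Nat.card_congr (QuotientGroup.quotientKerEquivOfSurjective _ hDs).toEquiv, card_NN hF] at hc
  show _ = Nat.card T
  rw [hc]
  congr 1
  symm
  apply Nat.card_congr
  refine
    { toFun := fun g => ⟨⟨⟨(((g.1.1 : GU n F q) : GL (Fin n) F) : Matrix (Fin n) (Fin n) F), ?_⟩, fun u v => g.1.1.2 u v⟩, ?_⟩
      invFun := fun s => ⟨⟨⟨Matrix.SpecialLinearGroup.toGL s.1.1, fun u v => s.1.2 u v⟩, fun v => s.2 v⟩, ?_⟩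
      left_inv := ?_
      right_inv := ?_ }
  · have h1 := congrArg (fun y : NN F q => ((y : Fˣ) : F)) (MonoidHom.mem_ker.1 g.2)
    exact h1
  · rw [Subgroup.mem_subgroupOf]
    exact fun v => g.1.2 v
  · rw [MonoidHom.mem_ker]
    apply Subtype.ext
    apply Units.ext
    exact s.1.1.2
  · intro g
    apply Subtype.ext
    apply Subtype.ext
    apply Subtype.ext
    apply Units.ext
    rfl
  · intro s
    apply Subtype.ext
    apply Subtype.ext
    apply Subtype.ext
    rfl

end


/-- Maximal parabolics of SU_n(q): if W is a k-dimensional subspace of F^n (n ≥ 1, |F| = q²) on which the Hermitian form vanishes, then (q + 1) times the order of its stabiliser in SU_n(q) equals q^(k(2n−3k)) · |GL_k(q²)| · |GU_(n−2k)(q)|, where |GU_m(q)| = q^(m(m−1)/2) Π_(i=1..m) (q^i − (−1)^i). -/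
theorem result {F : Type*} [Field F] [Fintype F] {q : ℕ} (hF : Fintype.card F = q ^ 2) (n k : ℕ) (hn : 1 ≤ n) (hk : 2 * k ≤ n) (W : Submodule F (Fin n → F)) (hWk : Module.finrank F W = k) (hW : ∀ u ∈ W, ∀ v ∈ W, Cfsg.hermForm n F q u v = 0) : (q + 1) * Nat.card ↥((Cfsg.stabilizing (Cfsg.slToMat n F) (W : Set (Fin n → F))).subgroupOf (Cfsg.SU n F q)) = q ^ (k * (2 * n - 3 * k)) * (∏ i : Fin k, ((q ^ 2) ^ k - (q ^ 2) ^ (i : ℕ))) * (q ^ ((n - 2 * k) * ((n - 2 * k) - 1) / 2) * ∏ i ∈ Finset.range (n - 2 * k), (if Even i then q ^ (i + 1) + 1 else q ^ (i + 1) - 1)) := by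
  classical
  obtain ⟨m, rfl⟩ : ∃ m, n = m + 2 * k := ⟨n - 2 * k, by omega⟩
  let b := Module.finBasisOfFinrankEq F W hWk
  let e : Fin k → (Fin (m + 2 * k) → F) := fun i => (b i : (Fin (m + 2 * k) → F))
  have he : LinearIndependent F e := b.linearIndependent.map' W.subtype (Submodule.ker_subtype W)
  have hspan : Submodule.span F (Set.range e) = W := by
    have h1 : Submodule.map W.subtype (Submodule.span F (Set.range b)) = Submodule.span F (Set.range e) := by
      rw [Submodule.map_span, ← Set.range_comp]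
      rfl
    rw [← h1, b.span_eq, Submodule.map_top, Submodule.range_subtype]
  have heT : TIf q e := fun i j => hW _ (b i).2 _ (b j).2
  have h1 := card_orbit hF e he heT (Cfsg.stabilizing (toM (m + 2 * k) F q) (W : Set (Fin (m + 2 * k) → F)))
    (fun f => LinearIndependent F f ∧ ∀ i, f i ∈ W) (by
      intro g
      constructor
      · intro hg
        exact ⟨gl_li he g.1, fun i => (hg _).1 (b i).2⟩
      · rintro ⟨-, hg⟩
        apply mem_T_of_map
        intro v hv
        rw [← hspan] at hv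
        have h2 : Submodule.span F (Set.range e) ≤ W.comap ((g : GL (Fin (m + 2 * k)) F) : Matrix (Fin (m + 2 * k)) (Fin (m + 2 * k)) F).mulVecLin := by
          rw [Submodule.span_le]
          rintro _ ⟨i, rfl⟩
          exact hg i
        exact h2 hv) (by
      rintro f ⟨h1, h2⟩
      exact ⟨h1, fun i j => hW _ (h2 i) _ (h2 j)⟩)
  rw [card_frames_in W k, hWk, card_GU hF, hF] at h1
  have hpos : 0 < Nat.card {f : Fin k → (Fin (m + 2 * k) → F) // LinearIndependent F f ∧ TIf q f} := by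
    haveI : Nonempty {f : Fin k → (Fin (m + 2 * k) → F) // LinearIndependent F f ∧ TIf q f} := ⟨⟨e, he, heT⟩⟩
    exact Nat.card_pos
  rw [card_T_eq hF hn W hW]
  apply Nat.eq_of_mul_eq_mul_right hpos
  rw [h1, card_Fr' hF, ← Fin.prod_univ_eq_prod_range (fun i => (q ^ 2) ^ k - (q ^ 2) ^ i) k]
  have hD : ∀ n, (∏ i ∈ Finset.range n, (if Even i then q ^ (i + 1) + 1 else q ^ (i + 1) - 1)) = ∏ i ∈ Finset.range n, DD' q i := fun n => rfl
  rw [hD, hD, prod_split_D, Nat.add_sub_cancel, tri_eq, show 2 * (m + 2 * k) - 3 * k = 2 * m + k by omega]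
  simp only [pow_add]
  ring

end Cfsg.Agent.S0782
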