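import Cfsg.Statements.S0783
import Cfsg.Agent.Lib.UnitComm

set_option autoImplicit false
open Cfsg

namespace Cfsg.Agent.S0783

/-- PGU_n(q)/PSU_n(q) is cyclic of order (n, q+1): for n ≥ 2 and |F| = q² there is a surjective homomorphism from GU_n(q) onto the cyclic group of order gcd(n, q + 1) whose kernel is generated by the determinant-one elements together with the centre. -/
theorem result {F : Type*} [Field F] [Fintype F] {q : ℕ} (hF : Fintype.card F = q ^ 2) (n : ℕ) (hn : 2 ≤ n) : ∃ φ : ↥(Cfsg.GU n F q) →* Multiplicative (ZMod (Nat.gcd n (q + 1))), Function.Surjective φ ∧ φ.ker = (Matrix.GeneralLinearGroup.det : Matrix.GeneralLinearGroup (Fin n) F →* Fˣ).ker.subgroupOf (Cfsg.GU n F q) ⊔ Subgroup.center ↥(Cfsg.GU n F q) := by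
  classical
  have hq1 := Cfsg.Agent.Lib.HermStd.one_lt_q hF
  have hn1 : 1 ≤ n := by omega
  let NN := Cfsg.Agent.Lib.SUBasic.NN F q
  haveI : IsCyclic NN := Subgroup.isCyclic _
  let R : Subgroup NN := (powMonoidHom n : NN →* NN).range
  haveI hQc : IsCyclic (NN ⧸ R) := isCyclic_of_surjective (QuotientGroup.mk' R) (QuotientGroup.mk'_surjective R)
  have hcard : Nat.card (NN ⧸ R) = Nat.gcd n (q + 1) := by
    have h3 := IsCyclic.index_powMonoidHom_range (G := NN) n
    rw [Cfsg.Agent.Lib.SUBasic.card_NN hF, Nat.gcd_comm] at h3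
    exact h3
  rw [← hcard]
  let iso : Multiplicative (ZMod (Nat.card (NN ⧸ R))) ≃* (NN ⧸ R) := zmodCyclicMulEquiv hQc
  let DD := Cfsg.Agent.Lib.SUBasic.DD hF n
  let φ : ↥(Cfsg.GU n F q) →* Multiplicative (ZMod (Nat.card (NN ⧸ R))) :=
    iso.symm.toMonoidHom.comp ((QuotientGroup.mk' R).comp DD)
  have hker : ∀ g, g ∈ φ.ker ↔ DD g ∈ R := by
    intro g
    rw [MonoidHom.mem_ker]
    show iso.symm ((QuotientGroup.mk' R) (DD g)) = 1 ↔ _
    rw [map_eq_one_iff _ iso.symm.injective]
    exact QuotientGroup.eq_one_iff _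
  refine ⟨φ, ?_, ?_⟩
  · exact iso.symm.surjective.comp ((QuotientGroup.mk'_surjective R).comp (Cfsg.Agent.Lib.SUBasic.DD_surj hF n hn1))
  · apply le_antisymm
    · intro g hg
      obtain ⟨l, hl⟩ := (hker g).1 hg
      -- scalar
      have hl1 : (l.1 : F) ^ (q + 1) = 1 := Cfsg.Agent.Lib.SUBasic.mem_NN.1 l.2
      let zz : GL (Fin n) F := ⟨(l.1 : F) • 1, ((l.1⁻¹ : Fˣ) : F) • 1, by
        rw [smul_mul_smul_comm]
        simp, by
        rw [smul_mul_smul_comm]
        simp⟩
      have hz : zz ∈ Cfsg.GU n F q := by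
        rw [Cfsg.Agent.Lib.UnitBasic.mem_GU_iff]
        intro u v
        exact Cfsg.Agent.Lib.SUCenter.scal_isom hF _ hl1 u v
      let z : ↥(Cfsg.GU n F q) := ⟨zz, hz⟩
      have hzc : z ∈ Subgroup.center ↥(Cfsg.GU n F q) := by
        rw [Subgroup.mem_center_iff]
        intro y
        apply Subtype.ext
        apply Units.ext
        show (y.1 : Matrix (Fin n) (Fin n) F) * ((l.1 : F) • 1) = ((l.1 : F) • 1) * (y.1 : Matrix (Fin n) (Fin n) F)
        rw [Matrix.mul_smul, Matrix.smul_mul, mul_one, one_mul]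
      have hdz : DD z = l ^ n := by
        apply Subtype.ext
        apply Units.ext
        show ((l.1 : F) • (1 : Matrix (Fin n) (Fin n) F)).det = ((l.1 : F)) ^ n
        rw [Matrix.det_smul, Matrix.det_one, mul_one, Fintype.card_fin]
      have hg1 : g * z⁻¹ ∈ (Matrix.GeneralLinearGroup.det : Matrix.GeneralLinearGroup (Fin n) F →* Fˣ).ker.subgroupOf (Cfsg.GU n F q) := by
        rw [Subgroup.mem_subgroupOf, MonoidHom.mem_ker]
        have e1 : DD (g * z⁻¹) = 1 := by
          rw [map_mul, map_inv, hdz, ← hl]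
          simp
        exact congrArg Subtype.val e1
      have : g = (g * z⁻¹) * z := by group
      rw [this]
      exact Subgroup.mul_mem_sup hg1 hzc
    · apply sup_le
      · intro g hg
        rw [hker]
        have e1 : DD g = 1 := by
          apply Subtype.ext
          rw [Subgroup.mem_subgroupOf, MonoidHom.mem_ker] at hg
          exact hg
        rw [e1]
        exact R.one_mem
      · intro g hg
        rw [hker]
        -- central elements are scalar
        have hcomm : ∀ (v : Fin n → F) (c : F), Cfsg.hermForm n F q v v = 0 → c ^ q = -c →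
            Cfsg.unitaryTransvection n q v c * (g.1 : Matrix (Fin n) (Fin n) F) = (g.1 : Matrix (Fin n) (Fin n) F) * Cfsg.unitaryTransvection n q v c := by
          intro v c hv hc
          let s := Cfsg.Agent.Lib.SUCenter.UT hF hv hc
          have hs : Matrix.SpecialLinearGroup.toGL s.1 ∈ Cfsg.GU n F q := by
            rw [Cfsg.Agent.Lib.UnitBasic.mem_GU_iff]
            exact s.2
          have := (Subgroup.mem_center_iff.1 hg) ⟨_, hs⟩
          exact congrArg (fun y : ↥(Cfsg.GU n F q) => (y.1 : Matrix (Fin n) (Fin n) F)) this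
        obtain ⟨l, hl⟩ := Cfsg.Agent.Lib.UnitComm.scalar_of_comm hF hn hcomm
        -- the scalar has norm one
        have hnorm : l ^ (q + 1) = 1 := by
          have h1 := ((Cfsg.Agent.Lib.UnitBasic.mem_GU_iff g.1).1 g.2) (Pi.single ⟨0, by omega⟩ 1) (Pi.single ⟨0, by omega⟩ 1)
          rw [hl, Matrix.smul_mulVec, Matrix.one_mulVec, Cfsg.Agent.Lib.HermForm.hf_smul_left, Cfsg.Agent.Lib.HermForm.hf_smul_right hF, Cfsg.Agent.Lib.HermForm.hf_single_left] at h1
          simp [zero_pow (show q ≠ 0 by omega)] at h1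
          rw [pow_succ']
          exact h1
        have hl0 : l ≠ 0 := by
          intro h0
          rw [h0, zero_pow (by omega)] at hnorm
          exact zero_ne_one hnorm
        let lu : NN := ⟨Units.mk0 l hl0, Cfsg.Agent.Lib.SUBasic.mem_NN.2 hnorm⟩
        refine ⟨lu, ?_⟩
        apply Subtype.ext
        apply Units.ext
        show l ^ n = (g.1 : Matrix (Fin n) (Fin n) F).det
        rw [hl, Matrix.det_smul, Matrix.det_one, mul_one, Fintype.card_fin]

end Cfsg.Agent.S0783
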