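import Cfsg.Statements.S0784
import Cfsg.Agent.Lib.QuadForm

set_option autoImplicit false
open Cfsg

namespace Cfsg.Agent.S0784

theorem result {F : Type*} [Field F] {n : ℕ} (Q : QuadraticForm F (Fin n → F)) (v : Fin n → F) (hv : Q v ≠ 0) : (∀ x, Q ((Cfsg.reflectionMatrix ⇑Q v).mulVec x) = Q x) ∧ (Cfsg.reflectionMatrix ⇑Q v).mulVec v = -v ∧ (∀ x, QuadraticMap.polar ⇑Q v x = 0 → (Cfsg.reflectionMatrix ⇑Q v).mulVec x = x) ∧ (Cfsg.reflectionMatrix ⇑Q v).det = -1 := by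
  refine ⟨Lib.QuadForm.reflection_preserves Q v hv, Lib.QuadForm.reflection_self Q v hv, ?_, Lib.QuadForm.reflection_det Q v hv⟩
  intro x hx
  rw [Lib.QuadForm.reflection_mulVec, hx]
  simp

end Cfsg.Agent.S0784
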