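import Cfsg.Statements.S0785
import Cfsg.Agent.Lib.QuadForm

set_option autoImplicit false
open Cfsg

namespace Cfsg.Agent.S0785

open Matrix

/-- det(I) = {±1}: for a quadratic form on F^n whose polar form is non-degenerate, every element of the isometry group has determinant 1 or −1, and as soon as Q takes a non-zero value some isometry has determinant −1. -/
theorem result {F : Type*} [Field F] {n : ℕ} (Q : QuadraticForm F (Fin n → F)) (hQ : (QuadraticMap.polarBilin Q).Nondegenerate) : (∀ g : ↥(Cfsg.isometryGroup F ⇑Q), ((g : Matrix.GeneralLinearGroup (Fin n) F) : Matrix (Fin n) (Fin n) F).det = 1 ∨ ((g : Matrix.GeneralLinearGroup (Fin n) F) : Matrix (Fin n) (Fin n) F).det = -1) ∧ ((∃ v, Q v ≠ 0) → ∃ g : ↥(Cfsg.isometryGroup F ⇑Q), ((g : Matrix.GeneralLinearGroup (Fin n) F) : Matrix (Fin n) (Fin n) F).det = -1) := by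
  constructor
  · intro g
    set A : Matrix (Fin n) (Fin n) F := ((g : Matrix.GeneralLinearGroup (Fin n) F) : Matrix (Fin n) (Fin n) F) with hA
    have hg : ∀ u : Fin n → F, Q (A *ᵥ u) = Q u := fun u => g.2 u 0
    let B : LinearMap.BilinForm F (Fin n → F) := QuadraticMap.polarBilin Q
    have hB : B.comp (Matrix.toLin' A) (Matrix.toLin' A) = B := by
      ext i j
      simp only [LinearMap.BilinForm.comp_apply, Matrix.toLin'_apply, B, QuadraticMap.polarBilin_apply_apply, LinearMap.comp_apply, LinearMap.single_apply]
      simp only [QuadraticMap.polar]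
      rw [← Matrix.mulVec_add, hg, hg, hg]
    have hdet : (LinearMap.BilinForm.toMatrix' B).det ≠ 0 := by
      rw [← Matrix.nondegenerate_iff_det_ne_zero, LinearMap.BilinForm.nondegenerate_toMatrix'_iff]
      exact hQ
    have h2 := congrArg (fun M => (LinearMap.BilinForm.toMatrix' M).det) hB
    simp only [LinearMap.BilinForm.toMatrix'_comp, LinearMap.toMatrix'_toLin', Matrix.det_mul, Matrix.det_transpose] at h2
    have h3 : A.det * A.det = 1 := by
      have : (A.det * A.det - 1) * (LinearMap.BilinForm.toMatrix' B).det = 0 := by linear_combination h2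
      rcases mul_eq_zero.mp this with h | h
      · exact sub_eq_zero.mp h
      · exact absurd h hdet
    have h4 : (A.det - 1) * (A.det + 1) = 0 := by linear_combination h3
    rcases mul_eq_zero.mp h4 with h | h
    · left; exact sub_eq_zero.mp h
    · right; exact eq_neg_of_add_eq_zero_left h
  · rintro ⟨v, hv⟩
    have hdet := Lib.QuadForm.reflection_det Q v hv
    have hne : (Cfsg.reflectionMatrix ⇑Q v).det ≠ 0 := by
      rw [hdet]; exact neg_ne_zero.mpr one_ne_zero
    refine ⟨⟨Matrix.GeneralLinearGroup.mkOfDetNeZero _ hne, ?_⟩, hdet⟩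
    intro u _
    exact Lib.QuadForm.reflection_preserves Q v hv u

end Cfsg.Agent.S0785
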