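import Cfsg.Statements.S0786
import Cfsg.Agent.Lib.OrthRefl

set_option autoImplicit false
open Cfsg

namespace Cfsg.Agent.S0786

open Cfsg.Agent.Lib.OrthE Cfsg.Agent.Lib.OrthBridge Cfsg.Agent.Lib.OrthGen Cfsg.Agent.Lib.OrthRefl

/-- Generation by reflections: if F is finite, Q is a quadratic form on F^n with non-degenerate polar form, and (|F|, n) ≠ (2, 4), then the isometry group of Q is generated by the reflections r_v, Q(v) ≠ 0. -/
theorem result {F : Type*} [Field F] [Fintype F] {n : ℕ} (Q : QuadraticForm F (Fin n → F)) (hQ : (QuadraticMap.polarBilin Q).Nondegenerate) (h : Fintype.card F ≠ 2 ∨ n ≠ 4) : Subgroup.closure {g : ↥(Cfsg.isometryGroup F ⇑Q) | ∃ v : Fin n → F, Q v ≠ 0 ∧ ((g : Matrix.GeneralLinearGroup (Fin n) F) : Matrix (Fin n) (Fin n) F) = Cfsg.reflectionMatrix ⇑Q v} = ⊤ := by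
  have hN := nondeg_of_form Q hQ
  rw [eq_top_iff]
  intro g _
  set T := Subgroup.closure {g : ↥(Cfsg.isometryGroup F ⇑Q) | ∃ v : Fin n → F, Q v ≠ 0 ∧ ((g : Matrix.GeneralLinearGroup (Fin n) F) : Matrix (Fin n) (Fin n) F) = Cfsg.reflectionMatrix ⇑Q v} with hT
  have h1 : Subgroup.closure (Refl (⇑Q)) ≤ T.map (Cfsg.isometryGroup F ⇑Q).subtype := by
    rw [Subgroup.closure_le]
    rintro _ ⟨v, hv, rfl⟩
    exact ⟨⟨R (⇑Q) v, R_mem_O hN hv⟩, Subgroup.subset_closure ⟨v, hv, (reflectionMatrix_eq hN hv).symm⟩, rfl⟩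
  have h2 := O_le_refl hN (by simpa using h) g.2
  obtain ⟨g', hg', hgg⟩ := h1 h2
  have : g' = g := Subtype.ext hgg
  rwa [this] at hg'

end Cfsg.Agent.S0786
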