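import Cfsg.Statements.S0792
import Cfsg.Agent.Lib.OrthRefl

set_option autoImplicit false
open Cfsg

namespace Cfsg.Agent.S0792

open Cfsg.Agent.Lib.OrthE Cfsg.Agent.Lib.OrthBridge Cfsg.Agent.Lib.OrthGen Cfsg.Agent.Lib.OrthRefl

/-- For q odd and Q with non-degenerate polar form on F^n, the determinant-one isometries form the subgroup generated by all products r_u r_v of two reflections (Q(u), Q(v) ≠ 0). -/
theorem result {F : Type*} [Field F] [Fintype F] (h2 : (2 : F) ≠ 0) {n : ℕ} (Q : QuadraticForm F (Fin n → F)) (hQ : (QuadraticMap.polarBilin Q).Nondegenerate) : Cfsg.specialIsometryGroup F ⇑Q = Subgroup.closure {g : ↥(Cfsg.isometryGroup F ⇑Q) | ∃ u v : Fin n → F, Q u ≠ 0 ∧ Q v ≠ 0 ∧ ((g : Matrix.GeneralLinearGroup (Fin n) F) : Matrix (Fin n) (Fin n) F) = Cfsg.reflectionMatrix ⇑Q u * Cfsg.reflectionMatrix ⇑Q v} := by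
  have hN := nondeg_of_form Q hQ
  have hne : (-1 : F) ≠ 1 := by
    intro h
    apply h2
    linear_combination -h
  have hcF : Fintype.card F ≠ 2 := by
    intro hc
    have := FiniteField.cast_card_eq_zero F
    rw [hc] at this
    exact h2 (by exact_mod_cast this)
  set K := Subgroup.closure {g : ↥(Cfsg.isometryGroup F ⇑Q) | ∃ u v : Fin n → F, Q u ≠ 0 ∧ Q v ≠ 0 ∧ ((g : Matrix.GeneralLinearGroup (Fin n) F) : Matrix (Fin n) (Fin n) F) = Cfsg.reflectionMatrix ⇑Q u * Cfsg.reflectionMatrix ⇑Q v} with hK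
  have hdetR : ∀ {v : Fin n → F}, Q v ≠ 0 → ((R (⇑Q) v : Matrix.GeneralLinearGroup (Fin n) F) : Matrix (Fin n) (Fin n) F).det = -1 := by
    intro v hv
    rw [det_R hN hv]
    ring
  have hRR : ∀ {u v : Fin n → F}, Q u ≠ 0 → Q v ≠ 0 → R (⇑Q) u * R (⇑Q) v ∈ K.map (Cfsg.isometryGroup F ⇑Q).subtype := by
    intro u v hu hv
    refine ⟨⟨R (⇑Q) u * R (⇑Q) v, Subgroup.mul_mem _ (R_mem_O hN hu) (R_mem_O hN hv)⟩,
      Subgroup.subset_closure ⟨u, v, hu, hv, ?_⟩, rfl⟩
    rw [reflectionMatrix_eq hN hu, reflectionMatrix_eq hN hv]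
    rfl
  apply le_antisymm
  · -- parity argument
    intro g hg
    have hdet1 : ((g : Matrix.GeneralLinearGroup (Fin n) F) : Matrix (Fin n) (Fin n) F).det = 1 := by
      have : Matrix.GeneralLinearGroup.det (g : Matrix.GeneralLinearGroup (Fin n) F) = 1 := hg
      have h3 := congrArg Units.val this
      simpa using h3
    have hmem := O_le_refl hN (Or.inl hcF) g.2
    have key : ∀ x ∈ Subgroup.closure (Refl (⇑Q)),
        (((x : Matrix.GeneralLinearGroup (Fin n) F) : Matrix (Fin n) (Fin n) F).det = 1 ∧ x ∈ K.map (Cfsg.isometryGroup F ⇑Q).subtype) ∨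
        (((x : Matrix.GeneralLinearGroup (Fin n) F) : Matrix (Fin n) (Fin n) F).det = -1 ∧
          ∀ v, Q v ≠ 0 → x * R (⇑Q) v ∈ K.map (Cfsg.isometryGroup F ⇑Q).subtype) := by
      intro x hx
      induction hx using Subgroup.closure_induction_right with
      | one =>
        left
        exact ⟨by simp, Subgroup.one_mem _⟩
      | mul_right x hx y hy ih =>
        obtain ⟨v, hv, rfl⟩ := hy
        rcases ih with ⟨h1, h3⟩ | ⟨h1, h3⟩
        · right
          refine ⟨by rw [Units.val_mul, Matrix.det_mul, h1, hdetR hv, one_mul], fun w hw => ?_⟩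
          rw [mul_assoc]
          exact Subgroup.mul_mem _ h3 (hRR hv hw)
        · left
          refine ⟨by rw [Units.val_mul, Matrix.det_mul, h1, hdetR hv]; ring, h3 v hv⟩
      | mul_inv_cancel x hx y hy ih =>
        obtain ⟨v, hv, rfl⟩ := hy
        rw [R_inv hN hv]
        rcases ih with ⟨h1, h3⟩ | ⟨h1, h3⟩
        · right
          refine ⟨by rw [Units.val_mul, Matrix.det_mul, h1, hdetR hv, one_mul], fun w hw => ?_⟩
          rw [mul_assoc]
          exact Subgroup.mul_mem _ h3 (hRR hv hw)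
        · left
          refine ⟨by rw [Units.val_mul, Matrix.det_mul, h1, hdetR hv]; ring, h3 v hv⟩
    rcases key _ hmem with ⟨_, h3⟩ | ⟨h1, _⟩
    · obtain ⟨g', hg', hgg⟩ := h3
      have : g' = g := Subtype.ext hgg
      rwa [this] at hg'
    · rw [hdet1] at h1
      exact absurd h1.symm hne
  · rw [Subgroup.closure_le]
    rintro g ⟨u, v, hu, hv, hg⟩
    show Matrix.GeneralLinearGroup.det (g : Matrix.GeneralLinearGroup (Fin n) F) = 1
    apply Units.ext
    simp only [Matrix.GeneralLinearGroup.val_det_apply, Units.val_one]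
    rw [hg, reflectionMatrix_eq hN hu, reflectionMatrix_eq hN hv, Matrix.det_mul, hdetR hu, hdetR hv]
    ring

end Cfsg.Agent.S0792
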