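import Cfsg.Statements.S0787
import Cfsg.Agent.S0792
import Cfsg.Agent.Lib.OrthSpin3

set_option autoImplicit false
open Cfsg

namespace Cfsg.Agent.S0787

open Matrix Cfsg.Geo Cfsg.Agent.Lib.OrthE Cfsg.Agent.Lib.OrthBridge Cfsg.Agent.Lib.OrthGen
  Cfsg.Agent.Lib.OrthRefl Cfsg.Agent.Lib.OrthSpin Cfsg.Agent.Lib.OrthSpin2
  Cfsg.Agent.Lib.OrthSpin3 Cfsg.Agent.Lib.AbInvol Cfsg.Agent.Lib.OrthDick

section Even

variable {G G' : Type*} [Group G] [Group G']

theorem unique_transfer (e : G ≃* G') (h : ∃! H : Subgroup G', H.index = 2) :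
    ∃! H : Subgroup G, H.index = 2 := by
  obtain ⟨K, hK, huq⟩ := h
  refine ⟨K.comap e.toMonoidHom, ?_, ?_⟩
  · show (K.comap e.toMonoidHom).index = 2
    rw [Subgroup.index_comap_of_surjective _ e.surjective, hK]
  · intro K' hK'
    have h1 : (K'.comap e.symm.toMonoidHom).index = 2 := by
      rw [Subgroup.index_comap_of_surjective _ e.symm.surjective, hK']
    have h3 := huq _ h1
    rw [← h3]
    ext x
    simp

end Even

section Main

variable {F : Type*} [Field F] [Fintype F] {n : ℕ}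

local notation "GG" => Matrix.GeneralLinearGroup (Fin n) F

variable {Q : (Fin n → F) → F}

local notation "B" => QuadraticMap.polar Q

theorem det_R' (hQ : IsNondegenerateQuadraticForm Q) {v : Fin n → F} (hv : Q v ≠ 0) :
    ((R Q v : GG) : Matrix (Fin n) (Fin n) F).det = -1 := by
  rw [det_R hQ hv]
  ring

/-- A product of two reflections, as an element of the special orthogonal group. -/
noncomputable def pr (hQ : IsNondegenerateQuadraticForm Q) {u v : Fin n → F} (hu : Q u ≠ 0) (hv : Q v ≠ 0) :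
    ↥(Cfsg.specialIsometryGroup F Q) :=
  ⟨rfl' hQ hu * rfl' hQ hv, by
    show Matrix.GeneralLinearGroup.det ((R Q u * R Q v : GG)) = 1
    apply Units.ext
    simp only [Matrix.GeneralLinearGroup.val_det_apply, Units.val_one, Units.val_mul, Matrix.det_mul]
    rw [det_R' hQ hu, det_R' hQ hv]
    ring⟩

theorem pr_mul (hQ : IsNondegenerateQuadraticForm Q) {u v w : Fin n → F} (hu : Q u ≠ 0) (hv : Q v ≠ 0)
    (hw : Q w ≠ 0) : pr hQ hu hv * pr hQ hv hw = pr hQ hu hw := by
  apply Subtype.ext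
  apply Subtype.ext
  show R Q u * R Q v * (R Q v * R Q w) = R Q u * R Q w
  rw [mul_assoc, ← mul_assoc (R Q v), R_mul_self hQ hv, one_mul]

theorem pr_self (hQ : IsNondegenerateQuadraticForm Q) {u : Fin n → F} (hu : Q u ≠ 0) :
    pr hQ hu hu = 1 := by
  apply Subtype.ext
  apply Subtype.ext
  exact R_mul_self hQ hu

/-- Products of reflections in vectors of the same norm are squares. -/
theorem pr_square_eq (hQ : IsNondegenerateQuadraticForm Q) (h2 : (2 : F) ≠ 0) {u v : Fin n → F}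
    (hu : Q u ≠ 0) (hv : Q v ≠ 0) (h : Q u = Q v) : ∃ σ, σ * σ = pr hQ hu hv := by
  have hsum : Q (u - v) + Q (u + v) = 4 * Q u := by
    rw [Q_sub hQ, Q_add hQ, ← h]
    ring
  have h4 : (4 : F) ≠ 0 := by
    have : (4 : F) = 2 * 2 := by norm_num
    rw [this]
    exact mul_ne_zero h2 h2
  by_cases hm : Q (u - v) = 0
  · -- use `u + v`
    have hp : Q (u + v) ≠ 0 := by
      intro h0
      rw [hm, h0, add_zero] at hsum
      exact (mul_ne_zero h4 hu) hsum.symm
    have hO := R_mem_O hQ hp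
    have hconj := conj_R hQ hO hu
    have hru : ((R Q (u + v) : GG) : Matrix (Fin n) (Fin n) F) *ᵥ u = (-1 : F) • v := by
      rw [R_mulVec hQ hp]
      have h5 : (Q (u + v))⁻¹ * B u (u + v) = 1 := by
        have : B u (u + v) = Q (u + v) := by
          rw [B_add_right hQ, B_self hQ, Q_add hQ, ← h]
          ring
        rw [this, inv_mul_cancel₀ hp]
      rw [h5]
      module
    rw [hru, R_smul hQ (by simp) hv, R_inv hQ hp] at hconj
    refine ⟨pr hQ hu hp, ?_⟩
    apply Subtype.ext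
    apply Subtype.ext
    show R Q u * R Q (u + v) * (R Q u * R Q (u + v)) = R Q u * R Q v
    rw [← hconj]
    simp only [mul_assoc]
  · have hO := R_mem_O hQ hm
    have hconj := conj_R hQ hO hu
    have hru : ((R Q (u - v) : GG) : Matrix (Fin n) (Fin n) F) *ᵥ u = v := by
      rw [R_mulVec hQ hm]
      have h5 : (Q (u - v))⁻¹ * B u (u - v) = 1 := by
        have : B u (u - v) = Q (u - v) := by
          rw [B_sub_right hQ, B_self hQ, Q_sub hQ, ← h]
          ring
        rw [this, inv_mul_cancel₀ hm]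
      rw [h5]
      module
    rw [hru, R_inv hQ hm] at hconj
    refine ⟨pr hQ hu hm, ?_⟩
    apply Subtype.ext
    apply Subtype.ext
    show R Q u * R Q (u - v) * (R Q u * R Q (u - v)) = R Q u * R Q v
    rw [← hconj]
    simp only [mul_assoc]

theorem same_class (h2 : (2 : F) ≠ 0) {a b : F} (ha : a ≠ 0) (hb : b ≠ 0) (h : IsSquare a ↔ IsSquare b) :
    ∃ t : F, t ≠ 0 ∧ b = t ^ 2 * a := by
  classical
  have hsq : IsSquare (a * b) := by
    by_cases hs : IsSquare a
    · exact hs.mul (h.mp hs)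
    · have h1 : quadraticChar F a = -1 := quadraticChar_neg_one_iff_not_isSquare.mpr hs
      have h3 : quadraticChar F b = -1 := quadraticChar_neg_one_iff_not_isSquare.mpr (fun h4 => hs (h.mpr h4))
      have h4 : quadraticChar F (a * b) = 1 := by
        rw [map_mul, h1, h3]
        norm_num
      exact (quadraticChar_one_iff_isSquare (mul_ne_zero ha hb)).mp h4
  obtain ⟨r, hr⟩ := hsq
  have hr0 : r ≠ 0 := by
    rintro rfl
    rw [mul_zero] at hr
    exact (mul_ne_zero ha hb) hr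
  refine ⟨r * a⁻¹, mul_ne_zero hr0 (inv_ne_zero ha), ?_⟩
  field_simp
  linear_combination hr

theorem pr_same (hQ : IsNondegenerateQuadraticForm Q) (h2 : (2 : F) ≠ 0) {u v : Fin n → F}
    (hu : Q u ≠ 0) (hv : Q v ≠ 0) (h : IsSquare (Q u) ↔ IsSquare (Q v)) (χ : ↥(Cfsg.specialIsometryGroup F Q) →* ℤˣ) :
    χ (pr hQ hu hv) = 1 := by
  obtain ⟨t, ht, htv⟩ := same_class h2 hu hv h
  have h1 : Q (t • u) = Q v := by rw [Q_smul hQ, htv]
  have h3 : Q (t • u) ≠ 0 := by rw [h1]; exact hv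
  have h4 : Q u = Q (t⁻¹ • v) := by
    rw [Q_smul hQ, htv]
    field_simp
  have h5 : Q (t⁻¹ • v) ≠ 0 := by rw [← h4]; exact hu
  obtain ⟨σ, hσ⟩ := pr_square_eq hQ h2 hu h5 h4
  have h6 : pr hQ hu h5 = pr hQ hu hv := by
    apply Subtype.ext
    apply Subtype.ext
    show R Q u * R Q (t⁻¹ • v) = R Q u * R Q v
    rw [R_smul hQ (inv_ne_zero ht) hv]
  rw [← h6, ← hσ, map_mul]
  exact Int.units_mul_self _

/-- Two characters agreeing on products of two reflections agree. -/
theorem char_ext (Q' : QuadraticForm F (Fin n → F)) (hQ' : (QuadraticMap.polarBilin Q').Nondegenerate)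
    (h2 : (2 : F) ≠ 0) (hQ : IsNondegenerateQuadraticForm (⇑Q'))
    (χ χ' : ↥(Cfsg.specialIsometryGroup F (⇑Q')) →* ℤˣ)
    (h : ∀ (u v : Fin n → F) (hu : Q' u ≠ 0) (hv : Q' v ≠ 0), χ (pr hQ hu hv) = χ' (pr hQ hu hv)) : χ = χ' := by
  have hcl := Cfsg.Agent.S0792.result h2 Q' hQ'
  ext x
  have key : ∀ y (hy : y ∈ Cfsg.specialIsometryGroup F (⇑Q')), χ ⟨y, hy⟩ = χ' ⟨y, hy⟩ := by
    intro y hy
    have hy' := hy
    rw [hcl] at hy'
    induction hy' using Subgroup.closure_induction with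
    | mem y hy2 =>
      obtain ⟨u, v, hu, hv, hm⟩ := hy2
      have hy3 : y = rfl' hQ hu * rfl' hQ hv := by
        apply Subtype.ext
        apply Units.ext
        rw [hm, reflectionMatrix_eq hQ hu, reflectionMatrix_eq hQ hv]
        rfl
      subst hy3
      exact h u v hu hv
    | one => exact (map_one χ).trans (map_one χ').symm
    | mul y z hy1 hz1 ihy ihz =>
      have hy2 : y ∈ Cfsg.specialIsometryGroup F (⇑Q') := by rw [hcl]; exact hy1
      have hz2 : z ∈ Cfsg.specialIsometryGroup F (⇑Q') := by rw [hcl]; exact hz1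
      have e1 : (⟨y * z, hy⟩ : ↥(Cfsg.specialIsometryGroup F (⇑Q'))) = ⟨y, hy2⟩ * ⟨z, hz2⟩ := rfl
      rw [e1, map_mul, map_mul, ihy hy2, ihz hz2]
    | inv y hy1 ihy =>
      have hy2 : y ∈ Cfsg.specialIsometryGroup F (⇑Q') := by rw [hcl]; exact hy1
      have e1 : (⟨y⁻¹, hy⟩ : ↥(Cfsg.specialIsometryGroup F (⇑Q'))) = (⟨y, hy2⟩)⁻¹ := rfl
      rw [e1, map_inv, map_inv, ihy hy2]
  have := key x.1 x.2
  rw [Units.ext_iff] at this
  exact this

theorem odd_case (Q' : QuadraticForm F (Fin n → F)) (hQ' : (QuadraticMap.polarBilin Q').Nondegenerate)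
    (hn : 2 ≤ n) (h2 : (2 : F) ≠ 0) :
    ∃! H : Subgroup ↥(Cfsg.specialIsometryGroup F (⇑Q')), H.index = 2 := by
  have hQ := nondeg_of_form Q' hQ'
  have hcard : 2 ≤ Fintype.card (Fin n) := by simpa using hn
  obtain ⟨ν, hν⟩ := FiniteField.exists_nonsquare (ringChar_ne_two h2)
  have hν0 := ne_zero_of_not_sq hν
  obtain ⟨u₀, hu₀⟩ := exists_value h2 hQ hcard 1 one_ne_zero
  obtain ⟨v₀, hv₀⟩ := exists_value h2 hQ hcard ν hν0
  have hu₀' : Q' u₀ ≠ 0 := by rw [hu₀]; exact one_ne_zero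
  have hv₀' : Q' v₀ ≠ 0 := by rw [hv₀]; exact hν0
  have hus : IsSquare (Q' u₀) := by rw [hu₀]; exact IsSquare.one
  have hvs : ¬ IsSquare (Q' v₀) := by rw [hv₀]; exact hν
  -- the reference character
  let χ₀ : ↥(Cfsg.specialIsometryGroup F (⇑Q')) →* ℤˣ :=
    (theta 1).comp (Cfsg.specialIsometryGroup F (⇑Q')).subtype
  have hχ₀ : ∀ (u v : Fin n → F) (hu : Q' u ≠ 0) (hv : Q' v ≠ 0), χ₀ (pr hQ hu hv) =
      (theta 1 (rfl' hQ hu)) * (theta 1 (rfl' hQ hv)) := by
    intro u v hu hv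
    show theta 1 (rfl' hQ hu * rfl' hQ hv) = _
    rw [map_mul]
  have hχ₀m : χ₀ (pr hQ hu₀' hv₀') = -1 := by
    rw [hχ₀, theta_one_sq h2 hQ hu₀' hus, theta_one_ns h2 hQ hv₀' hvs]
    rfl
  refine ⟨χ₀.ker, index_ker_two χ₀ hχ₀m, ?_⟩
  intro H hH
  obtain ⟨χ, hχ⟩ := char_of_index_two H hH
  -- the value on the reference pair
  have hmixed : ∀ (u v : Fin n → F) (hu : Q' u ≠ 0) (hv : Q' v ≠ 0), ¬ (IsSquare (Q' u) ↔ IsSquare (Q' v)) →
      χ (pr hQ hu hv) = χ (pr hQ hu₀' hv₀') := by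
    intro u v hu hv hne
    by_cases hs : IsSquare (Q' u)
    · have hs' : ¬ IsSquare (Q' v) := fun h => hne ⟨fun _ => h, fun _ => hs⟩
      have e : pr hQ hu hv = pr hQ hu hu₀' * (pr hQ hu₀' hv₀' * pr hQ hv₀' hv) := by
        rw [pr_mul hQ, pr_mul hQ]
      rw [e, map_mul, map_mul, pr_same hQ h2 hu hu₀' ⟨fun _ => hus, fun _ => hs⟩,
        pr_same hQ h2 hv₀' hv ⟨fun h => absurd h hvs, fun h => absurd h hs'⟩, one_mul, mul_one]
    · have hs' : IsSquare (Q' v) := by
        by_contra h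
        exact hne ⟨fun h' => absurd h' hs, fun h' => absurd h' h⟩
      have e : pr hQ hu hv = pr hQ hu hv₀' * (pr hQ hv₀' hu₀' * pr hQ hu₀' hv) := by
        rw [pr_mul hQ, pr_mul hQ]
      have e2 : pr hQ hv₀' hu₀' * pr hQ hu₀' hv₀' = 1 := by
        rw [pr_mul hQ, pr_self hQ]
      have e3 : χ (pr hQ hv₀' hu₀') = χ (pr hQ hu₀' hv₀') := by
        have h5 := congrArg χ e2
        rw [map_mul, map_one] at h5
        rcases Int.units_eq_one_or (χ (pr hQ hv₀' hu₀')) with h6 | h6 <;>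
          rcases Int.units_eq_one_or (χ (pr hQ hu₀' hv₀')) with h7 | h7 <;>
          rw [h6, h7] at h5 ⊢ <;> first | rfl | exact absurd h5 (by decide)
      rw [e, map_mul, map_mul, e3, pr_same hQ h2 hu hv₀' ⟨fun h => absurd h hs, fun h => absurd h hvs⟩,
        pr_same hQ h2 hu₀' hv ⟨fun _ => hs', fun _ => hus⟩, one_mul, mul_one]
  have hε : χ (pr hQ hu₀' hv₀') = -1 := by
    rcases Int.units_eq_one_or (χ (pr hQ hu₀' hv₀')) with h6 | h6
    · exfalso
      have htriv : χ = 1 := by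
        apply char_ext Q' hQ' h2 hQ
        intro u v hu hv
        rw [MonoidHom.one_apply]
        by_cases hc : IsSquare (Q' u) ↔ IsSquare (Q' v)
        · exact pr_same hQ h2 hu hv hc χ
        · rw [hmixed u v hu hv hc, h6]
      have htop : H = ⊤ := by
        rw [eq_top_iff]
        intro x _
        rw [← (hχ x).1, htriv, MonoidHom.one_apply]
      rw [htop, Subgroup.index_top] at hH
      omega
    · exact h6
  have heq : χ = χ₀ := by
    apply char_ext Q' hQ' h2 hQ
    intro u v hu hv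
    rw [hχ₀]
    by_cases hc : IsSquare (Q' u) ↔ IsSquare (Q' v)
    · rw [pr_same hQ h2 hu hv hc χ]
      by_cases hs : IsSquare (Q' u)
      · rw [theta_one_sq h2 hQ hu hs, theta_one_sq h2 hQ hv (hc.mp hs)]
        rfl
      · rw [theta_one_ns h2 hQ hu hs, theta_one_ns h2 hQ hv (fun h => hs (hc.mpr h))]
        rfl
    · rw [hmixed u v hu hv hc, hε]
      by_cases hs : IsSquare (Q' u)
      · have hs' : ¬ IsSquare (Q' v) := fun h => hc ⟨fun _ => h, fun _ => hs⟩
        rw [theta_one_sq h2 hQ hu hs, theta_one_ns h2 hQ hv hs']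
        rfl
      · have hs' : IsSquare (Q' v) := by
          by_contra h
          exact hc ⟨fun h' => absurd h' hs, fun h' => absurd h' h⟩
        rw [theta_one_ns h2 hQ hu hs, theta_one_sq h2 hQ hv hs']
        rfl
  apply eq_ker_of_char
  intro x
  rw [← (hχ x).1, heq]

theorem even_case (Q' : QuadraticForm F (Fin n → F)) (hQ' : (QuadraticMap.polarBilin Q').Nondegenerate)
    (hn : 2 ≤ n) (h2 : (2 : F) = 0) (h : Fintype.card F ≠ 2 ∨ n ≠ 4) :
    ∃! H : Subgroup ↥(Cfsg.specialIsometryGroup F (⇑Q')), H.index = 2 := by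
  have hQ := nondeg_of_form Q' hQ'
  haveI : CharP F 2 := CharTwo.of_one_ne_zero_of_two_eq_zero one_ne_zero h2
  have hcard : 1 ≤ Fintype.card (Fin n) := by simp; omega
  have hh : Fintype.card F ≠ 2 ∨ Fintype.card (Fin n) ≠ 4 := by simpa using h
  -- every isometry has determinant one
  have hdet : ∀ g : ↥(isometryGroup F (⇑Q')), g ∈ Cfsg.specialIsometryGroup F (⇑Q') := by
    intro g
    have hg := O_le_refl hQ hh g.2
    have hall : ∀ x ∈ Subgroup.closure (Refl (⇑Q')), Matrix.GeneralLinearGroup.det x = 1 := by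
      intro x hx
      induction hx using Subgroup.closure_induction with
      | mem x hx =>
        obtain ⟨v, hv, rfl⟩ := hx
        apply Units.ext
        simp only [Matrix.GeneralLinearGroup.val_det_apply, Units.val_one]
        rw [det_R hQ hv, h2, sub_zero]
      | one => simp
      | mul x y _ _ hx hy => rw [map_mul, hx, hy, one_mul]
      | inv x _ hx => rw [map_inv, hx, inv_one]
    exact hall _ hg
  let e : ↥(Cfsg.specialIsometryGroup F (⇑Q')) ≃* ↥(isometryGroup F (⇑Q')) :=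
    MulEquiv.ofBijective (Cfsg.specialIsometryGroup F (⇑Q')).subtype
      ⟨Subtype.val_injective, fun g => ⟨⟨g, hdet g⟩, rfl⟩⟩
  apply unique_transfer e
  have hm := even_main hQ hcard hh
  refine ⟨(dickHom hQ hh).ker, ?_, hm.2⟩
  obtain ⟨v, hv⟩ := exists_nonsingular hQ hcard
  exact index_ker_two _ (dickHom_R hQ hh hv)

end Main

/-- Existence and uniqueness of Ω: if F is finite, n ≥ 2, Q is a quadratic form on F^n with non-degenerate polar form and (|F|, n) ≠ (2, 4), then the group of isometries of determinant one has a unique subgroup of index 2. -/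
theorem result {F : Type*} [Field F] [Fintype F] {n : ℕ} (hn : 2 ≤ n) (Q : QuadraticForm F (Fin n → F)) (hQ : (QuadraticMap.polarBilin Q).Nondegenerate) (h : Fintype.card F ≠ 2 ∨ n ≠ 4) : ∃! H : Subgroup ↥(Cfsg.specialIsometryGroup F ⇑Q), H.index = 2 := by
  by_cases h2 : (2 : F) = 0
  · exact even_case Q hQ hn h2 h
  · exact odd_case Q hQ hn h2

end Cfsg.Agent.S0787
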