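import Cfsg.Statements.S0793
import Cfsg.Agent.Lib.QuadForm

set_option autoImplicit false
open Cfsg

namespace Cfsg.Agent.S0793

open Matrix

variable {F : Type*} [Field F] {n : ℕ}

theorem siegel_mulVec (Q : QuadraticForm F (Fin n → F)) (u v x : Fin n → F) (c : F) :
    (Cfsg.siegelMatrix ⇑Q u v c) *ᵥ x = x + (c * QuadraticMap.polar ⇑Q u x) • v - (c * QuadraticMap.polar ⇑Q v x) • u := by
  unfold Cfsg.siegelMatrix
  rw [Matrix.add_mulVec, Matrix.one_mulVec, Matrix.smul_mulVec, Matrix.sub_mulVec,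
    Lib.QuadForm.vecMulVec_polarVec_mulVec, Lib.QuadForm.vecMulVec_polarVec_mulVec, smul_sub, smul_smul, smul_smul]
  abel

/-- Root elements: if Q(u) = Q(v) = 0 and f(u, v) = 0 (f the polar form), then for every c the Siegel matrix T_(u,v)(c) preserves Q, fixes u and v, and T(c) T(d) = T(c + d). -/
theorem result {F : Type*} [Field F] {n : ℕ} (Q : QuadraticForm F (Fin n → F)) (u v : Fin n → F) (hu : Q u = 0) (hv : Q v = 0) (huv : QuadraticMap.polar ⇑Q u v = 0) : (∀ c x, Q ((Cfsg.siegelMatrix ⇑Q u v c).mulVec x) = Q x) ∧ (∀ c, (Cfsg.siegelMatrix ⇑Q u v c).mulVec u = u ∧ (Cfsg.siegelMatrix ⇑Q u v c).mulVec v = v) ∧ ∀ c d, Cfsg.siegelMatrix ⇑Q u v c * Cfsg.siegelMatrix ⇑Q u v d = Cfsg.siegelMatrix ⇑Q u v (c + d) := by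
  have huu : QuadraticMap.polar ⇑Q u u = 0 := by rw [Lib.QuadForm.polar_self', hu, mul_zero]
  have hvv : QuadraticMap.polar ⇑Q v v = 0 := by rw [Lib.QuadForm.polar_self', hv, mul_zero]
  have hvu : QuadraticMap.polar ⇑Q v u = 0 := by rw [QuadraticMap.polar_comm, huv]
  refine ⟨?_, ?_, ?_⟩
  · intro c x
    rw [siegel_mulVec, sub_eq_add_neg, QuadraticMap.map_add (⇑Q), QuadraticMap.map_add (⇑Q), ← neg_smul, QuadraticMap.map_smul, QuadraticMap.map_smul, hu, hv]
    simp only [QuadraticMap.polar_add_left, QuadraticMap.polar_smul_left, QuadraticMap.polar_smul_right, huv, hvu, smul_eq_mul, mul_zero, add_zero]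
    rw [QuadraticMap.polar_comm (⇑Q) x v, QuadraticMap.polar_comm (⇑Q) x u]
    ring
  · intro c
    constructor
    · rw [siegel_mulVec, huu, hvu]; simp
    · rw [siegel_mulVec, huv, hvv]; simp
  · intro c d
    unfold Cfsg.siegelMatrix
    set A : Matrix (Fin n) (Fin n) F := Matrix.vecMulVec v (Cfsg.polarVec ⇑Q u) - Matrix.vecMulVec u (Cfsg.polarVec ⇑Q v) with hA
    have hAA : A * A = 0 := by
      rw [hA, sub_mul, mul_sub, mul_sub, Matrix.vecMulVec_mul_vecMulVec, Matrix.vecMulVec_mul_vecMulVec, Matrix.vecMulVec_mul_vecMulVec, Matrix.vecMulVec_mul_vecMulVec,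
        Lib.QuadForm.polarVec_dot, Lib.QuadForm.polarVec_dot, Lib.QuadForm.polarVec_dot, Lib.QuadForm.polarVec_dot, huu, huv, hvu, hvv]
      simp
    simp only [mul_add, add_mul, one_mul, mul_one, Matrix.smul_mul, Matrix.mul_smul, hAA, smul_zero, add_smul, add_zero]
    abel

end Cfsg.Agent.S0793
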