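import Cfsg.Statements.S0794
import Cfsg.Agent.Lib.OrthBridge

set_option autoImplicit false
open Cfsg

namespace Cfsg.Agent.S0794

open Cfsg.Agent.Lib.OrthE Cfsg.Agent.Lib.OrthBridge
open scoped commutatorElement

/-- For q odd, n ≥ 5 and Q with non-degenerate polar form: an isometry whose matrix is a Siegel transformation T_(u,v)(c) (u, v singular and orthogonal) is a commutator in the isometry group, so lies in Ω. -/
theorem result {F : Type*} [Field F] [Fintype F] (h2 : (2 : F) ≠ 0) {n : ℕ} (hn : 5 ≤ n) (Q : QuadraticForm F (Fin n → F)) (hQ : (QuadraticMap.polarBilin Q).Nondegenerate) (u v : Fin n → F) (hu : Q u = 0) (hv : Q v = 0) (huv : QuadraticMap.polar ⇑Q u v = 0) (c : F) (g : ↥(Cfsg.isometryGroup F ⇑Q)) (hg : ((g : Matrix.GeneralLinearGroup (Fin n) F) : Matrix (Fin n) (Fin n) F) = Cfsg.siegelMatrix ⇑Q u v c) : g ∈ commutatorSet ↥(Cfsg.isometryGroup F ⇑Q) ∧ g ∈ Cfsg.Omega F ⇑Q := by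
  have hN := nondeg_of_form Q hQ
  have hG : (g : Matrix.GeneralLinearGroup (Fin n) F) = E (⇑Q) u (c • v) :=
    Units.ext (hg.trans (siegelMatrix_eq hN c hu hv huv))
  obtain ⟨h, t, hh, ht, heq⟩ := E_eq_comm hN h2 (a := u) (d := c • v) hu
    (by rw [Q_smul hN, hv, mul_zero]) (by rw [B_smul_right hN, huv, mul_zero])
  have h1 : g = ⁅(⟨h, hh⟩ : ↥(Cfsg.isometryGroup F ⇑Q)), (⟨t, ht⟩ : ↥(Cfsg.isometryGroup F ⇑Q))⁆ := by
    apply Subtype.ext
    rw [hG, heq]
    simp [commutatorElement_def]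
  refine ⟨⟨_, _, h1.symm⟩, ?_⟩
  rw [h1]
  exact Subgroup.commutator_mem_commutator (Subgroup.mem_top _) (Subgroup.mem_top _)

end Cfsg.Agent.S0794
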