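import Cfsg.Statements.S0795
import Cfsg.Agent.S0794
import Cfsg.Agent.Lib.OrthSimple
import Cfsg.Agent.Lib.OrthRefl

set_option autoImplicit false
open Cfsg

namespace Cfsg.Agent.S0795

open Cfsg.Geo Cfsg.Agent.Lib.OrthE Cfsg.Agent.Lib.OrthBridge Cfsg.Agent.Lib.OrthGen
  Cfsg.Agent.Lib.OrthOmega Cfsg.Agent.Lib.OrthSimple

/-- Generation of Ω by root elements: for q odd, n ≥ 5 and Q with non-degenerate polar form on F^n, the commutator subgroup of the isometry group equals the subgroup generated by the isometries whose matrices are Siegel transformations T_(u,v)(c) with u, v singular and orthogonal. -/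
theorem result {F : Type*} [Field F] [Fintype F] (h2 : (2 : F) ≠ 0) {n : ℕ} (hn : 5 ≤ n) (Q : QuadraticForm F (Fin n → F)) (hQ : (QuadraticMap.polarBilin Q).Nondegenerate) : Cfsg.Omega F ⇑Q = Subgroup.closure {g : ↥(Cfsg.isometryGroup F ⇑Q) | ∃ (u v : Fin n → F) (c : F), Q u = 0 ∧ Q v = 0 ∧ QuadraticMap.polar ⇑Q u v = 0 ∧ ((g : Matrix.GeneralLinearGroup (Fin n) F) : Matrix (Fin n) (Fin n) F) = Cfsg.siegelMatrix ⇑Q u v c} := by
  have hN := nondeg_of_form Q hQ
  have hcard : 5 ≤ Fintype.card (Fin n) := by simpa using hn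
  apply le_antisymm
  · -- Ω is inside
    set T := Subgroup.closure {g : ↥(Cfsg.isometryGroup F ⇑Q) | ∃ (u v : Fin n → F) (c : F), Q u = 0 ∧ Q v = 0 ∧ QuadraticMap.polar ⇑Q u v = 0 ∧ ((g : Matrix.GeneralLinearGroup (Fin n) F) : Matrix (Fin n) (Fin n) F) = Cfsg.siegelMatrix ⇑Q u v c} with hT
    have hstep : ∀ a d : Fin n → F, Q a = 0 → QuadraticMap.polar ⇑Q a d = 0 →
        E (⇑Q) a d ∈ T.map (Cfsg.isometryGroup F ⇑Q).subtype := by
      intro a d ha had
      have hd : d ∈ Submodule.span F {y | y ∈ perp hN (Submodule.span F {a}) ∧ Q y = 0} := by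
        apply span_sing hN hcard a
        rw [mem_perp]
        intro w hw
        obtain ⟨r, rfl⟩ := Submodule.mem_span_singleton.mp hw
        rw [B_smul_left hN, had, mul_zero]
      have hperp : ∀ y, y ∈ Submodule.span F {y | y ∈ perp hN (Submodule.span F {a}) ∧ Q y = 0} →
          QuadraticMap.polar ⇑Q a y = 0 := by
        intro y hy
        have hle : Submodule.span F {y | y ∈ perp hN (Submodule.span F {a}) ∧ Q y = 0} ≤ perp hN (Submodule.span F {a}) :=
          Submodule.span_le.mpr (fun y hy => hy.1)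
        exact hle hy a (Submodule.mem_span_singleton_self a)
      suffices hall : ∀ c : F, E (⇑Q) a (c • d) ∈ T.map (Cfsg.isometryGroup F ⇑Q).subtype by
        simpa using hall 1
      induction hd using Submodule.span_induction with
      | mem y hy =>
        intro c
        have hay : QuadraticMap.polar ⇑Q a y = 0 := hy.1 a (Submodule.mem_span_singleton_self a)
        have hay' : QuadraticMap.polar ⇑Q a (c • y) = 0 := by rw [B_smul_right hN, hay, mul_zero]
        refine ⟨⟨E (⇑Q) a (c • y), E_mem_O hN ha hay'⟩, Subgroup.subset_closure ⟨a, y, c, ha, hy.2, hay, ?_⟩, rfl⟩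
        exact (siegelMatrix_eq hN c ha hy.2 hay).symm
      | zero =>
        intro c
        rw [smul_zero, E_zero hN ha]
        exact Subgroup.one_mem _
      | add x y hx hy ihx ihy =>
        intro c
        have h1 := hperp x hx
        have h2 := hperp y hy
        have h1' : QuadraticMap.polar ⇑Q a (c • x) = 0 := by rw [B_smul_right hN, h1, mul_zero]
        have h2' : QuadraticMap.polar ⇑Q a (c • y) = 0 := by rw [B_smul_right hN, h2, mul_zero]
        rw [smul_add, ← E_mul hN ha h1' h2']
        exact Subgroup.mul_mem _ (ihx h1 c) (ihy h2 c)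
      | smul r x hx ih =>
        intro c
        rw [smul_smul]
        have h1 := hperp x hx
        exact ih h1 (c * r)
    intro g hg
    have h1 : (g : Matrix.GeneralLinearGroup (Fin n) F) ∈ omegaGL (⇑Q) := ⟨g, hg, rfl⟩
    rw [omega_eq hN hcard] at h1
    have h3 : TT (⇑Q) ≤ T.map (Cfsg.isometryGroup F ⇑Q).subtype := by
      rw [TT, Subgroup.closure_le]
      rintro _ ⟨a, d, ha, had, rfl⟩
      exact hstep a d ha had
    obtain ⟨g', hg', hgg⟩ := h3 h1
    have : g' = g := Subtype.ext hgg
    rwa [this] at hg'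
  · rw [Subgroup.closure_le]
    rintro g ⟨u, v, c, hu, hv, huv, hg⟩
    exact (Cfsg.Agent.S0794.result h2 hn Q hQ u v hu hv huv c g hg).2

end Cfsg.Agent.S0795
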