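import Cfsg.Statements.S0796
import Mathlib

set_option autoImplicit false
open Cfsg

namespace Cfsg.Agent.S0796

/-- If G is finite and acts faithfully and primitively on X, H is the stabiliser of a point, A is a normal subgroup of H whose normal closure in G is G, then for every non-trivial normal subgroup K of G the quotient G ⧸ K is isomorphic to A ⧸ B for some normal subgroup B of A. -/
theorem result {G X : Type*} [Group G] [Finite G] [MulAction G X] [FaithfulSMul G X] (hprim : MulAction.IsPreprimitive G X) (x : X) (A : Subgroup G) (hA : A ≤ MulAction.stabilizer G x) (hAn : (A.subgroupOf (MulAction.stabilizer G x)).Normal) (hgen : Subgroup.normalClosure (A : Set G) = ⊤) (K : Subgroup G) [K.Normal] (hK : K ≠ ⊥) : ∃ (B : Subgroup A) (_ : B.Normal), Nonempty (G ⧸ K ≃* A ⧸ B) := by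
  -- K acts transitively
  have hfix : MulAction.fixedPoints K X ≠ ⊤ := by
    intro h
    apply hK
    rw [eq_bot_iff]
    intro k hk
    rw [Subgroup.mem_bot]
    apply eq_of_smul_eq_smul (α := X)
    intro y
    have hy : y ∈ MulAction.fixedPoints K X := by rw [h]; trivial
    have := hy ⟨k, hk⟩
    simpa using this
  haveI : MulAction.IsQuasiPreprimitive G X := inferInstance
  haveI htrans : MulAction.IsPretransitive K X := MulAction.IsQuasiPreprimitive.isPretransitive_of_normal hfix
  -- every conjugate of A is in K ⊔ A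
  have hsup : K ⊔ A = ⊤ := by
    rw [eq_top_iff, ← hgen, Subgroup.normalClosure, Subgroup.closure_le]
    intro y hy
    obtain ⟨a, ha, hconj⟩ := Group.mem_conjugatesOfSet_iff.mp hy
    obtain ⟨g, rfl⟩ := isConj_iff.mp hconj
    obtain ⟨k, hk⟩ := MulAction.exists_smul_eq K (g • x) x
    -- `h = k g` fixes x
    have hh : (k : G) * g ∈ MulAction.stabilizer G x := by
      rw [MulAction.mem_stabilizer_iff, mul_smul]
      exact hk
    have ha' : ((k : G) * g) * a * ((k : G) * g)⁻¹ ∈ A := by
      have hn := hAn.conj_mem ⟨a, hA ha⟩ (Subgroup.mem_subgroupOf.mpr ha) ⟨_, hh⟩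
      exact Subgroup.mem_subgroupOf.mp hn
    have e : g * a * g⁻¹ = (k : G)⁻¹ * (((k : G) * g) * a * ((k : G) * g)⁻¹) * (k : G) := by group
    rw [e]
    set b := ((k : G) * g) * a * ((k : G) * g)⁻¹ with hb
    have e2 : (k : G)⁻¹ * b * (k : G) = ((k : G)⁻¹ * (b * (k : G) * b⁻¹)) * b := by group
    rw [e2]
    apply Subgroup.mul_mem
    · apply Subgroup.mem_sup_left
      apply Subgroup.mul_mem _ (Subgroup.inv_mem _ k.2)
      exact ‹K.Normal›.conj_mem _ k.2 b
    · exact Subgroup.mem_sup_right ha'
  let φ : A →* G ⧸ K := (QuotientGroup.mk' K).comp A.subtype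
  have hφ : Function.Surjective φ := by
    intro q
    induction q using QuotientGroup.induction_on with | H g => ?_
    have hg : g ∈ ((K ⊔ A : Subgroup G) : Set G) := by rw [hsup]; trivial
    rw [Subgroup.normal_mul] at hg
    obtain ⟨k, hk, a, ha, rfl⟩ := Set.mem_mul.mp hg
    refine ⟨⟨a, ha⟩, ?_⟩
    show ((a : G) : G ⧸ K) = ((k * a : G) : G ⧸ K)
    rw [QuotientGroup.eq]
    have e : a⁻¹ * (k * a) = a⁻¹ * k * a := by group
    rw [e]
    have := ‹K.Normal›.conj_mem k hk a⁻¹
    simpa using this
  refine ⟨φ.ker, inferInstance, ⟨(QuotientGroup.quotientKerEquivOfSurjective φ hφ).symm⟩⟩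

end Cfsg.Agent.S0796
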