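import Cfsg.Statements.S0798
import Cfsg.Agent.Lib.OrthHc
import Cfsg.Agent.Lib.OrthBridge

set_option autoImplicit false
open Cfsg

namespace Cfsg.Agent.S0798

/-- For q odd, n ≥ 2 even, Q with non-degenerate polar form (n, |F|) ≠ (4, 3), and a fixed c ≠ 0: the subgroup of the isometry group generated by the reflections r_v with Q(v) ∈ c·(F^×)² has index 2. -/
theorem result {F : Type*} [Field F] [Fintype F] (h2 : (2 : F) ≠ 0) {n : ℕ} (hn : 2 ≤ n) (heven : Even n) (Q : QuadraticForm F (Fin n → F)) (hQ : (QuadraticMap.polarBilin Q).Nondegenerate) (h43 : ¬ (n = 4 ∧ Fintype.card F = 3)) (c : F) (hc : c ≠ 0) : (Subgroup.closure {g : ↥(Cfsg.isometryGroup F ⇑Q) | ∃ (v : Fin n → F) (t : F), t ≠ 0 ∧ Q v = c * t ^ 2 ∧ ((g : Matrix.GeneralLinearGroup (Fin n) F) : Matrix (Fin n) (Fin n) F) = Cfsg.reflectionMatrix ⇑Q v}).index = 2 := by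
  classical
  have hQ' := Cfsg.Agent.Lib.OrthBridge.nondeg_of_form Q hQ
  have hcard : Fintype.card (Fin n) = n := Fintype.card_fin n
  have hset : {g : ↥(Cfsg.isometryGroup F ⇑Q) | ∃ (v : Fin n → F) (t : F), t ≠ 0 ∧ Q v = c * t ^ 2 ∧ ((g : Matrix.GeneralLinearGroup (Fin n) F) : Matrix (Fin n) (Fin n) F) = Cfsg.reflectionMatrix ⇑Q v} =
      {g | ∃ v, Cfsg.Agent.Lib.OrthHc.CClass (⇑Q) c v ∧ g = Cfsg.Agent.Lib.OrthNeg.rr hQ' v} := by
    ext g
    constructor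
    · rintro ⟨v, t, ht, hv, hg⟩
      have hv0 : Q v ≠ 0 := by
        rw [hv]
        exact mul_ne_zero hc (pow_ne_zero _ ht)
      refine ⟨v, ⟨hv0, c * t, ?_⟩, ?_⟩
      · rw [hv]
        ring
      · apply Subtype.ext
        apply Units.ext
        rw [hg, Cfsg.Agent.Lib.OrthNeg.rr_eq hQ' hv0, Cfsg.Agent.Lib.OrthBridge.reflectionMatrix_eq hQ' hv0]
        rfl
    · rintro ⟨v, ⟨hv0, s, hs⟩, rfl⟩
      have hs0 : s ≠ 0 := by
        rintro rfl
        rw [mul_zero] at hs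
        exact mul_ne_zero hv0 hc hs
      refine ⟨v, s / c, div_ne_zero hs0 hc, ?_, ?_⟩
      · field_simp
        linear_combination hs
      · rw [Cfsg.Agent.Lib.OrthNeg.rr_eq hQ' hv0, Cfsg.Agent.Lib.OrthBridge.reflectionMatrix_eq hQ' hv0]
        rfl
  rw [hset]
  exact Cfsg.Agent.Lib.OrthHc.HH_index hQ' h2 hc (by rw [hcard]; exact h43) (by rw [hcard]; exact heven) (by rw [hcard]; exact hn)

end Cfsg.Agent.S0798
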