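import Cfsg.Statements.S0800
import Cfsg.Agent.Lib.FieldExt2

set_option autoImplicit false
open Cfsg

namespace Cfsg.Agent.S0800

open Polynomial

/-- Tori of SL_2(q): if g ∈ SL_2(q) has order coprime to the characteristic p, then the order of g divides q − 1 or q + 1. -/
theorem result {F : Type*} [Field F] [Fintype F] {q : ℕ} (hF : Fintype.card F = q) (p : ℕ) [Fact p.Prime] [CharP F p] (g : Matrix.SpecialLinearGroup (Fin 2) F) (hg : Nat.Coprime (orderOf g) p) : orderOf g ∣ q - 1 ∨ orderOf g ∣ q + 1 := by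
  classical
  subst hF
  set M : Matrix (Fin 2) (Fin 2) F := (g : Matrix (Fin 2) (Fin 2) F) with hM
  set t := M.trace with ht
  set P : F[X] := X ^ 2 - C t * X + C 1 with hP
  have hCH : aeval M P = 0 := by
    have h1 := Matrix.aeval_self_charpoly M
    rw [Matrix.charpoly_fin_two, g.2] at h1
    exact h1
  have hpow : ∀ k : ℕ, P ∣ X ^ k - C 1 → orderOf g ∣ k := by
    intro k hk
    obtain ⟨R, hR⟩ := hk
    have h1 : aeval M (X ^ k - C 1 : F[X]) = 0 := by
      rw [hR, map_mul, hCH, zero_mul]
    have h2 : M ^ k = 1 := by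
      simpa [sub_eq_zero] using h1
    apply orderOf_dvd_of_pow_eq_one
    apply Subtype.ext
    simpa [Matrix.SpecialLinearGroup.coe_pow] using h2
  by_cases h : ∃ x : F, x ^ 2 - t * x + 1 = 0
  · left
    obtain ⟨x, hx⟩ := h
    set y := t - x with hy
    have hxy : x * y = 1 := by rw [hy]; linear_combination -hx
    have hx0 : x ≠ 0 := left_ne_zero_of_mul_eq_one hxy
    have hy0 : y ≠ 0 := right_ne_zero_of_mul_eq_one hxy
    have hPf : P = (X - C x) * (X - C y) := by
      have h1 : C t = C x + C y := by rw [← C_add, hy]; ring_nf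
      have h2 : C (1 : F) = C x * C y := by rw [← C_mul, hxy]
      rw [hP, h1, h2]; ring
    let A : F[X] := X ^ (Fintype.card F - 1) - 1
    have hA1 : (X - C x) ∣ A := by
      rw [dvd_iff_isRoot]
      simp [A, IsRoot, FiniteField.pow_card_sub_one_eq_one x hx0]
    have hA2 : (X - C y) ∣ A := by
      rw [dvd_iff_isRoot]
      simp [A, IsRoot, FiniteField.pow_card_sub_one_eq_one y hy0]
    have hPA : P ∣ A ^ 2 := by
      rw [hPf, sq]
      exact mul_dvd_mul hA1 hA2
    have hAp : A ^ p = X ^ ((Fintype.card F - 1) * p) - C 1 := by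
      have : ExpChar F[X] p := ExpChar.prime (Fact.out)
      simp only [A]
      rw [sub_pow_expChar, one_pow, pow_mul, C_1]
    have hp2 : 2 ≤ p := (Fact.out : p.Prime).two_le
    have hdvd : orderOf g ∣ (Fintype.card F - 1) * p := by
      apply hpow
      rw [← hAp]
      exact hPA.trans (pow_dvd_pow _ hp2)
    exact hg.dvd_of_dvd_mul_right hdvd
  · right
    push Not at h
    apply hpow
    apply Cfsg.Agent.Lib.FieldExt2.quad_dvd
    intro x
    simpa using h x

end Cfsg.Agent.S0800
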