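import Cfsg.Statements.S0802
import Cfsg.Agent.Lib.PSL2Sub

set_option autoImplicit false
open Cfsg

namespace Cfsg.Agent.S0802


open Matrix Cfsg.Agent.Lib.H1GL2 Cfsg.Agent.Lib.H1SL2 Cfsg.Agent.Lib.H1PSL2 Cfsg.Agent.Lib.HomS4 Cfsg.Agent.Lib.PSL2Sub


/-- PSL_2(p^n) has a subgroup isomorphic to A_4 if and only if it is not the case that p = 2 and n is odd. -/
theorem result {F : Type*} [Field F] [Fintype F] (p n : ℕ) [Fact p.Prime] [CharP F p] (hF : Fintype.card F = p ^ n) : (∃ H : Subgroup (Matrix.ProjectiveSpecialLinearGroup (Fin 2) F), Nonempty (H ≃* alternatingGroup (Fin 4))) ↔ ¬ (p = 2 ∧ Odd n) := by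
  classical
  constructor
  · rintro ⟨H, ⟨e⟩⟩ ⟨hp2, hn⟩
    subst hp2
    have h2 : (2 : F) = 0 := by exact_mod_cast CharP.cast_eq_zero F 2
    obtain ⟨a, b, s, R, ha, hb, hab, hs3, hs⟩ := relA4_of_iso e
    obtain ⟨a', rfl⟩ := pi_surj a
    obtain ⟨b', rfl⟩ := pi_surj b
    obtain ⟨s', rfl⟩ := pi_surj s
    have hinj := pi_inj_two h2
    have haa : a' * a' = 1 := hinj (by rw [map_mul, R.aa, map_one])
    have hbb : b' * b' = 1 := hinj (by rw [map_mul, R.bb, map_one])
    have hba : b' * a' = a' * b' := hinj (by rw [map_mul, R.ba, map_mul])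
    have hsss : s' * s' * s' = 1 := hinj (by rw [map_mul, map_mul, R.sss, map_one])
    have hsb : s' * b' = a' * s' := hinj (by rw [map_mul, R.sb, map_mul])
    have ha' : a' ≠ 1 := by
      rintro rfl
      exact ha (map_one _)
    have hs' : s' ≠ 1 := by
      rintro rfl
      exact hs (map_one _)
    obtain ⟨l, hl⟩ := exists_root_of_rel h2 haa hbb hba hsss hsb ha' hs'
    have hl0 : l ≠ 0 := by
      rintro rfl
      simp at hl
    have hl3 : l ^ 3 = 1 := by linear_combination (l - 1) * hl
    have hl1 : l ≠ 1 := by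
      rintro rfl
      apply one_ne_zero (α := F)
      linear_combination hl - h2
    let u : Fˣ := Units.mk0 l hl0
    have hu3 : u ^ 3 = 1 := Units.ext (by simpa [u] using hl3)
    have hu1 : u ≠ 1 := fun h => hl1 (by simpa [u] using congrArg Units.val h)
    haveI : Fact (Nat.Prime 3) := ⟨Nat.prime_three⟩
    have hord : orderOf u = 3 := orderOf_eq_prime hu3 hu1
    have hdvd : 3 ∣ Fintype.card Fˣ := by
      rw [← hord]
      exact orderOf_dvd_card
    rw [Fintype.card_units, hF] at hdvd
    obtain ⟨k, rfl⟩ := hn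
    have h4 : 2 ^ (2 * k + 1) % 3 = 2 := by
      rw [pow_succ, pow_mul, Nat.mul_mod, Nat.pow_mod]
      norm_num
    generalize 2 ^ (2 * k + 1) = N at hdvd h4
    omega
  · intro h
    by_cases hp : p = 2
    · subst hp
      have h2 : (2 : F) = 0 := by exact_mod_cast CharP.cast_eq_zero F 2
      have hn : ¬ Odd n := fun hn => h ⟨rfl, hn⟩
      rw [Nat.not_odd_iff_even] at hn
      obtain ⟨k, rfl⟩ := hn
      have h1 : 1 < Fintype.card F := Fintype.one_lt_card
      have h4 : 2 ^ (k + k) % 3 = 1 := by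
        rw [← two_mul, pow_mul, Nat.pow_mod]
        norm_num
      have hdvd : 3 ∣ Nat.card Fˣ := by
        rw [Nat.card_units, Nat.card_eq_fintype_card, hF]
        omega
      haveI : Fact (Nat.Prime 3) := ⟨Nat.prime_three⟩
      obtain ⟨u, hu⟩ := exists_prime_orderOf_dvd_card' 3 hdvd
      have hu3 : (u : F) ^ 3 = 1 := by
        have := pow_orderOf_eq_one u
        rw [hu] at this
        simpa using congrArg Units.val this
      have hu1 : (u : F) ≠ 1 := by
        intro h5
        have : u = 1 := Units.ext h5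
        rw [this, orderOf_one] at hu
        omega
      have hl : (u : F) ^ 2 + u + 1 = 0 := by
        have h3 : ((u : F) - 1) * ((u : F) ^ 2 + u + 1) = 0 := by linear_combination hu3
        exact (mul_eq_zero.1 h3).resolve_left (sub_ne_zero.2 hu1)
      exact exists_A4_two h2 hl
    · apply exists_A4_odd
      rw [hF]
      have : Odd p := (Fact.out : p.Prime).odd_of_ne_two hp
      exact Nat.odd_iff.1 (this.pow)

end Cfsg.Agent.S0802
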