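import Cfsg.Statements.S0803
import Cfsg.Agent.Lib.PSL2Sub
import Cfsg.Agent.Lib.H1Rigid

set_option autoImplicit false
open Cfsg

namespace Cfsg.Agent.S0803


open Matrix Cfsg.Agent.Lib.H1GL2 Cfsg.Agent.Lib.H1SL2 Cfsg.Agent.Lib.H1PSL2 Cfsg.Agent.Lib.HomS4 Cfsg.Agent.Lib.PSL2Sub

section
variable {F : Type*} [Field F]

theorem sq_of_four (h2 : (2 : F) = 0) (x : SL2 F) (hx : x ^ 4 = 1) : x * x = 1 := by
  have hd := sl_det x
  set a := (x : M2 F) 0 0 with ha
  set b := (x : M2 F) 0 1 with hb
  set c := (x : M2 F) 1 0 with hc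
  set d := (x : M2 F) 1 1 with hd'
  have e : (x ^ 4 : SL2 F) = x * x * (x * x) := by
    simp only [pow_succ, pow_zero, one_mul, mul_assoc]
  have e00 : a * (a * (a * a + b * c) + b * (c * a + d * c)) + b * (c * (a * a + b * c) + d * (c * a + d * c)) = 1 := by
    have := congrArg (fun z : SL2 F => (z : M2 F) 0 0) hx
    simp only [e, sl_mul00, sl_mul01, sl_mul10, sl_mul11, sl_one00] at this
    rw [← this]
    ring
  have e11 : c * (a * (a * b + b * d) + b * (c * b + d * d)) + d * (c * (a * b + b * d) + d * (c * b + d * d)) = 1 := by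
    have := congrArg (fun z : SL2 F => (z : M2 F) 1 1) hx
    simp only [e, sl_mul00, sl_mul01, sl_mul10, sl_mul11, sl_one11] at this
    rw [← this]
    ring
  have h4 : (a + d) ^ 4 = 0 := by
    have h5 : ((a + d) ^ 2 - 2) ^ 2 = 4 := by
      linear_combination e00 + e11 + (4 * (a + d) ^ 2 - 2 * (a * d - b * c + 1)) * hd + 2 * h2 * 0
    have h6 : ((a + d) ^ 2 - 2) ^ 2 = (a + d) ^ 4 := by
      linear_combination (- 4 * (a + d) ^ 2 + 4) * 1 * 0 + (2 - 2 * (a + d) ^ 2) * h2
    rw [← h6, h5]
    linear_combination 2 * h2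
  have ht : a + d = 0 := by simpa using h4
  apply sl_ext <;> simp only [sl_mul00, sl_mul01, sl_mul10, sl_mul11, sl_one00, sl_one01, sl_one10, sl_one11] <;> grind
end


/-- PSL_2(q) has a subgroup isomorphic to S_4 iff q² ≡ 1 (mod 16). -/
theorem result {F : Type*} [Field F] [Fintype F] {q : ℕ} (hF : Fintype.card F = q) : (∃ H : Subgroup (Matrix.ProjectiveSpecialLinearGroup (Fin 2) F), Nonempty (H ≃* Equiv.Perm (Fin 4))) ↔ q ^ 2 % 16 = 1 := by
  classical
  subst hF
  constructor
  · rintro ⟨H, ⟨e⟩⟩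
    by_cases hq : Fintype.card F % 2 = 0
    · exfalso
      have h2 : (2 : F) = 0 := by
        have h3 := FiniteField.even_card_iff_char_two.2 hq
        have := ringChar.spec F 2
        rw [h3] at this
        exact_mod_cast (this.2 (dvd_refl 2))
      let c : Equiv.Perm (Fin 4) := Equiv.swap 0 1 * Equiv.swap 1 2 * Equiv.swap 2 3
      have hc4 : c ^ 4 = 1 := by decide
      have hc2 : c ^ 2 ≠ 1 := by decide
      let φ : Equiv.Perm (Fin 4) →* PSL2 F := H.subtype.comp e.symm.toMonoidHom
      have hφ : Function.Injective φ := H.subtype_injective.comp e.symm.injective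
      obtain ⟨y, hy⟩ := pi_surj (φ c)
      have hinj := pi_inj_two h2
      have hy4 : y ^ 4 = 1 := hinj (by rw [map_pow, hy, ← map_pow, hc4, map_one, map_one])
      have hy2 := sq_of_four h2 y hy4
      apply hc2
      apply hφ
      rw [map_pow, ← hy, ← map_pow, pow_two, hy2, map_one, map_one]
    · have hq' : Fintype.card F % 2 = 1 := by omega
      have hcard := Cfsg.Agent.Lib.H1Rigid.PSL2_card (F := F)
      have hgcd : Nat.gcd 2 (Fintype.card F - 1) = 2 := by
        apply Nat.gcd_eq_left
        have := Fintype.one_lt_card (α := F)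
        omega
      rw [hgcd] at hcard
      have hH : Nat.card H = 24 := by
        rw [Nat.card_congr e.toEquiv, Nat.card_perm]
        simp [Nat.factorial]
      obtain ⟨m, hm⟩ := Subgroup.card_subgroup_dvd_card H
      rw [hH] at hm
      rw [hm] at hcard
      have h16 : 16 ∣ Fintype.card F * (Fintype.card F ^ 2 - 1) := ⟨3 * m, by rw [← hcard]; ring⟩
      have hcop : Nat.Coprime 16 (Fintype.card F) := by
        have : (16 : ℕ) = 2 ^ 4 := by norm_num
        rw [this]
        apply Nat.Coprime.pow_left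
        rw [Nat.coprime_two_left]
        exact Nat.odd_iff.2 hq'
      have h3 := hcop.dvd_of_dvd_mul_left h16
      have h4 : 1 ≤ Fintype.card F ^ 2 := Nat.one_le_pow _ _ Fintype.card_pos
      omega
  · intro h
    have hmod : (Fintype.card F % 16) ^ 2 % 16 = 1 := by
      rw [← Nat.pow_mod]
      exact h
    have hlt : Fintype.card F % 16 < 16 := Nat.mod_lt _ (by norm_num)
    have hodd : Fintype.card F % 2 = 1 ∧ Fintype.card F % 8 ≠ 3 ∧ Fintype.card F % 8 ≠ 5 := by
      have e8 : Fintype.card F % 8 = (Fintype.card F % 16) % 8 := by omega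
      have e2 : Fintype.card F % 2 = (Fintype.card F % 16) % 2 := by omega
      rw [e8, e2]
      generalize Fintype.card F % 16 = r at hmod hlt
      interval_cases r <;> simp_all
    obtain ⟨hq, h3, h5⟩ := hodd
    obtain ⟨r, hr⟩ := (FiniteField.isSquare_two_iff (F := F)).2 ⟨h3, h5⟩
    exact exists_S4_odd hq (r := r) (by rw [pow_two]; exact hr.symm)

end Cfsg.Agent.S0803
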