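import Cfsg.Statements.S0805
import Cfsg.Agent.Lib.H1Rigid

set_option autoImplicit false
open Cfsg

namespace Cfsg.Agent.S0805


open Matrix MatrixGroups

section
variable {F K : Type*} [Field F] [Fintype F] [Field K] [Fintype K]

/-- Embedding of finite fields. -/
theorem exists_embed {m : ℕ} (hm : 1 ≤ m) (hK : Fintype.card K ^ m = Fintype.card F) : Nonempty (K →+* F) := by
  classical
  obtain ⟨p, hp⟩ := CharP.exists K
  haveI : Fact p.Prime := ⟨CharP.char_is_prime K p⟩
  obtain ⟨ℓ, hℓ⟩ := CharP.exists F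
  haveI : Fact ℓ.Prime := ⟨CharP.char_is_prime F ℓ⟩
  obtain ⟨e, -, he⟩ := FiniteField.card K p
  obtain ⟨f, -, hf⟩ := FiniteField.card F ℓ
  have hpl : p = ℓ := by
    have h1 : p ∣ ℓ ^ (f : ℕ) := by
      rw [← hf, ← hK, he]
      exact dvd_trans (dvd_pow_self p e.ne_zero) (dvd_pow_self _ (by omega))
    exact (Nat.prime_dvd_prime_iff_eq Fact.out Fact.out).1 ((Fact.out : p.Prime).dvd_of_dvd_pow h1)
  subst hpl
  letI : Algebra (ZMod p) K := ZMod.algebra K p
  letI : Algebra (ZMod p) F := ZMod.algebra F p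
  have h1 : Fintype.card K = p ^ Module.finrank (ZMod p) K := by
    rw [Module.card_eq_pow_finrank (K := ZMod p) (V := K), ZMod.card]
  have h2 : Fintype.card F = p ^ Module.finrank (ZMod p) F := by
    rw [Module.card_eq_pow_finrank (K := ZMod p) (V := F), ZMod.card]
  have h3 : Module.finrank (ZMod p) K * m = Module.finrank (ZMod p) F := by
    apply Nat.pow_right_injective (Fact.out : p.Prime).two_le
    show p ^ _ = p ^ _
    rw [pow_mul, ← h1, hK, h2]
  obtain ⟨φ⟩ := FiniteField.nonempty_algHom_of_finrank_dvd (F := ZMod p) (K := K) (L := F) ⟨m, h3.symm⟩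
  exact ⟨φ.toRingHom⟩

/-- The map on `PGL₂`. -/
noncomputable def theta (ι : K →+* F) : ProjGenLinGroup (Fin 2) K →* ProjGenLinGroup (Fin 2) F :=
  QuotientGroup.map _ _ (GeneralLinearGroup.map ι) (GeneralLinearGroup.map_center_le ι)

theorem theta_mk (ι : K →+* F) (g : GL (Fin 2) K) :
    theta ι (ProjGenLinGroup.mk g) = ProjGenLinGroup.mk (GeneralLinearGroup.map ι g) := rfl

theorem theta_inj (ι : K →+* F) : Function.Injective (theta ι) := by
  rw [injective_iff_map_eq_one]
  intro x hx
  induction x using ProjGenLinGroup.induction_on with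
  | mk g =>
    rw [theta_mk, ProjGenLinGroup.mk_eq_one, GeneralLinearGroup.mem_center_iff_val_mem_range_scalar] at hx
    obtain ⟨u, hu⟩ := hx
    rw [ProjGenLinGroup.mk_eq_one, GeneralLinearGroup.mem_center_iff_val_mem_range_scalar]
    have hij : ∀ i j : Fin 2, ι ((g : Matrix (Fin 2) (Fin 2) K) i j) = (Matrix.scalar (Fin 2) u) i j := by
      intro i j
      rw [hu]
      rfl
    have h01 := hij 0 1
    have h10 := hij 1 0
    have h00 := hij 0 0
    have h11 := hij 1 1
    simp [Matrix.scalar_apply] at h01 h10 h00 h11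
    refine ⟨(g : Matrix (Fin 2) (Fin 2) K) 0 0, ?_⟩
    ext i j
    fin_cases i <;> fin_cases j <;> simp [Matrix.scalar_apply, h01, h10]
    apply ι.injective
    rw [h00, h11]

/-- Transfer to a subgroup. -/
theorem exists_sub {A B C : Type*} [Group A] [Group B] [Group C] (j : A →* C) (hj : Function.Injective j)
    (i : B →* C) (hi : Function.Injective i) (hle : i.range ≤ j.range) :
    ∃ H : Subgroup A, Nonempty (H ≃* B) := by
  let e := MonoidHom.ofInjective hj
  let f : B →* A := e.symm.toMonoidHom.comp ((Subgroup.inclusion hle).comp i.rangeRestrict)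
  have hf : Function.Injective f := by
    intro x y hxy
    have h1 := e.symm.injective hxy
    have h2 := Subgroup.inclusion_injective hle h1
    exact hi (congrArg Subtype.val h2)
  exact ⟨f.range, ⟨(MonoidHom.ofInjective hf).symm⟩⟩

/-- Parity of the geometric factor. -/
theorem geom_odd (y k : ℕ) (hy : y % 2 = 0) : ∃ L, L % 2 = 1 ∧ (y + 1) ^ (2 * k + 1) = y * L + 1 := by
  induction k with
  | zero => exact ⟨1, rfl, by ring⟩
  | succ k ih =>
    obtain ⟨L, hL, h⟩ := ih
    refine ⟨(y + 1) ^ 2 * L + y + 2, ?_, ?_⟩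
    · have h1 : (y + 1) ^ 2 % 2 = 1 := by
        rw [Nat.pow_mod]
        have : (y + 1) % 2 = 1 := by omega
        rw [this]
      have h2 : ((y + 1) ^ 2 * L) % 2 = 1 := by
        rw [Nat.mul_mod, h1, hL]
      omega
    · have e : 2 * (k + 1) + 1 = (2 * k + 1) + 2 := by ring
      rw [e, pow_add, h]
      ring

theorem card_PGL2 : Nat.card (ProjGenLinGroup (Fin 2) K) * (Fintype.card K - 1) =
    (Fintype.card K ^ 2 - 1) * (Fintype.card K ^ 2 - Fintype.card K) := by
  classical
  have h1 : Nat.card (Subgroup.center (GL (Fin 2) K)) = Fintype.card K - 1 := by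
    rw [GeneralLinearGroup.center_eq_range_scalar, Nat.card_congr (MonoidHom.ofInjective (f := GeneralLinearGroup.scalar (Fin 2)) (by
      intro a b h
      have := congrArg (fun g : GL (Fin 2) K => (g : Matrix (Fin 2) (Fin 2) K) 0 0) h
      simp at this
      exact Units.ext this)).symm.toEquiv, Nat.card_units, Nat.card_eq_fintype_card]
  have h2 := Subgroup.card_eq_card_quotient_mul_card_subgroup (Subgroup.center (GL (Fin 2) K))
  rw [h1, Matrix.card_GL_field] at h2
  have h3 : Nat.card (ProjGenLinGroup (Fin 2) K) = Nat.card (GL (Fin 2) K ⧸ Subgroup.center (GL (Fin 2) K)) := rfl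
  rw [h3, ← h2, Fin.prod_univ_two]
  simp
end


/-- Subfield subgroups: let F be a finite field of odd order q and K a finite field with |K|^m = q, m ≥ 1. Then PSL_2(F) has a subgroup isomorphic to PSL_2(K), and has a subgroup isomorphic to PGL_2(K) if and only if m is even. -/
theorem result {F K : Type*} [Field F] [Fintype F] [Field K] [Fintype K] {q : ℕ} (hF : Fintype.card F = q) (hodd : Odd q) (m : ℕ) (hm : 1 ≤ m) (hK : Fintype.card K ^ m = q) : (∃ H : Subgroup (Matrix.ProjectiveSpecialLinearGroup (Fin 2) F), Nonempty (H ≃* Matrix.ProjectiveSpecialLinearGroup (Fin 2) K)) ∧ ((∃ H : Subgroup (Matrix.ProjectiveSpecialLinearGroup (Fin 2) F), Nonempty (H ≃* Matrix.ProjGenLinGroup (Fin 2) K)) ↔ Even m) := by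
  classical
  subst hF
  obtain ⟨ι⟩ := exists_embed hm hK
  have hj : Function.Injective (ProjectiveSpecialLinearGroup.toPGL (n := Fin 2) (R := F)) :=
    ProjectiveSpecialLinearGroup.toPGL_injective
  refine ⟨?_, ?_, ?_⟩
  · -- the subfield subgroup
    refine exists_sub (ProjectiveSpecialLinearGroup.toPGL (n := Fin 2) (R := F)) hj
      ((theta ι).comp (ProjectiveSpecialLinearGroup.toPGL (n := Fin 2) (R := K)))
      ((theta_inj ι).comp ProjectiveSpecialLinearGroup.toPGL_injective) ?_
    rintro _ ⟨x, rfl⟩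
    obtain ⟨g, rfl⟩ := QuotientGroup.mk'_surjective _ x
    refine ⟨QuotientGroup.mk' _ (SpecialLinearGroup.map ι g), ?_⟩
    rw [MonoidHom.comp_apply]
    show ProjGenLinGroup.mk (SpecialLinearGroup.toGL (SpecialLinearGroup.map ι g)) = theta ι (ProjGenLinGroup.mk (SpecialLinearGroup.toGL g))
    rw [theta_mk]
    congr 1
    apply Units.ext
    ext i j
    simp
  · -- no `PGL₂` when `m` is odd
    rintro ⟨H, ⟨e⟩⟩
    by_contra hne
    rw [Nat.not_even_iff_odd] at hne
    obtain ⟨k, rfl⟩ := hne
    set r := Fintype.card K with hr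
    have hq1 : 1 < r := Fintype.one_lt_card
    have hrodd : r % 2 = 1 := by
      by_contra h0
      have h1 : r % 2 = 0 := by omega
      obtain ⟨t, ht⟩ := hodd
      have h2 : 2 ∣ r ^ (2 * k + 1) := dvd_trans (Nat.dvd_of_mod_eq_zero h1) (dvd_pow_self r (by omega))
      rw [hK] at h2
      omega
    obtain ⟨y, hy⟩ : ∃ y, r ^ 2 = y + 1 := ⟨r ^ 2 - 1, by have : 1 ≤ r ^ 2 := Nat.one_le_pow _ _ (by omega); omega⟩
    have hyeven : y % 2 = 0 := by
      have h1 : r ^ 2 % 2 = 1 := by
        rw [Nat.pow_mod, hrodd]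
      omega
    obtain ⟨L, hL, hLy⟩ := geom_odd y k hyeven
    have hcardF : Fintype.card F ^ 2 = y * L + 1 := by
      rw [← hK, ← hLy, ← hy, ← pow_mul, ← pow_mul]
      ring_nf
    have hP := Cfsg.Agent.Lib.H1Rigid.PSL2_card (F := F)
    have hgcd : Nat.gcd 2 (Fintype.card F - 1) = 2 := by
      apply Nat.gcd_eq_left
      obtain ⟨t, ht⟩ := hodd
      omega
    rw [hgcd, hcardF, Nat.add_sub_cancel] at hP
    have hN := card_PGL2 (K := K)
    have hy1 : r ^ 2 - 1 = y := by omega
    rw [← hr, hy1] at hN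
    have hN' : Nat.card (ProjGenLinGroup (Fin 2) K) = y * r := by
      have h5 : r ^ 2 - r = r * (r - 1) := by rw [Nat.mul_sub, mul_one, pow_two]
      rw [h5, ← mul_assoc] at hN
      exact Nat.eq_of_mul_eq_mul_right (by omega) hN
    have hH : Nat.card H = y * r := by
      rw [Nat.card_congr e.toEquiv, hN']
    obtain ⟨c, hc⟩ := Subgroup.card_subgroup_dvd_card H
    rw [hH] at hc
    rw [hc] at hP
    have hy0 : 0 < y := by
      have : 4 ≤ r ^ 2 := by nlinarith
      omega
    have h7 : r * c * 2 = Fintype.card F * L := by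
      apply Nat.eq_of_mul_eq_mul_left hy0
      rw [← mul_assoc, ← mul_assoc, ← mul_assoc] at *
      linarith
    have h8 : Fintype.card F % 2 = 1 := Nat.odd_iff.1 hodd
    have h9 : (Fintype.card F * L) % 2 = 1 := by
      rw [Nat.mul_mod, h8, hL]
    omega
  · -- `PGL₂` when `m` is even
    rintro ⟨t, rfl⟩
    have hq2 : Fintype.card F % 2 = 1 := Nat.odd_iff.1 hodd
    have hchar : ringChar F ≠ 2 := by
      intro h
      have := FiniteField.even_card_of_char_two h
      omega
    have hsq : ∀ c : K, c ≠ 0 → IsSquare (ι c) := by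
      intro c hc
      rw [FiniteField.isSquare_iff hchar (by simpa using hc)]
      set r := Fintype.card K with hr
      have hq1 : 1 < r := Fintype.one_lt_card
      have hrodd : r % 2 = 1 := by
        by_contra h0
        have h1 : r % 2 = 0 := by omega
        have h2 : 2 ∣ r ^ (t + t) := dvd_trans (Nat.dvd_of_mod_eq_zero h1) (dvd_pow_self r (by omega))
        rw [hK] at h2
        omega
      obtain ⟨w, hw⟩ : ∃ w, r + 1 = 2 * w := ⟨(r + 1) / 2, by omega⟩
      obtain ⟨L, hL⟩ : r ^ 2 - 1 ∣ Fintype.card F - 1 := by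
        rw [← hK, show t + t = 2 * t by ring, pow_mul]
        simpa using Nat.sub_dvd_pow_sub_pow (r ^ 2) 1 t
      have h3 : r ^ 2 - 1 = (r - 1) * (r + 1) := by
        obtain ⟨u, hu⟩ : ∃ u, r = u + 1 := ⟨r - 1, by omega⟩
        rw [hu]
        simp only [Nat.add_sub_cancel]
        have : (u + 1) ^ 2 = u * (u + 1 + 1) + 1 := by ring
        omega
      have h4 : Fintype.card F / 2 = (r - 1) * (w * L) := by
        rw [h3, hw] at hL
        have h5 : Fintype.card F = 2 * ((r - 1) * (w * L)) + 1 := by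
          have h6 : 1 ≤ Fintype.card F := Fintype.card_pos
          have : Fintype.card F - 1 = 2 * ((r - 1) * (w * L)) := by
            rw [hL]
            ring
          omega
        omega
      rw [h4, pow_mul, ← map_pow, FiniteField.pow_card_sub_one_eq_one c hc, map_one, one_pow]
    refine exists_sub (ProjectiveSpecialLinearGroup.toPGL (n := Fin 2) (R := F)) hj (theta ι) (theta_inj ι) ?_
    rintro _ ⟨x, rfl⟩
    induction x using ProjGenLinGroup.induction_on with
    | mk g =>
      have hd : ((g : Matrix (Fin 2) (Fin 2) K)).det ≠ 0 := by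
        have := g.isUnit.map (Matrix.detMonoidHom)
        exact this.ne_zero
      obtain ⟨s, hs⟩ := hsq _ hd
      have hs0 : s ≠ 0 := by
        rintro rfl
        rw [mul_zero] at hs
        exact hd (by simpa using hs)
      have hdet : (s⁻¹ • ((GeneralLinearGroup.map ι g : GL (Fin 2) F) : Matrix (Fin 2) (Fin 2) F)).det = 1 := by
        rw [Matrix.det_smul, Fintype.card_fin]
        have h1 : ((GeneralLinearGroup.map ι g : GL (Fin 2) F) : Matrix (Fin 2) (Fin 2) F).det = ι ((g : Matrix (Fin 2) (Fin 2) K)).det := by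
          have : ((GeneralLinearGroup.map ι g : GL (Fin 2) F) : Matrix (Fin 2) (Fin 2) F) = ι.mapMatrix (g : Matrix (Fin 2) (Fin 2) K) := rfl
          rw [this, ← RingHom.map_det]
        rw [h1, hs]
        field_simp
      let y : SpecialLinearGroup (Fin 2) F := ⟨_, hdet⟩
      refine ⟨QuotientGroup.mk' _ y, ?_⟩
      show ProjGenLinGroup.mk (SpecialLinearGroup.toGL y) = theta ι (ProjGenLinGroup.mk g)
      rw [theta_mk, eq_comm, ProjGenLinGroup.mk_eq_mk_iff]
      refine ⟨Units.mk0 s⁻¹ (inv_ne_zero hs0), ?_⟩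
      apply Units.ext
      ext i j
      simp [y, GeneralLinearGroup.coe_scalar, mul_comm]
      rfl

end Cfsg.Agent.S0805
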