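import Cfsg.Statements.S0804
import Cfsg.Agent.Lib.Icos2
import Cfsg.Agent.S0805
import Cfsg.Agent.S0252

set_option autoImplicit false
open Cfsg

namespace Cfsg.Agent.S0804


open Matrix MatrixGroups Cfsg.Agent.Lib.H1GL2 Cfsg.Agent.Lib.H1SL2 Cfsg.Agent.Lib.H1PSL2 Cfsg.Agent.Lib.PSL2Sub Cfsg.Agent.Lib.Icos Cfsg.Agent.S0805 ZMod

theorem chk5 : ∀ d : ZMod 5, d * (d ^ 2 - 1) = 0 → ∀ ε : ZMod 5, (ε = 1 ∨ ε = -1) → IsSquare (ε * d) := by
  decide

section
variable {F K : Type*} [Field F] [Fintype F] [Field K] [Fintype K]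

/-- Subfield subgroups. -/
theorem exists_subfield (ι : K →+* F) :
    ∃ H : Subgroup (ProjectiveSpecialLinearGroup (Fin 2) F), Nonempty (H ≃* ProjectiveSpecialLinearGroup (Fin 2) K) := by
  have hj : Function.Injective (ProjectiveSpecialLinearGroup.toPGL (n := Fin 2) (R := F)) :=
    ProjectiveSpecialLinearGroup.toPGL_injective
  refine exists_sub (ProjectiveSpecialLinearGroup.toPGL (n := Fin 2) (R := F)) hj
    ((theta ι).comp (ProjectiveSpecialLinearGroup.toPGL (n := Fin 2) (R := K)))
    ((theta_inj ι).comp ProjectiveSpecialLinearGroup.toPGL_injective) ?_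
  rintro _ ⟨x, rfl⟩
  obtain ⟨g, rfl⟩ := QuotientGroup.mk'_surjective _ x
  refine ⟨QuotientGroup.mk' _ (SpecialLinearGroup.map ι g), ?_⟩
  rw [MonoidHom.comp_apply]
  show ProjGenLinGroup.mk (SpecialLinearGroup.toGL (SpecialLinearGroup.map ι g)) = theta ι (ProjGenLinGroup.mk (SpecialLinearGroup.toGL g))
  rw [theta_mk]
  congr 1
  apply Units.ext
  ext i j
  simp
end


/-- PSL_2(q) has a subgroup isomorphic to A_5 iff 5 ∣ q(q² − 1). -/
theorem result {F : Type*} [Field F] [Fintype F] {q : ℕ} (hF : Fintype.card F = q) : (∃ H : Subgroup (Matrix.ProjectiveSpecialLinearGroup (Fin 2) F), Nonempty (H ≃* alternatingGroup (Fin 5))) ↔ 5 ∣ q * (q ^ 2 - 1) := by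
  classical
  subst hF
  constructor
  · rintro ⟨H, ⟨e⟩⟩
    have hH : Nat.card H = 60 := by
      rw [Nat.card_congr e.toEquiv, nat_card_alternatingGroup]
      simp [Nat.factorial]
    have hcard := Cfsg.Agent.Lib.H1Rigid.PSL2_card (F := F)
    obtain ⟨m, hm⟩ := Subgroup.card_subgroup_dvd_card H
    rw [hH] at hm
    rw [hm] at hcard
    exact ⟨12 * m * Nat.gcd 2 (Fintype.card F - 1), by rw [← hcard]; ring⟩
  · intro h
    by_cases hq : Fintype.card F % 2 = 0
    · -- characteristic two
      have h2 : (2 : F) = 0 := by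
        have h3 := FiniteField.even_card_iff_char_two.2 hq
        have := ringChar.spec F 2
        rw [h3] at this
        exact_mod_cast (this.2 (dvd_refl 2))
      haveI : CharP F 2 := by
        have h3 := FiniteField.even_card_iff_char_two.2 hq
        rw [← h3]
        exact ringChar.charP F
      obtain ⟨n, -, hn⟩ := FiniteField.card F 2
      have h5 : ¬ 5 ∣ Fintype.card F := by
        rw [hn]
        intro h6
        have := (by norm_num : Nat.Prime 5).dvd_of_dvd_pow h6
        omega
      have h6 : 5 ∣ Fintype.card F ^ 2 - 1 := ((by norm_num : Nat.Prime 5).dvd_mul.1 h).resolve_left h5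
      have hn2 : Even (n : ℕ) := by
        by_contra hodd
        rw [Nat.not_even_iff_odd] at hodd
        obtain ⟨k, hk⟩ := hodd
        rw [hn, hk] at h6
        have h7 : (2 ^ (2 * k + 1)) ^ 2 % 5 = 4 := by
          rw [← pow_mul, show (2 * k + 1) * 2 = 2 * (2 * k) + 2 by ring, pow_add, pow_mul, pow_mul, Nat.mul_mod, Nat.pow_mod]
          norm_num
        generalize (2 ^ (2 * k + 1)) ^ 2 = N at h6 h7
        omega
      obtain ⟨k, hk⟩ := hn2
      have hk1 : 1 ≤ k := by
        have := n.pos
        omega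
      letI : Fintype (GaloisField 2 2) := Fintype.ofFinite _
      have hK : Fintype.card (GaloisField 2 2) = 4 := by
        rw [← Nat.card_eq_fintype_card, GaloisField.card 2 2 (by norm_num)]
        norm_num
      obtain ⟨ι⟩ := exists_embed (K := GaloisField 2 2) (F := F) hk1 (by
        rw [hK, hn, hk, ← two_mul, pow_mul]
        norm_num)
      obtain ⟨H, ⟨e⟩⟩ := exists_subfield ι
      obtain ⟨e'⟩ := Cfsg.Agent.S0252.result hK
      exact ⟨H, ⟨e.trans e'⟩⟩
    · have hq' : Fintype.card F % 2 = 1 := by omega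
      have h2 := two_ne (F := F) hq'
      have hchar : ringChar F ≠ 2 := by
        intro h3
        have := FiniteField.even_card_of_char_two h3
        omega
      obtain ⟨a, b, hab⟩ := exists_sum_sq (F := F) hq'
      haveI : Fact (Nat.Prime 5) := ⟨by norm_num⟩
      have hsq : IsSquare ((5 : ℕ) : F) := by
        rw [FiniteField.isSquare_odd_prime_iff hchar (by norm_num), Ne, quadraticChar_neg_one_iff_not_isSquare, not_not]
        have hε : (((χ₄ (Fintype.card F : ZMod 4)) : ℤ) : ZMod 5) = 1 ∨ (((χ₄ (Fintype.card F : ZMod 4)) : ℤ) : ZMod 5) = -1 := by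
          have h4 : Fintype.card F % 4 = 1 ∨ Fintype.card F % 4 = 3 := by omega
          rcases h4 with h4 | h4
          · left
            rw [ZMod.χ₄_nat_one_mod_four h4]
            simp
          · right
            rw [ZMod.χ₄_nat_three_mod_four h4]
            simp
        have hd : ((Fintype.card F : ℕ) : ZMod 5) * (((Fintype.card F : ℕ) : ZMod 5) ^ 2 - 1) = 0 := by
          have h6 := (ZMod.natCast_eq_zero_iff _ 5).2 h
          rw [Nat.cast_mul, Nat.cast_sub (Nat.one_le_pow _ _ Fintype.card_pos)] at h6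
          simpa using h6
        generalize ((Fintype.card F : ℕ) : ZMod 5) = d at hd ⊢
        generalize (((χ₄ (Fintype.card F : ZMod 4)) : ℤ) : ZMod 5) = ε at hε ⊢
        exact chk5 d hd ε hε
      obtain ⟨r, hr⟩ := hsq
      have hr' : r * r = 5 := by
        rw [← hr]
        norm_num
      refine exists_A5 (Φ := (1 + r) * 2⁻¹) (a := a) (b := b) h2 ?_ hab
      field_simp
      linear_combination hr'

end Cfsg.Agent.S0804
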