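import Cfsg.Statements.S0807
import Cfsg.Agent.Lib.PSL2Cent
import Cfsg.Agent.Lib.FGSBasic

set_option autoImplicit false
open Cfsg

namespace Cfsg.Agent.S0807


open Matrix Cfsg.Agent.Lib.H1GL2 Cfsg.Agent.Lib.H1SL2 Cfsg.Agent.Lib.H1PSL2 Cfsg.Agent.Lib.H1PSL2P
  Cfsg.Agent.Lib.H1SL2C Cfsg.Agent.Lib.H1Torus Cfsg.Agent.Lib.PSL2Cent

section klein

variable {G : Type*} [Group G]

/-- Commuting involutions generate a four-group. -/
def kl (u v : G) (hu : u * u = 1) (hv : v * v = 1) (huv : v * u = u * v) : Subgroup G where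
  carrier := {1, u, v, u * v}
  mul_mem' := by
    have e1 : u * (u * v) = v := by rw [← mul_assoc, hu, one_mul]
    have e2 : v * (u * v) = u := by rw [← mul_assoc, huv, mul_assoc, hv, mul_one]
    have e3 : u * v * u = v := by rw [mul_assoc, huv, ← mul_assoc, hu, one_mul]
    have e4 : u * v * v = u := by rw [mul_assoc, hv, mul_one]
    have e5 : u * v * (u * v) = 1 := by rw [mul_assoc, e2, hu]
    intro a b ha hb
    simp only [Set.mem_insert_iff, Set.mem_singleton_iff] at ha hb ⊢
    rcases ha with h | h | h | h <;> rcases hb with h' | h' | h' | h' <;> rw [h, h'] <;>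
      simp [hu, hv, huv, e1, e2, e3, e4, e5]
  one_mem' := by simp
  inv_mem' := by
    have huinv : u⁻¹ = u := inv_eq_of_mul_eq_one_left hu
    have hvinv : v⁻¹ = v := inv_eq_of_mul_eq_one_left hv
    intro a ha
    simp only [Set.mem_insert_iff, Set.mem_singleton_iff] at ha ⊢
    rcases ha with h | h | h | h <;> rw [h] <;> simp [huinv, hvinv, huv]

theorem mem_kl {u v : G} {hu : u * u = 1} {hv : v * v = 1} {huv : v * u = u * v} {x : G} :
    x ∈ kl u v hu hv huv ↔ x = 1 ∨ x = u ∨ x = v ∨ x = u * v := Iff.rfl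

theorem card_kl {u v : G} (hu : u * u = 1) (hv : v * v = 1) (huv : v * u = u * v)
    (hu1 : u ≠ 1) (hv1 : v ≠ 1) (hne : u ≠ v) : Nat.card (kl u v hu hv huv) = 4 := by
  classical
  have h := Nat.subtype_card (p := fun x => x ∈ kl u v hu hv huv) ({1, u, v, u * v} : Finset G)
    (fun x => by simp [mem_kl])
  have h1 : (1 : G) ≠ u * v := by
    intro h
    apply hne
    have h9 : u * v = v * v := by rw [← h, hv]
    exact mul_right_cancel h9
  have h3 : u ≠ u * v := by simpa using hv1
  have h4 : v ≠ u * v := by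
    intro h
    apply hu1
    simpa using h.symm
  have h5 : (({1, u, v, u * v} : Finset G)).card = 4 := by
    rw [Finset.card_insert_of_notMem (by simp [hu1.symm, hv1.symm, h1]),
      Finset.card_insert_of_notMem (by simp [hne, h3]),
      Finset.card_insert_of_notMem (by simp [h4]), Finset.card_singleton]
  rw [h5] at h
  exact h

theorem klein_kl [Finite G] {u v : G} (hu : u * u = 1) (hv : v * v = 1) (huv : v * u = u * v)
    (hu1 : u ≠ 1) (hv1 : v ≠ 1) (hne : u ≠ v) : IsKleinFour (kl u v hu hv huv) := by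
  have hc := card_kl hu hv huv hu1 hv1 hne
  refine ⟨hc, ?_⟩
  haveI : Nontrivial (kl u v hu hv huv) := by
    rw [← Finite.one_lt_card_iff_nontrivial, hc]
    norm_num
  rw [Monoid.exponent_eq_prime_iff Nat.prime_two]
  rintro ⟨g, hg⟩ hg1
  refine orderOf_eq_prime ?_ hg1
  apply Subtype.ext
  show g ^ 2 = 1
  rw [pow_two]
  rcases mem_kl.1 hg with h | h | h | h
  · simp [h]
  · rw [h, hu]
  · rw [h, hv]
  · rw [h, mul_assoc, ← mul_assoc v, huv, mul_assoc, hv, mul_one, hu]

theorem sq_of_order {u : G} (h : orderOf u = 2) : u * u = 1 := by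
  rw [← pow_two, ← h, pow_orderOf_eq_one]

theorem ne_one_of_order {u : G} (h : orderOf u = 2) : u ≠ 1 := by
  rintro rfl
  simp at h

/-- Ordered pairs of distinct commuting involutions. -/
def AA (G : Type*) [Group G] : Type _ :=
  {p : G × G // orderOf p.1 = 2 ∧ orderOf p.2 = 2 ∧ p.1 ≠ p.2 ∧ p.2 * p.1 = p.1 * p.2}

theorem card_pairs {V : Type*} [Group V] [IsKleinFour V] [Finite V] :
    Nat.card {p : V × V // p.1 ≠ 1 ∧ p.2 ≠ 1 ∧ p.1 ≠ p.2} = 6 := by
  classical
  haveI : Fintype V := Fintype.ofFinite V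
  rw [Nat.subtype_card ((Finset.univ.erase (1 : V)).offDiag) (fun p => by
    simp [Finset.mem_offDiag])]
  rw [Finset.offDiag_card, Finset.card_erase_of_mem (Finset.mem_univ _), Finset.card_univ,
    Fintype.card_eq_nat_card, IsKleinFour.card_four]

theorem card_AA_klein [Finite G] :
    Nat.card (AA G) = 6 * Nat.card {V : Subgroup G // IsKleinFour V} := by
  classical
  haveI : Fintype {V : Subgroup G // IsKleinFour V} := Fintype.ofFinite _
  haveI : Finite (AA G) := by
    unfold AA
    infer_instance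
  let f : AA G → {V : Subgroup G // IsKleinFour V} := fun a =>
    ⟨kl a.1.1 a.1.2 (sq_of_order a.2.1) (sq_of_order a.2.2.1) a.2.2.2.2,
      klein_kl _ _ _ (ne_one_of_order a.2.1) (ne_one_of_order a.2.2.1) a.2.2.2.1⟩
  have hfib : ∀ V, Nat.card {a // f a = V} = 6 := by
    rintro ⟨V, hV⟩
    haveI := hV
    rw [← card_pairs (V := V)]
    have hord : ∀ x : V, x ≠ 1 → orderOf (x : G) = 2 := by
      intro x hx
      rw [Subgroup.orderOf_coe]
      exact orderOf_eq_prime (by rw [pow_two]; exact IsKleinFour.mul_self x) hx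
    have hcomm : ∀ a b : V, (b : G) * a = a * b := by
      intro a b
      have e : (a * b)⁻¹ = a * b := IsKleinFour.inv_eq_self _
      rw [_root_.mul_inv_rev, IsKleinFour.inv_eq_self a, IsKleinFour.inv_eq_self b] at e
      exact congrArg Subtype.val e
    let g : {p : V × V // p.1 ≠ 1 ∧ p.2 ≠ 1 ∧ p.1 ≠ p.2} → {a // f a = ⟨V, hV⟩} := fun p =>
      ⟨⟨((p.1.1 : G), (p.1.2 : G)), hord _ p.2.1, hord _ p.2.2.1,
        fun h => p.2.2.2 (Subtype.ext h), hcomm _ _⟩, by
        apply Subtype.ext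
        apply Subgroup.eq_of_le_of_card_ge
        · intro x hx
          have hx' : x = 1 ∨ x = (p.1.1 : G) ∨ x = (p.1.2 : G) ∨ x = (p.1.1 : G) * (p.1.2 : G) := hx
          rcases hx' with h | h | h | h
          · rw [h]; exact V.one_mem
          · rw [h]; exact p.1.1.2
          · rw [h]; exact p.1.2.2
          · rw [h]; exact V.mul_mem p.1.1.2 p.1.2.2
        · have h9 := card_kl (sq_of_order (hord _ p.2.1)) (sq_of_order (hord _ p.2.2.1)) (hcomm _ _)
            (ne_one_of_order (hord _ p.2.1)) (ne_one_of_order (hord _ p.2.2.1))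
            (fun h => p.2.2.2 (Subtype.ext h))
          show Nat.card V ≤ _
          rw [IsKleinFour.card_four]
          exact h9.ge⟩
    symm
    refine Nat.card_congr (Equiv.ofBijective g ⟨?_, ?_⟩)
    · rintro ⟨⟨p1, p2⟩, hp⟩ ⟨⟨r1, r2⟩, hr⟩ h
      have h1 := congrArg (fun z => z.1.1) h
      simp only [g] at h1
      have h3 := (Prod.ext_iff.1 h1)
      apply Subtype.ext
      exact Prod.ext (Subtype.ext h3.1) (Subtype.ext h3.2)
    · rintro ⟨a, ha⟩
      have hV' : kl a.1.1 a.1.2 (sq_of_order a.2.1) (sq_of_order a.2.2.1) a.2.2.2.2 = V :=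
        congrArg Subtype.val ha
      have hm1 : a.1.1 ∈ V := by
        rw [← hV']; exact mem_kl.2 (Or.inr (Or.inl rfl))
      have hm2 : a.1.2 ∈ V := by
        rw [← hV']; exact mem_kl.2 (Or.inr (Or.inr (Or.inl rfl)))
      refine ⟨⟨(⟨_, hm1⟩, ⟨_, hm2⟩), ?_, ?_, ?_⟩, ?_⟩
      · intro h
        exact ne_one_of_order a.2.1 (congrArg Subtype.val h)
      · intro h
        exact ne_one_of_order a.2.2.1 (congrArg Subtype.val h)
      · intro h
        exact a.2.2.2.1 (congrArg Subtype.val h)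
      · apply Subtype.ext
        rfl
  have h1 := Nat.card_congr (Equiv.sigmaFiberEquiv f).symm
  rw [h1, Nat.card_sigma, Finset.sum_congr rfl (fun V _ => hfib V), Finset.sum_const, Finset.card_univ,
    smul_eq_mul, Nat.card_eq_fintype_card (α := {V : Subgroup G // IsKleinFour V}), mul_comm]

/-- The involutions commuting with `u`, other than `u`. -/
def Fb (u : G) : Type _ := {v : G // orderOf v = 2 ∧ u ≠ v ∧ v * u = u * v}

theorem card_AA_of [Finite G] (hconj : ∀ u v : G, orderOf u = 2 → orderOf v = 2 → IsConj u v)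
    (hfib : ∀ u : G, orderOf u = 2 → 2 * Nat.card (Fb u) = Nat.card (Subgroup.centralizer ({u} : Set G)))
    (u₀ : G) (hu₀ : orderOf u₀ = 2) : 2 * Nat.card (AA G) = Nat.card G := by
  classical
  let I := {u : G // orderOf u = 2}
  haveI : Fintype I := Fintype.ofFinite I
  haveI : ∀ u : I, Finite (Fb u.1) := fun u => by
    unfold Fb
    infer_instance
  have hI : ∀ u : G, orderOf u = 2 → Nat.card I * (2 * Nat.card (Fb u)) = Nat.card G := by
    intro u hu
    rw [hfib u hu]
    have h1 : Nat.card I = Nat.card {y : G // IsConj u y} := by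
      refine Nat.card_congr (Equiv.subtypeEquivRight fun y => ⟨fun hy => hconj u y hu hy, fun hy => ?_⟩)
      obtain ⟨c, hc⟩ := isConj_iff.1 hy
      have e := orderOf_injective (MulAut.conj c).toMonoidHom (MulAut.conj c).injective u
      simp only [MulEquiv.toMonoidHom_eq_coe, MonoidHom.coe_coe, MulAut.conj_apply] at e
      rw [← hc, e, hu]
    rw [h1, Cfsg.Agent.Lib.FGSBasic.card_conj_eq_index, Subgroup.index_mul_card]
  haveI : Nonempty I := ⟨⟨u₀, hu₀⟩⟩
  have hpos : 0 < Nat.card I := Nat.card_pos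
  have hconst : ∀ u : I, Nat.card (Fb u.1) = Nat.card (Fb u₀) := by
    intro u
    have h1 := hI u.1 u.2
    have h2 := hI u₀ hu₀
    have h3 : Nat.card I * (2 * Nat.card (Fb u.1)) = Nat.card I * (2 * Nat.card (Fb u₀)) := by rw [h1, h2]
    have h4 := Nat.eq_of_mul_eq_mul_left hpos h3
    omega
  let e : AA G ≃ Σ u : I, Fb u.1 :=
    { toFun := fun a => ⟨⟨a.1.1, a.2.1⟩, ⟨a.1.2, a.2.2.1, a.2.2.2.1, a.2.2.2.2⟩⟩
      invFun := fun s => ⟨(s.1.1, s.2.1), s.1.2, s.2.2.1, s.2.2.2.1, s.2.2.2.2⟩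
      left_inv := fun _ => rfl
      right_inv := fun _ => rfl }
  rw [Nat.card_congr e, Nat.card_sigma, Finset.sum_congr rfl (fun u _ => hconst u), Finset.sum_const,
    Finset.card_univ, smul_eq_mul, ← Nat.card_eq_fintype_card, ← hI u₀ hu₀]
  ring

theorem card_two_one {S Y : Type*} [Finite S] (f : S → Y) (s : S → S) (hs : ∀ a, a ≠ s a)
    (hf : ∀ a b, f a = f b ↔ (a = b ∨ b = s a)) (hsurj : Function.Surjective f) :
    Nat.card S = 2 * Nat.card Y := by
  classical
  haveI : Finite Y := Finite.of_surjective f hsurj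
  haveI : Fintype Y := Fintype.ofFinite Y
  have hfib : ∀ y, Nat.card {a // f a = y} = 2 := by
    intro y
    obtain ⟨a, rfl⟩ := hsurj y
    rw [Nat.card_eq_two_iff]
    refine ⟨⟨a, rfl⟩, ⟨s a, ((hf _ _).2 (Or.inr rfl)).symm⟩, fun h => hs a (congrArg Subtype.val h), ?_⟩
    ext ⟨b, hb⟩
    simp only [Set.mem_insert_iff, Set.mem_singleton_iff, Set.mem_univ, iff_true, Subtype.mk.injEq]
    rcases (hf a b).1 hb.symm with h | h
    · exact Or.inl h.symm
    · exact Or.inr h
  have h1 := Nat.card_congr (Equiv.sigmaFiberEquiv f).symm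
  rw [h1, Nat.card_sigma, Finset.sum_congr rfl (fun V _ => hfib V), Finset.sum_const, Finset.card_univ,
    smul_eq_mul, Nat.card_eq_fintype_card, mul_comm]

end klein

section psl

variable {F : Type*} [Field F] [Fintype F]

theorem mone_ne (h2 : (2 : F) ≠ 0) : (mone : SL2 F) ≠ 1 := by
  intro h
  have := congrArg (fun z : SL2 F => (z : M2 F) 0 0) h
  simp at this
  apply h2
  linear_combination -this

theorem pi_eq_iff (a b : SL2 F) : pi a = pi b ↔ (a = b ∨ b = mone * a) := by
  constructor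
  · intro h
    have h1 : pi (b * a⁻¹) = 1 := by rw [map_mul, map_inv, ← h, mul_inv_cancel]
    rcases (pi_eq_one_iff _).1 h1 with h3 | h3
    · left
      rw [mul_inv_eq_one] at h3
      exact h3.symm
    · right
      rwa [mul_inv_eq_iff_eq_mul] at h3
  · rintro (rfl | rfl)
    · rfl
    · rw [pi_mone_mul]

theorem order_pi (h2 : (2 : F) ≠ 0) (g : SL2 F) (hg : tr g = 0) : orderOf (pi g) = 2 := by
  refine orderOf_eq_prime (by rw [pow_two, ← map_mul, cayley_tr_zero hg, pi_mone]) ?_
  intro h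
  rcases (pi_eq_one_iff g).1 h with h3 | h3
  · rw [h3] at hg
    apply h2
    simp [tr] at hg
    linear_combination hg
  · rw [h3] at hg
    apply h2
    simp [tr, mone] at hg
    linear_combination -hg

theorem lift_inv (h2 : (2 : F) ≠ 0) (z : PSL2 F) (hz : orderOf z = 2) : ∃ w : SL2 F, pi w = z ∧ w * w = mone := by
  obtain ⟨w, hw⟩ := pi_surj z
  refine ⟨w, hw, ?_⟩
  have h3 : pi w ^ 2 = 1 := by
    rw [hw]
    have := pow_orderOf_eq_one z
    rwa [hz] at this
  rcases (pi_pow_eq_one_iff w 2).1 h3 with h | h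
  · exfalso
    rw [pow_two] at h
    have h5 : pi w = 1 := (pi_eq_one_iff w).2 (eq_one_or_mone_of_sq h2 w h)
    rw [hw] at h5
    rw [h5, orderOf_one] at hz
    omega
  · rw [← pow_two]; exact h

/-- Elements anti-commuting with `x`. -/
def WW (x : SL2 F) : Type _ := {g : SL2 F // g * x = mone * (x * g)}

theorem swap_anti {x g : SL2 F} (h : g * x = mone * (x * g)) : x * g = mone * (g * x) := by
  rw [h, ← mul_assoc, mone_mul_mone, one_mul]

theorem tr_anti (h2 : (2 : F) ≠ 0) {x g : SL2 F} (h : g * x = mone * (x * g)) : tr g = 0 := by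
  have h1 := tr_neg_of_mul g x (swap_anti h)
  have h3 : (2 : F) * tr g = 0 := by linear_combination h1
  exact (mul_eq_zero.1 h3).resolve_left h2

theorem anti_mem (h2 : (2 : F) ≠ 0) {x g : SL2 F} (hx : x * x = mone) (h : g * x = mone * (x * g)) :
    orderOf (pi g) = 2 ∧ pi x ≠ pi g ∧ pi g * pi x = pi x * pi g := by
  refine ⟨order_pi h2 g (tr_anti h2 h), ?_, ?_⟩
  · intro h3
    rcases (pi_eq_iff x g).1 h3 with rfl | rfl
    · rw [hx] at h
      rw [mone_mul_mone] at h
      exact mone_ne h2 h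
    · apply mone_ne h2
      have h4 : mone * x * x = 1 := by rw [mul_assoc, hx, mone_mul_mone]
      have h5 : mone * (x * (mone * x)) = mone := by
        rw [← mul_assoc x, ← mone_comm x, mul_assoc mone x x, hx, ← mul_assoc, mone_mul_mone, one_mul]
      rw [h4, h5] at h
      exact h.symm
  · rw [← map_mul, ← map_mul, h, pi_mone_mul]

theorem card_WW (h2 : (2 : F) ≠ 0) {x : SL2 F} (hx : x * x = mone) :
    Nat.card (WW x) = 2 * Nat.card (Fb (pi x)) := by
  haveI : Finite (WW x) := by
    unfold WW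
    infer_instance
  let f : WW x → Fb (pi x) := fun g => ⟨pi g.1, anti_mem h2 hx g.2⟩
  let s : WW x → WW x := fun g => ⟨mone * g.1, by
    have := g.2
    rw [mul_assoc, this, ← mul_assoc x mone, ← mone_comm x, mul_assoc mone x]⟩
  refine card_two_one f s ?_ ?_ ?_
  · intro a h
    have h1 : a.1 = mone * a.1 := congrArg Subtype.val h
    apply mone_ne h2
    exact (mul_eq_right.1 h1.symm)
  · intro a b
    have h1 : f a = f b ↔ pi a.1 = pi b.1 := Subtype.ext_iff
    rw [h1, pi_eq_iff]
    constructor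
    · rintro (h | h)
      · exact Or.inl (Subtype.ext h)
      · exact Or.inr (Subtype.ext h)
    · rintro (h | h)
      · exact Or.inl (congrArg Subtype.val h)
      · exact Or.inr (congrArg Subtype.val h)
  · rintro ⟨v, hv1, hv2, hv3⟩
    obtain ⟨g, rfl, hg⟩ := lift_inv h2 v hv1
    rw [← map_mul, ← map_mul, pi_eq_iff] at hv3
    have hanti : g * x = mone * (x * g) := by
      rcases hv3 with h | h
      · exfalso
        have h5 : (g * x) * (g * x) = 1 := by
          calc (g * x) * (g * x) = g * (x * g) * x := by group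
            _ = g * (g * x) * x := by rw [h]
            _ = (g * g) * (x * x) := by group
            _ = 1 := by rw [hg, hx, mone_mul_mone]
        rcases eq_one_or_mone_of_sq h2 _ h5 with h6 | h6
        · apply hv2
          rw [pi_eq_iff]
          right
          have h7 : g = x⁻¹ := eq_inv_of_mul_eq_one_left h6
          rw [h7, inv_eq_iff_mul_eq_one, ← mul_assoc, ← mone_comm x, mul_assoc, hx, mone_mul_mone]
        · apply hv2
          rw [pi_eq_iff]
          left
          have h7 : g = mone * x⁻¹ := by rwa [← eq_mul_inv_iff_mul_eq] at h6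
          rw [h7, eq_comm, mul_inv_eq_iff_eq_mul, hx]
      · exact swap_anti h
    exact ⟨⟨g, hanti⟩, Subtype.ext rfl⟩

theorem card_WW_Tz (h2 : (2 : F) ≠ 0) {x : SL2 F} (hx : x * x = mone) :
    Nat.card (WW x) = Nat.card (Tz x) := by
  have h4 : tr x ^ 2 ≠ 4 := Cfsg.Agent.S0809.tr_sq_ne h2 hx
  obtain ⟨w, hw⟩ := exists_inverter h4
  have hinv : x⁻¹ = mone * x := by
    rw [inv_eq_iff_mul_eq_one, ← mul_assoc, ← mone_comm x, mul_assoc, hx, mone_mul_mone]
  have hw2 : w * x = mone * (x * w) := by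
    have : w * x = x⁻¹ * w := by rw [← hw]; group
    rw [this, hinv, mul_assoc]
  symm
  refine Nat.card_congr (Equiv.ofBijective (fun t : Tz x => (⟨w * t.1, ?_⟩ : WW x)) ⟨?_, ?_⟩)
  · have h1 : t.1 * x = x * t.1 := mem_Tz.1 t.2
    rw [mul_assoc, h1, ← mul_assoc, hw2, mul_assoc, mul_assoc]
  · intro a b h
    apply Subtype.ext
    have h1 : w * a.1 = w * b.1 := congrArg Subtype.val h
    exact mul_left_cancel h1
  · rintro ⟨g, hg⟩
    refine ⟨⟨w⁻¹ * g, ?_⟩, ?_⟩
    · rw [mem_Tz]
      have e : w⁻¹ * (mone * x) = x * w⁻¹ := by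
        rw [inv_mul_eq_iff_eq_mul, ← mul_assoc, hw2, mul_assoc, mul_assoc, mul_inv_cancel, mul_one]
      rw [mul_assoc, hg, ← mul_assoc mone, ← mul_assoc, e, mul_assoc]
    · apply Subtype.ext
      show w * (w⁻¹ * g) = g
      group

theorem card_SL_PSL (h2 : (2 : F) ≠ 0) : Nat.card (SL2 F) = 2 * Nat.card (PSL2 F) := by
  refine card_two_one pi (fun g => mone * g) ?_ pi_eq_iff pi_surj
  intro a h
  apply mone_ne h2
  exact mul_eq_right.1 h.symm

theorem card_cent (h2 : (2 : F) ≠ 0) {x : SL2 F} (hx : x * x = mone) :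
    Nat.card (Subgroup.centralizer ({pi x} : Set (PSL2 F))) = Nat.card (Tz x) := by
  have h1 := index_cent_zero h2 x (Cfsg.Agent.S0809.tr_zero_of_sq h2 hx)
  have h3 := (Subgroup.centralizer ({pi x} : Set (PSL2 F))).index_mul_card
  have h4 := (Tz x).index_mul_card
  rw [card_SL_PSL h2, ← h3, ← h1] at h4
  have h5 : (Subgroup.centralizer ({pi x} : Set (PSL2 F))).index ≠ 0 := Subgroup.index_ne_zero_of_finite
  have h6 : ((Subgroup.centralizer ({pi x} : Set (PSL2 F))).index * 2) * Nat.card (Tz x) =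
      ((Subgroup.centralizer ({pi x} : Set (PSL2 F))).index * 2) * Nat.card (Subgroup.centralizer ({pi x} : Set (PSL2 F))) := by
    rw [h4]
    ring
  exact (Nat.eq_of_mul_eq_mul_left (by omega) h6).symm

end psl


/-- For q odd, twelve times the number of Klein four-subgroups of PSL_2(q) equals the order of PSL_2(q). -/
theorem result {F : Type*} [Field F] [Fintype F] {q : ℕ} (hF : Fintype.card F = q) (hodd : Odd q) : 12 * Nat.card {V : Subgroup (Matrix.ProjectiveSpecialLinearGroup (Fin 2) F) // IsKleinFour V} = Nat.card (Matrix.ProjectiveSpecialLinearGroup (Fin 2) F) := by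
  classical
  subst hF
  have hchar : ringChar F ≠ 2 := by
    intro h
    have := FiniteField.even_card_of_char_two h
    obtain ⟨k, hk⟩ := hodd
    omega
  have h2 : (2 : F) ≠ 0 := Ring.two_ne_zero hchar
  have hconj : ∀ u v : Matrix.ProjectiveSpecialLinearGroup (Fin 2) F, orderOf u = 2 → orderOf v = 2 → IsConj u v := by
    intro a b ha hb
    obtain ⟨u, rfl, hu⟩ := lift_inv h2 a ha
    obtain ⟨v, rfl, hv⟩ := lift_inv h2 b hb
    exact MonoidHom.map_isConj pi (conj_of_trace u v
      (by rw [Cfsg.Agent.S0809.tr_zero_of_sq h2 hu, Cfsg.Agent.S0809.tr_zero_of_sq h2 hv])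
      (Cfsg.Agent.S0809.tr_sq_ne h2 hu))
  have hfib : ∀ u : Matrix.ProjectiveSpecialLinearGroup (Fin 2) F, orderOf u = 2 →
      2 * Nat.card (Fb u) = Nat.card (Subgroup.centralizer ({u} : Set (Matrix.ProjectiveSpecialLinearGroup (Fin 2) F))) := by
    intro u hu
    obtain ⟨x, rfl, hx⟩ := lift_inv h2 u hu
    rw [← card_WW h2 hx, card_WW_Tz h2 hx, card_cent h2 hx]
  let x₀ : SL2 F := mk 0 1 (-1) 0 (by ring)
  have hx₀ : tr x₀ = 0 := by simp [x₀, tr]
  have h3 := card_AA_of hconj hfib (pi x₀) (order_pi h2 x₀ hx₀)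
  rw [card_AA_klein] at h3
  rw [← h3]
  ring

end Cfsg.Agent.S0807
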