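import Cfsg.Statements.S0808
import Cfsg.Agent.S0807
import Cfsg.Agent.Lib.H1SL2Syl2

set_option autoImplicit false
open Cfsg

namespace Cfsg.Agent.S0808


open Matrix Cfsg.Agent.Lib.H1GL2 Cfsg.Agent.Lib.H1SL2 Cfsg.Agent.Lib.H1PSL2 Cfsg.Agent.Lib.H1PSL2P
  Cfsg.Agent.Lib.H1SL2C Cfsg.Agent.Lib.H1Torus Cfsg.Agent.Lib.PSL2Cent Cfsg.Agent.S0807

section act

variable {G : Type*} [Group G]

theorem order_conj (g u : G) : orderOf (g * u * g⁻¹) = orderOf u := by
  have e := orderOf_injective (MulAut.conj g).toMonoidHom (MulAut.conj g).injective u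
  simpa only [MulEquiv.toMonoidHom_eq_coe, MonoidHom.coe_coe, MulAut.conj_apply] using e

instance instAct : MulAction G (AA G) where
  smul g p := ⟨(g * p.1.1 * g⁻¹, g * p.1.2 * g⁻¹), by
      show orderOf (g * p.1.1 * g⁻¹) = 2
      rw [order_conj]; exact p.2.1, by
      show orderOf (g * p.1.2 * g⁻¹) = 2
      rw [order_conj]; exact p.2.2.1, fun h => p.2.2.2.1 (by
        have h1 : g * p.1.1 * g⁻¹ = g * p.1.2 * g⁻¹ := h
        simpa using h1), by
      show g * p.1.2 * g⁻¹ * (g * p.1.1 * g⁻¹) = g * p.1.1 * g⁻¹ * (g * p.1.2 * g⁻¹)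
      have := p.2.2.2.2
      calc g * p.1.2 * g⁻¹ * (g * p.1.1 * g⁻¹) = g * (p.1.2 * p.1.1) * g⁻¹ := by group
        _ = g * (p.1.1 * p.1.2) * g⁻¹ := by rw [this]
        _ = _ := by group⟩
  one_smul p := Subtype.ext (Prod.ext (by show 1 * p.1.1 * 1⁻¹ = p.1.1; group)
    (by show 1 * p.1.2 * 1⁻¹ = p.1.2; group))
  mul_smul g h p := Subtype.ext (Prod.ext (by
      show (g * h) * p.1.1 * (g * h)⁻¹ = g * (h * p.1.1 * h⁻¹) * g⁻¹; group)
    (by show (g * h) * p.1.2 * (g * h)⁻¹ = g * (h * p.1.2 * h⁻¹) * g⁻¹; group))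

theorem smul_1 (g : G) (p : AA G) : (g • p).1.1 = g * p.1.1 * g⁻¹ := rfl
theorem smul_2 (g : G) (p : AA G) : (g • p).1.2 = g * p.1.2 * g⁻¹ := rfl

/-- The four-group of a pair. -/
def klp (p : AA G) : Subgroup G := kl p.1.1 p.1.2 (sq_of_order p.2.1) (sq_of_order p.2.2.1) p.2.2.2.2

theorem mem_klp {p : AA G} {x : G} :
    x ∈ klp p ↔ x = 1 ∨ x = p.1.1 ∨ x = p.1.2 ∨ x = p.1.1 * p.1.2 := Iff.rfl

theorem card_klp (p : AA G) : Nat.card (klp p) = 4 :=
  card_kl _ _ _ (ne_one_of_order p.2.1) (ne_one_of_order p.2.2.1) p.2.2.2.1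

theorem klein_klp [Finite G] (p : AA G) : IsKleinFour (klp p) :=
  klein_kl _ _ _ (ne_one_of_order p.2.1) (ne_one_of_order p.2.2.1) p.2.2.2.1

theorem klp_smul (g : G) (p : AA G) : klp (g • p) = (klp p).map (MulAut.conj g).toMonoidHom := by
  ext x
  simp only [Subgroup.mem_map, MulEquiv.toMonoidHom_eq_coe, MonoidHom.coe_coe, MulAut.conj_apply]
  constructor
  · intro hx
    refine ⟨g⁻¹ * x * g, ?_, by group⟩
    rcases mem_klp.1 hx with h | h | h | h
    · rw [h]; exact mem_klp.2 (Or.inl (by group))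
    · rw [h, smul_1]; exact mem_klp.2 (Or.inr (Or.inl (by group)))
    · rw [h, smul_2]; exact mem_klp.2 (Or.inr (Or.inr (Or.inl (by group))))
    · rw [h, smul_1, smul_2]; exact mem_klp.2 (Or.inr (Or.inr (Or.inr (by group))))
  · rintro ⟨y, hy, rfl⟩
    rcases mem_klp.1 hy with h | h | h | h
    · rw [h]; exact mem_klp.2 (Or.inl (by group))
    · rw [h]; exact mem_klp.2 (Or.inr (Or.inl (by rw [smul_1])))
    · rw [h]; exact mem_klp.2 (Or.inr (Or.inr (Or.inl (by rw [smul_2]))))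
    · rw [h]; exact mem_klp.2 (Or.inr (Or.inr (Or.inr (by rw [smul_1, smul_2]; group))))

theorem exists_pair [Finite G] (W : Subgroup G) (hW : IsKleinFour W) : ∃ p : AA G, klp p = W := by
  haveI := hW
  have hord : ∀ x : W, x ≠ 1 → orderOf (x : G) = 2 := by
    intro x hx
    rw [Subgroup.orderOf_coe]
    exact orderOf_eq_prime (by rw [pow_two]; exact IsKleinFour.mul_self x) hx
  have hcomm : ∀ a b : W, (b : G) * a = a * b := by
    intro a b
    have e : (a * b)⁻¹ = a * b := IsKleinFour.inv_eq_self _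
    rw [_root_.mul_inv_rev, IsKleinFour.inv_eq_self a, IsKleinFour.inv_eq_self b] at e
    exact congrArg Subtype.val e
  have h6 := card_pairs (V := W)
  have hne : Nonempty {p : W × W // p.1 ≠ 1 ∧ p.2 ≠ 1 ∧ p.1 ≠ p.2} := by
    apply (Nat.card_pos_iff.1 (by omega)).1
  obtain ⟨⟨⟨u, v⟩, hu, hv, huv⟩⟩ := hne
  let p : AA G := ⟨((u : G), (v : G)), hord u hu, hord v hv, fun h => huv (Subtype.ext h), hcomm u v⟩
  refine ⟨p, Subgroup.eq_of_le_of_card_ge ?_ ?_⟩
  · intro x hx
    rcases mem_klp.1 hx with h | h | h | h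
    · rw [h]; exact W.one_mem
    · rw [h]; exact u.2
    · rw [h]; exact v.2
    · rw [h]; exact W.mul_mem u.2 v.2
  · rw [card_klp, IsKleinFour.card_four]

/-- Two ordered pairs are conjugate. -/
def Cj (a b c d : G) : Prop := ∃ g : G, g * a * g⁻¹ = c ∧ g * b * g⁻¹ = d

theorem Cj.trans {a b c d e f : G} (h1 : Cj a b c d) (h2 : Cj c d e f) : Cj a b e f := by
  obtain ⟨g, rfl, rfl⟩ := h1
  obtain ⟨g', rfl, rfl⟩ := h2
  exact ⟨g' * g, by group, by group⟩

theorem mem_orbit_of_Cj {p q : AA G} (h : Cj p.1.1 p.1.2 q.1.1 q.1.2) : q ∈ MulAction.orbit G p := by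
  obtain ⟨g, h1, h2⟩ := h
  exact ⟨g, Subtype.ext (Prod.ext h1 h2)⟩

/-- The six ordered pairs of a four-group are conjugate. -/
theorem pairs_conj (hM1 : ∀ p : AA G, Cj p.1.1 p.1.2 (p.1.1 * p.1.2) p.1.1)
    (hM2 : ∀ p : AA G, Cj p.1.1 p.1.2 p.1.1 (p.1.1 * p.1.2)) (p q : AA G)
    (hc : q.1.1 ∈ klp p) (hd : q.1.2 ∈ klp p) : q ∈ MulAction.orbit G p := by
  obtain ⟨⟨a, b⟩, ha, hb, hab, hcomm⟩ := p
  simp only at ha hb hab hcomm
  have haa := sq_of_order ha
  have hbb := sq_of_order hb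
  have hab1 : a * b ≠ 1 := by
    intro h
    apply hab
    have h9 : a * b = b * b := by rw [h, hbb]
    exact mul_right_cancel h9
  have hordab : orderOf (a * b) = 2 := by
    refine orderOf_eq_prime ?_ hab1
    rw [pow_two, mul_assoc, ← mul_assoc b, hcomm, mul_assoc, hbb, mul_one, haa]
  have e1 : a * b * a = b := by rw [mul_assoc, hcomm, ← mul_assoc, haa, one_mul]
  have e2 : a * (a * b) = b := by rw [← mul_assoc, haa, one_mul]
  have e3 : a * b * b = a := by rw [mul_assoc, hbb, mul_one]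
  have e4 : b * (a * b) = a := by rw [← mul_assoc, hcomm, e3]
  have hab2 : a * b ≠ a := by
    intro h
    apply ne_one_of_order hb
    simpa using h
  have hab3 : a * b ≠ b := by
    intro h
    apply ne_one_of_order ha
    simpa using h
  let p0 : AA G := ⟨(a, b), ha, hb, hab, hcomm⟩
  let p1 : AA G := ⟨(a * b, a), hordab, ha, hab2, by
    show a * (a * b) = a * b * a
    rw [e1, e2]⟩
  let p2 : AA G := ⟨(b, a * b), hb, hordab, hab3.symm, by
    show a * b * b = b * (a * b)
    rw [e3, e4]⟩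
  let p3 : AA G := ⟨(a, a * b), ha, hordab, hab2.symm, by
    show a * b * a = a * (a * b)
    rw [e1, e2]⟩
  let p4 : AA G := ⟨(b, a), hb, ha, hab.symm, hcomm.symm⟩
  have c1 : Cj a b (a * b) a := hM1 p0
  have c2 : Cj a b b (a * b) := by
    have := c1.trans (hM1 p1)
    simpa only [p1, e1] using this
  have c3 : Cj a b a (a * b) := hM2 p0
  have c4 : Cj a b b a := by
    have := c3.trans (hM1 p3)
    simpa only [p3, e2] using this
  have c5 : Cj a b (a * b) b := by
    have := c4.trans (hM1 p4)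
    simpa only [p4, hcomm] using this
  have c0 : Cj a b a b := ⟨1, by group, by group⟩
  apply mem_orbit_of_Cj
  show Cj a b q.1.1 q.1.2
  have hq1 := ne_one_of_order q.2.1
  have hq2 := ne_one_of_order q.2.2.1
  have hq3 := q.2.2.2.1
  rcases mem_klp.1 hc with h | h | h | h
  · exact absurd h hq1
  all_goals rcases mem_klp.1 hd with h' | h' | h' | h'
  · exact absurd h' hq2
  · exact absurd (h.trans h'.symm) hq3
  · rw [h, h']; exact c0
  · rw [h, h']; exact c3
  · exact absurd h' hq2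
  · rw [h, h']; exact c4
  · exact absurd (h.trans h'.symm) hq3
  · rw [h, h']; exact c2
  · exact absurd h' hq2
  · rw [h, h']; exact c1
  · rw [h, h']; exact c5
  · exact absurd (h.trans h'.symm) hq3

theorem two_classes [Finite G] (hA : 2 * Nat.card (AA G) = Nat.card G)
    (horb : ∀ p : AA G, Nat.card (MulAction.orbit G p) * 4 = Nat.card G)
    (hM1 : ∀ p : AA G, Cj p.1.1 p.1.2 (p.1.1 * p.1.2) p.1.1)
    (hM2 : ∀ p : AA G, Cj p.1.1 p.1.2 p.1.1 (p.1.1 * p.1.2)) :
    ∃ V₁ V₂ : Subgroup G, IsKleinFour V₁ ∧ IsKleinFour V₂ ∧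
      (¬ ∃ g : G, V₂ = V₁.map (MulAut.conj g).toMonoidHom) ∧
      ∀ W : Subgroup G, IsKleinFour W → (∃ g : G, W = V₁.map (MulAut.conj g).toMonoidHom) ∨
        (∃ g : G, W = V₂.map (MulAut.conj g).toMonoidHom) := by
  classical
  haveI : Finite (AA G) := by
    unfold AA
    infer_instance
  have hGpos : 0 < Nat.card G := Nat.card_pos
  have hne : Nonempty (AA G) := by
    apply (Nat.card_pos_iff.1 (by omega)).1
  obtain ⟨p₁⟩ := hne
  have h1 : ∀ p : AA G, 2 * Nat.card (MulAction.orbit G p) = Nat.card (AA G) := by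
    intro p
    have := horb p
    omega
  obtain ⟨p₂, hp₂⟩ : ∃ p₂, p₂ ∉ MulAction.orbit G p₁ := by
    by_contra hcon
    push Not at hcon
    have h3 : MulAction.orbit G p₁ = Set.univ := Set.eq_univ_of_forall hcon
    have h4 := h1 p₁
    rw [h3, Nat.card_coe_set_eq, Set.ncard_univ] at h4
    omega
  have hswap : ∀ (g : G) (p q : AA G), g • p ∈ MulAction.orbit G q → p ∈ MulAction.orbit G q := by
    rintro g p q ⟨h, hh⟩
    refine ⟨g⁻¹ * h, ?_⟩
    show (g⁻¹ * h) • q = p
    rw [mul_smul]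
    show g⁻¹ • (h • q) = p
    rw [show h • q = g • p from hh, smul_smul, inv_mul_cancel, one_smul]
  have hdisj : Disjoint (MulAction.orbit G p₁) (MulAction.orbit G p₂) := by
    rw [Set.disjoint_left]
    rintro x hx ⟨h, hh⟩
    apply hp₂
    have hh' : h • p₂ = x := hh
    rw [← hh'] at hx
    exact hswap h p₂ p₁ hx
  have hcover : MulAction.orbit G p₁ ∪ MulAction.orbit G p₂ = Set.univ := by
    apply Set.eq_of_subset_of_ncard_le (Set.subset_univ _) _ Set.finite_univ
    rw [Set.ncard_univ, Set.ncard_union_eq hdisj (Set.toFinite _) (Set.toFinite _),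
      ← Nat.card_coe_set_eq, ← Nat.card_coe_set_eq]
    have h3 := h1 p₁
    have h4 := h1 p₂
    omega
  refine ⟨klp p₁, klp p₂, klein_klp p₁, klein_klp p₂, ?_, ?_⟩
  · rintro ⟨g, hg⟩
    rw [← klp_smul] at hg
    have h3 : g • p₁ ∈ MulAction.orbit G p₂ := by
      apply pairs_conj hM1 hM2
      · rw [hg]; exact mem_klp.2 (Or.inr (Or.inl rfl))
      · rw [hg]; exact mem_klp.2 (Or.inr (Or.inr (Or.inl rfl)))
    have h4 := hswap g p₁ p₂ h3
    obtain ⟨h, hh⟩ := h4
    apply hp₂
    refine ⟨h⁻¹, ?_⟩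
    have hh' : h • p₂ = p₁ := hh
    show h⁻¹ • p₁ = p₂
    rw [← hh', smul_smul, inv_mul_cancel, one_smul]
  · intro W hW
    obtain ⟨p, rfl⟩ := exists_pair W hW
    have h3 : p ∈ MulAction.orbit G p₁ ∪ MulAction.orbit G p₂ := by
      rw [hcover]; trivial
    rcases h3 with ⟨g, hg⟩ | ⟨g, hg⟩
    · left
      refine ⟨g, ?_⟩
      rw [← klp_smul]
      exact congrArg klp hg.symm
    · right
      refine ⟨g, ?_⟩
      rw [← klp_smul]
      exact congrArg klp hg.symm

theorem same_sign {t s z ε : G} (hε : ∀ g, ε * g = g * ε) (hεε : ε * ε = 1)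
    (ht : t * z = ε * (z * t)) (hs : s * z = ε * (z * s)) : (t * s⁻¹) * z = z * (t * s⁻¹) := by
  have e : s⁻¹ * z = ε * (z * s⁻¹) := by
    rw [inv_mul_eq_iff_eq_mul]
    calc z = ε * ε * (z * s) * s⁻¹ := by rw [hεε]; group
      _ = ε * (ε * (z * s)) * s⁻¹ := by group
      _ = ε * (s * z) * s⁻¹ := by rw [hs]
      _ = (ε * s) * z * s⁻¹ := by group
      _ = (s * ε) * z * s⁻¹ := by rw [hε s]
      _ = s * (ε * (z * s⁻¹)) := by group
  calc (t * s⁻¹) * z = t * (s⁻¹ * z) := by group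
    _ = t * (ε * (z * s⁻¹)) := by rw [e]
    _ = (t * ε) * z * s⁻¹ := by group
    _ = (ε * t) * z * s⁻¹ := by rw [hε t]
    _ = ε * (t * z) * s⁻¹ := by group
    _ = ε * (ε * (z * t)) * s⁻¹ := by rw [ht]
    _ = ε * ε * (z * t) * s⁻¹ := by group
    _ = z * (t * s⁻¹) := by rw [hεε]; group

end act

section psl

variable {F : Type*} [Field F] [Fintype F]

theorem comm_both (h2 : (2 : F) ≠ 0) {x y t : SL2 F} (hx : x * x = mone) (hyx : y * x = mone * (x * y))
    (h1 : t * x = x * t) (h3 : t * y = y * t) : t = 1 ∨ t = mone := by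
  have hm : ((mone : SL2 F) : M2 F) = -1 := by
    ext a b
    fin_cases a <;> fin_cases b <;> simp [mone, mk]
  have hji : (y : M2 F) * (x : M2 F) = -((x : M2 F) * (y : M2 F)) := by
    have := congrArg (fun z : SL2 F => (z : M2 F)) hyx
    simpa [Matrix.SpecialLinearGroup.coe_mul, hm] using this
  obtain ⟨a, b, hab, hrel⟩ := exists_form (Cfsg.Agent.S0809.tr_sq_ne h2 hx) (mem_Tz.2 h1)
  rw [Cfsg.Agent.S0809.tr_zero_of_sq h2 hx] at hrel
  have h4 : ((t : M2 F)) * (y : M2 F) = (y : M2 F) * (t : M2 F) := congrArg Subtype.val h3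
  rw [hab] at h4
  have h5 : (2 * b) • ((x : M2 F) * (y : M2 F)) = 0 := by
    have h6 : (a • (1 : M2 F) + b • (x : M2 F)) * (y : M2 F) = a • (y : M2 F) + b • ((x : M2 F) * (y : M2 F)) := by
      simp [add_mul]
    have h7 : (y : M2 F) * (a • (1 : M2 F) + b • (x : M2 F)) = a • (y : M2 F) - b • ((x : M2 F) * (y : M2 F)) := by
      simp [mul_add, hji, sub_eq_add_neg]
    rw [h6, h7] at h4
    have h8 : b • ((x : M2 F) * (y : M2 F)) = - b • ((x : M2 F) * (y : M2 F)) := by
      have := add_left_cancel (a := a • (y : M2 F)) (b := b • ((x : M2 F) * (y : M2 F)))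
        (c := - b • ((x : M2 F) * (y : M2 F))) (by rw [h4]; simp [sub_eq_add_neg])
      exact this
    have h9 : (2 * b) • ((x : M2 F) * (y : M2 F)) = b • ((x : M2 F) * (y : M2 F)) - (- b) • ((x : M2 F) * (y : M2 F)) := by
      module
    rw [h9, ← h8, sub_self]
  have hb : b = 0 := by
    by_contra hb
    have h6 := (smul_eq_zero.1 h5).resolve_left (mul_ne_zero h2 hb)
    have h7 : ((x * y : SL2 F) : M2 F).det = 1 := (x * y).2
    have h8 : ((x * y : SL2 F) : M2 F) = 0 := h6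
    rw [h8, Matrix.det_zero] at h7
    exact zero_ne_one h7
  rw [hb] at hrel hab
  have ha : a ^ 2 = 1 := by linear_combination hrel
  rw [zero_smul, add_zero] at hab
  have h6 : (a - 1) * (a + 1) = 0 := by linear_combination ha
  rcases mul_eq_zero.1 h6 with h7 | h7
  · left
    have : a = 1 := by linear_combination h7
    rw [this, one_smul] at hab
    exact Subtype.ext hab
  · right
    have : a = -1 := by linear_combination h7
    rw [this, neg_smul, one_smul] at hab
    exact Subtype.ext (hab.trans hm.symm)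

theorem stab_mem (h2 : (2 : F) ≠ 0) {x y : SL2 F} (hx : x * x = mone) (hy : y * y = mone)
    (hyx : y * x = mone * (x * y)) {g : PSL2 F} (h1 : g * pi x = pi x * g) (h3 : g * pi y = pi y * g) :
    g = 1 ∨ g = pi x ∨ g = pi y ∨ g = pi x * pi y := by
  obtain ⟨t, rfl⟩ := pi_surj g
  rw [← map_mul, ← map_mul, pi_eq_iff] at h1 h3
  have h1' : t * x = 1 * (x * t) ∨ t * x = mone * (x * t) := by
    rcases h1 with h | h
    · left; rw [h, one_mul]
    · right; exact swap_anti h
  have h3' : t * y = 1 * (y * t) ∨ t * y = mone * (y * t) := by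
    rcases h3 with h | h
    · left; rw [h, one_mul]
    · right; exact swap_anti h
  have hc1 : ∀ g : SL2 F, (1 : SL2 F) * g = g * 1 := fun g => by group
  have hxy : x * y = mone * (y * x) := swap_anti hyx
  have finish : ∀ s : SL2 F, (t * s⁻¹) * x = x * (t * s⁻¹) → (t * s⁻¹) * y = y * (t * s⁻¹) → pi t = pi s := by
    intro s h4 h5
    rcases comm_both h2 hx hyx h4 h5 with h6 | h6
    · rw [mul_inv_eq_one] at h6
      rw [h6]
    · rw [mul_inv_eq_iff_eq_mul] at h6
      rw [h6, pi_mone_mul]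
  rcases h1' with h4 | h4 <;> rcases h3' with h5 | h5
  · left
    have := finish 1 (same_sign hc1 (by group) h4 (by group)) (same_sign hc1 (by group) h5 (by group))
    simpa using this
  · right; left
    exact finish x (same_sign hc1 (by group) h4 (by group)) (same_sign mone_comm mone_mul_mone h5 hxy)
  · right; right; left
    exact finish y (same_sign mone_comm mone_mul_mone h4 hyx) (same_sign hc1 (by group) h5 (by group))
  · right; right; right
    rw [← map_mul]
    refine finish (x * y) (same_sign mone_comm mone_mul_mone h4 ?_) (same_sign mone_comm mone_mul_mone h5 ?_)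
    · calc x * y * x = x * (y * x) := by group
        _ = x * (mone * (x * y)) := by rw [hyx]
        _ = (x * mone) * (x * y) := by group
        _ = mone * (x * (x * y)) := by rw [← mone_comm x]; group
    · calc x * y * y = mone * (mone * (x * y * y)) := by
            rw [← mul_assoc, mone_mul_mone, one_mul]
        _ = mone * ((mone * (x * y)) * y) := by group
        _ = mone * ((y * x) * y) := by
            rw [show mone * (x * y) = y * x from hyx.symm]
        _ = mone * (y * (x * y)) := by group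

theorem lift_pair (h2 : (2 : F) ≠ 0) (p : AA (PSL2 F)) : ∃ x y : SL2 F, pi x = p.1.1 ∧ pi y = p.1.2 ∧
    x * x = mone ∧ y * y = mone ∧ y * x = mone * (x * y) ∧ y ≠ x := by
  obtain ⟨x, hx1, hx⟩ := lift_inv h2 p.1.1 p.2.1
  obtain ⟨y, hy1, hy⟩ := lift_inv h2 p.1.2 p.2.2.1
  have hne : pi x ≠ pi y := by
    rw [hx1, hy1]; exact p.2.2.2.1
  have hc : pi y * pi x = pi x * pi y := by
    rw [hx1, hy1]; exact p.2.2.2.2
  refine ⟨x, y, hx1, hy1, hx, hy, ?_, fun h => hne (by rw [h])⟩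
  rw [← map_mul, ← map_mul, pi_eq_iff] at hc
  rcases hc with h | h
  · exfalso
    have h5 : (y * x) * (y * x) = 1 := by
      calc (y * x) * (y * x) = y * (x * y) * x := by group
        _ = y * (y * x) * x := by rw [h]
        _ = (y * y) * (x * x) := by group
        _ = 1 := by rw [hx, hy, mone_mul_mone]
    rcases eq_one_or_mone_of_sq h2 _ h5 with h6 | h6
    · apply hne
      rw [pi_eq_iff]
      right
      have h7 : y = x⁻¹ := eq_inv_of_mul_eq_one_left h6
      rw [h7, inv_eq_iff_mul_eq_one, ← mul_assoc, ← mone_comm x, mul_assoc, hx, mone_mul_mone]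
    · apply hne
      rw [pi_eq_iff]
      left
      have h7 : y = mone * x⁻¹ := by rwa [← eq_mul_inv_iff_mul_eq] at h6
      rw [h7, eq_comm, mul_inv_eq_iff_eq_mul, hx]
  · exact swap_anti h

theorem stab_eq (h2 : (2 : F) ≠ 0) (p : AA (PSL2 F)) : MulAction.stabilizer (PSL2 F) p = klp p := by
  obtain ⟨x, y, hx1, hy1, hx, hy, hyx, -⟩ := lift_pair h2 p
  have hu := sq_of_order p.2.1
  have hv := sq_of_order p.2.2.1
  have huv := p.2.2.2.2
  have hst : ∀ g : PSL2 F, g ∈ MulAction.stabilizer (PSL2 F) p ↔ g * p.1.1 = p.1.1 * g ∧ g * p.1.2 = p.1.2 * g := by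
    intro g
    rw [MulAction.mem_stabilizer_iff]
    constructor
    · intro h
      have h1 : g * p.1.1 * g⁻¹ = p.1.1 := congrArg (fun z : AA (PSL2 F) => z.1.1) h
      have h3 : g * p.1.2 * g⁻¹ = p.1.2 := congrArg (fun z : AA (PSL2 F) => z.1.2) h
      rw [mul_inv_eq_iff_eq_mul] at h1 h3
      exact ⟨h1, h3⟩
    · rintro ⟨h1, h3⟩
      apply Subtype.ext
      apply Prod.ext
      · show g * p.1.1 * g⁻¹ = p.1.1
        rw [h1]; group
      · show g * p.1.2 * g⁻¹ = p.1.2
        rw [h3]; group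
  ext g
  rw [hst, mem_klp]
  constructor
  · rintro ⟨h1, h3⟩
    have := stab_mem h2 hx hy hyx (g := g) (by rw [hx1]; exact h1) (by rw [hy1]; exact h3)
    rwa [hx1, hy1] at this
  · rintro (rfl | rfl | rfl | rfl)
    · simp
    · exact ⟨rfl, huv.symm⟩
    · exact ⟨huv, rfl⟩
    · constructor
      · rw [mul_assoc, huv, ← mul_assoc]
      · rw [mul_assoc, ← mul_assoc p.1.2, huv, mul_assoc]

theorem card_orbit_psl (h2 : (2 : F) ≠ 0) (p : AA (PSL2 F)) :
    Nat.card (MulAction.orbit (PSL2 F) p) * 4 = Nat.card (PSL2 F) := by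
  have h1 : Nat.card (MulAction.orbit (PSL2 F) p) = (MulAction.stabilizer (PSL2 F) p).index :=
    Nat.card_congr (MulAction.orbitEquivQuotientStabilizer (PSL2 F) p)
  rw [h1, stab_eq h2, ← (klp p).index_mul_card, card_klp]

theorem move1 (h2 : (2 : F) ≠ 0) (p : AA (PSL2 F)) : Cj p.1.1 p.1.2 (p.1.1 * p.1.2) p.1.1 := by
  obtain ⟨x, y, hx1, hy1, hx, hy, hyx, hne⟩ := lift_pair h2 p
  obtain ⟨H, h1, h3, -, -⟩ := Cfsg.Agent.Lib.H1SL2Syl2.exists_three h2 hx hy hyx hne
  refine ⟨pi H, ?_, ?_⟩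
  · rw [← hx1, ← hy1, mul_inv_eq_iff_eq_mul, ← map_mul, ← map_mul, ← map_mul, h1]
  · rw [← hx1, ← hy1, mul_inv_eq_iff_eq_mul, ← map_mul, ← map_mul, h3]

theorem move2 (h2 : (2 : F) ≠ 0) {r : F} (hr : r * r = 2) (p : AA (PSL2 F)) :
    Cj p.1.1 p.1.2 p.1.1 (p.1.1 * p.1.2) := by
  obtain ⟨x, y, hx1, hy1, hx, hy, hyx, hne⟩ := lift_pair h2 p
  have hm : ((mone : SL2 F) : M2 F) = -1 := by
    ext a b
    fin_cases a <;> fin_cases b <;> simp [mone, mk]
  have hi : (x : M2 F) * (x : M2 F) = -1 := by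
    rw [← hm, ← hx]; rfl
  have hji : (y : M2 F) * (x : M2 F) = -((x : M2 F) * (y : M2 F)) := by
    have := congrArg (fun z : SL2 F => (z : M2 F)) hyx
    simpa [Matrix.SpecialLinearGroup.coe_mul, hm] using this
  have hr0 : r ≠ 0 := by
    rintro rfl
    apply h2
    rw [← hr, zero_mul]
  set e : F := r⁻¹ with he
  have he2 : e * e * 2 = 1 := by
    rw [← hr, he]
    field_simp
  have htr := Cfsg.Agent.S0809.tr_zero_of_sq h2 hx
  have hd := sl_det x
  have hdet : (e • (1 + (x : M2 F))).det = 1 := by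
    rw [Matrix.det_fin_two]
    simp only [Matrix.smul_apply, Matrix.add_apply, smul_eq_mul, Matrix.one_apply_eq, Matrix.one_apply_ne,
      zero_ne_one, one_ne_zero, ne_eq, not_false_eq_true, zero_add]
    simp only [tr] at htr
    linear_combination (e * e) * hd + (e * e) * htr + he2
  let g : SL2 F := ⟨e • (1 + (x : M2 F)), hdet⟩
  have hgv : (g : M2 F) = e • (1 + (x : M2 F)) := rfl
  have h1 : g * x = x * g := by
    apply Subtype.ext
    show (g : M2 F) * (x : M2 F) = (x : M2 F) * (g : M2 F)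
    rw [hgv, smul_mul_assoc, mul_smul_comm, add_mul, mul_add]
    simp
  have h3 : g * y = (x * y) * g := by
    apply Subtype.ext
    show (g : M2 F) * (y : M2 F) = ((x : M2 F) * (y : M2 F)) * (g : M2 F)
    rw [hgv, smul_mul_assoc, mul_smul_comm, add_mul, mul_add, one_mul, mul_one]
    have h5 : (x : M2 F) * (y : M2 F) * (x : M2 F) = (y : M2 F) := by
      rw [mul_assoc, hji, mul_neg, ← mul_assoc, hi]
      simp
    rw [h5, add_comm]
  refine ⟨pi g, ?_, ?_⟩
  · rw [← hx1, mul_inv_eq_iff_eq_mul, ← map_mul, ← map_mul, h1]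
  · rw [← hx1, ← hy1, mul_inv_eq_iff_eq_mul, ← map_mul, ← map_mul, ← map_mul, h3]

end psl


/-- Conjugacy classes of four-groups in PSL_2(q), q odd: if q ≡ 3 or 5 (mod 8) all Klein four-subgroups are conjugate; if q ≡ 1 or 7 (mod 8) there are two Klein four-subgroups which are not conjugate, and every Klein four-subgroup is conjugate to one of them. -/
theorem result {F : Type*} [Field F] [Fintype F] {q : ℕ} (hF : Fintype.card F = q) (hodd : Odd q) : ((q % 8 = 3 ∨ q % 8 = 5) → ∀ V W : Subgroup (Matrix.ProjectiveSpecialLinearGroup (Fin 2) F), IsKleinFour V → IsKleinFour W → ∃ g : Matrix.ProjectiveSpecialLinearGroup (Fin 2) F, W = V.map (MulAut.conj g).toMonoidHom) ∧ ((q % 8 = 1 ∨ q % 8 = 7) → ∃ V₁ V₂ : Subgroup (Matrix.ProjectiveSpecialLinearGroup (Fin 2) F), IsKleinFour V₁ ∧ IsKleinFour V₂ ∧ (¬ ∃ g : Matrix.ProjectiveSpecialLinearGroup (Fin 2) F, V₂ = V₁.map (MulAut.conj g).toMonoidHom) ∧ ∀ W : Subgroup (Matrix.ProjectiveSpecialLinearGroup (Fin 2) F),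 IsKleinFour W → (∃ g : Matrix.ProjectiveSpecialLinearGroup (Fin 2) F, W = V₁.map (MulAut.conj g).toMonoidHom) ∨ (∃ g : Matrix.ProjectiveSpecialLinearGroup (Fin 2) F, W = V₂.map (MulAut.conj g).toMonoidHom)) := by
  classical
  subst hF
  have hchar : ringChar F ≠ 2 := by
    intro h
    have := FiniteField.even_card_of_char_two h
    obtain ⟨k, hk⟩ := hodd
    omega
  have h2 : (2 : F) ≠ 0 := Ring.two_ne_zero hchar
  refine ⟨?_, ?_⟩
  · intro hq V W hV hW
    -- the four-groups are Sylow subgroups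
    have hcard : ∀ V : Subgroup (PSL2 F), IsKleinFour V → ¬ 2 ∣ V.index := by
      intro V hV
      haveI := hV
      have h3 := V.index_mul_card
      rw [IsKleinFour.card_four] at h3
      have h4 := Cfsg.Agent.S0807.card_SL_PSL h2
      rw [card_sl2, ← h3] at h4
      intro hdvd
      obtain ⟨m, hm⟩ := hdvd
      rw [hm] at h4
      obtain ⟨k, hk⟩ : ∃ k, Fintype.card F = 8 * k + 3 ∨ Fintype.card F = 8 * k + 5 :=
        ⟨Fintype.card F / 8, by omega⟩
      rcases hk with hk | hk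
      · have h6 : Fintype.card F ^ 2 - 1 = 8 * (8 * k ^ 2 + 6 * k + 1) := by
          rw [hk]
          have : (8 * k + 3) ^ 2 = 8 * (8 * k ^ 2 + 6 * k + 1) + 1 := by ring
          omega
        rw [h6, hk] at h4
        have h7 : (8 * k + 3) * (8 * k ^ 2 + 6 * k + 1) = 2 * (m * 1) * 1 + (m * 1) * 0 := by nlinarith
        have h8 : (8 * k + 3) * (8 * k ^ 2 + 6 * k + 1) % 2 = 1 := by
          rw [Nat.mul_mod]
          have e1 : (8 * k + 3) % 2 = 1 := by omega
          have e2 : (8 * k ^ 2 + 6 * k + 1) % 2 = 1 := by omega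
          rw [e1, e2]
        omega
      · have h6 : Fintype.card F ^ 2 - 1 = 8 * (8 * k ^ 2 + 10 * k + 3) := by
          rw [hk]
          have : (8 * k + 5) ^ 2 = 8 * (8 * k ^ 2 + 10 * k + 3) + 1 := by ring
          omega
        rw [h6, hk] at h4
        have h7 : (8 * k + 5) * (8 * k ^ 2 + 10 * k + 3) = 2 * (m * 1) * 1 + (m * 1) * 0 := by nlinarith
        have h8 : (8 * k + 5) * (8 * k ^ 2 + 10 * k + 3) % 2 = 1 := by
          rw [Nat.mul_mod]
          have e1 : (8 * k + 5) % 2 = 1 := by omega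
          have e2 : (8 * k ^ 2 + 10 * k + 3) % 2 = 1 := by omega
          rw [e1, e2]
        omega
    haveI : Fact (Nat.Prime 2) := ⟨Nat.prime_two⟩
    have hp : ∀ V : Subgroup (PSL2 F), IsKleinFour V → IsPGroup 2 V := by
      intro V hV
      haveI := hV
      exact IsPGroup.of_card (n := 2) (by rw [IsKleinFour.card_four]; norm_num)
    let SV := (hp V hV).toSylow (hcard V hV)
    let SW := (hp W hW).toSylow (hcard W hW)
    obtain ⟨g, hg⟩ := MulAction.exists_smul_eq (PSL2 F) SV SW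
    refine ⟨g, ?_⟩
    have h3 := congrArg (fun S : Sylow 2 (PSL2 F) => (S : Subgroup (PSL2 F))) hg
    simp only [Sylow.coe_subgroup_smul, SV, SW, IsPGroup.toSylow_coe] at h3
    rw [← h3]
    ext x
    rw [Cfsg.Agent.Lib.H1Core.mem_conj_smul, Subgroup.mem_map]
    constructor
    · intro h
      exact ⟨_, h, by simp [MulAut.conj_apply]; group⟩
    · rintro ⟨y, hy, rfl⟩
      simpa [MulAut.conj_apply, mul_assoc] using hy
  · intro hq
    have hconj : ∀ u v : Matrix.ProjectiveSpecialLinearGroup (Fin 2) F, orderOf u = 2 → orderOf v = 2 → IsConj u v := by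
      intro a b ha hb
      obtain ⟨u, rfl, hu⟩ := lift_inv h2 a ha
      obtain ⟨v, rfl, hv⟩ := lift_inv h2 b hb
      exact MonoidHom.map_isConj pi (conj_of_trace u v
        (by rw [Cfsg.Agent.S0809.tr_zero_of_sq h2 hu, Cfsg.Agent.S0809.tr_zero_of_sq h2 hv])
        (Cfsg.Agent.S0809.tr_sq_ne h2 hu))
    have hfib : ∀ u : Matrix.ProjectiveSpecialLinearGroup (Fin 2) F, orderOf u = 2 →
        2 * Nat.card (Fb u) = Nat.card (Subgroup.centralizer ({u} : Set (Matrix.ProjectiveSpecialLinearGroup (Fin 2) F))) := by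
      intro u hu
      obtain ⟨x, rfl, hx⟩ := lift_inv h2 u hu
      rw [← card_WW h2 hx, card_WW_Tz h2 hx, card_cent h2 hx]
    let x₀ : SL2 F := mk 0 1 (-1) 0 (by ring)
    have hx₀ : tr x₀ = 0 := by simp [x₀, tr]
    have h3 := card_AA_of hconj hfib (pi x₀) (order_pi h2 x₀ hx₀)
    have h5 : IsSquare (2 : F) := FiniteField.isSquare_two_iff.2 (by omega)
    obtain ⟨r, hr⟩ := h5
    exact two_classes h3 (card_orbit_psl h2) (move1 h2) (move2 h2 hr.symm)

end Cfsg.Agent.S0808
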