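import Cfsg.Statements.S0823
import Cfsg.Agent.Lib.OmegaSL2
import Cfsg.Agent.Lib.OrthOrder2
import Cfsg.Agent.Lib.Heart
import Cfsg.Prelude.Def_ClassicalGeometry

set_option autoImplicit false
open Cfsg

namespace Cfsg.Agent.S0823


open Matrix Cfsg Cfsg.Agent.Lib.Heart

section

variable {F : Type*} [Field F]

local notation "κ" => (Unit ⊕ (Fin 1 ⊕ Fin 1))
local notation "PP" => (P : Equiv.Perm (Fin 4) → (Fin 4 → F) →ₗ[F] (Fin 4 → F))

/-- Embedding. -/
def TT : (κ → F) →ₗ[F] (Fin 4 → F) where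
  toFun v := ![v (Sum.inl ()) + v (Sum.inr (Sum.inl 0)) - v (Sum.inr (Sum.inr 0)),
    -v (Sum.inl ()) + v (Sum.inr (Sum.inl 0)) - v (Sum.inr (Sum.inr 0)), v (Sum.inr (Sum.inl 0)), -v (Sum.inr (Sum.inr 0))]
  map_add' v w := by
    funext i
    fin_cases i <;> simp <;> ring
  map_smul' c v := by
    funext i
    fin_cases i <;> simp <;> ring

/-- Coordinates. -/
def SS : (Fin 4 → F) →ₗ[F] (κ → F) where
  toFun w := Sum.elim (fun _ => w 1 - w 0) (Sum.elim (fun _ => w 2) (fun _ => - w 3))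
  map_add' v w := by
    funext i
    rcases i with i | i | i <;> simp <;> ring
  map_smul' c v := by
    funext i
    rcases i with i | i | i <;> simp <;> ring

variable (h3 : (3 : F) = 0)

include h3 in
theorem ST (v : κ → F) : SS (TT v) = v := by
  funext i
  rcases i with i | i | i
  · show (TT v) 1 - (TT v) 0 = _
    simp [TT]
    obtain rfl : i = () := rfl
    linear_combination (- v (Sum.inl ())) * h3
  · obtain rfl : i = 0 := Subsingleton.elim _ _
    show (TT v) 2 = _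
    simp [TT]
  · obtain rfl : i = 0 := Subsingleton.elim _ _
    show - (TT v) 3 = _
    simp [TT]

theorem sum4 (w : Fin 4 → F) : ∑ i, w i = w 0 + w 1 + w 2 + w 3 := Fin.sum_univ_four w

include h3 in
theorem TS {w : Fin 4 → F} (hw : w ∈ E (Fin 4) F) : TT (SS w) = w := by
  have hs := mem_E.1 hw
  rw [sum4] at hs
  funext i
  fin_cases i
  · show (w 1 - w 0) + w 2 - (- w 3) = w 0
    linear_combination hs - w 0 * h3
  · show -(w 1 - w 0) + w 2 - (- w 3) = w 1
    linear_combination hs - w 1 * h3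
  · rfl
  · show - (- w 3) = w 3
    ring

include h3 in
theorem TT_mem (v : κ → F) : TT v ∈ E (Fin 4) F := by
  rw [mem_E, sum4]
  show (v (Sum.inl ()) + v (Sum.inr (Sum.inl 0)) - v (Sum.inr (Sum.inr 0))) + (-v (Sum.inl ()) + v (Sum.inr (Sum.inl 0)) - v (Sum.inr (Sum.inr 0))) + v (Sum.inr (Sum.inl 0)) + (- v (Sum.inr (Sum.inr 0))) = 0
  linear_combination (v (Sum.inr (Sum.inl 0)) - v (Sum.inr (Sum.inr 0))) * h3

/-- the sign as a field element -/
def eps (g : Equiv.Perm (Fin 4)) : F := ((Equiv.Perm.sign g : ℤˣ) : ℤ)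

theorem eps_mul (g h : Equiv.Perm (Fin 4)) : (eps (g * h) : F) = eps g * eps h := by
  simp [eps]

theorem eps_one : (eps 1 : F) = 1 := by simp [eps]

theorem eps_sq (g : Equiv.Perm (Fin 4)) : (eps g : F) * eps g = 1 := by
  rw [← eps_mul]
  simp [eps, Int.units_mul_self]

/-- The twisted permutation representation. -/
def rho : Equiv.Perm (Fin 4) →* ((κ → F) →ₗ[F] (κ → F)) where
  toFun g := (eps g : F) • (SS ∘ₗ PP g ∘ₗ TT)
  map_one' := by
    rw [eps_one, one_smul, P_one]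
    apply LinearMap.ext
    intro v
    exact ST h3 v
  map_mul' g h := by
    apply LinearMap.ext
    intro v
    show (eps (g * h) : F) • SS (PP (g * h) (TT v)) = (eps g : F) • SS (PP g (TT ((eps h : F) • SS (PP h (TT v)))))
    rw [map_smul, TS h3 (P_mem h (TT_mem h3 v)), map_smul, map_smul, smul_smul, eps_mul, P_mul]
    rfl

theorem rho_apply (g : Equiv.Perm (Fin 4)) (v : κ → F) : rho h3 g v = (eps g : F) • SS (PP g (TT v)) := rfl

include h3 in
theorem Q_SS {w : Fin 4 → F} (hw : w ∈ E (Fin 4) F) : Cfsg.quadFormOdd 1 F (SS w) = - (w ⬝ᵥ w) := by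
  have hs := mem_E.1 hw
  rw [sum4] at hs
  have h4 : w 3 = - w 0 - w 1 - w 2 := by linear_combination hs
  show (w 1 - w 0) ^ 2 + ∑ i : Fin 1, w 2 * (- w 3) = - (∑ i, w i * w i)
  rw [Fin.sum_univ_one, sum4, h4]
  linear_combination ((w 0 ^ 2 + w 1 ^ 2 + w 2 ^ 2 + w 0 * w 2 + w 1 * w 2)) * h3

theorem Q_smul (c : F) (v : κ → F) : Cfsg.quadFormOdd 1 F (c • v) = c ^ 2 * Cfsg.quadFormOdd 1 F v := by
  show (c * v (Sum.inl ())) ^ 2 + ∑ i : Fin 1, (c * v (Sum.inr (Sum.inl i))) * (c * v (Sum.inr (Sum.inr i))) = c ^ 2 * (v (Sum.inl ()) ^ 2 + ∑ i : Fin 1, v (Sum.inr (Sum.inl i)) * v (Sum.inr (Sum.inr i)))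
  simp only [Fin.sum_univ_one]
  ring

theorem rho_Q (g : Equiv.Perm (Fin 4)) (v : κ → F) : Cfsg.quadFormOdd 1 F (rho h3 g v) = Cfsg.quadFormOdd 1 F v := by
  rw [rho_apply, Q_smul, sq, eps_sq, one_mul, Q_SS h3 (P_mem g (TT_mem h3 v)), dot_P]
  conv_rhs => rw [← ST h3 v]
  rw [Q_SS h3 (TT_mem h3 v)]

/-- The matrix form. -/
noncomputable def psi : Equiv.Perm (Fin 4) →* Matrix.GeneralLinearGroup κ F :=
  MonoidHom.toHomUnits
    { toFun := fun g => LinearMap.toMatrix' (rho h3 g)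
      map_one' := by
        rw [map_one, LinearMap.toMatrix'_one]
      map_mul' := fun a b => by
        rw [map_mul, LinearMap.toMatrix'_mul] }

theorem psi_mulVec (g : Equiv.Perm (Fin 4)) (v : κ → F) : ((psi h3 g : Matrix.GeneralLinearGroup κ F) : Matrix κ κ F) *ᵥ v = rho h3 g v := by
  show LinearMap.toMatrix' (rho h3 g) *ᵥ v = _
  rw [LinearMap.toMatrix'_mulVec]

theorem psi_mem (g : Equiv.Perm (Fin 4)) : psi h3 g ∈ isometryGroup F (Cfsg.quadFormOdd 1 F) := by
  intro u _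
  show Cfsg.quadFormOdd 1 F (((psi h3 g : Matrix.GeneralLinearGroup κ F) : Matrix κ κ F) *ᵥ u) = _
  rw [psi_mulVec, rho_Q]

theorem det_swap : ((psi h3 (Equiv.swap 0 1) : Matrix.GeneralLinearGroup κ F) : Matrix κ κ F).det = 1 := by
  have h1 : ((psi h3 (Equiv.swap 0 1) : Matrix.GeneralLinearGroup κ F) : Matrix κ κ F) = Matrix.diagonal (Sum.elim (fun _ => 1) (fun _ => -1)) := by
    apply Matrix.mulVec_injective
    funext v
    rw [psi_mulVec, rho_apply]
    have he : (eps (Equiv.swap (0 : Fin 4) 1) : F) = -1 := by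
      simp [eps, Equiv.Perm.sign_swap]
    rw [he]
    funext i
    rw [Matrix.mulVec_diagonal]
    rcases i with i | i | i
    · show (-1 : F) * ((PP (Equiv.swap 0 1) (TT v)) 1 - (PP (Equiv.swap 0 1) (TT v)) 0) = _
      have e1 : (PP (Equiv.swap 0 1) (TT v)) 1 = TT v 0 := by
        rw [P_apply]
        simp
      have e0 : (PP (Equiv.swap 0 1) (TT v)) 0 = TT v 1 := by
        rw [P_apply]
        simp
      rw [e0, e1]
      show (-1 : F) * ((v (Sum.inl ()) + v (Sum.inr (Sum.inl 0)) - v (Sum.inr (Sum.inr 0))) - (-v (Sum.inl ()) + v (Sum.inr (Sum.inl 0)) - v (Sum.inr (Sum.inr 0)))) = 1 * v (Sum.inl ())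
      linear_combination (- v (Sum.inl ())) * h3
    · obtain rfl : i = 0 := Subsingleton.elim _ _
      show (-1 : F) * (PP (Equiv.swap 0 1) (TT v)) 2 = _
      rw [P_apply]
      have : (Equiv.swap (0 : Fin 4) 1)⁻¹ 2 = 2 := by decide
      rw [this]
      rfl
    · obtain rfl : i = 0 := Subsingleton.elim _ _
      show (-1 : F) * (- (PP (Equiv.swap 0 1) (TT v)) 3) = _
      rw [P_apply]
      have : (Equiv.swap (0 : Fin 4) 1)⁻¹ 3 = 3 := by decide
      rw [this]
      show (-1 : F) * (- (- v (Sum.inr (Sum.inr 0)))) = -1 * v (Sum.inr (Sum.inr 0))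
      ring
  rw [h1, Matrix.det_diagonal, Fintype.prod_sum_type, Fintype.prod_sum_type]
  simp

theorem det_psi (g : Equiv.Perm (Fin 4)) : ((psi h3 g : Matrix.GeneralLinearGroup κ F) : Matrix κ κ F).det = 1 := by
  let d : Equiv.Perm (Fin 4) →* Fˣ := Matrix.GeneralLinearGroup.det.comp (psi h3)
  have hd : ∀ g, ((d g : Fˣ) : F) = ((psi h3 g : Matrix.GeneralLinearGroup κ F) : Matrix κ κ F).det := fun g => rfl
  rw [← hd]
  have hs : ∀ a b : Fin 4, a ≠ b → d (Equiv.swap a b) = 1 := by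
    intro a b hab
    have h1 : IsConj (Equiv.swap a b) (Equiv.swap (0 : Fin 4) 1) := Equiv.Perm.isConj_swap hab (by decide)
    have h2 : IsConj (d (Equiv.swap a b)) (d (Equiv.swap (0 : Fin 4) 1)) := MonoidHom.map_isConj d h1
    rw [isConj_iff_eq] at h2
    rw [h2]
    apply Units.ext
    rw [hd, det_swap]
    rfl
  induction g using Equiv.Perm.swap_induction_on with
  | one => simp
  | swap_mul f x y hxy ih =>
    rw [map_mul, hs x y hxy, one_mul]
    exact ih

include h3 in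
theorem rho_ker {k : Equiv.Perm (Fin 4)} (hk : rho h3 k = 1) : k = 1 := by
  have h1 : ∀ w ∈ E (Fin 4) F, (eps k : F) • PP k w = w := by
    intro w hw
    have h2 := congrArg (fun f : (κ → F) →ₗ[F] (κ → F) => TT (f (SS w))) hk
    simp only [rho_apply, Module.End.one_apply, map_smul, TS h3 hw] at h2
    rw [TS h3 (P_mem k hw)] at h2
    exact h2
  have h2 : ∀ a : Fin 4, k⁻¹ a = a := by
    intro a
    obtain ⟨b, c, hb, hc, hbc⟩ : ∃ b c : Fin 4, b ≠ a ∧ c ≠ a ∧ b ≠ c := by
      revert a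
      decide
    have key : ∀ b : Fin 4, b ≠ a → k⁻¹ a = a ∨ k⁻¹ a = b := by
      intro b hb
      let w : Fin 4 → F := Pi.single a 1 - Pi.single b 1
      have hw : w ∈ E (Fin 4) F := by
        rw [mem_E]
        simp [w, Finset.sum_sub_distrib, Finset.sum_pi_single']
      have h3' := congrFun (h1 w hw) a
      rw [Pi.smul_apply, P_apply, smul_eq_mul] at h3'
      by_contra hcon
      push Not at hcon
      have h4 : ∀ x, x ≠ a → x ≠ b → w x = 0 := fun x h₁ h₂ => by
        simp [w, Pi.single_apply, h₁, h₂]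
      rw [h4 _ hcon.1 hcon.2, mul_zero] at h3'
      have h5 : w a = 1 := by
        simp [w, Pi.single_apply, hb.symm]
      rw [h5] at h3'
      exact zero_ne_one h3'
    rcases key b hb with h | h
    · exact h
    · rcases key c hc with h' | h'
      · exact h'
      · exact absurd (h.symm.trans h') hbc
  have h3' : k⁻¹ = 1 := by
    ext a
    rw [h2 a]
    rfl
  exact inv_eq_one.1 h3'

include h3 in
theorem rho_inj : Function.Injective (rho h3 : Equiv.Perm (Fin 4) →* ((κ → F) →ₗ[F] (κ → F))) := by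
  intro g h hgh
  have h1 : rho h3 (g⁻¹ * h) = 1 := by
    rw [map_mul, ← hgh, ← map_mul, inv_mul_cancel, map_one]
  have h2 := rho_ker h3 h1
  have : h = g := by
    have := congrArg (fun x => g * x) h2
    simpa using this
  exact this.symm

end


/-- SO_3(3) ≅ S_4: the determinant-one isometries of the form x_0² + x_1y_1 over the field with 3 elements form a group isomorphic to the symmetric group on 4 letters. -/
theorem result {F : Type*} [Field F] [Fintype F] (hF : Fintype.card F = 3) : Nonempty (↥(Cfsg.specialIsometryGroup F (Cfsg.quadFormOdd 1 F)) ≃* Equiv.Perm (Fin 4)) := by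
  classical
  have h3 : (3 : F) = 0 := by
    have := FiniteField.cast_card_eq_zero F
    rw [hF] at this
    exact_mod_cast this
  have hodd : Odd (Fintype.card F) := by
    rw [hF]
    decide
  let f₀ : Equiv.Perm (Fin 4) →* ↥(isometryGroup F (Cfsg.quadFormOdd 1 F)) := (psi h3).codRestrict _ (psi_mem h3)
  let f₁ : Equiv.Perm (Fin 4) →* ↥(Cfsg.specialIsometryGroup F (Cfsg.quadFormOdd 1 F)) := f₀.codRestrict _ (fun g => by
    rw [Cfsg.specialIsometryGroup, MonoidHom.mem_ker]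
    apply Units.ext
    exact det_psi h3 g)
  have hinj : Function.Injective f₁ := by
    intro g h hgh
    apply rho_inj h3
    apply LinearMap.ext
    intro v
    rw [← psi_mulVec, ← psi_mulVec]
    have h1 : psi h3 g = psi h3 h := congrArg (fun x : ↥(Cfsg.specialIsometryGroup F (Cfsg.quadFormOdd 1 F)) => ((x : ↥(isometryGroup F (Cfsg.quadFormOdd 1 F))) : Matrix.GeneralLinearGroup (Unit ⊕ (Fin 1 ⊕ Fin 1)) F)) hgh
    rw [h1]
  have hO := Cfsg.Agent.Lib.OrthOrder2.card_odd (F := F) (m := 1) hodd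
  rw [hF] at hO
  norm_num at hO
  have hcardO : Nat.card ↥(isometryGroup F (Cfsg.quadFormOdd 1 F)) = 48 := by
    rw [Nat.card_eq_fintype_card]
    exact hO
  have hidx := Subgroup.index_mul_card (Cfsg.specialIsometryGroup F (Cfsg.quadFormOdd 1 F))
  rw [hcardO] at hidx
  have hne1 : (Cfsg.specialIsometryGroup F (Cfsg.quadFormOdd 1 F)).index ≠ 1 := by
    rw [Ne, Subgroup.index_eq_one]
    intro htop
    have hn1 : (-1 : Matrix (Unit ⊕ (Fin 1 ⊕ Fin 1)) (Unit ⊕ (Fin 1 ⊕ Fin 1)) F) * (-1) = 1 := by simp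
    let n : Matrix.GeneralLinearGroup (Unit ⊕ (Fin 1 ⊕ Fin 1)) F := ⟨-1, -1, hn1, hn1⟩
    have hn : n ∈ isometryGroup F (Cfsg.quadFormOdd 1 F) := by
      intro u _
      show Cfsg.quadFormOdd 1 F ((-1 : Matrix (Unit ⊕ (Fin 1 ⊕ Fin 1)) (Unit ⊕ (Fin 1 ⊕ Fin 1)) F) *ᵥ u) = _
      simp only [Matrix.neg_mulVec, Matrix.one_mulVec]
      have := Q_smul (F := F) (-1) u
      simpa using this
    have hmem : (⟨n, hn⟩ : ↥(isometryGroup F (Cfsg.quadFormOdd 1 F))) ∈ Cfsg.specialIsometryGroup F (Cfsg.quadFormOdd 1 F) := by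
      rw [htop]
      trivial
    rw [Cfsg.specialIsometryGroup, MonoidHom.mem_ker] at hmem
    have h2 := congrArg (fun u : Fˣ => (u : F)) hmem
    have h3' : (-1 : Matrix (Unit ⊕ (Fin 1 ⊕ Fin 1)) (Unit ⊕ (Fin 1 ⊕ Fin 1)) F).det = 1 := h2
    have hc3 : Fintype.card (Unit ⊕ (Fin 1 ⊕ Fin 1)) = 3 := by simp
    rw [Matrix.det_neg, Matrix.det_one, mul_one, hc3] at h3'
    apply (one_ne_zero : (1 : F) ≠ 0)
    linear_combination h3 + h3'
  have hi0 : (Cfsg.specialIsometryGroup F (Cfsg.quadFormOdd 1 F)).index ≠ 0 := by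
    intro h0
    rw [h0] at hidx
    omega
  have hle : Nat.card ↥(Cfsg.specialIsometryGroup F (Cfsg.quadFormOdd 1 F)) ≤ 24 := by
    have h2 : 2 ≤ (Cfsg.specialIsometryGroup F (Cfsg.quadFormOdd 1 F)).index := by omega
    nlinarith
  have hc4 : Nat.card (Equiv.Perm (Fin 4)) = 24 := by
    rw [Nat.card_perm, Nat.card_eq_fintype_card, Fintype.card_fin]
    rfl
  have hge := Nat.card_le_card_of_injective f₁ hinj
  rw [hc4] at hge
  have hcard : Nat.card (Equiv.Perm (Fin 4)) = Nat.card ↥(Cfsg.specialIsometryGroup F (Cfsg.quadFormOdd 1 F)) := by omega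
  exact ⟨(MulEquiv.ofBijective f₁ ((Nat.bijective_iff_injective_and_card f₁).2 ⟨hinj, hcard⟩)).symm⟩

end Cfsg.Agent.S0823
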