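import Cfsg.Statements.S0828
import Cfsg.Agent.Lib.TICount
import Cfsg.Agent.Lib.SympGen

set_option autoImplicit false
open Cfsg

namespace Cfsg.Agent.S0828

open Cfsg.Agent.Lib.TICount Cfsg.Agent.Lib.SympBasic Cfsg.Agent.Lib.SympGen Cfsg.Agent.Lib.SympTrans

variable {F : Type*} [Field F]

local notation "f" => Cfsg.sympForm 2 F

theorem hspan : HSpan (Cfsg.sympForm 2 F) := by
  intro v w hvv hvw hwv hww x hx y hy
  obtain ⟨a, b, rfl⟩ := Submodule.mem_span_pair.1 hx
  obtain ⟨c, d, rfl⟩ := Submodule.mem_span_pair.1 hy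
  simp only [sympForm_add_left, sympForm_add_right, sympForm_smul_left, sympForm_smul_right, hvv, hvw, hwv, hww]
  ring

variable [Fintype F]

theorem card_coll {v : Fin 2 ⊕ Fin 2 → F} (hv : v ≠ 0) :
    Nat.card (Coll (Cfsg.sympForm 2 F) v) = Fintype.card F ^ 3 - Fintype.card F := by
  classical
  let L : (Fin 2 ⊕ Fin 2 → F) →ₗ[F] F :=
    { toFun := fun x => f v x
      map_add' := fun x y => sympForm_add_right v x y
      map_smul' := fun c x => sympForm_smul_right c x v }
  obtain ⟨y, -, hy⟩ := nondeg_top (m := 2) (F := F) v trivial hv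
  have hL : Function.Surjective L := by
    intro c
    refine ⟨(c / f v y) • y, ?_⟩
    show f v ((c / f v y) • y) = c
    rw [sympForm_smul_right]
    field_simp
  have hr := LinearMap.finrank_range_add_finrank_ker L
  rw [LinearMap.range_eq_top.2 hL, finrank_top, Module.finrank_self] at hr
  simp only [Module.finrank_fintype_fun_eq_card, Fintype.card_sum, Fintype.card_fin] at hr
  have hle : Submodule.span F {v} ≤ LinearMap.ker L := by
    rw [Submodule.span_le]
    intro x hx
    rw [Set.mem_singleton_iff] at hx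
    subst hx
    exact sympForm_self x
  have h1 := card_diff hle
  rw [card_sub, card_sub, finrank_span_singleton hv, show Module.finrank F (LinearMap.ker L) = 3 by omega, pow_one] at h1
  have e : Nat.card (Coll (Cfsg.sympForm 2 F) v) = Nat.card {w : Fin 2 ⊕ Fin 2 → F // w ∈ LinearMap.ker L ∧ w ∉ Submodule.span F {v}} := by
    apply Nat.card_congr
    apply Equiv.subtypeEquivRight
    intro w
    rw [LinearMap.mem_ker]
    constructor
    · rintro ⟨h3, -, -, h5⟩
      exact ⟨h3, h5⟩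
    · rintro ⟨h3, h5⟩
      refine ⟨h3, ?_, sympForm_self w, h5⟩
      rw [sympForm_skew]
      have : f v w = 0 := h3
      rw [this, neg_zero]
  rw [e]
  omega

theorem card_lines {v : Fin 2 ⊕ Fin 2 → F} (hv : v ≠ 0) :
    Nat.card (Lines (Cfsg.sympForm 2 F) v) = Fintype.card F + 1 := by
  have h1 := card_lines_mul (Cfsg.sympForm 2 F) hspan hv (sympForm_self v)
  rw [card_coll hv] at h1
  obtain ⟨r, hr⟩ : ∃ r, Fintype.card F = r + 2 := ⟨Fintype.card F - 2, by
    have := Fintype.one_lt_card (α := F)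
    omega⟩
  rw [hr] at h1 ⊢
  have e1 : (r + 2) ^ 2 - (r + 2) = (r + 2) * (r + 1) := by
    have : (r + 2) ^ 2 = (r + 2) * (r + 1) + (r + 2) := by ring
    omega
  have e2 : (r + 2) ^ 3 - (r + 2) = (r + 2 + 1) * ((r + 2) * (r + 1)) := by
    have : (r + 2) ^ 3 = (r + 2 + 1) * ((r + 2) * (r + 1)) + (r + 2) := by ring
    omega
  rw [e1, e2] at h1
  exact Nat.eq_of_mul_eq_mul_right (by positivity) h1

/-- The symplectic generalised quadrangle over a field with q elements: the number of 2-dimensional subspaces of F^4 on which the symplectic form vanishes is (q + 1)(q² + 1), and every non-zero vector lies in exactly q + 1 of them. -/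
theorem result {F : Type*} [Field F] [Fintype F] {q : ℕ} (hF : Fintype.card F = q) : Nat.card {W : Submodule F (Fin 2 ⊕ Fin 2 → F) // Module.finrank F W = 2 ∧ ∀ u ∈ W, ∀ v ∈ W, Cfsg.sympForm 2 F u v = 0} = (q + 1) * (q ^ 2 + 1) ∧ ∀ v : Fin 2 ⊕ Fin 2 → F, v ≠ 0 → Nat.card {W : Submodule F (Fin 2 ⊕ Fin 2 → F) // Module.finrank F W = 2 ∧ v ∈ W ∧ ∀ u ∈ W, ∀ w ∈ W, Cfsg.sympForm 2 F u w = 0} = q + 1 := by
  subst hF
  refine ⟨?_, fun v hv => card_lines hv⟩
  have h1 := card_all_mul (Cfsg.sympForm 2 F) (Fintype.card F + 1) (fun v hv _ => card_lines hv)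
  have h2 : Nat.card {v : Fin 2 ⊕ Fin 2 → F // v ≠ 0 ∧ Cfsg.sympForm 2 F v v = 0} = Fintype.card F ^ 4 - 1 := by
    have e : Nat.card {v : Fin 2 ⊕ Fin 2 → F // v ≠ 0 ∧ Cfsg.sympForm 2 F v v = 0} = Nat.card {v : Fin 2 ⊕ Fin 2 → F // v ∉ (⊥ : Submodule F (Fin 2 ⊕ Fin 2 → F))} := by
      apply Nat.card_congr
      apply Equiv.subtypeEquivRight
      intro x
      simp [sympForm_self]
    rw [e]
    have h3 := card_diff (F := F) (S := ⊥) (W := ⊤) (V := Fin 2 ⊕ Fin 2 → F) le_top
    rw [card_sub, card_sub, finrank_bot, finrank_top, pow_zero] at h3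
    simp only [Module.finrank_fintype_fun_eq_card, Fintype.card_sum, Fintype.card_fin, Submodule.mem_top, true_and] at h3
    rw [show (2 + 2 : ℕ) = 4 from rfl] at h3
    omega
  rw [h2] at h1
  obtain ⟨r, hr⟩ : ∃ r, Fintype.card F = r + 2 := ⟨Fintype.card F - 2, by
    have := Fintype.one_lt_card (α := F)
    omega⟩
  rw [hr] at h1 ⊢
  have e1 : (r + 2) ^ 2 - 1 = (r + 1) * (r + 3) := by
    have : (r + 2) ^ 2 = (r + 1) * (r + 3) + 1 := by ring
    omega
  have e2 : (r + 2) ^ 4 - 1 = ((r + 2) ^ 2 + 1) * ((r + 1) * (r + 3)) := by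
    have : (r + 2) ^ 4 = ((r + 2) ^ 2 + 1) * ((r + 1) * (r + 3)) + 1 := by ring
    omega
  rw [e1, e2] at h1
  have h5 : Nat.card (All (Cfsg.sympForm 2 F)) = (r + 2 + 1) * ((r + 2) ^ 2 + 1) := by
    apply Nat.eq_of_mul_eq_mul_right (show 0 < (r + 1) * (r + 3) by positivity)
    rw [h1]
    ring
  exact h5

end Cfsg.Agent.S0828
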