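import Cfsg.Statements.S0829
import Cfsg.Agent.Lib.UnitCount

set_option autoImplicit false
open Cfsg

namespace Cfsg.Agent.S0829

/-- The unitary quadrangle of PSU_4(q): with |F| = q², the number of 2-dimensional subspaces of F^4 on which the Hermitian form Σ x_i y_i^q vanishes is (q + 1)(q³ + 1). -/
theorem result {F : Type*} [Field F] [Fintype F] {q : ℕ} (hF : Fintype.card F = q ^ 2) : Nat.card {W : Submodule F (Fin 4 → F) // Module.finrank F W = 2 ∧ ∀ u ∈ W, ∀ v ∈ W, Cfsg.hermForm 4 F q u v = 0} = (q + 1) * (q ^ 3 + 1) := by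
  have hq := Cfsg.Agent.Lib.HermStd.one_lt_q hF
  have h1 := Cfsg.Agent.Lib.UnitCount.card_all hF 2
  rw [Cfsg.Agent.Lib.HermCount.card_isotropic hF 4, Cfsg.Agent.Lib.HermCount.card_isotropic hF 2] at h1
  simp only [show Even 4 from by decide, show Even 2 from by decide, if_true, Nat.add_sub_cancel, show 4 - 1 = 3 from rfl, show 2 - 1 = 1 from rfl, pow_one] at h1
  have hpos1 : 0 < q ^ 4 - 1 := by
    have : 2 ^ 4 ≤ q ^ 4 := Nat.pow_le_pow_left hq 4
    omega
  have hpos2 : 0 < q ^ 2 - 1 := by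
    have : 2 ^ 2 ≤ q ^ 2 := Nat.pow_le_pow_left hq 2
    omega
  have h2 : Nat.card (Cfsg.Agent.Lib.TICount.All (Cfsg.hermForm 4 F q)) = (q + 1) * (q ^ 3 + 1) := by
    apply Nat.eq_of_mul_eq_mul_right (Nat.mul_pos hpos1 hpos2)
    rw [← mul_assoc, h1]
    ring
  exact h2

end Cfsg.Agent.S0829
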