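import Cfsg.Statements.S0831
import Cfsg.Agent.Lib.OrthFam2

set_option autoImplicit false
open Cfsg

namespace Cfsg.Agent.S0831

open Cfsg.Agent.Lib.OrthFam2 Cfsg.Agent.Lib.OrthClass Cfsg.Agent.Lib.OrthStd2

/-- The two families of maximal totally singular subspaces of the hyperbolic quadric: for the form Σ x_i y_i on F^(2m), m ≥ 1, and m-dimensional subspaces U, W, X on which it vanishes, the parities of m − dim(U ∩ W), m − dim(W ∩ X) and m − dim(U ∩ X) sum to an even number (so 'even codimension of the intersection' is an equivalence relation), and there exist two such subspaces meeting in codimension 1 (so there are exactly two classes). -/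
theorem result {F : Type*} [Field F] (m : ℕ) (hm : 1 ≤ m) : (∀ U W X : Submodule F (Fin m ⊕ Fin m → F), (Module.finrank F U = m ∧ ∀ w ∈ U, Cfsg.quadFormPlus m F w = 0) → (Module.finrank F W = m ∧ ∀ w ∈ W, Cfsg.quadFormPlus m F w = 0) → (Module.finrank F X = m ∧ ∀ w ∈ X, Cfsg.quadFormPlus m F w = 0) → Even ((m - Module.finrank F ↥(U ⊓ W)) + (m - Module.finrank F ↥(W ⊓ X)) + (m - Module.finrank F ↥(U ⊓ X)))) ∧ ∃ U W : Submodule F (Fin m ⊕ Fin m → F), (Module.finrank F U = m ∧ ∀ w ∈ U, Cfsg.quadFormPlus m F w = 0) ∧ (Module.finrank F W = m ∧ ∀ w ∈ W, Cfsg.quadFormPlus m F w = 0) ∧ Module.finrank F ↥(U ⊓ W) + 1 = m := by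
  have hQ := quadFormPlus_nondeg (F := F) (m := m)
  have hcard : Fintype.card (Fin m ⊕ Fin m) = 2 * m := by
    simp only [Fintype.card_sum, Fintype.card_fin]
    ring
  constructor
  · rintro U W X ⟨hU, hU0⟩ ⟨hW, hW0⟩ ⟨hX, hX0⟩
    have h := parity_triple hQ (W := W) hW0 (by rw [hW, hcard]) _ (U := U) (X := X) hU0 hX0 (by rw [hU, hcard]) (by rw [hX, hcard]) rfl
    have h1 : Module.finrank F ↥(U ⊓ W) ≤ m := (Submodule.finrank_mono inf_le_left).trans_eq hU
    have h2 : Module.finrank F ↥(W ⊓ X) ≤ m := (Submodule.finrank_mono inf_le_left).trans_eq hW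
    have h3 : Module.finrank F ↥(U ⊓ X) ≤ m := (Submodule.finrank_mono inf_le_left).trans_eq hU
    rw [inf_comm W U, hU] at h
    rw [Nat.even_iff] at h ⊢
    omega
  · let i₀ : Fin m := ⟨0, hm⟩
    let φ : Fin m → Fin m ⊕ Fin m := fun i => if i = i₀ then Sum.inl i₀ else Sum.inr i
    have hφ : Function.Injective φ := by
      intro i j h
      simp only [φ] at h
      split_ifs at h with h1 h2 h2
      · rw [h1, h2]
      · simpa using h
    let φ' : Fin m ⊕ Unit → Fin m ⊕ Fin m := Sum.elim Sum.inr (fun _ => Sum.inl i₀)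
    have hφ' : Function.Injective φ' := by
      rintro (i | i) (j | j) h <;> simp [φ'] at h <;> simp [h]
    let W : Submodule F (Fin m ⊕ Fin m → F) := LinearMap.ker (LinearMap.funLeft F F φ)
    have hmemW : ∀ v, v ∈ W ↔ ∀ i, v (φ i) = 0 := by
      intro v
      simp only [W, LinearMap.mem_ker]
      constructor
      · intro h i
        exact congrFun h i
      · intro h
        ext i
        exact h i
    have hfW : Module.finrank F W = m := by
      have h := LinearMap.finrank_range_add_finrank_ker (LinearMap.funLeft F F φ)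
      have hs : LinearMap.range (LinearMap.funLeft F F φ) = ⊤ :=
        LinearMap.range_eq_top.2 (LinearMap.funLeft_surjective_of_injective _ _ _ hφ)
      rw [hs, finrank_top] at h
      simp only [Module.finrank_fintype_fun_eq_card, Fintype.card_fin, Fintype.card_sum] at h
      simp only [W]
      omega
    have htsW : ∀ w ∈ W, Cfsg.quadFormPlus m F w = 0 := by
      intro w hw
      rw [hmemW] at hw
      refine Finset.sum_eq_zero fun i _ => ?_
      by_cases hi : i = i₀
      · have := hw i₀
        simp only [φ, if_true] at this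
        rw [hi, this, zero_mul]
      · have := hw i
        simp only [φ, if_neg hi] at this
        rw [this, mul_zero]
    have hinf : (U0 F m ⊓ W : Submodule F (Fin m ⊕ Fin m → F)) = LinearMap.ker (LinearMap.funLeft F F φ') := by
      ext v
      simp only [Submodule.mem_inf, mem_U0, hmemW, LinearMap.mem_ker]
      constructor
      · rintro ⟨h1, h2⟩
        ext (i | i)
        · exact h1 i
        · have := h2 i₀
          simpa [φ, φ'] using this
      · intro h
        have h1 : ∀ i, v (Sum.inr i) = 0 := fun i => congrFun h (Sum.inl i)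
        have h2 : v (Sum.inl i₀) = 0 := congrFun h (Sum.inr ())
        refine ⟨h1, fun i => ?_⟩
        simp only [φ]
        split_ifs
        · exact h2
        · exact h1 i
    refine ⟨U0 F m, W, ⟨finrank_U0, ts_U0⟩, ⟨hfW, htsW⟩, ?_⟩
    rw [hinf]
    have h := LinearMap.finrank_range_add_finrank_ker (LinearMap.funLeft F F φ')
    have hs : LinearMap.range (LinearMap.funLeft F F φ') = ⊤ :=
      LinearMap.range_eq_top.2 (LinearMap.funLeft_surjective_of_injective _ _ _ hφ')
    rw [hs, finrank_top] at h
    simp only [Module.finrank_fintype_fun_eq_card, Fintype.card_fin, Fintype.card_sum, Fintype.card_unit] at h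
    omega

end Cfsg.Agent.S0831
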