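import Cfsg.Statements.S0832
import Cfsg.Agent.Lib.OrthFam2
import Cfsg.Agent.Lib.OrthWitt

set_option autoImplicit false
open Cfsg

namespace Cfsg.Agent.S0832

open Cfsg.Agent.Lib.OrthFam2 Cfsg.Agent.Lib.OrthClass Cfsg.Agent.Lib.OrthStd2 Cfsg.Agent.Lib.OrthOmega Cfsg.Agent.Lib.OrthE Cfsg.Agent.Lib.OrthWitt

/-- For the form Σ x_i y_i on F^(2m) over a finite field, m ≥ 1: an (m−1)-dimensional subspace on which the form vanishes is contained in exactly two m-dimensional subspaces on which it vanishes. -/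
theorem result {F : Type*} [Field F] [Finite F] (m : ℕ) (hm : 1 ≤ m) (U : Submodule F (Fin m ⊕ Fin m → F)) (hU : Module.finrank F U + 1 = m ∧ ∀ u ∈ U, Cfsg.quadFormPlus m F u = 0) : Nat.card {W : Submodule F (Fin m ⊕ Fin m → F) // Module.finrank F W = m ∧ (∀ w ∈ W, Cfsg.quadFormPlus m F w = 0) ∧ U ≤ W} = 2 := by
  classical
  have hQ := quadFormPlus_nondeg (F := F) (m := m)
  set Q := Cfsg.quadFormPlus m F with hQdef
  obtain ⟨hUd, hU0⟩ := hU
  have hcard : Fintype.card (Fin m ⊕ Fin m) = 2 * m := by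
    simp only [Fintype.card_sum, Fintype.card_fin]
    ring
  have hfP := finrank_perp hQ U
  rw [hcard] at hfP
  -- a singular vector in the perp, outside U
  obtain ⟨a, haP, hQa, haU⟩ : ∃ a ∈ perp hQ U, Q a = 0 ∧ a ∉ U := by
    by_contra hc
    push Not at hc
    have := Cfsg.Agent.Lib.OrthWitt.ts_le hQ (W := U0 F m) (T := U) ts_U0 hU0 hc
    rw [finrank_U0] at this
    omega
  have hUperp : U ≤ perp hQ U := fun x hx => (mem_perp hQ).2 fun w hw => Cfsg.Agent.Lib.OrthWitt.B_of_sing hQ hU0 hw hx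
  have ha0 : a ≠ 0 := by
    rintro rfl
    exact haU U.zero_mem
  have hpp : perp hQ (perp hQ U) = U := perp_perp hQ U
  -- a partner
  have hane : a ∉ perp hQ (perp hQ U) := by rwa [hpp]
  rw [mem_perp] at hane
  push Not at hane
  obtain ⟨z, hzP, hz⟩ := hane
  have hz' : QuadraticMap.polar Q a z ≠ 0 := by
    rw [B_comm hQ]
    exact hz
  obtain ⟨b, hbP, hQb, hab⟩ := exists_hyp hQ haP hQa hzP hz'
  have haPU : ∀ u ∈ U, QuadraticMap.polar Q u a = 0 := (mem_perp hQ).1 haP
  have hbPU : ∀ u ∈ U, QuadraticMap.polar Q u b = 0 := (mem_perp hQ).1 hbP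
  have hbU : b ∉ U := by
    intro h
    have := haPU b h
    rw [B_comm hQ, hab] at this
    exact one_ne_zero this
  set W₁ := U ⊔ Submodule.span F {a} with hW₁
  set W₂ := U ⊔ Submodule.span F {b} with hW₂
  have hf₁ : Module.finrank F W₁ = m := by
    rw [hW₁, finrank_sup_span' U haU]
    exact hUd
  have hf₂ : Module.finrank F W₂ = m := by
    rw [hW₂, finrank_sup_span' U hbU]
    exact hUd
  have hts : ∀ c : Fin m ⊕ Fin m → F, c ∈ perp hQ U → Q c = 0 → ∀ w ∈ U ⊔ Submodule.span F {c}, Q w = 0 := by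
    intro c hc hQc w hw
    obtain ⟨u, hu, l, hl, rfl⟩ := Submodule.mem_sup.1 hw
    obtain ⟨t, rfl⟩ := Submodule.mem_span_singleton.1 hl
    rw [Q_add hQ, hU0 u hu, Q_smul hQ, hQc, B_smul_right hQ, (mem_perp hQ).1 hc u hu]
    ring
  have ht₁ := hts a haP hQa
  have ht₂ := hts b hbP hQb
  have hbW₁ : b ∉ W₁ := by
    intro h
    obtain ⟨u, hu, l, hl, rfl⟩ := Submodule.mem_sup.1 h
    obtain ⟨t, rfl⟩ := Submodule.mem_span_singleton.1 hl
    have h1 : QuadraticMap.polar Q (u + t • a) a = 0 := by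
      rw [B_add_left hQ, haPU u hu, B_smul_left hQ, B_self hQ, hQa]
      ring
    rw [B_comm hQ, hab] at h1
    exact one_ne_zero h1
  have hne : W₁ ≠ W₂ := by
    intro h
    apply hbW₁
    rw [h]
    exact Submodule.mem_sup_right (Submodule.mem_span_singleton_self b)
  have hfP₃ : perp hQ U = W₁ ⊔ Submodule.span F {b} := by
    symm
    apply Submodule.eq_of_le_of_finrank_eq
    · rw [sup_le_iff, sup_le_iff]
      refine ⟨⟨hUperp, ?_⟩, ?_⟩
      · rwa [Submodule.span_singleton_le_iff_mem]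
      · rwa [Submodule.span_singleton_le_iff_mem]
    · rw [finrank_sup_span' W₁ hbW₁, hf₁]
      omega
  -- the classification
  have hclass : ∀ W : Submodule F (Fin m ⊕ Fin m → F), Module.finrank F W = m → (∀ w ∈ W, Q w = 0) → U ≤ W → W = W₁ ∨ W = W₂ := by
    intro W hWd hW0 hUW
    have hWP : W ≤ perp hQ U := fun x hx => (mem_perp hQ).2 fun w hw => Cfsg.Agent.Lib.OrthWitt.B_of_sing hQ hW0 (hUW hw) hx
    have hlt : U < W := lt_of_le_of_ne hUW (by
      rintro rfl
      omega)
    obtain ⟨w, hwW, hwU⟩ := SetLike.exists_of_lt hlt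
    have hwP := hWP hwW
    rw [hfP₃] at hwP
    obtain ⟨x, hx, l, hl, hxl⟩ := Submodule.mem_sup.1 hwP
    obtain ⟨β, rfl⟩ := Submodule.mem_span_singleton.1 hl
    obtain ⟨u, hu, l', hl', rfl⟩ := Submodule.mem_sup.1 hx
    obtain ⟨α, rfl⟩ := Submodule.mem_span_singleton.1 hl'
    have hQw := hW0 w hwW
    rw [← hxl, Q_add hQ, Q_add hQ, Q_smul hQ, Q_smul hQ, hU0 u hu, hQa, hQb] at hQw
    simp only [B_add_left hQ, B_smul_left hQ, B_smul_right hQ, hab, hbPU u hu, haPU u hu] at hQw
    have hαβ : α * β = 0 := by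
      linear_combination hQw
    have hdim : ∀ c : Fin m ⊕ Fin m → F, c ∉ U → c ∈ W → W = U ⊔ Submodule.span F {c} := by
      intro c hc hcW
      symm
      apply Submodule.eq_of_le_of_finrank_eq
      · rw [sup_le_iff, Submodule.span_singleton_le_iff_mem]
        exact ⟨hUW, hcW⟩
      · rw [finrank_sup_span' U hc]
        omega
    rcases mul_eq_zero.1 hαβ with h | h
    · right
      subst h
      rw [zero_smul, add_zero] at hxl
      have hβ : β ≠ 0 := by
        rintro rfl
        apply hwU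
        rw [← hxl, zero_smul, add_zero]
        exact hu
      have hbW : b ∈ W := by
        have h1 : β • b ∈ W := by
          have := W.sub_mem hwW (hUW hu)
          rwa [← hxl, add_sub_cancel_left] at this
        have h2 := W.smul_mem β⁻¹ h1
        rwa [smul_smul, inv_mul_cancel₀ hβ, one_smul] at h2
      exact hdim b hbU hbW
    · left
      subst h
      rw [zero_smul, add_zero] at hxl
      have hα : α ≠ 0 := by
        rintro rfl
        apply hwU
        rw [← hxl, zero_smul, add_zero]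
        exact hu
      have haW : a ∈ W := by
        have h1 : α • a ∈ W := by
          have := W.sub_mem hwW (hUW hu)
          rwa [← hxl, add_sub_cancel_left] at this
        have h2 := W.smul_mem α⁻¹ h1
        rwa [smul_smul, inv_mul_cancel₀ hα, one_smul] at h2
      exact hdim a haU haW
  rw [Nat.card_eq_two_iff]
  refine ⟨⟨W₁, hf₁, ht₁, le_sup_left⟩, ⟨W₂, hf₂, ht₂, le_sup_left⟩, fun h => hne (congrArg Subtype.val h), ?_⟩
  ext ⟨W, h1, h2, h3⟩
  simp only [Set.mem_insert_iff, Set.mem_singleton_iff, Set.mem_univ, iff_true, Subtype.mk.injEq]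
  exact hclass W h1 h2 h3

end Cfsg.Agent.S0832
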