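import Cfsg.Statements.S0834
import Cfsg.Agent.Lib.TensorDisc

set_option autoImplicit false
open Cfsg

namespace Cfsg.Agent.S0834

/-- Over a finite field with 2 ≠ 0: if B₁ on U (dim 2k, k ≥ 1) and B₂ on W (dim 2l, l ≥ 1) are non-degenerate symmetric forms admitting no totally isotropic subspaces of dimensions k, resp. l (minus type), then B₁ ⊗ B₂ admits a totally isotropic subspace of dimension 2kl (plus type). -/
theorem result {F U W : Type*} [Field F] [Fintype F] [AddCommGroup U] [Module F U] [FiniteDimensional F U] [AddCommGroup W] [Module F W] [FiniteDimensional F W] (h2 : (2 : F) ≠ 0) (B₁ : LinearMap.BilinForm F U) (B₂ : LinearMap.BilinForm F W) (h₁ : B₁.Nondegenerate) (h₂ : B₂.Nondegenerate) (hS₁ : B₁.IsSymm) (hS₂ : B₂.IsSymm) (k l : ℕ) (hk : 1 ≤ k) (hl : 1 ≤ l) (hU : Module.finrank F U = 2 * k) (hW : Module.finrank F W = 2 * l) (hm₁ : ¬ (∃ X : Submodule F (U), Module.finrank F X = k ∧ ∀ x ∈ X, ∀ y ∈ X,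 (B₁) x y = 0)) (hm₂ : ¬ (∃ X : Submodule F (W), Module.finrank F X = l ∧ ∀ x ∈ X, ∀ y ∈ X, (B₂) x y = 0)) : (∃ X : Submodule F (TensorProduct F U W), Module.finrank F X = 2 * k * l ∧ ∀ x ∈ X, ∀ y ∈ X, (B₁.tmul B₂) x y = 0) := by
  classical
  obtain ⟨hN, hSy⟩ := Cfsg.Agent.Lib.TensorDisc.tensor_nondeg B₁ B₂ h₁ h₂ hS₁ hS₂
  have hT : Module.finrank F (TensorProduct F U W) = 2 * (2 * k * l) := by
    rw [Module.finrank_tensorProduct, hU, hW]
    ring
  have hpos : 1 ≤ 2 * k * l := by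
    have : 1 * 1 ≤ k * l := Nat.mul_le_mul hk hl
    nlinarith
  let b₁ : Module.Basis (Fin (2 * k)) F U := Module.finBasisOfFinrankEq F U hU
  let b₂ : Module.Basis (Fin (2 * l)) F W := Module.finBasisOfFinrankEq F W hW
  apply Cfsg.Agent.Lib.TensorDisc.exists_ti_of_square h2 (B₁.tmul B₂) hSy hN hpos hT (b₁.tensorProduct b₂)
  rw [Cfsg.Agent.Lib.TensorDisc.gram_tensor, Fintype.card_fin, Fintype.card_fin,
    Even.neg_one_pow ⟨k * l, by ring⟩, one_mul]
  exact ⟨(Cfsg.Agent.Lib.OrthGram.gram B₁ b₁).det ^ l * (Cfsg.Agent.Lib.OrthGram.gram B₂ b₂).det ^ k, by ring⟩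

end Cfsg.Agent.S0834
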