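import Cfsg.Statements.S0835
import Cfsg.Agent.Lib.TensorDisc

set_option autoImplicit false
open Cfsg

namespace Cfsg.Agent.S0835


theorem hne {F V : Type*} [Field F] [AddCommGroup V] [Module F V] (B : LinearMap.BilinForm F V) {n : ℕ} (b : Module.Basis (Fin n) F V)
      (hB : B.Nondegenerate) : (Cfsg.Agent.Lib.OrthGram.gram B b).det ≠ 0 := by
  have h5 := (LinearMap.BilinForm.nondegenerate_iff_det_ne_zero b).1 hB
  have e1 : LinearMap.BilinForm.toMatrix b B = Cfsg.Agent.Lib.OrthGram.gram B b := by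
    ext i j
    simp [Cfsg.Agent.Lib.OrthGram.gram, LinearMap.BilinForm.toMatrix_apply]
  rwa [e1] at h5


/-- Over a finite field with 2 ≠ 0: if B₁ on U (dim 2k, k ≥ 1) is non-degenerate symmetric of minus type (no totally isotropic k-subspace) and B₂ on W (dim 2l + 1) is non-degenerate symmetric, then B₁ ⊗ B₂ (dimension 2k(2l+1)) admits no totally isotropic subspace of dimension k(2l+1) (minus type). -/
theorem result {F U W : Type*} [Field F] [Fintype F] [AddCommGroup U] [Module F U] [FiniteDimensional F U] [AddCommGroup W] [Module F W] [FiniteDimensional F W] (h2 : (2 : F) ≠ 0) (B₁ : LinearMap.BilinForm F U) (B₂ : LinearMap.BilinForm F W) (h₁ : B₁.Nondegenerate) (h₂ : B₂.Nondegenerate) (hS₁ : B₁.IsSymm) (hS₂ : B₂.IsSymm) (k l : ℕ) (hk : 1 ≤ k) (hU : Module.finrank F U = 2 * k) (hW : Module.finrank F W = 2 * l + 1) (hm₁ : ¬ (∃ X : Submodule F (U), Module.finrank F X = k ∧ ∀ x ∈ X, ∀ y ∈ X, (B₁) x y = 0)) : ¬ (∃ X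 : Submodule F (TensorProduct F U W), Module.finrank F X = k * (2 * l + 1) ∧ ∀ x ∈ X, ∀ y ∈ X, (B₁.tmul B₂) x y = 0) := by
  classical
  rintro ⟨X, hX, hti⟩
  obtain ⟨hN, hSy⟩ := Cfsg.Agent.Lib.TensorDisc.tensor_nondeg B₁ B₂ h₁ h₂ hS₁ hS₂
  have hT : Module.finrank F (TensorProduct F U W) = 2 * (k * (2 * l + 1)) := by
    rw [Module.finrank_tensorProduct, hU, hW]
    ring
  let b₁ : Module.Basis (Fin (2 * k)) F U := Module.finBasisOfFinrankEq F U hU
  let b₂ : Module.Basis (Fin (2 * l + 1)) F W := Module.finBasisOfFinrankEq F W hW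
  have hsq := Cfsg.Agent.Lib.TensorDisc.ti_square (B₁.tmul B₂) hSy hT X hX hti (b₁.tensorProduct b₂)
  rw [Cfsg.Agent.Lib.TensorDisc.gram_tensor, Fintype.card_fin, Fintype.card_fin] at hsq
  have hg₁ := hne B₁ b₁ h₁
  have hg₂ := hne B₂ b₂ h₂
  have hxsq : IsSquare ((-1) ^ k * (Cfsg.Agent.Lib.OrthGram.gram B₁ b₁).det) := by
    generalize (Cfsg.Agent.Lib.OrthGram.gram B₁ b₁).det = g₁ at hsq hg₁ ⊢
    generalize (Cfsg.Agent.Lib.OrthGram.gram B₂ b₂).det = g₂ at hsq hg₂ ⊢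
    obtain ⟨w, hw⟩ := hsq
    have hsgn : ((-1 : F) ^ k) * (-1) ^ k = 1 := by
      rw [← mul_pow]
      simp
    set x : F := (-1) ^ k * g₁ with hx
    have hxne : x ≠ 0 := by
      rw [hx]
      exact mul_ne_zero (pow_ne_zero _ (by simp)) hg₁
    have hy : g₂ ^ k ≠ 0 := pow_ne_zero _ hg₂
    have hsgn2 : (-1 : F) ^ (k * (2 * l + 1)) = (-1) ^ k := by
      rw [mul_add, mul_one, pow_add, mul_comm k (2 * l), pow_mul, pow_mul]
      simp
    have h3 : x ^ (2 * l + 1) * (g₂ ^ k) ^ 2 = w * w := by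
      rw [← hw, hsgn2, hx, mul_pow]
      have h4 : ((-1 : F) ^ k) ^ (2 * l + 1) = (-1) ^ k := by
        rw [← pow_mul, mul_add, mul_one, pow_add, mul_comm k (2 * l), pow_mul, pow_mul]
        simp
      rw [h4, ← pow_mul, mul_comm k 2]
      ring
    refine ⟨w / (x ^ l * g₂ ^ k), ?_⟩
    have hxl : x ^ l ≠ 0 := pow_ne_zero _ hxne
    field_simp
    have h6 : x ^ (2 * l + 1) = x * (x ^ l) ^ 2 := by ring
    rw [h6] at h3
    rw [h3]
    ring
  apply hm₁
  exact Cfsg.Agent.Lib.TensorDisc.exists_ti_of_square h2 B₁ hS₁ h₁ hk hU b₁ hxsq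

end Cfsg.Agent.S0835
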