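import Cfsg.Statements.S0836
import Cfsg.Agent.Lib.SLGen

set_option autoImplicit false
open Cfsg

namespace Cfsg.Agent.S0836

/-- Elementary transvections are commutators in SL_n(F): for n ≥ 3 over any field, and for n = 2 whenever F has a non-zero element x with x^2 ≠ 1. -/
theorem result {F : Type*} [Field F] (n : ℕ) (hn : 3 ≤ n ∨ (n = 2 ∧ ∃ x : F, x ≠ 0 ∧ x ^ 2 ≠ 1)) (i j : Fin n) (hij : i ≠ j) (c : F) (t : Matrix.SpecialLinearGroup (Fin n) F) (ht : (t : Matrix (Fin n) (Fin n) F) = Matrix.transvection i j c) : t ∈ commutatorSet (Matrix.SpecialLinearGroup (Fin n) F) := by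
  have h : t = Matrix.SpecialLinearGroup.transvection hij c := Subtype.ext ht
  rw [h]
  rcases hn with hn | ⟨_, x, hx, hx2⟩
  · obtain ⟨k, hik, hjk⟩ := Lib.SLGen.exists_third_of_three_le hn i j
    exact Lib.SLGen.T_mem_commutatorSet_of_three hij hik hjk c
  · exact Lib.SLGen.T_mem_commutatorSet_of_sq hij hx hx2 c

end Cfsg.Agent.S0836
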