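import Cfsg.Statements.S0837
import Cfsg.Agent.S0755
import Cfsg.Agent.Lib.UnitBasic

set_option autoImplicit false
open Cfsg

namespace Cfsg.Agent.S0837

open Matrix Cfsg Cfsg.Agent.Lib.HermStd Cfsg.Agent.Lib.HermForm Cfsg.Agent.Lib.UnitBasic Cfsg.Agent.Lib.FormVec

section

variable {F : Type*} [Field F] [Fintype F] {q n : ℕ}

/-- the abstract statement: a decomposition gives the group isomorphism -/
theorem decomp_iso (hF : Fintype.card F = q ^ 2) {k l : ℕ} (W : Submodule F (Fin n → F))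
    (E : ((Fin k → F) × (Fin l → F)) ≃ₗ[F] (Fin n → F))
    (hE : ∀ a b a' b', hermForm n F q (E (a, b)) (E (a', b')) = hermForm k F q a a' + hermForm l F q b b')
    (hW : ∀ a b, E (a, b) ∈ W ↔ b = 0) :
    Nonempty (↥((Cfsg.stabilizing (Cfsg.glToMat (Fin n) F) (W : Set (Fin n → F))).subgroupOf (Cfsg.GU n F q)) ≃* ↥(Cfsg.GU k F q) × ↥(Cfsg.GU l F q)) := by
  classical
  let MM : (↥(GU k F q) × ↥(GU l F q)) → Matrix (Fin n) (Fin n) F :=
    fun p => LinearMap.toMatrix' (E.toLinearMap ∘ₗ (((p.1 : GL (Fin k) F) : Matrix (Fin k) (Fin k) F).mulVecLin.prodMap ((p.2 : GL (Fin l) F) : Matrix (Fin l) (Fin l) F).mulVecLin) ∘ₗ E.symm.toLinearMap)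
  have hMM : ∀ p a b, MM p *ᵥ E (a, b) = E (((p.1 : GL (Fin k) F) : Matrix (Fin k) (Fin k) F) *ᵥ a, ((p.2 : GL (Fin l) F) : Matrix (Fin l) (Fin l) F) *ᵥ b) := by
    intro p a b
    show LinearMap.toMatrix' _ *ᵥ _ = _
    rw [LinearMap.toMatrix'_mulVec]
    simp
  have hext : ∀ X Y : Matrix (Fin n) (Fin n) F, (∀ a b, X *ᵥ E (a, b) = Y *ᵥ E (a, b)) → X = Y := by
    intro X Y h
    apply Matrix.mulVec_injective
    funext v
    obtain ⟨⟨a, b⟩, rfl⟩ := E.surjective v
    exact h a b
  have hone : MM 1 = 1 := by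
    apply hext
    intro a b
    rw [hMM]
    simp
  have hmul : ∀ p r, MM (p * r) = MM p * MM r := by
    intro p r
    apply hext
    intro a b
    rw [← Matrix.mulVec_mulVec, hMM, hMM, hMM]
    simp [Matrix.mulVec_mulVec]
  let Φ₀ : (↥(GU k F q) × ↥(GU l F q)) →* GL (Fin n) F :=
    MonoidHom.toHomUnits { toFun := MM, map_one' := hone, map_mul' := hmul }
  have hΦ₀ : ∀ p a b, ((Φ₀ p : GL (Fin n) F) : Matrix (Fin n) (Fin n) F) *ᵥ E (a, b) = E (((p.1 : GL (Fin k) F) : Matrix (Fin k) (Fin k) F) *ᵥ a, ((p.2 : GL (Fin l) F) : Matrix (Fin l) (Fin l) F) *ᵥ b) := hMM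
  have hmem : ∀ p, Φ₀ p ∈ GU n F q := by
    intro p
    rw [mem_GU_iff]
    intro u v
    obtain ⟨⟨a, b⟩, rfl⟩ := E.surjective u
    obtain ⟨⟨a', b'⟩, rfl⟩ := E.surjective v
    rw [hΦ₀, hΦ₀, hE, hE, (mem_GU_iff _).1 p.1.2, (mem_GU_iff _).1 p.2.2]
  let Φ₁ : (↥(GU k F q) × ↥(GU l F q)) →* ↥(GU n F q) := Φ₀.codRestrict _ hmem
  have hstab : ∀ p, Φ₁ p ∈ (Cfsg.stabilizing (Cfsg.glToMat (Fin n) F) (W : Set (Fin n → F))).subgroupOf (Cfsg.GU n F q) := by
    intro p
    rw [Subgroup.mem_subgroupOf]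
    intro v
    obtain ⟨⟨a, b⟩, rfl⟩ := E.surjective v
    show E (a, b) ∈ W ↔ ((Φ₀ p : GL (Fin n) F) : Matrix (Fin n) (Fin n) F) *ᵥ E (a, b) ∈ W
    rw [hΦ₀, hW, hW]
    constructor
    · rintro rfl
      simp
    · intro h
      have h2 : ((p.2⁻¹ : ↥(GU l F q)) : GL (Fin l) F).val *ᵥ (((p.2 : GL (Fin l) F) : Matrix (Fin l) (Fin l) F) *ᵥ b) = b := by
        rw [Matrix.mulVec_mulVec]
        have : ((p.2⁻¹ : ↥(GU l F q)) : GL (Fin l) F).val * ((p.2 : GL (Fin l) F) : Matrix (Fin l) (Fin l) F) = 1 := by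
          have h3 : ((p.2⁻¹ * p.2 : ↥(GU l F q)) : GL (Fin l) F).val = 1 := by
            rw [inv_mul_cancel]; rfl
          exact h3
        rw [this, Matrix.one_mulVec]
      rw [h, Matrix.mulVec_zero] at h2
      exact h2.symm
  let Φ : (↥(GU k F q) × ↥(GU l F q)) →* ↥((Cfsg.stabilizing (Cfsg.glToMat (Fin n) F) (W : Set (Fin n → F))).subgroupOf (Cfsg.GU n F q)) :=
    Φ₁.codRestrict _ hstab
  have hΦ : ∀ p a b, (((Φ p : ↥(GU n F q)) : GL (Fin n) F) : Matrix (Fin n) (Fin n) F) *ᵥ E (a, b) = E (((p.1 : GL (Fin k) F) : Matrix (Fin k) (Fin k) F) *ᵥ a, ((p.2 : GL (Fin l) F) : Matrix (Fin l) (Fin l) F) *ᵥ b) := hMM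
  have hinj : Function.Injective Φ := by
    rw [injective_iff_map_eq_one]
    intro p hp
    have h1 : ∀ a b, ((p.1 : GL (Fin k) F) : Matrix (Fin k) (Fin k) F) *ᵥ a = a ∧ ((p.2 : GL (Fin l) F) : Matrix (Fin l) (Fin l) F) *ᵥ b = b := by
      intro a b
      have h2 := hΦ p a b
      rw [hp] at h2
      have h3 : E (a, b) = _ := (Matrix.one_mulVec _).symm.trans h2
      have h3 := E.injective h3
      exact ⟨(congrArg Prod.fst h3).symm, (congrArg Prod.snd h3).symm⟩
    apply Prod.ext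
    · apply Subtype.ext
      apply Units.ext
      apply Matrix.mulVec_injective
      funext a
      rw [(h1 a 0).1]
      simp
    · apply Subtype.ext
      apply Units.ext
      apply Matrix.mulVec_injective
      funext b
      rw [(h1 0 b).2]
      simp
  have hsurj : Function.Surjective Φ := by
    rintro ⟨⟨g, hgU⟩, hg0⟩
    have hg : g ∈ Cfsg.stabilizing (Cfsg.glToMat (Fin n) F) (W : Set (Fin n → F)) := Subgroup.mem_subgroupOf.1 hg0
    have hg1 : ∀ v, v ∈ W ↔ (g : Matrix (Fin n) (Fin n) F) *ᵥ v ∈ W := hg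
    have hginv : g⁻¹ ∈ Cfsg.stabilizing (Cfsg.glToMat (Fin n) F) (W : Set (Fin n → F)) := inv_mem hg
    have hg2 : ∀ v, v ∈ W ↔ ((g⁻¹ : GL (Fin n) F) : Matrix (Fin n) (Fin n) F) *ᵥ v ∈ W := hginv
    have hpres := (mem_GU_iff _).1 hgU
    have hgg : ∀ v, (g : Matrix (Fin n) (Fin n) F) *ᵥ (((g⁻¹ : GL (Fin n) F) : Matrix (Fin n) (Fin n) F) *ᵥ v) = v := by
      intro v
      rw [Matrix.mulVec_mulVec]
      have : (g : Matrix (Fin n) (Fin n) F) * ((g⁻¹ : GL (Fin n) F) : Matrix (Fin n) (Fin n) F) = 1 := g.mul_inv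
      rw [this, Matrix.one_mulVec]
    -- the action on the first summand
    have h1 : ∀ a, ∃ a', (g : Matrix (Fin n) (Fin n) F) *ᵥ E (a, 0) = E (a', 0) := by
      intro a
      obtain ⟨⟨a', b'⟩, hab⟩ := E.surjective ((g : Matrix (Fin n) (Fin n) F) *ᵥ E (a, 0))
      have h3 : (g : Matrix (Fin n) (Fin n) F) *ᵥ E (a, 0) ∈ W := (hg1 _).1 ((hW a 0).2 rfl)
      rw [← hab, hW] at h3
      subst h3
      exact ⟨a', hab.symm⟩
    have h2 : ∀ b, ∃ b', (g : Matrix (Fin n) (Fin n) F) *ᵥ E (0, b) = E (0, b') := by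
      intro b
      obtain ⟨⟨a', b'⟩, hab⟩ := E.surjective ((g : Matrix (Fin n) (Fin n) F) *ᵥ E (0, b))
      have ha0 : a' = 0 := by
        by_contra hne
        obtain ⟨c, hc⟩ := hf_nondeg_left hF hne
        obtain ⟨c', hc'⟩ : ∃ c', ((g⁻¹ : GL (Fin n) F) : Matrix (Fin n) (Fin n) F) *ᵥ E (c, 0) = E (c', 0) := by
          obtain ⟨⟨x, y⟩, hxy⟩ := E.surjective (((g⁻¹ : GL (Fin n) F) : Matrix (Fin n) (Fin n) F) *ᵥ E (c, 0))
          have h3 := (hg2 _).1 ((hW c 0).2 rfl)
          rw [← hxy, hW] at h3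
          subst h3
          exact ⟨x, hxy.symm⟩
        apply hc
        have e1 : (g : Matrix (Fin n) (Fin n) F) *ᵥ E (c', 0) = E (c, 0) := by
          rw [← hc']
          exact hgg _
        have h5 : hermForm n F q (E (c, 0)) (E (a', b')) = 0 := by
          rw [← e1, hab, hpres, hE]
          have hq0 : q ≠ 0 := by have := one_lt_q hF; omega
          simp [Cfsg.hermForm, hq0]
        rw [hE] at h5
        have hq0 : q ≠ 0 := by have := one_lt_q hF; omega
        have h6 : hermForm l F q 0 b' = 0 := by simp [Cfsg.hermForm]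
        rw [h6, add_zero] at h5
        exact h5
      subst ha0
      exact ⟨b', hab.symm⟩
    choose A hA using h1
    choose B hB using h2
    have hq0 : q ≠ 0 := by have := one_lt_q hF; omega
    have hz1 : ∀ x : Fin k → F, hermForm k F q x 0 = 0 := by intro x; simp [Cfsg.hermForm, hq0]
    have hz2 : ∀ x : Fin k → F, hermForm k F q 0 x = 0 := by intro x; simp [Cfsg.hermForm]
    have hz3 : ∀ x : Fin l → F, hermForm l F q x 0 = 0 := by intro x; simp [Cfsg.hermForm, hq0]
    have hz4 : ∀ x : Fin l → F, hermForm l F q 0 x = 0 := by intro x; simp [Cfsg.hermForm]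
    let LA : (Fin k → F) →ₗ[F] (Fin k → F) :=
      (LinearMap.fst F _ _) ∘ₗ E.symm.toLinearMap ∘ₗ (g : Matrix (Fin n) (Fin n) F).mulVecLin ∘ₗ E.toLinearMap ∘ₗ (LinearMap.inl F _ _)
    let LB : (Fin l → F) →ₗ[F] (Fin l → F) :=
      (LinearMap.snd F _ _) ∘ₗ E.symm.toLinearMap ∘ₗ (g : Matrix (Fin n) (Fin n) F).mulVecLin ∘ₗ E.toLinearMap ∘ₗ (LinearMap.inr F _ _)
    have hLA : ∀ a, LA a = A a := by
      intro a
      show (E.symm ((g : Matrix (Fin n) (Fin n) F) *ᵥ E (a, 0))).1 = _
      rw [hA]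
      simp
    have hLB : ∀ b, LB b = B b := by
      intro b
      show (E.symm ((g : Matrix (Fin n) (Fin n) F) *ᵥ E (0, b))).2 = _
      rw [hB]
      simp
    have hisoA : ∀ u v, hermForm k F q (LA u) (LA v) = hermForm k F q u v := by
      intro u v
      rw [hLA, hLA]
      have h5 := hE (A u) 0 (A v) 0
      rw [← hA, ← hA, hpres, hE] at h5
      rw [hz3, add_zero, add_zero] at h5
      exact h5.symm
    have hisoB : ∀ u v, hermForm l F q (LB u) (LB v) = hermForm l F q u v := by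
      intro u v
      rw [hLB, hLB]
      have h5 := hE 0 (B u) 0 (B v)
      rw [← hB, ← hB, hpres, hE] at h5
      rw [hz2, zero_add, zero_add] at h5
      exact h5.symm
    have hinjA : Function.Injective LA := by
      rw [injective_iff_map_eq_zero]
      intro x hx
      by_contra h0
      obtain ⟨y, hy⟩ := hf_nondeg_left hF h0
      apply hy
      rw [← hisoA, hx, hz1]
    have hinjB : Function.Injective LB := by
      rw [injective_iff_map_eq_zero]
      intro x hx
      by_contra h0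
      obtain ⟨y, hy⟩ := hf_nondeg_left hF h0
      apply hy
      rw [← hisoB, hx, hz3]
    let gA : GL (Fin k) F := glOf (LinearEquiv.ofInjectiveEndo LA hinjA)
    let gB : GL (Fin l) F := glOf (LinearEquiv.ofInjectiveEndo LB hinjB)
    have hgA : ∀ v, (gA : Matrix (Fin k) (Fin k) F) *ᵥ v = LA v := fun v => glOf_mulVec _ v
    have hgB : ∀ v, (gB : Matrix (Fin l) (Fin l) F) *ᵥ v = LB v := fun v => glOf_mulVec _ v
    have hmemA : gA ∈ GU k F q := by
      rw [mem_GU_iff]
      intro u v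
      rw [hgA, hgA, hisoA]
    have hmemB : gB ∈ GU l F q := by
      rw [mem_GU_iff]
      intro u v
      rw [hgB, hgB, hisoB]
    refine ⟨(⟨gA, hmemA⟩, ⟨gB, hmemB⟩), ?_⟩
    apply Subtype.ext
    apply Subtype.ext
    apply Units.ext
    apply hext
    intro a b
    show MM _ *ᵥ E (a, b) = _
    rw [hMM]
    show E ((gA : Matrix (Fin k) (Fin k) F) *ᵥ a, (gB : Matrix (Fin l) (Fin l) F) *ᵥ b) = _
    rw [hgA, hgB, hLA, hLB]
    have h6 : ∀ (x : Fin k → F) (y : Fin l → F), E (x, y) = E (x, 0) + E (0, y) := by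
      intro x y
      rw [← map_add]
      simp
    rw [h6 (A a), h6 a, Matrix.mulVec_add, hA, hB]
  exact ⟨(MulEquiv.ofBijective Φ ⟨hinj, hsurj⟩).symm⟩

/-- Expansion of the form on two families. -/
theorem hf_fam (hF : Fintype.card F = q ^ 2) {ι κ : Type*} [Fintype ι] [Fintype κ] (u : ι → Fin n → F) (v : κ → Fin n → F)
    (a : ι → F) (c : κ → F) :
    hermForm n F q (∑ i, a i • u i) (∑ j, c j • v j) = ∑ i, ∑ j, a i * (c j) ^ q * hermForm n F q (u i) (v j) := by
  have h1 : ∀ w : Fin n → F, hermForm n F q (∑ i, a i • u i) w = ∑ i, a i * hermForm n F q (u i) w := by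
    intro w
    have := map_sum (Bh hF n w) (fun i => a i • u i) Finset.univ
    simp only [Bh_apply] at this
    rw [this]
    simp [hf_smul_left]
  have h2 : ∀ w : Fin n → F, hermForm n F q w (∑ j, c j • v j) = ∑ j, (c j) ^ q * hermForm n F q w (v j) := by
    intro w
    have := map_sum ((Bh hF n).flip w) (fun j => c j • v j) Finset.univ
    simp only [LinearMap.flip_apply, Bh_apply] at this
    rw [this]
    simp [hf_smul_right hF]
  rw [h1]
  simp_rw [h2, Finset.mul_sum]
  refine Finset.sum_congr rfl fun i _ => Finset.sum_congr rfl fun j _ => by ring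

end


/-- If W ≤ F^n (|F| = q²) is a k-dimensional subspace on which the Hermitian form Σ x_i y_i^q is non-degenerate, then the stabiliser of W in GU_n(q) is isomorphic to GU_k(q) × GU_(n−k)(q). -/
theorem result {F : Type*} [Field F] [Fintype F] {q : ℕ} (hF : Fintype.card F = q ^ 2) (n k : ℕ) (hk : k ≤ n) (W : Submodule F (Fin n → F)) (hWk : Module.finrank F W = k) (hW : ∀ u ∈ W, (∀ v ∈ W, Cfsg.hermForm n F q u v = 0) → u = 0) : Nonempty (↥((Cfsg.stabilizing (Cfsg.glToMat (Fin n) F) (W : Set (Fin n → F))).subgroupOf (Cfsg.GU n F q)) ≃* ↥(Cfsg.GU k F q) × ↥(Cfsg.GU (n - k) F q)) := by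
  classical
  have hq0 : q ≠ 0 := by have := one_lt_q hF; omega
  have hconj0 : ∀ x y : Fin n → F, hermForm n F q x y = 0 → hermForm n F q y x = 0 := by
    intro x y h
    rw [hf_conj hF, h, zero_pow hq0]
  -- orthonormal basis of `W`
  obtain ⟨k', e, heW, he, hesp⟩ := Cfsg.Agent.S0755.aux (sig hF) (sig_ne hF) (sig_sig hF) (Bh hF n) (Bh_symm hF n) W
    (fun x hx h => hW x hx (fun y hy => hconj0 _ _ (h y hy)))
  have he' : ∀ i j, hermForm n F q (e i) (e j) = if i = j then 1 else 0 := by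
    intro i j
    have := he j i
    rw [Bh_apply] at this
    rw [this]
    simp [eq_comm]
  -- the complement
  let W' : Submodule F (Fin n → F) :=
    { carrier := {x | ∀ i, hermForm n F q x (e i) = 0}
      add_mem' := fun {a b} ha hb i => by rw [hf_add_left, ha i, hb i, add_zero]
      zero_mem' := fun i => by simp [Cfsg.hermForm]
      smul_mem' := fun c x hx i => by rw [hf_smul_left, hx i, mul_zero] }
  have hW'mem : ∀ x, x ∈ W' ↔ ∀ i, hermForm n F q x (e i) = 0 := fun x => Iff.rfl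
  -- the projection
  have hleft : ∀ (a : Fin k' → F) (v : Fin n → F), hermForm n F q (∑ i, a i • e i) v = ∑ i, a i * hermForm n F q (e i) v := by
    intro a v
    have := map_sum (Bh hF n v) (fun i => a i • e i) Finset.univ
    simp only [Bh_apply] at this
    rw [this]
    simp [hf_smul_left]
  have hproj : ∀ y : Fin n → F, y - ∑ i, hermForm n F q y (e i) • e i ∈ W' := by
    intro y j
    rw [hf_sub_left, hleft]
    simp [he']
  have hW'nd : ∀ x ∈ W', (∀ y ∈ W', Bh hF n x y = 0) → x = 0 := by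
    intro x hx h
    by_contra h0
    obtain ⟨y, hy⟩ := hf_nondeg_left hF h0
    apply hy
    have h1 := h _ (hproj y)
    rw [Bh_apply, hf_sub_left, hleft, sub_eq_zero] at h1
    rw [h1]
    apply Finset.sum_eq_zero
    intro i _
    rw [hconj0 _ _ (hx i), mul_zero]
  obtain ⟨l', f, hfW, hf, hfsp⟩ := Cfsg.Agent.S0755.aux (sig hF) (sig_ne hF) (sig_sig hF) (Bh hF n) (Bh_symm hF n) W' hW'nd
  have hf' : ∀ i j, hermForm n F q (f i) (f j) = if i = j then 1 else 0 := by
    intro i j
    have := hf j i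
    rw [Bh_apply] at this
    rw [this]
    simp [eq_comm]
  have hfe : ∀ i j, hermForm n F q (f i) (e j) = 0 := fun i j => hfW i j
  have hef : ∀ i j, hermForm n F q (e i) (f j) = 0 := fun i j => hconj0 _ _ (hfW j i)
  -- the map
  let E₀ : ((Fin k' → F) × (Fin l' → F)) →ₗ[F] (Fin n → F) :=
    (Fintype.linearCombination F e).coprod (Fintype.linearCombination F f)
  have hE₀ : ∀ a b, E₀ (a, b) = ∑ i, a i • e i + ∑ j, b j • f j := by
    intro a b
    simp [E₀, Fintype.linearCombination_apply]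
  have hform : ∀ a b a' b', hermForm n F q (E₀ (a, b)) (E₀ (a', b')) = hermForm k' F q a a' + hermForm l' F q b b' := by
    intro a b a' b'
    rw [hE₀, hE₀, hf_add_left, hf_add_right hF, hf_add_right hF, hf_fam hF, hf_fam hF, hf_fam hF, hf_fam hF]
    simp only [he', hf', hef, hfe, mul_zero, Finset.sum_const_zero, add_zero, zero_add, mul_ite, mul_one, Finset.sum_ite_eq, Finset.mem_univ, if_true]
    simp [Cfsg.hermForm]
  have hinj : Function.Injective E₀ := by
    rw [injective_iff_map_eq_zero]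
    rintro ⟨a, b⟩ h
    have hz : ∀ a' b', hermForm k' F q a a' + hermForm l' F q b b' = 0 := by
      intro a' b'
      rw [← hform, h]
      simp [Cfsg.hermForm]
    have ha : a = 0 := by
      by_contra h0
      obtain ⟨y, hy⟩ := hf_nondeg_right hF h0
      apply hy
      have := hz y 0
      simpa [Cfsg.hermForm, hq0] using this
    have hb : b = 0 := by
      by_contra h0
      obtain ⟨y, hy⟩ := hf_nondeg_right hF h0
      apply hy
      have := hz 0 y
      simpa [Cfsg.hermForm, hq0] using this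
    rw [ha, hb]
    rfl
  have hsurj : Function.Surjective E₀ := by
    intro y
    have h1 : y - ∑ i, hermForm n F q y (e i) • e i ∈ Submodule.span F (Set.range f) := by
      rw [hfsp]; exact hproj y
    obtain ⟨c, hc⟩ := (Submodule.mem_span_range_iff_exists_fun F).1 h1
    refine ⟨(fun i => hermForm n F q y (e i), c), ?_⟩
    rw [hE₀, hc]
    abel
  let E := LinearEquiv.ofBijective E₀ ⟨hinj, hsurj⟩
  have hEv : ∀ a b, E (a, b) = ∑ i, a i • e i + ∑ j, b j • f j := hE₀
  have hWE : ∀ a b, E (a, b) ∈ W ↔ b = 0 := by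
    intro a b
    constructor
    · intro h
      rw [← hesp] at h
      obtain ⟨c, hc⟩ := (Submodule.mem_span_range_iff_exists_fun F).1 h
      have h2 : E (c, 0) = E (a, b) := by
        rw [← hc, hEv]
        simp
      have h3 := E.injective h2
      exact (congrArg Prod.snd h3).symm
    · rintro rfl
      rw [hEv, ← hesp]
      simp only [Pi.zero_apply, zero_smul, Finset.sum_const_zero, add_zero]
      exact Submodule.sum_mem _ fun i _ => Submodule.smul_mem _ _ (Submodule.subset_span ⟨i, rfl⟩)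
  -- the dimensions
  have hli : LinearIndependent F e := by
    rw [Fintype.linearIndependent_iff]
    intro g hg j
    have h1 := hleft g (e j)
    have h0 : hermForm n F q 0 (e j) = 0 := by simp [Cfsg.hermForm]
    rw [hg, h0] at h1
    simp [he'] at h1
    exact h1.symm
  have hk' : k' = k := by
    have h1 := finrank_span_eq_card hli
    rw [hesp, hWk] at h1
    simpa using h1.symm
  have hn : k' + l' = n := by
    have h1 := E.finrank_eq
    simpa using h1
  have hl' : l' = n - k := by omega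
  subst hk'
  subst hl'
  exact decomp_iso hF W E hform hWE

end Cfsg.Agent.S0837
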