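import Cfsg.Statements.S0838
import Cfsg.Agent.Lib.OrthDisc

set_option autoImplicit false
open Cfsg

namespace Cfsg.Agent.S0838

open Cfsg.Agent.Lib.OrthDisc Cfsg.Agent.Lib.OrthBridge

/-- Over a finite field with 2 ≠ 0 and n odd: two quadratic forms Q₁, Q₂ on F^n with non-degenerate polar forms are similar — there are an invertible linear map g and a scalar c ≠ 0 with Q₂ (g v) = c · Q₁ v for all v. -/
theorem result {F : Type*} [Field F] [Fintype F] (h2 : (2 : F) ≠ 0) {n : ℕ} (hn : Odd n) (Q₁ Q₂ : QuadraticForm F (Fin n → F)) (h₁ : (QuadraticMap.polarBilin Q₁).Nondegenerate) (h₂ : (QuadraticMap.polarBilin Q₂).Nondegenerate) : ∃ (g : (Fin n → F) ≃ₗ[F] (Fin n → F)) (c : F), c ≠ 0 ∧ ∀ v, Q₂ (g v) = c * Q₁ v := by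
  have hN₁ := nondeg_of_form Q₁ h₁
  have hN₂ := nondeg_of_form Q₂ h₂
  have hd₁ := disc_ne_zero h2 Q₁ hN₁
  have hd₂ := disc_ne_zero h2 Q₂ hN₂
  set D₁ := (Matrix.of (fun i j : Fin n => QuadraticMap.polar ⇑Q₁ (Pi.single i 1) (Pi.single j 1))).det with hD₁
  set D₂ := (Matrix.of (fun i j : Fin n => QuadraticMap.polar ⇑Q₂ (Pi.single i 1) (Pi.single j 1))).det with hD₂
  have hc : D₁ * D₂ ≠ 0 := mul_ne_zero hd₁ hd₂
  have hNc := nondeg_of_form _ (nondeg_smul Q₁ h₁ hc)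
  obtain ⟨g, hg⟩ := (isometric_iff h2 ((D₁ * D₂) • Q₁) Q₂ hNc hN₂).2 (by
    rw [disc_smul, ← hD₁, ← hD₂]
    obtain ⟨k, hk⟩ := hn
    refine ⟨(D₁ * D₂) ^ (k + 1), ?_⟩
    rw [hk]
    ring)
  exact ⟨g, D₁ * D₂, hc, fun v => by simpa using hg v⟩

end Cfsg.Agent.S0838
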