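import Cfsg.Statements.S0839
import Cfsg.Agent.Lib.Rank1

set_option autoImplicit false
open Cfsg

namespace Cfsg.Agent.S0839

open Matrix in
/-- Every transvection t ∈ SL_(n+2)(F) (rank(t − 1) = 1, (t − 1)² = 0) is conjugate in SL_(n+2)(F) to 1 + v·e_0ᵀ for some column vector v with v_0 = 0 (the group A of matrices that are the identity except in the first column below the diagonal); the dimension is written n + 2 ≥ 2. -/
theorem result {F : Type*} [Field F] (n : ℕ) (t : Matrix.SpecialLinearGroup (Fin (n + 2)) F) (ht : Cfsg.IsTransvection (t : Matrix (Fin (n + 2)) (Fin (n + 2)) F)) : ∃ (g : Matrix.SpecialLinearGroup (Fin (n + 2)) F) (v : Fin (n + 2) → F), v 0 = 0 ∧ ((g⁻¹ * t * g : Matrix.SpecialLinearGroup (Fin (n + 2)) F) : Matrix (Fin (n + 2)) (Fin (n + 2)) F) = 1 + Matrix.vecMulVec v (Pi.single 0 1) := by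
  classical
  obtain ⟨hr, hN⟩ := ht
  obtain ⟨u, φ, hu, hφ, hNu⟩ := Cfsg.Agent.Lib.Rank1.exists_vecMulVec hr
  have he : (Pi.single 0 1 : Fin (n+2) → F) ≠ 0 := by
    intro h
    have := congrFun h 0
    simp at this
  obtain ⟨h, hh⟩ := MulAction.exists_smul_eq (Matrix.SpecialLinearGroup (Fin (n+2)) F)
    (Projectivization.mk F φ hφ) (Projectivization.mk F (Pi.single 0 1) he)
  rw [Projectivization.smul_mk, Projectivization.mk_eq_mk_iff] at hh
  obtain ⟨c, hc⟩ := hh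
  have hc' : h • φ = (c : F) • (Pi.single 0 1 : Fin (n+2) → F) := by
    rw [← hc, Units.smul_def]
  have hc'' : (h : Matrix (Fin (n+2)) (Fin (n+2)) F) *ᵥ φ
      = (c : F) • (Pi.single 0 1 : Fin (n+2) → F) := hc'
  let g : Matrix.SpecialLinearGroup (Fin (n+2)) F :=
    ⟨(h : Matrix (Fin (n+2)) (Fin (n+2)) F)ᵀ, by simp [Matrix.det_transpose]⟩
  have hg : φ ᵥ* (g : Matrix (Fin (n+2)) (Fin (n+2)) F)
      = (c : F) • (Pi.single 0 1 : Fin (n+2) → F) := by
    rw [← hc'']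
    show φ ᵥ* (h : Matrix (Fin (n+2)) (Fin (n+2)) F)ᵀ = _
    rw [Matrix.vecMul_transpose]
  have hgg : ((g⁻¹ : Matrix.SpecialLinearGroup (Fin (n+2)) F) : Matrix (Fin (n+2)) (Fin (n+2)) F)
      * (g : Matrix (Fin (n+2)) (Fin (n+2)) F) = 1 := by
    rw [← Matrix.SpecialLinearGroup.coe_mul, inv_mul_cancel, Matrix.SpecialLinearGroup.coe_one]
  have htt : (t : Matrix (Fin (n+2)) (Fin (n+2)) F) = 1 + vecMulVec u φ := by
    rw [← hNu]; abel
  set v : Fin (n+2) → F := (c : F) •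
      (((g⁻¹ : Matrix.SpecialLinearGroup (Fin (n+2)) F) : Matrix (Fin (n+2)) (Fin (n+2)) F) *ᵥ u)
    with hv
  have hmain : ((g⁻¹ * t * g : Matrix.SpecialLinearGroup (Fin (n + 2)) F) : Matrix (Fin (n + 2)) (Fin (n + 2)) F) = 1 + Matrix.vecMulVec v (Pi.single 0 1) := by
    rw [Matrix.SpecialLinearGroup.coe_mul, Matrix.SpecialLinearGroup.coe_mul, htt, mul_add, add_mul, mul_one, hgg,
      Matrix.mul_vecMulVec, Matrix.vecMulVec_mul, hg]
    congr 1
    ext i j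
    simp [vecMulVec_apply, hv]
    ring
  refine ⟨g, v, ?_, hmain⟩
  -- square zero
  have hsq : vecMulVec v (Pi.single 0 1 : Fin (n+2) → F) * vecMulVec v (Pi.single 0 1 : Fin (n+2) → F) = (0 : Matrix (Fin (n+2)) (Fin (n+2)) F) := by
    have h1 : vecMulVec v (Pi.single 0 1 : Fin (n+2) → F) = (g⁻¹ * t * g : Matrix.SpecialLinearGroup (Fin (n + 2)) F).1 - 1 := by
      have := hmain
      show _ = (((g⁻¹ * t * g : Matrix.SpecialLinearGroup (Fin (n + 2)) F) : Matrix (Fin (n + 2)) (Fin (n + 2)) F)) - 1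
      rw [hmain]; abel
    have h2 : (g⁻¹ * t * g : Matrix.SpecialLinearGroup (Fin (n + 2)) F).1 - 1
        = ((g⁻¹ : Matrix.SpecialLinearGroup (Fin (n+2)) F) : Matrix (Fin (n+2)) (Fin (n+2)) F) * ((t : Matrix (Fin (n + 2)) (Fin (n + 2)) F) - 1) * (g : Matrix (Fin (n+2)) (Fin (n+2)) F) := by
      show (((g⁻¹ * t * g : Matrix.SpecialLinearGroup (Fin (n + 2)) F) : Matrix (Fin (n + 2)) (Fin (n + 2)) F)) - 1 = _
      rw [Matrix.SpecialLinearGroup.coe_mul, Matrix.SpecialLinearGroup.coe_mul, mul_sub, sub_mul, mul_one, hgg]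
    have hgg' : (g : Matrix (Fin (n+2)) (Fin (n+2)) F) * ((g⁻¹ : Matrix.SpecialLinearGroup (Fin (n+2)) F) : Matrix (Fin (n+2)) (Fin (n+2)) F) = 1 := by
      rw [← Matrix.SpecialLinearGroup.coe_mul, mul_inv_cancel, Matrix.SpecialLinearGroup.coe_one]
    rw [h1, h2]
    calc _ = ((g⁻¹ : Matrix.SpecialLinearGroup (Fin (n+2)) F) : Matrix (Fin (n+2)) (Fin (n+2)) F) * ((t : Matrix (Fin (n + 2)) (Fin (n + 2)) F) - 1) * ((g : Matrix (Fin (n+2)) (Fin (n+2)) F) * ((g⁻¹ : Matrix.SpecialLinearGroup (Fin (n+2)) F) : Matrix (Fin (n+2)) (Fin (n+2)) F)) * ((t : Matrix (Fin (n + 2)) (Fin (n + 2)) F) - 1) * (g : Matrix (Fin (n+2)) (Fin (n+2)) F) := by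
            simp only [mul_assoc]
      _ = ((g⁻¹ : Matrix.SpecialLinearGroup (Fin (n+2)) F) : Matrix (Fin (n+2)) (Fin (n+2)) F) * (((t : Matrix (Fin (n + 2)) (Fin (n + 2)) F) - 1) * ((t : Matrix (Fin (n + 2)) (Fin (n + 2)) F) - 1)) * (g : Matrix (Fin (n+2)) (Fin (n+2)) F) := by
            rw [hgg']; simp only [mul_assoc, mul_one]
      _ = 0 := by rw [hN]; simp
  by_contra hv0
  have hv1 : v ≠ 0 := fun h => hv0 (by simp [h])
  obtain ⟨i, hi⟩ := Function.ne_iff.mp hv1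
  have := congrFun (congrFun hsq i) 0
  simp only [Matrix.mul_apply, vecMulVec_apply, Pi.single_apply, Matrix.zero_apply] at this
  simp at this
  tauto

end Cfsg.Agent.S0839
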