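import Cfsg.Statements.S0849
import Cfsg.Agent.Lib.CharInd

set_option autoImplicit false
open Cfsg

namespace Cfsg.Agent.S0849

/-- Let H be a subgroup of a finite group G and S a subset of H that is mapped to itself under conjugation by H, is disjoint from its conjugate by any element outside H, and is closed under inverses. Let φ be a class function of H vanishing on H away from S, and let u, v be involutions of G. Then the sum of the induced function of φ over all products a * b with a conjugate to u and b conjugate to v equals the index of H times the sum of φ (a * b) over such pairs with a and b in H. -/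
theorem result {G : Type*} [Group G] [Fintype G] (H : Subgroup G) (S : Set G) (hSH : S ⊆ H) (hHS : ∀ h ∈ H, ∀ s ∈ S, h * s * h⁻¹ ∈ S) (hTI : ∀ g : G, g ∉ H → ∀ s ∈ S, g * s * g⁻¹ ∉ S) (hinv : ∀ s ∈ S, s⁻¹ ∈ S) (φ : H → ℂ) (hφ : Cfsg.IsClassFunction H φ) (hφS : ∀ x : H, (x : G) ∉ S → φ x = 0) (u v : G) (hu : orderOf u = 2) (hv : orderOf v = 2) : ∑ᶠ p ∈ {p : G × G | IsConj u p.1 ∧ IsConj v p.2}, Cfsg.indFun H φ (p.1 * p.2) = (H.index : ℂ) * ∑ᶠ p ∈ {p : H × H | IsConj u (p.1 : G) ∧ IsConj v (p.2 : G)}, φ (p.1 * p.2) := by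
  classical
  have hP : ∀ (X : Type _) [Fintype X] (T : Set X) (F : X → ℂ), ∑ᶠ x ∈ T, F x = ∑ x : X, if x ∈ T then F x else 0 := by
    intro X _ T F
    simp only [finsum_eq_if]
    rw [finsum_eq_sum_of_fintype]
  set e := Cfsg.extendByZero H φ with he
  have hsq : ∀ w a : G, orderOf w = 2 → IsConj w a → a * a = 1 := by
    intro w a hw ha
    obtain ⟨c, rfl⟩ := isConj_iff.mp ha
    have h2 : w * w = 1 := by
      rw [← pow_two, ← hw]
      exact pow_orderOf_eq_one w
    calc c * w * c⁻¹ * (c * w * c⁻¹) = c * (w * w) * c⁻¹ := by group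
      _ = 1 := by rw [h2]; group
  let Q : Set (G × G) := {p | IsConj u p.1 ∧ IsConj v p.2}
  obtain ⟨w, hw1, hw0⟩ : ∃ w : G × G → ℂ, (∀ p, p ∈ Q → w p = 1) ∧ (∀ p, p ∉ Q → w p = 0) :=
    ⟨fun p => if p ∈ Q then 1 else 0, fun p hp => if_pos hp, fun p hp => if_neg hp⟩
  have h1 : ∀ x : G, (∑ p : G × G, w p * e (x⁻¹ * (p.1 * p.2) * x)) =
      ∑ p : G × G, w p * e (p.1 * p.2) := by
    intro x
    refine Fintype.sum_equiv (Equiv.prodCongr (MulAut.conj x⁻¹).toEquiv (MulAut.conj x⁻¹).toEquiv) _ _ ?_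
    rintro ⟨a, b⟩
    have hmem : ((a, b) ∈ Q) ↔ ((x⁻¹ * a * x, x⁻¹ * b * x) ∈ Q) := by
      simp only [Q, Set.mem_ofPred_eq]
      have h3 : ∀ y : G, IsConj y (x⁻¹ * y * x) := by
        intro y
        rw [isConj_iff]
        exact ⟨x⁻¹, by group⟩
      constructor
      · rintro ⟨h4, h5⟩
        exact ⟨h4.trans (h3 a), h5.trans (h3 b)⟩
      · rintro ⟨h4, h5⟩
        exact ⟨h4.trans (h3 a).symm, h5.trans (h3 b).symm⟩
    have hval : (Equiv.prodCongr (MulAut.conj x⁻¹).toEquiv (MulAut.conj x⁻¹).toEquiv) (a, b) = (x⁻¹ * a * x, x⁻¹ * b * x) := by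
      simp
    rw [hval]
    by_cases hab : (a, b) ∈ Q
    · rw [hw1 _ hab, hw1 _ (hmem.mp hab)]
      congr 2
      group
    · rw [hw0 _ hab, hw0 _ (fun h => hab (hmem.mpr h))]
      simp
  have h2 : ∑ᶠ p ∈ {p : G × G | IsConj u p.1 ∧ IsConj v p.2}, Cfsg.indFun H φ (p.1 * p.2) =
      (Nat.card H : ℂ)⁻¹ * (Nat.card G : ℂ) * ∑ p : G × G, w p * e (p.1 * p.2) := by
    rw [hP]
    have h3 : ∀ p : G × G, ∀ i : Decidable (p ∈ {p : G × G | IsConj u p.1 ∧ IsConj v p.2}),
        (@ite ℂ (p ∈ {p : G × G | IsConj u p.1 ∧ IsConj v p.2}) i (Cfsg.indFun H φ (p.1 * p.2)) 0) =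
        (Nat.card H : ℂ)⁻¹ * ∑ x : G, w p * e (x⁻¹ * (p.1 * p.2) * x) := by
      intro p i
      by_cases hp : p ∈ Q
      · rw [if_pos hp, hw1 p hp]
        simp only [one_mul]
        rfl
      · rw [if_neg hp, hw0 p hp]
        simp
    refine (Finset.sum_congr rfl (fun p _ => h3 p _)).trans ?_
    rw [← Finset.mul_sum, Finset.sum_comm, Finset.sum_congr rfl (fun x _ => h1 x)]
    rw [Finset.sum_const, Finset.card_univ, ← Nat.card_eq_fintype_card, nsmul_eq_mul]
    ring
  have h4 : (∑ p : G × G, w p * e (p.1 * p.2)) =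
      ∑ p : H × H, w ((p.1 : G), (p.2 : G)) * φ (p.1 * p.2) := by
    symm
    refine Fintype.sum_of_injective (fun p : H × H => ((p.1 : G), (p.2 : G))) ?_ _ _ ?_ ?_
    · rintro ⟨a, b⟩ ⟨c, d⟩ h
      simp only [Prod.mk.injEq] at h
      exact Prod.ext (Subtype.ext h.1) (Subtype.ext h.2)
    · rintro ⟨a, b⟩ hne
      by_cases hab : (a, b) ∈ Q
      · rw [hw1 _ hab, one_mul]
        by_contra hne0
        simp only at hne0
        have hm : a * b ∈ H := by
          by_contra hm
          exact hne0 (Cfsg.Agent.Lib.CharInd.extendByZero_of_not_mem H φ hm)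
        have hS : a * b ∈ S := by
          by_contra hS
          apply hne0
          rw [he, Cfsg.Agent.Lib.CharInd.extendByZero_of_mem H φ hm]
          exact hφS ⟨a * b, hm⟩ hS
        have ha2 := hsq u a hu hab.1
        have hb2 := hsq v b hv hab.2
        have ha : a ∈ H := by
          by_contra ha
          apply hTI a ha (a * b) hS
          have : a * (a * b) * a⁻¹ = (a * b)⁻¹ := by
            have hai : a⁻¹ = a := inv_eq_of_mul_eq_one_left ha2
            have hbi : b⁻¹ = b := inv_eq_of_mul_eq_one_left hb2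
            rw [mul_inv_rev, hai, hbi, ← mul_assoc, ha2, one_mul]
          rw [this]
          exact hinv _ hS
        have hb : b ∈ H := by
          have : b = a⁻¹ * (a * b) := by group
          rw [this]
          exact H.mul_mem (H.inv_mem ha) hm
        exact hne ⟨(⟨a, ha⟩, ⟨b, hb⟩), rfl⟩
      · rw [hw0 _ hab, zero_mul]
    · rintro ⟨a, b⟩
      have hm : (a : G) * b ∈ H := H.mul_mem a.2 b.2
      simp only
      rw [he, Cfsg.Agent.Lib.CharInd.extendByZero_of_mem H φ hm]
      rfl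
  rw [h2, h4, hP]
  have hind : (H.index : ℂ) = (Nat.card H : ℂ)⁻¹ * (Nat.card G : ℂ) := by
    have h5 := Subgroup.card_mul_index H
    have h6 : (Nat.card H : ℂ) ≠ 0 := by exact_mod_cast Nat.card_pos.ne'
    rw [← h5]
    push_cast
    field_simp
  rw [hind]
  congr 1
  apply Finset.sum_congr rfl
  rintro p -
  by_cases hp : IsConj u (p.1 : G) ∧ IsConj v (p.2 : G)
  · rw [if_pos (show p ∈ {p : H × H | IsConj u (p.1 : G) ∧ IsConj v (p.2 : G)} from hp), hw1 _ hp, one_mul]
  · rw [if_neg (show ¬ p ∈ {p : H × H | IsConj u (p.1 : G) ∧ IsConj v (p.2 : G)} from hp), hw0 _ hp, zero_mul]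

end Cfsg.Agent.S0849
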