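import Cfsg.Statements.S0864
import Cfsg.Agent.Lib.CharExt

set_option autoImplicit false
open Cfsg

namespace Cfsg.Agent.S0864

/-- Let N be a normal subgroup of the finite group G and λ a character of N of degree 1 invariant under conjugation by G. Suppose that for every prime p dividing the order of λ (in the group of functions under pointwise multiplication) there is a subgroup H containing N, of index prime to p and with the index of N in H a power of p, together with a character of H of degree 1 restricting to λ. Then λ is the restriction of a character of G of degree 1. -/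
theorem result {G : Type*} [Group G] [Finite G] (N : Subgroup G) [hN : N.Normal] (lam : N → ℂ) (hlam : Cfsg.IsCharacter N lam ∧ lam 1 = 1) (hinv : ∀ (g : G) (n : N), lam ⟨g * n * g⁻¹, hN.conj_mem (n : G) n.2 g⟩ = lam n) (hsyl : ∀ p : ℕ, p.Prime → p ∣ orderOf lam → ∃ (H : Subgroup G) (hNH : N ≤ H) (ν : H → ℂ), Nat.Coprime H.index p ∧ (∃ k : ℕ, N.relIndex H = p ^ k) ∧ Cfsg.IsCharacter H ν ∧ ν 1 = 1 ∧ ∀ n : N, ν ⟨(n : G), hNH n.2⟩ = lam n) : ∃ μ : G → ℂ, Cfsg.IsCharacter G μ ∧ μ 1 = 1 ∧ ∀ n : N, μ n = lam n := by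
  classical
  obtain ⟨l, rfl⟩ := Cfsg.Agent.Lib.CharLin.exists_hom_of_linear hlam.1 hlam.2
  obtain ⟨μ, hμ⟩ := Cfsg.Agent.Lib.CharExt.ext_of_local N l (by
    intro g n
    apply Units.ext
    exact hinv g n) (by
    intro x hx p hp hpd
    have h0 : p ∣ orderOf (fun g : N => ((l g : ℂˣ) : ℂ)) := by
      apply hpd.trans
      apply orderOf_dvd_of_pow_eq_one
      apply Units.ext
      have := congrFun (pow_orderOf_eq_one (fun g : N => ((l g : ℂˣ) : ℂ))) x
      simpa using this
    obtain ⟨H, hNH, ν, hc, -, hν, hν1, he⟩ := hsyl p hp h0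
    obtain ⟨ν', rfl⟩ := Cfsg.Agent.Lib.CharLin.exists_hom_of_linear hν hν1
    refine ⟨H, hNH, ν', hc, fun n => ?_⟩
    apply Units.ext
    exact he n)
  refine ⟨fun g => ((μ g : ℂˣ) : ℂ), Cfsg.Agent.Lib.CharBasic.IsIrrCharacter.isCharacter (Cfsg.Agent.Lib.CharLin.isIrrCharacter_of_hom μ), by simp, fun n => ?_⟩
  show ((μ n : ℂˣ) : ℂ) = ((l n : ℂˣ) : ℂ)
  rw [hμ]

end Cfsg.Agent.S0864
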