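import Cfsg.Statements.S0887
import Cfsg.Agent.Lib.CharProj

set_option autoImplicit false
open Cfsg

namespace Cfsg.Agent.S0887

/-- Let N be a normal subgroup of the finite group G, χ an irreducible character of G and ϑ an irreducible character of N having nonzero inner product with the restriction of χ. If χ 1 = c and ϑ 1 = d as natural numbers, then d divides c and c / d divides the index of N. -/
theorem result {G : Type*} [Group G] [Fintype G] (N : Subgroup G) [N.Normal] [Fintype N] (χ : G → ℂ) (hχ : Cfsg.IsIrrCharacter G χ) (ϑ : N → ℂ) (hϑ : Cfsg.IsIrrCharacter N ϑ) (hcon : Cfsg.classInner (fun n : N => χ n) ϑ ≠ 0) (c d : ℕ) (hc : χ 1 = c) (hd : ϑ 1 = d) : d ∣ c ∧ c / d ∣ N.index := by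
  open Cfsg.Agent.Lib.CharProj Cfsg.Agent.Lib.CharAlg in
  obtain ⟨k, hk, hdvd⟩ := degree_quot_dvd_index N hϑ hχ hcon
  obtain ⟨n, hn, hn1⟩ := IsIrrCharacter.map_one_pos hϑ
  have hdn : d = n := by
    have : (d : ℂ) = n := by rw [← hd, hn1]
    exact_mod_cast this
  have hc' : c = k * d := by
    have : (c : ℂ) = k * d := by rw [← hc, hk, hd]
    exact_mod_cast this
  subst hc'
  have hd0 : 0 < d := by omega
  refine ⟨Dvd.intro_left k rfl, ?_⟩
  rw [Nat.mul_div_cancel _ hd0]
  exact hdvd

end Cfsg.Agent.S0887
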