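import Cfsg.Statements.S0903

set_option autoImplicit false
open Cfsg

namespace Cfsg.Agent.S0903

/-- The set of pairs. -/
abbrev Pairs {G : Type*} [Group G] (c g h : G) := {xy : G × G // IsConj g xy.1 ∧ IsConj h xy.2 ∧ xy.1 * xy.2 = c}

theorem conj_mem {G : Type*} [Group G] {c g h : G} (P : Subgroup G)
    (hc : c ∈ Subgroup.centralizer (P : Set G)) (u : P) (a : Pairs c g h) :
    IsConj g ((u : G) * a.1.1 * (u : G)⁻¹) ∧ IsConj h ((u : G) * a.1.2 * (u : G)⁻¹) ∧
      ((u : G) * a.1.1 * (u : G)⁻¹) * ((u : G) * a.1.2 * (u : G)⁻¹) = c := by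
  obtain ⟨⟨x, y⟩, h1, h2, h3⟩ := a
  refine ⟨h1.trans (isConj_iff.mpr ⟨u, rfl⟩), h2.trans (isConj_iff.mpr ⟨u, rfl⟩), ?_⟩
  simp only at h3 ⊢
  have h4 : (u : G) * c = c * u := (Subgroup.mem_centralizer_iff.mp hc) u u.2
  calc (u : G) * x * (u : G)⁻¹ * ((u : G) * y * (u : G)⁻¹) = u * (x * y) * (u : G)⁻¹ := by group
    _ = u * c * (u : G)⁻¹ := by rw [h3]
    _ = c := by rw [h4]; group

/-- The action. -/
@[reducible] def pairAction {G : Type*} [Group G] {c g h : G} (P : Subgroup G)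
    (hc : c ∈ Subgroup.centralizer (P : Set G)) : MulAction P (Pairs c g h) where
  smul u a := ⟨((u : G) * a.1.1 * (u : G)⁻¹, (u : G) * a.1.2 * (u : G)⁻¹), conj_mem P hc u a⟩
  one_smul a := by
    apply Subtype.ext
    apply Prod.ext
    · show ((1 : P) : G) * a.1.1 * ((1 : P) : G)⁻¹ = a.1.1
      simp
    · show ((1 : P) : G) * a.1.2 * ((1 : P) : G)⁻¹ = a.1.2
      simp
  mul_smul u v a := by
    apply Subtype.ext
    apply Prod.ext
    · show ((u * v : P) : G) * a.1.1 * ((u * v : P) : G)⁻¹ = (u : G) * ((v : G) * a.1.1 * (v : G)⁻¹) * (u : G)⁻¹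
      simp only [Subgroup.coe_mul]
      group
    · show ((u * v : P) : G) * a.1.2 * ((u * v : P) : G)⁻¹ = (u : G) * ((v : G) * a.1.2 * (v : G)⁻¹) * (u : G)⁻¹
      simp only [Subgroup.coe_mul]
      group


/-- Let P be a p-subgroup of the finite group G, let c centralize P and let g, h ∈ G. The number of pairs (x, y) with x conjugate to g, y conjugate to h and x * y = c is congruent modulo p to the number of such pairs in which x and y both centralize P. (This is why the Brauer map on class sums is multiplicative.) -/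
theorem result {G : Type*} [Group G] [Finite G] (p : ℕ) [Fact p.Prime] (P : Subgroup G) (hP : IsPGroup p P) (c : G) (hc : c ∈ Subgroup.centralizer (P : Set G)) (g h : G) : Nat.card {xy : G × G // IsConj g xy.1 ∧ IsConj h xy.2 ∧ xy.1 * xy.2 = c} ≡ Nat.card {xy : G × G // IsConj g xy.1 ∧ IsConj h xy.2 ∧ xy.1 * xy.2 = c ∧ xy.1 ∈ Subgroup.centralizer (P : Set G) ∧ xy.2 ∈ Subgroup.centralizer (P : Set G)} [MOD p] := by
  classical
  have : Fact p.Prime := inferInstance
  let _ := pairAction (g := g) (h := h) P hc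
  have hmod := hP.card_modEq_card_fixedPoints (Pairs c g h)
  suffices hh : Nat.card (MulAction.fixedPoints P (Pairs c g h)) = Nat.card {xy : G × G // IsConj g xy.1 ∧ IsConj h xy.2 ∧ xy.1 * xy.2 = c ∧ xy.1 ∈ Subgroup.centralizer (P : Set G) ∧ xy.2 ∈ Subgroup.centralizer (P : Set G)} by
    rw [hh] at hmod
    exact hmod
  refine Nat.card_congr ?_
  refine
    { toFun := fun a => ⟨a.1.1, a.1.2.1, a.1.2.2.1, a.1.2.2.2, ?_, ?_⟩
      invFun := fun a => ⟨⟨a.1, a.2.1, a.2.2.1, a.2.2.2.1⟩, ?_⟩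
      left_inv := fun a => rfl
      right_inv := fun a => rfl }
  · rw [Subgroup.mem_centralizer_iff]
    intro u hu
    have h1 := a.2 ⟨u, hu⟩
    have h2 : (u : G) * a.1.1.1 * u⁻¹ = a.1.1.1 := congrArg (fun b : Pairs c g h => b.1.1) h1
    exact mul_inv_eq_iff_eq_mul.mp h2
  · rw [Subgroup.mem_centralizer_iff]
    intro u hu
    have h1 := a.2 ⟨u, hu⟩
    have h2 : (u : G) * a.1.1.2 * u⁻¹ = a.1.1.2 := congrArg (fun b : Pairs c g h => b.1.2) h1
    exact mul_inv_eq_iff_eq_mul.mp h2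
  · rintro ⟨u, hu⟩
    apply Subtype.ext
    apply Prod.ext
    · show u * a.1.1 * u⁻¹ = a.1.1
      have := (Subgroup.mem_centralizer_iff.mp a.2.2.2.2.1) u hu
      rw [this]; group
    · show u * a.1.2 * u⁻¹ = a.1.2
      have := (Subgroup.mem_centralizer_iff.mp a.2.2.2.2.2) u hu
      rw [this]; group

end Cfsg.Agent.S0903
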