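import Cfsg.Statements.S0905
import Cfsg.Agent.Lib.BlockIndep

set_option autoImplicit false
open Cfsg

namespace Cfsg.Agent.S0905

/-- Let F be a field of characteristic p and let g be an element of the finite group G no conjugate of which centralizes O_p(G). Then the class sum of g is a nilpotent element of the group algebra F[G]. -/
theorem result {G : Type*} [Group G] [Finite G] (p : ℕ) [Fact p.Prime] (F : Type*) [Field F] [CharP F p] (g : G) (hg : ∀ x : G, IsConj g x → x ∉ Subgroup.centralizer (Cfsg.pCore p G : Set G)) : IsNilpotent (∑ᶠ x ∈ ConjClasses.carrier (ConjClasses.mk g), MonoidAlgebra.single x (1 : F) : MonoidAlgebra F G) := by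
  classical
  have := Fintype.ofFinite G
  obtain ⟨M, hM⟩ := Lib.BlockMain2.exists_isPModular (Fact.out : p.Prime)
  have := hM.2.1.isPrime
  rw [Lib.BlockIndep.classSum_eq]
  refine Lib.BlockIndep.nilpotent_classElt hM (fun χ => ?_) F
  exact Lib.BlockFixed.centralChar_mem_of_not_centralizer hM (Lib.H1Core.pCore_isPGroup p) χ (hg g (IsConj.refl g))

end Cfsg.Agent.S0905
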