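import Cfsg.Statements.S0907
import Cfsg.Agent.Lib.BlockCore

set_option autoImplicit false
open scoped ComplexConjugate
open Cfsg

namespace Cfsg.Agent.S0907

/-- Weak block orthogonality. Let B be a block of the finite group G relative to a maximal ideal M of the algebraic integers containing the prime p. If the order of x is prime to p and the order of y is divisible by p, then the sum over χ ∈ B of χ x * conj (χ y) is zero. -/
theorem result {G : Type*} [Group G] [Finite G] (p : ℕ) [Fact p.Prime] (M : Ideal Cfsg.AlgInt) (hM : Cfsg.IsPModular p M) (B : Set (Cfsg.IrrCharacter G)) (hB : Cfsg.IsPBlock M B) (x y : G) (hx : ¬ p ∣ orderOf x) (hy : p ∣ orderOf y) : ∑ᶠ χ ∈ B, (χ : G → ℂ) x * conj ((χ : G → ℂ) y) = 0 := by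
  have hp := hM.1
  obtain ⟨w, hw⟩ := Cfsg.Agent.Lib.BlockCore.exists_isPPart hp y
  have hx1 : Cfsg.IsPPart p x 1 := ⟨x, one_mul x, Commute.one_left x, ⟨0, by simp⟩, hx⟩
  refine Cfsg.Agent.Lib.BlockCore.block_orthogonality hM hB hx1 hw ?_
  intro hconj
  have hw1 : w = 1 := isConj_one_right.mp hconj
  obtain ⟨v, hv, -, -, hv2⟩ := hw
  rw [hw1, one_mul] at hv
  rw [hv] at hv2
  exact hv2 hy

end Cfsg.Agent.S0907
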