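import Cfsg.Statements.S0916
import Cfsg.Agent.Lib.BlockFirst2

set_option autoImplicit false
open Cfsg

namespace Cfsg.Agent.S0916

/-- Let P be a p-subgroup of the finite group G, C its centralizer and N its normalizer. Say that a conjugacy class (of G, or of N) has defect group P when P is a Sylow p-subgroup of the centralizer (in G, respectively in N) of some element of the class. Then: (i) if the class of g in G has defect group P, the elements of that class lying in C form a single N-class, again with defect group P; (ii) every N-class with defect group P arises this way from exactly one G-class with defect group P. -/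
theorem result {G : Type*} [Group G] [Finite G] (p : ℕ) [Fact p.Prime] (P : Subgroup G) (hP : IsPGroup p P) : (∀ g : G, (∃ S : Sylow p (Subgroup.centralizer ({g} : Set G)), (S : Subgroup (Subgroup.centralizer ({g} : Set G))).map (Subgroup.centralizer ({g} : Set G)).subtype = P) → (∃ c : G, IsConj g c ∧ c ∈ Subgroup.centralizer (P : Set G)) ∧ (∀ c₁ c₂ : G, IsConj g c₁ → IsConj g c₂ → c₁ ∈ Subgroup.centralizer (P : Set G) → c₂ ∈ Subgroup.centralizer (P : Set G) → ∃ n ∈ Subgroup.normalizer (P : Set G), n * c₁ * n⁻¹ = c₂)) ∧ (∀ c : G, c ∈ Subgroup.centralizer (P : Set G) → (∃ S : Sylow p (Subgroup.centralizer ({c} : Set G) ⊓ Subgroup.normalizer (P : Set G) : Subgroup G), (S : Subgroup ↥(Subgroup.centralizer ({c} : Set G) ⊓ Subgroup.normalizer (P : Set G))).map (Subgroup.centralizer ({c} : Set G) ⊓ Subgroup.normalizer (P : Set G)).subtype = P) → ∃ S : Sylow p (Subgroup.centralizer ({c} : Set G)), (S : Subgroup (Subgroup.centralizer ({c} : Set G))).map (Subgroup.centralizer ({c} : Set G)).subtype = P) :=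 by
  classical
  have : Fintype G := Fintype.ofFinite G
  have hMem := @Lib.BlockDefect.mem_centralizer_iff_le G _ P
  have hcardC : ∀ (s c : G), Nat.card (Subgroup.centralizer ({s * c * s⁻¹} : Set G)) = Nat.card (Subgroup.centralizer ({c} : Set G)) := by
    intro t g
    have h1 : (Subgroup.centralizer ({t * g * t⁻¹} : Set G)) = (Subgroup.centralizer ({g} : Set G)).map (MulAut.conj t).toMonoidHom := by
      ext w
      rw [Subgroup.mem_centralizer_singleton_iff, Subgroup.mem_map]
      constructor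
      · intro hw
        refine ⟨t⁻¹ * w * t, ?_, by simp [MulAut.conj_apply]; group⟩
        rw [Subgroup.mem_centralizer_singleton_iff]
        calc t⁻¹ * w * t * g = t⁻¹ * (w * (t * g * t⁻¹)) * t := by group
          _ = t⁻¹ * ((t * g * t⁻¹) * w) * t := by rw [hw]
          _ = _ := by group
      · rintro ⟨w', hw', rfl⟩
        rw [Subgroup.mem_centralizer_singleton_iff] at hw'
        simp only [MulEquiv.coe_toMonoidHom, MulAut.conj_apply]
        calc t * w' * t⁻¹ * (t * g * t⁻¹) = t * (w' * g) * t⁻¹ := by group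
          _ = t * (g * w') * t⁻¹ := by rw [hw']
          _ = _ := by group
    rw [h1, Subgroup.card_map_of_injective (MulEquiv.injective _)]
  constructor
  · rintro g ⟨S, hS⟩
    have hPg : P ≤ Subgroup.centralizer ({g} : Set G) := by
      rw [← hS]
      exact Lib.BlockDefect.map_sylow_le S
    refine ⟨⟨g, IsConj.refl g, hMem.mpr hPg⟩, ?_⟩
    intro c₁ c₂ h₁ h₂ hc₁ hc₂
    obtain ⟨s, hs⟩ := isConj_iff.mp (h₁.symm.trans h₂)
    -- a Sylow subgroup of `C(c₂)` containing `P`
    have hP' : IsPGroup p (P.subgroupOf (Subgroup.centralizer ({c₂} : Set G))) := hP.comap_subtype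
    obtain ⟨E, hE⟩ := hP'.exists_le_sylow
    have hPc₂ := hMem.mp hc₂
    have hcard : Nat.card P = Nat.card ((E : Subgroup _).map (Subgroup.centralizer ({c₂} : Set G)).subtype) := by
      rw [← hS, Subgroup.card_map_of_injective (Subgroup.subtype_injective _),
        Subgroup.card_map_of_injective (Subgroup.subtype_injective _),
        Sylow.card_eq_multiplicity, Sylow.card_eq_multiplicity]
      obtain ⟨t, ht⟩ := isConj_iff.mp h₂
      rw [← ht, hcardC]
    have hEP : (E : Subgroup _).map (Subgroup.centralizer ({c₂} : Set G)).subtype = P := by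
      symm
      refine Subgroup.eq_of_le_of_card_ge ?_ hcard.ge
      intro w hw
      exact Subgroup.mem_map.mpr ⟨⟨w, hPc₂ hw⟩, hE (Subgroup.mem_subgroupOf.mpr hw), rfl⟩
    -- conjugate `P` by `s`
    have hP₂ : IsPGroup p (P.map (MulAut.conj s).toMonoidHom) := hP.map _
    have hle : P.map (MulAut.conj s).toMonoidHom ≤ Subgroup.centralizer ({c₂} : Set G) := by
      intro w hw
      obtain ⟨u, hu, rfl⟩ := Subgroup.mem_map.mp hw
      rw [Subgroup.mem_centralizer_singleton_iff]
      simp only [MulEquiv.coe_toMonoidHom, MulAut.conj_apply]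
      rw [← hs]
      have h3 : u * c₁ = c₁ * u := Subgroup.mem_centralizer_iff.mp hc₁ u hu
      calc s * u * s⁻¹ * (s * c₁ * s⁻¹) = s * (u * c₁) * s⁻¹ := by group
        _ = s * (c₁ * u) * s⁻¹ := by rw [h3]
        _ = _ := by group
    obtain ⟨x, hx, hxle⟩ := Lib.BlockDefect.le_map_conj_sylow E hP₂ hle
    rw [hEP] at hxle
    refine ⟨x⁻¹ * s, ?_, ?_⟩
    · have hn : ∀ u ∈ P, (x⁻¹ * s)⁻¹⁻¹ * u * (x⁻¹ * s)⁻¹ ∈ P := by
        intro u hu
        have h4 := hxle (Subgroup.mem_map.mpr ⟨u, hu, rfl⟩)
        obtain ⟨v, hv, hv2⟩ := Subgroup.mem_map.mp h4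
        simp only [MulEquiv.coe_toMonoidHom, MulAut.conj_apply] at hv2
        have : (x⁻¹ * s)⁻¹⁻¹ * u * (x⁻¹ * s)⁻¹ = v := by
          have : s * u * s⁻¹ = x * v * x⁻¹ := hv2.symm
          calc (x⁻¹ * s)⁻¹⁻¹ * u * (x⁻¹ * s)⁻¹ = x⁻¹ * (s * u * s⁻¹) * x := by group
            _ = x⁻¹ * (x * v * x⁻¹) * x := by rw [this]
            _ = v := by group
        rw [this]
        exact hv
      have := Lib.BlockFirst.mem_normalizer_of_conj_le hn
      have h5 := Subgroup.inv_mem _ this
      rwa [inv_inv] at h5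
    · rw [Subgroup.mem_centralizer_singleton_iff] at hx
      calc x⁻¹ * s * c₁ * (x⁻¹ * s)⁻¹ = x⁻¹ * (s * c₁ * s⁻¹) * x := by group
        _ = x⁻¹ * c₂ * x := by rw [hs]
        _ = x⁻¹ * (x * c₂) := by rw [mul_assoc, hx]
        _ = c₂ := by group
  · rintro c hc ⟨S, hS⟩
    have hP' : IsPGroup p (P.subgroupOf (Subgroup.centralizer ({c} : Set G))) := hP.comap_subtype
    obtain ⟨R, hR⟩ := hP'.exists_le_sylow
    have hPc := hMem.mp hc
    refine ⟨R, ?_⟩
    apply le_antisymm
    · refine Lib.BlockFirst.le_of_normalizer_le (Lib.BlockDefect.isPGroup_map_sylow R) ?_ ?_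
      · intro w hw
        exact Subgroup.mem_map.mpr ⟨⟨w, hPc hw⟩, hR (Subgroup.mem_subgroupOf.mpr hw), rfl⟩
      · intro w hw hwn
        obtain ⟨w', hw', rfl⟩ := Subgroup.mem_map.mp hw
        have hwK : (w' : G) ∈ Subgroup.centralizer ({c} : Set G) ⊓ Subgroup.normalizer (P : Set G) := ⟨w'.2, hwn⟩
        -- `S` is normal
        have hSn : (S : Subgroup ↥(Subgroup.centralizer ({c} : Set G) ⊓ Subgroup.normalizer (P : Set G))).Normal := by
          refine ⟨fun n hn g => ?_⟩
          have hmemS : ∀ x : G, x ∈ (S : Subgroup ↥(Subgroup.centralizer ({c} : Set G) ⊓ Subgroup.normalizer (P : Set G))).map (Subgroup.centralizer ({c} : Set G) ⊓ Subgroup.normalizer (P : Set G)).subtype ↔ x ∈ P := fun x => by rw [hS]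
          have h1 : (n : G) ∈ P := (hmemS _).mp (Subgroup.mem_map.mpr ⟨n, hn, rfl⟩)
          have h2 := (Subgroup.mem_normalizer_iff.mp g.2.2 n).mp h1
          obtain ⟨v, hv, hv2⟩ := Subgroup.mem_map.mp ((hmemS _).mpr h2)
          have h3 : g * n * g⁻¹ = v := Subtype.ext hv2.symm
          rw [h3]
          exact hv
        have hT : IsPGroup p (Subgroup.zpowers (⟨w', hwK⟩ : ↥(Subgroup.centralizer ({c} : Set G) ⊓ Subgroup.normalizer (P : Set G)))) := by
          obtain ⟨k, hk⟩ := (IsPGroup.iff_orderOf (G := (R : Subgroup _))).mp R.isPGroup' ⟨w', hw'⟩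
          refine Lib.BlockBrauer.isPGroup_zpowers (k := k) ?_
          rw [← hk, Subgroup.orderOf_mk, Subgroup.orderOf_mk, Subgroup.orderOf_coe]
        obtain ⟨S', hS'⟩ := hT.exists_le_sylow
        have hSS : S' = S := by
          have hu := Sylow.unique_of_normal S hSn
          exact Subsingleton.elim _ _
        have h5 := hS' (Subgroup.mem_zpowers _)
        rw [hSS] at h5
        have hmemS : ∀ x : G, x ∈ (S : Subgroup ↥(Subgroup.centralizer ({c} : Set G) ⊓ Subgroup.normalizer (P : Set G))).map (Subgroup.centralizer ({c} : Set G) ⊓ Subgroup.normalizer (P : Set G)).subtype ↔ x ∈ P := fun x => by rw [hS]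
        exact (hmemS _).mp (Subgroup.mem_map.mpr ⟨_, h5, rfl⟩)
    · intro w hw
      exact Subgroup.mem_map.mpr ⟨⟨w, hPc hw⟩, hR (Subgroup.mem_subgroupOf.mpr hw), rfl⟩

end Cfsg.Agent.S0916
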