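import Cfsg.Statements.S0920
import Cfsg.Agent.Lib.BlockFirst

set_option autoImplicit false
open Cfsg

namespace Cfsg.Agent.S0920

/-- Brauer's First Main Theorem. Let D be a p-subgroup of the finite group G with normalizer N, and fix a maximal ideal M of the algebraic integers containing p. Then (i) every block b of N having D as a defect group induces some block B of G having D as a defect group; (ii) every block of G with defect group D is induced by exactly one block of N with defect group D. -/
theorem result {G : Type*} [Group G] [Finite G] (p : ℕ) [Fact p.Prime] (M : Ideal Cfsg.AlgInt) (hM : Cfsg.IsPModular p M) (D : Subgroup G) (hD : IsPGroup p D) : (∀ b : Set (Cfsg.IrrCharacter (Subgroup.normalizer (D : Set G))), Cfsg.IsPBlock M b → Cfsg.IsDefectGroup p M b (D.subgroupOf (Subgroup.normalizer (D : Set G))) → ∃ B : Set (Cfsg.IrrCharacter G), Cfsg.IsPBlock M B ∧ Cfsg.IsDefectGroup p M B D ∧ Cfsg.IsInducedBlock M (Subgroup.normalizer (D : Set G)) b B) ∧ (∀ B : Set (Cfsg.IrrCharacter G), Cfsg.IsPBlock M B → Cfsg.IsDefectGroup p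 M B D → ∃! b : Set (Cfsg.IrrCharacter (Subgroup.normalizer (D : Set G))), Cfsg.IsPBlock M b ∧ Cfsg.IsDefectGroup p M b (D.subgroupOf (Subgroup.normalizer (D : Set G))) ∧ Cfsg.IsInducedBlock M (Subgroup.normalizer (D : Set G)) b B) := by
  classical
  have := Fintype.ofFinite G
  have := hM.2.1.isPrime
  have := Fintype.ofFinite (Subgroup.normalizer (D : Set G))
  have hDH : D ≤ Subgroup.normalizer (D : Set G) := Subgroup.le_normalizer
  constructor
  · intro b hb hdef
    obtain ⟨B, hind⟩ := Lib.BlockInduce.exists_isInducedBlock hM hD hDH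
      (Lib.BlockFirst.centralizer_le_normalizer' D) le_rfl hb
    exact ⟨B, hind.2.1, Lib.BlockFirst.isDefectGroup_of_induced hM hD rfl hb hdef hind.2.1 hind, hind⟩
  · intro B hB hdef
    obtain ⟨b, hb, hd, hind⟩ := Lib.BlockFirst.exists_block_of_defect hM hD rfl hB hdef
    refine ⟨b, ⟨hb, hd, hind⟩, ?_⟩
    rintro b' ⟨hb', hd', hind'⟩
    exact Lib.BlockFirst.block_eq_of_induced hM hD rfl hb hd hind hind'

end Cfsg.Agent.S0920
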