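import Cfsg.Statements.S0933
import Cfsg.Agent.Lib.BlockNorm

set_option autoImplicit false
open Cfsg

namespace Cfsg.Agent.S0933

/-- Let H be a subgroup of the finite group G and ξ an irreducible character of H such that the induced function ξ^G is an irreducible character of G. Then, relative to any maximal ideal M of the algebraic integers containing the prime p, the block of ξ induces the block of ξ^G. -/
theorem result {G : Type*} [Group G] [Fintype G] (p : ℕ) [Fact p.Prime] (M : Ideal Cfsg.AlgInt) (hM : Cfsg.IsPModular p M) (H : Subgroup G) (ξ : Cfsg.IrrCharacter H) (hind : Cfsg.IsIrrCharacter G (Cfsg.indFun H (ξ : H → ℂ))) : Cfsg.IsInducedBlock M H (Cfsg.blockOf M (ξ : H → ℂ)) (Cfsg.blockOf M (Cfsg.indFun H (ξ : H → ℂ))) := by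
  classical
  have := hM.2.1.isPrime
  have hξ : Cfsg.IsCharacter H (ξ : H → ℂ) := by
    obtain ⟨n, ρ, -, h⟩ := ξ.2
    exact ⟨n, ρ, h⟩
  refine Cfsg.Agent.Lib.BlockMain.isInducedBlock_of_congr ξ ⟨_, hind⟩ fun g => ?_
  have h2 := Cfsg.Agent.Lib.BlockNorm.inducedCentralChar_eq_ind H (ξ : H → ℂ) hξ g
  rw [show Cfsg.inducedCentralChar H (ξ : H → ℂ) g - Cfsg.centralChar (Cfsg.indFun H (ξ : H → ℂ)) g = 0 by rw [h2, sub_self]]
  exact Cfsg.Agent.Lib.LocRing.memLocalIdeal_zero

end Cfsg.Agent.S0933
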