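import Cfsg.Statements.S0946
import Mathlib

set_option autoImplicit false
open Cfsg

namespace Cfsg.Agent.S0946

open Subgroup
open scoped Pointwise

theorem sq_cases (m : ℕ) (hm : 1 ≤ m) (a : ZMod (2 ^ m)) (h : a + a = 0) :
    a = 0 ∨ a = ((2 ^ (m - 1) : ℕ) : ZMod (2 ^ m)) := by
  obtain ⟨k, rfl⟩ : ∃ k, m = k + 1 := ⟨m - 1, by omega⟩
  simp only [Nat.add_sub_cancel]
  haveI : NeZero (2 ^ (k + 1)) := ⟨by positivity⟩
  have h1 : ((a.val + a.val : ℕ) : ZMod (2 ^ (k + 1))) = 0 := by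
    rw [Nat.cast_add, ZMod.natCast_val, ZMod.cast_id', id, h]
  rw [ZMod.natCast_eq_zero_iff] at h1
  have hval : ∀ v : ℕ, 2 ^ (k + 1) ∣ v + v → 2 ^ k ∣ v := by
    intro v hv
    rw [← two_mul, pow_succ, mul_comm] at hv
    exact Nat.dvd_of_mul_dvd_mul_left (by norm_num) hv
  have h2 : 2 ^ k ∣ a.val := hval _ h1
  obtain ⟨l, hl⟩ := h2
  have h3 : 2 ^ k * l < 2 ^ k * 2 := by
    rw [← hl, ← pow_succ]
    exact ZMod.val_lt a
  have h4 : l < 2 := Nat.lt_of_mul_lt_mul_left h3
  have h5 : a = ((a.val : ℕ) : ZMod (2 ^ (k + 1))) := by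
    rw [ZMod.natCast_val, ZMod.cast_id', id]
  interval_cases l
  · left
    rw [h5, hl]
    simp
  · right
    rw [h5, hl]
    simp

theorem four_pts (m : ℕ) (hm : 1 ≤ m) (x1 x2 x3 x4 x5 : Multiplicative (ZMod (2 ^ m) × ZMod (2 ^ m)))
    (h1 : x1 * x1 = 1) (h2 : x2 * x2 = 1) (h3 : x3 * x3 = 1) (h4 : x4 * x4 = 1) (h5 : x5 * x5 = 1)
    (h12 : x1 ≠ x2) (h13 : x1 ≠ x3) (h14 : x1 ≠ x4) (h15 : x1 ≠ x5) (h23 : x2 ≠ x3) (h24 : x2 ≠ x4) (h25 : x2 ≠ x5)
    (h34 : x3 ≠ x4) (h35 : x3 ≠ x5) (h45 : x4 ≠ x5) : False := by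
  classical
  let w : ZMod (2 ^ m) := ((2 ^ (m - 1) : ℕ) : ZMod (2 ^ m))
  let W : Finset (ZMod (2 ^ m) × ZMod (2 ^ m)) := ({0, w} : Finset _) ×ˢ ({0, w} : Finset _)
  have hW : W.card ≤ 4 := by
    rw [Finset.card_product]
    have : ({0, w} : Finset (ZMod (2 ^ m))).card ≤ 2 := Finset.card_le_two
    nlinarith
  have hmem : ∀ x : Multiplicative (ZMod (2 ^ m) × ZMod (2 ^ m)), x * x = 1 → Multiplicative.toAdd x ∈ W := by
    intro x hx
    have hx' : Multiplicative.toAdd x + Multiplicative.toAdd x = 0 := congrArg Multiplicative.toAdd hx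
    have ha : (Multiplicative.toAdd x).1 + (Multiplicative.toAdd x).1 = 0 := congrArg Prod.fst hx'
    have hb : (Multiplicative.toAdd x).2 + (Multiplicative.toAdd x).2 = 0 := congrArg Prod.snd hx'
    rw [Finset.mem_product]
    constructor
    · rcases sq_cases m hm _ ha with h | h <;> simp [h, w]
    · rcases sq_cases m hm _ hb with h | h <;> simp [h, w]
  let A : Finset (Multiplicative (ZMod (2 ^ m) × ZMod (2 ^ m))) := {x1, x2, x3, x4, x5}
  have hA : A.card = 5 := by
    rw [Finset.card_insert_of_notMem (by simp [h12, h13, h14, h15]),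
      Finset.card_insert_of_notMem (by simp [h23, h24, h25]),
      Finset.card_insert_of_notMem (by simp [h34, h35]),
      Finset.card_insert_of_notMem (by simp [h45]), Finset.card_singleton]
  have hle : A.card ≤ W.card := by
    apply Finset.card_le_card_of_injOn Multiplicative.toAdd
    · intro x hx
      have hx' : x ∈ A := hx
      simp only [A, Finset.mem_insert, Finset.mem_singleton] at hx'
      rcases hx' with rfl | rfl | rfl | rfl | rfl
      · exact hmem _ h1
      · exact hmem _ h2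
      · exact hmem _ h3
      · exact hmem _ h4
      · exact hmem _ h5
    · intro x _ y _ hxy
      exact Multiplicative.toAdd.injective hxy
  omega

variable {G : Type*} [Group G]

theorem fix_all (P : Subgroup G) (hcomm : ∀ x ∈ P, ∀ y ∈ P, x * y = y * x) (h : G) (hh : ∀ x ∈ P, h * x * h⁻¹ ∈ P)
    (k : ℕ) (hr : h ^ (2 * k + 1) = 1) (hfix : ∀ x ∈ P, x * x = 1 → h * x * h⁻¹ = x) (n : ℕ) :
    ∀ x ∈ P, x ^ (2 ^ n) = 1 → h * x * h⁻¹ = x := by
  induction n with
  | zero =>
    intro x _ hx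
    rw [pow_zero, pow_one] at hx
    rw [hx]
    group
  | succ n ih =>
    intro x hx hxn
    have h1 : h * (x * x) * h⁻¹ = x * x := by
      apply ih _ (mul_mem hx hx)
      rw [← pow_two, ← pow_mul, ← pow_succ']
      exact hxn
    set y := h * x * h⁻¹ with hy
    have hyP : y ∈ P := hh x hx
    have h2 : y * y = x * x := by
      rw [← h1, hy]
      group
    set u := x⁻¹ * y with hu
    have huP : u ∈ P := mul_mem (inv_mem hx) hyP
    have hu2 : u * u = 1 := by
      have h3 : x⁻¹ * y = y * x⁻¹ := hcomm _ (inv_mem hx) _ hyP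
      calc u * u = (x⁻¹ * y) * (x⁻¹ * y) := rfl
        _ = x⁻¹ * (y * x⁻¹) * y := by group
        _ = x⁻¹ * (x⁻¹ * y) * y := by rw [h3]
        _ = x⁻¹ * x⁻¹ * (y * y) := by group
        _ = 1 := by rw [h2]; group
    have hfu := hfix u huP hu2
    have hpow : ∀ i : ℕ, h ^ i * x * (h ^ i)⁻¹ = x * u ^ i := by
      intro i
      induction i with
      | zero => simp
      | succ i ih2 =>
        calc h ^ (i + 1) * x * (h ^ (i + 1))⁻¹ = h * (h ^ i * x * (h ^ i)⁻¹) * h⁻¹ := by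
              rw [pow_succ']
              group
          _ = h * (x * u ^ i) * h⁻¹ := by rw [ih2]
          _ = (h * x * h⁻¹) * (h * u ^ i * h⁻¹) := by group
          _ = (h * x * h⁻¹) * (h * u * h⁻¹) ^ i := by rw [conj_pow]
          _ = y * u ^ i := by rw [hfu]
          _ = x * u * u ^ i := by rw [hu]; group
          _ = x * u ^ (i + 1) := by rw [pow_succ']; group
    have h4 := hpow (2 * k + 1)
    rw [hr] at h4
    simp only [one_mul, inv_one, mul_one] at h4
    have h5 : u ^ (2 * k + 1) = 1 := by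
      have : x * u ^ (2 * k + 1) = x * 1 := by rw [← h4, mul_one]
      exact mul_left_cancel this
    have h6 : u = 1 := by
      rw [pow_succ, pow_mul, pow_two, hu2, one_pow, one_mul] at h5
      exact h5
    have h7 : y = x := by
      have : x⁻¹ * y = 1 := h6
      exact (inv_mul_eq_one.1 this).symm
    exact h7

/-- Let P be a Sylow 2-subgroup of the finite group G isomorphic to Z/2^m × Z/2^m with m ≥ 1. Then either P has a normal complement in G, or all involutions of G are conjugate. -/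
theorem result {G : Type*} [Group G] [Finite G] (P : Sylow 2 G) (m : ℕ) (hm : 1 ≤ m) (e : (P : Subgroup G) ≃* Multiplicative (ZMod (2 ^ m) × ZMod (2 ^ m))) : (∃ N : Subgroup G, N.Normal ∧ Subgroup.IsComplement' N (P : Subgroup G)) ∨ ∀ s t : G, orderOf s = 2 → orderOf t = 2 → IsConj s t := by

  classical
  haveI : Fact (Nat.Prime 2) := ⟨Nat.prime_two⟩
  have hinj : ∀ x y : (P : Subgroup G), e x = e y → x = y := fun x y h => e.injective h
  have hcomm : ∀ x ∈ (P : Subgroup G), ∀ y ∈ (P : Subgroup G), x * y = y * x := by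
    intro x hx y hy
    have h1 : (⟨x, hx⟩ : (P : Subgroup G)) * ⟨y, hy⟩ = ⟨y, hy⟩ * ⟨x, hx⟩ := by
      apply hinj
      rw [map_mul, map_mul, mul_comm]
    exact congrArg Subtype.val h1
  have hfive : ∀ x1 ∈ (P : Subgroup G), ∀ x2 ∈ (P : Subgroup G), ∀ x3 ∈ (P : Subgroup G),
      ∀ x4 ∈ (P : Subgroup G), ∀ x5 ∈ (P : Subgroup G),
      x1 * x1 = 1 → x2 * x2 = 1 → x3 * x3 = 1 → x4 * x4 = 1 → x5 * x5 = 1 →
      x1 ≠ x2 → x1 ≠ x3 → x1 ≠ x4 → x1 ≠ x5 → x2 ≠ x3 → x2 ≠ x4 → x2 ≠ x5 → x3 ≠ x4 → x3 ≠ x5 → x4 ≠ x5 → False := by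
    intro x1 m1 x2 m2 x3 m3 x4 m4 x5 m5 h1 h2 h3 h4 h5 h12 h13 h14 h15 h23 h24 h25 h34 h35 h45
    have hsq : ∀ x (hx : x ∈ (P : Subgroup G)), x * x = 1 → e ⟨x, hx⟩ * e ⟨x, hx⟩ = 1 := by
      intro x hx hxx
      rw [← map_mul, ← map_one e]
      congr 1
      exact Subtype.ext hxx
    have hne : ∀ x (hx : x ∈ (P : Subgroup G)) y (hy : y ∈ (P : Subgroup G)), x ≠ y → e ⟨x, hx⟩ ≠ e ⟨y, hy⟩ := by
      intro x hx y hy hxy h
      exact hxy (congrArg Subtype.val (e.injective h))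
    exact four_pts m hm _ _ _ _ _ (hsq x1 m1 h1) (hsq x2 m2 h2) (hsq x3 m3 h3) (hsq x4 m4 h4) (hsq x5 m5 h5)
      (hne _ _ _ _ h12) (hne _ _ _ _ h13) (hne _ _ _ _ h14) (hne _ _ _ _ h15) (hne _ _ _ _ h23) (hne _ _ _ _ h24)
      (hne _ _ _ _ h25) (hne _ _ _ _ h34) (hne _ _ _ _ h35) (hne _ _ _ _ h45)
  by_cases hN : normalizer (P : Subgroup G) ≤ centralizer ((P : Subgroup G) : Set G)
  · left
    exact ⟨(MonoidHom.transferSylow P hN).ker, inferInstance, MonoidHom.ker_transferSylow_isComplement' P hN⟩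
  right
  obtain ⟨g, hgN, hgC⟩ := Set.not_subset.1 hN
  -- the odd part
  obtain ⟨a, r, hr, hn⟩ := Nat.exists_eq_two_pow_mul_odd (orderOf_pos g).ne'
  have hgr : g ^ r ∈ centralizer ((P : Subgroup G) : Set G) := by
    have h1 : IsPGroup 2 (zpowers (g ^ r)) := by
      rw [IsPGroup.iff_card, Nat.card_zpowers]
      have h2 : orderOf (g ^ r) ∣ 2 ^ a := by
        apply orderOf_dvd_of_pow_eq_one
        rw [← pow_mul, mul_comm, ← hn, pow_orderOf_eq_one]
      obtain ⟨s, -, hs⟩ := (Nat.dvd_prime_pow Nat.prime_two).1 h2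
      exact ⟨s, hs⟩
    have h3 : g ^ r ∈ zpowers (g ^ r) ⊓ normalizer (P : Subgroup G) :=
      ⟨mem_zpowers _, pow_mem hgN _⟩
    have h3' := (h1.inf_normalizer_sylow P).le h3
    rw [mem_centralizer_iff]
    intro y hy
    exact hcomm _ hy _ h3'.2
  have hh : g ^ (2 ^ a) ∉ centralizer ((P : Subgroup G) : Set G) := by
    intro hh
    apply hgC
    have hcop : IsCoprime ((2 ^ a : ℕ) : ℤ) (r : ℤ) := by
      rw [Nat.isCoprime_iff_coprime]
      exact Nat.Coprime.pow_left _ (Nat.coprime_two_left.2 hr)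
    obtain ⟨u, v, huv⟩ := hcop
    have h1 : g = (g ^ (2 ^ a)) ^ u * (g ^ r) ^ v := by
      rw [← zpow_natCast g (2 ^ a), ← zpow_natCast g r, ← zpow_mul, ← zpow_mul, ← zpow_add,
        mul_comm _ u, mul_comm _ v, huv, zpow_one]
    rw [h1]
    exact mul_mem (zpow_mem hh _) (zpow_mem hgr _)
  obtain ⟨k, rfl⟩ := hr
  set h := g ^ (2 ^ a) with hhdef
  have hhN : h ∈ normalizer (P : Subgroup G) := pow_mem hgN _
  have hhP : ∀ x ∈ (P : Subgroup G), h * x * h⁻¹ ∈ (P : Subgroup G) := fun x hx => (mem_normalizer_iff.1 hhN x).1 hx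
  have hhr : h ^ (2 * k + 1) = 1 := by
    rw [hhdef, ← pow_mul, ← hn, pow_orderOf_eq_one]
  -- some involution is moved
  obtain ⟨i, hiP, hii, hmov⟩ : ∃ i ∈ (P : Subgroup G), i * i = 1 ∧ h * i * h⁻¹ ≠ i := by
    by_contra hno
    push Not at hno
    apply hh
    rw [mem_centralizer_iff]
    intro x hx
    obtain ⟨n, hn'⟩ := IsPGroup.iff_orderOf.1 P.isPGroup' ⟨x, hx⟩
    have h1 : x ^ (2 ^ n) = 1 := by
      have h2 : (⟨x, hx⟩ : (P : Subgroup G)) ^ (2 ^ n) = 1 := by
        rw [← hn', pow_orderOf_eq_one]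
      exact congrArg Subtype.val h2
    have h3 := fix_all (P : Subgroup G) hcomm h hhP k hhr hno n x hx h1
    rw [mul_inv_eq_iff_eq_mul] at h3
    exact h3.symm
  set j := h * i * h⁻¹ with hj
  have hjP : j ∈ (P : Subgroup G) := hhP i hiP
  have hjj : j * j = 1 := by
    calc j * j = h * (i * i) * h⁻¹ := by rw [hj]; group
      _ = 1 := by rw [hii]; group
  set l := h * j * h⁻¹ with hl
  have hlP : l ∈ (P : Subgroup G) := hhP j hjP
  have hll : l * l = 1 := by
    calc l * l = h * (j * j) * h⁻¹ := by rw [hl]; group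
      _ = 1 := by rw [hjj]; group
  have hi1 : i ≠ 1 := by
    intro h1
    apply hmov
    rw [hj, h1]
    group
  have hj1 : j ≠ 1 := by
    intro h1
    apply hi1
    have : h * i * h⁻¹ = 1 := h1
    have h2 : h * i = h := by
      rwa [mul_inv_eq_one] at this
    simpa using h2
  have hl1 : l ≠ 1 := by
    intro h1
    apply hj1
    have : h * j * h⁻¹ = 1 := h1
    have h2 : h * j = h := by
      rwa [mul_inv_eq_one] at this
    simpa using h2
  have hjl : j ≠ l := by
    intro h1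
    apply hmov
    have h2 : h * i * h⁻¹ = h * j * h⁻¹ := h1
    have h3 : i = j := by
      have h4 : h * i = h * j := mul_right_cancel h2
      exact mul_left_cancel h4
    exact h3.symm
  have hil : i ≠ l := by
    intro h1
    -- then `h ^ 2` fixes `i`
    have h2 : h ^ (2 * k) * i * (h ^ (2 * k))⁻¹ = i := by
      have h3 : ∀ s : ℕ, h ^ (2 * s) * i * (h ^ (2 * s))⁻¹ = i := by
        intro s
        induction s with
        | zero => simp
        | succ s ih =>
          calc h ^ (2 * (s + 1)) * i * (h ^ (2 * (s + 1)))⁻¹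
              = h ^ (2 * s) * (h * (h * i * h⁻¹) * h⁻¹) * (h ^ (2 * s))⁻¹ := by
                rw [show 2 * (s + 1) = 2 * s + 1 + 1 by ring, pow_succ, pow_succ]
                group
            _ = h ^ (2 * s) * i * (h ^ (2 * s))⁻¹ := by
                rw [show h * (h * i * h⁻¹) * h⁻¹ = i from h1.symm]
            _ = i := ih
      exact h3 k
    apply hmov
    have h5 : h * (h ^ (2 * k) * i * (h ^ (2 * k))⁻¹) * h⁻¹ = i := by
      calc h * (h ^ (2 * k) * i * (h ^ (2 * k))⁻¹) * h⁻¹ = h ^ (2 * k + 1) * i * (h ^ (2 * k + 1))⁻¹ := by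
            rw [pow_succ']
            group
        _ = i := by rw [hhr]; group
    rwa [h2] at h5
  have hcover : ∀ x ∈ (P : Subgroup G), x * x = 1 → x ≠ 1 → x = i ∨ x = j ∨ x = l := by
    intro x hx hxx hx1
    by_contra hno
    push Not at hno
    exact hfive 1 (one_mem _) i hiP j hjP l hlP x hx (by simp) hii hjj hll hxx hi1.symm hj1.symm hl1.symm hx1.symm hmov.symm
      hil (Ne.symm hno.1) hjl (Ne.symm hno.2.1) (Ne.symm hno.2.2)
  have hconj : ∀ s : G, orderOf s = 2 → IsConj s i := by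
    intro s hs
    have hss : s * s = 1 := by
      rw [← pow_two, ← hs, pow_orderOf_eq_one]
    have hs1 : s ≠ 1 := by
      rintro rfl
      simp at hs
    have h1 : IsPGroup 2 (zpowers s) := by
      rw [IsPGroup.iff_card, Nat.card_zpowers, hs]
      exact ⟨1, by norm_num⟩
    obtain ⟨Q, hQ⟩ := h1.exists_le_sylow
    obtain ⟨c, hc⟩ := MulAction.exists_smul_eq G Q P
    have h2 : c * s * c⁻¹ ∈ (P : Subgroup G) := by
      have h5 : ((c • Q : Sylow 2 G) : Subgroup G) = MulAut.conj c • (Q : Subgroup G) := rfl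
      rw [← hc, h5]
      exact Subgroup.smul_mem_pointwise_smul s (MulAut.conj c) _ (hQ (mem_zpowers s))
    have h3 : (c * s * c⁻¹) * (c * s * c⁻¹) = 1 := by
      calc (c * s * c⁻¹) * (c * s * c⁻¹) = c * (s * s) * c⁻¹ := by group
        _ = 1 := by rw [hss]; group
    have h4 : c * s * c⁻¹ ≠ 1 := by
      intro h5
      apply hs1
      have h6 : c * s = c := by rwa [mul_inv_eq_one] at h5
      simpa using h6
    have hsy : IsConj s (c * s * c⁻¹) := isConj_iff.2 ⟨c, rfl⟩
    have hji : IsConj i j := isConj_iff.2 ⟨h, rfl⟩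
    have hlj : IsConj j l := isConj_iff.2 ⟨h, rfl⟩
    rcases hcover _ h2 h3 h4 with h5 | h5 | h5
    · rw [h5] at hsy
      exact hsy
    · rw [h5] at hsy
      exact hsy.trans hji.symm
    · rw [h5] at hsy
      exact hsy.trans (hji.trans hlj).symm
  intro s t hs ht
  exact (hconj s hs).trans (hconj t ht).symm

end Cfsg.Agent.S0946
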