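import Cfsg.Statements.S0955
import Cfsg.Agent.Lib.BlockFirst

set_option autoImplicit false
open Cfsg

namespace Cfsg.Agent.S0955

/-- Let D be a defect group of a block of the finite group G relative to a maximal ideal M of the algebraic integers containing the prime p. Then D is the largest normal p-subgroup of its own normalizer: O_p(N_G(D)) = D. -/
theorem result {G : Type*} [Group G] [Finite G] (p : ℕ) [Fact p.Prime] (M : Ideal Cfsg.AlgInt) (hM : Cfsg.IsPModular p M) (B : Set (Cfsg.IrrCharacter G)) (hB : Cfsg.IsPBlock M B) (D : Subgroup G) (hD : Cfsg.IsDefectGroup p M B D) : (Cfsg.pCore p (Subgroup.normalizer (D : Set G))).map (Subgroup.normalizer (D : Set G)).subtype = D := by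
  classical
  have := Fintype.ofFinite G
  have := hM.2.1.isPrime
  have := Fintype.ofFinite (Subgroup.normalizer (D : Set G))
  have hDp : IsPGroup p D := by
    obtain ⟨g, -, P, rfl⟩ := hD
    exact Lib.BlockDefect.isPGroup_map_sylow P
  have hDH : D ≤ Subgroup.normalizer (D : Set G) := Subgroup.le_normalizer
  obtain ⟨b, hb, hd, hind⟩ := Lib.BlockFirst.exists_block_of_defect hM hDp rfl hB hD
  have h1 := Lib.BlockDefect.normal_le_defectGroup hM hb hd (Lib.H1Core.pCore_isPGroup p)
  apply le_antisymm
  · intro w hw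
    obtain ⟨k, hk, rfl⟩ := Subgroup.mem_map.mp hw
    exact Subgroup.mem_subgroupOf.mp (h1 hk)
  · intro w hw
    refine Subgroup.mem_map.mpr ⟨⟨w, hDH hw⟩, ?_, rfl⟩
    refine Lib.H1Core.le_pCore Subgroup.normal_in_normalizer hDp.comap_subtype (Subgroup.mem_subgroupOf.mpr hw)

end Cfsg.Agent.S0955
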