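import Cfsg.Statements.S0957

set_option autoImplicit false
open Cfsg

namespace Cfsg.Agent.S0957

/-- Let P be a Sylow p-subgroup of the finite group G, let g, h ∈ G and let p ^ d be the order of a Sylow p-subgroup of the centralizer of g. Then the number of pairs (y, z) with y conjugate to g, z conjugate to h and z * y⁻¹ ∈ P is divisible by the order of P divided by p ^ d. -/
theorem result {G : Type*} [Group G] [Finite G] (p : ℕ) [Fact p.Prime] (P : Sylow p G) (g h : G) (S : Sylow p (Subgroup.centralizer ({g} : Set G))) : Nat.card P / Nat.card S ∣ Nat.card {yz : G × G // IsConj g yz.1 ∧ IsConj h yz.2 ∧ yz.2 * yz.1⁻¹ ∈ (P : Subgroup G)} := by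
  classical
  have : Fintype G := Fintype.ofFinite G
  obtain ⟨X, hX⟩ : ∃ X : Type _, X = {yz : G × G // IsConj g yz.1 ∧ IsConj h yz.2 ∧ yz.2 * yz.1⁻¹ ∈ (P : Subgroup G)} := ⟨_, rfl⟩
  rw [← hX]
  subst hX
  have hmem : ∀ (u : (P : Subgroup G)) (x : G × G), (IsConj g x.1 ∧ IsConj h x.2 ∧ x.2 * x.1⁻¹ ∈ (P : Subgroup G)) →
      (IsConj g ((u : G) * x.1 * (u : G)⁻¹) ∧ IsConj h ((u : G) * x.2 * (u : G)⁻¹) ∧
        ((u : G) * x.2 * (u : G)⁻¹) * ((u : G) * x.1 * (u : G)⁻¹)⁻¹ ∈ (P : Subgroup G)) := by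
    intro u x ⟨h1, h2, h3⟩
    refine ⟨h1.trans (isConj_iff.mpr ⟨u, rfl⟩), h2.trans (isConj_iff.mpr ⟨u, rfl⟩), ?_⟩
    have h4 : ((u : G) * x.2 * (u : G)⁻¹) * ((u : G) * x.1 * (u : G)⁻¹)⁻¹ = (u : G) * (x.2 * x.1⁻¹) * (u : G)⁻¹ := by group
    rw [h4]
    exact (P : Subgroup G).mul_mem ((P : Subgroup G).mul_mem u.2 h3) ((P : Subgroup G).inv_mem u.2)
  let act : MulAction (P : Subgroup G) {yz : G × G // IsConj g yz.1 ∧ IsConj h yz.2 ∧ yz.2 * yz.1⁻¹ ∈ (P : Subgroup G)} :=
    { smul := fun u x => ⟨((u : G) * x.1.1 * (u : G)⁻¹, (u : G) * x.1.2 * (u : G)⁻¹), hmem u x.1 x.2⟩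
      one_smul := fun x => by
        apply Subtype.ext
        apply Prod.ext
        · show ((1 : (P : Subgroup G)) : G) * x.1.1 * ((1 : (P : Subgroup G)) : G)⁻¹ = x.1.1
          simp
        · show ((1 : (P : Subgroup G)) : G) * x.1.2 * ((1 : (P : Subgroup G)) : G)⁻¹ = x.1.2
          simp
      mul_smul := fun u v x => by
        apply Subtype.ext
        apply Prod.ext
        · show ((u * v : (P : Subgroup G)) : G) * x.1.1 * ((u * v : (P : Subgroup G)) : G)⁻¹ =
            (u : G) * ((v : G) * x.1.1 * (v : G)⁻¹) * (u : G)⁻¹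
          simp only [Subgroup.coe_mul]
          group
        · show ((u * v : (P : Subgroup G)) : G) * x.1.2 * ((u * v : (P : Subgroup G)) : G)⁻¹ =
            (u : G) * ((v : G) * x.1.2 * (v : G)⁻¹) * (u : G)⁻¹
          simp only [Subgroup.coe_mul]
          group }
  have hsmul1 : ∀ (u : (P : Subgroup G)) (x : {yz : G × G // IsConj g yz.1 ∧ IsConj h yz.2 ∧ yz.2 * yz.1⁻¹ ∈ (P : Subgroup G)}),
      (u • x).1.1 = (u : G) * x.1.1 * (u : G)⁻¹ := fun _ _ => rfl
  -- orders
  obtain ⟨n, hn⟩ := IsPGroup.iff_card.mp P.isPGroup'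
  obtain ⟨a, ha⟩ := IsPGroup.iff_card.mp S.isPGroup'
  have hp := (Fact.out : p.Prime)
  have han : a ≤ n := by
    have h1 : IsPGroup p ((S : Subgroup _).map (Subgroup.centralizer ({g} : Set G)).subtype) := S.isPGroup'.map _
    have h2 := Sylow.pow_dvd_card_of_pow_dvd_card (p := p) P (n := a) (by
      have h3 := Subgroup.card_subgroup_dvd_card ((S : Subgroup _).map (Subgroup.centralizer ({g} : Set G)).subtype)
      rw [Subgroup.card_map_of_injective (Subgroup.subtype_injective _)] at h3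
      rw [← ha]
      exact h3)
    rw [hn] at h2
    exact (Nat.pow_dvd_pow_iff_le_right hp.one_lt).mp h2
  have hdiv : Nat.card P / Nat.card S = p ^ (n - a) := by
    rw [hn, ha]
    exact Nat.pow_div han hp.pos
  rw [hdiv]
  -- each orbit
  have horb : ∀ x : {yz : G × G // IsConj g yz.1 ∧ IsConj h yz.2 ∧ yz.2 * yz.1⁻¹ ∈ (P : Subgroup G)},
      p ^ (n - a) ∣ Nat.card (MulAction.orbit (P : Subgroup G) x) := by
    intro x
    have h0 : Nat.card (MulAction.orbit (P : Subgroup G) x) * Nat.card (MulAction.stabilizer (P : Subgroup G) x) = Nat.card (P : Subgroup G) := by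
      simp only [Nat.card_eq_fintype_card]
      exact MulAction.card_orbit_mul_card_stabilizer_eq_card_group (P : Subgroup G) x
    obtain ⟨c, hc⟩ := IsPGroup.iff_card.mp (P.isPGroup'.to_subgroup (MulAction.stabilizer (P : Subgroup G) x))
    rw [hc, hn] at h0
    -- the stabilizer embeds in the centralizer of `x.1.1`
    have hle : (MulAction.stabilizer (P : Subgroup G) x).map (P : Subgroup G).subtype ≤ Subgroup.centralizer ({x.1.1} : Set G) := by
      intro w hw
      obtain ⟨w', hw', rfl⟩ := Subgroup.mem_map.mp hw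
      rw [Subgroup.mem_centralizer_singleton_iff]
      have h1 : (w' • x).1.1 = x.1.1 := by
        rw [MulAction.mem_stabilizer_iff.mp hw']
      rw [hsmul1] at h1
      simp only [Subgroup.subtype_apply]
      calc (w' : G) * x.1.1 = ((w' : G) * x.1.1 * (w' : G)⁻¹) * w' := by group
        _ = _ := by rw [h1]
    have hcardC : Nat.card (Subgroup.centralizer ({x.1.1} : Set G)) = Nat.card (Subgroup.centralizer ({g} : Set G)) := by
      obtain ⟨t, ht⟩ := isConj_iff.mp x.2.1
      rw [← ht]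
      have h1 : (Subgroup.centralizer ({t * g * t⁻¹} : Set G)) = (Subgroup.centralizer ({g} : Set G)).map (MulAut.conj t).toMonoidHom := by
        ext w
        rw [Subgroup.mem_centralizer_singleton_iff, Subgroup.mem_map]
        constructor
        · intro hw
          refine ⟨t⁻¹ * w * t, ?_, by simp [MulAut.conj_apply]; group⟩
          rw [Subgroup.mem_centralizer_singleton_iff]
          calc t⁻¹ * w * t * g = t⁻¹ * (w * (t * g * t⁻¹)) * t := by group
            _ = t⁻¹ * ((t * g * t⁻¹) * w) * t := by rw [hw]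
            _ = _ := by group
        · rintro ⟨w', hw', rfl⟩
          rw [Subgroup.mem_centralizer_singleton_iff] at hw'
          simp only [MulEquiv.coe_toMonoidHom, MulAut.conj_apply]
          calc t * w' * t⁻¹ * (t * g * t⁻¹) = t * (w' * g) * t⁻¹ := by group
            _ = t * (g * w') * t⁻¹ := by rw [hw']
            _ = _ := by group
      rw [h1, Subgroup.card_map_of_injective (MulEquiv.injective _)]
    have hdvd : p ^ c ∣ Nat.card (Subgroup.centralizer ({g} : Set G)) := by
      rw [← hcardC, ← hc]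
      have h2 := Subgroup.card_dvd_of_le hle
      rwa [Subgroup.card_map_of_injective (Subgroup.subtype_injective _)] at h2
    have hc' := Sylow.pow_dvd_card_of_pow_dvd_card (p := p) S hdvd
    rw [ha] at hc'
    have hca : c ≤ a := (Nat.pow_dvd_pow_iff_le_right hp.one_lt).mp hc'
    have hcn : c + (n - c) = n ∧ c ≤ n := by omega
    have h3 : Nat.card (MulAction.orbit (P : Subgroup G) x) * p ^ c = p ^ (n - c) * p ^ c := by
      rw [h0, ← pow_add]
      congr 1
      omega
    have h4 := Nat.eq_of_mul_eq_mul_right (pow_pos hp.pos c) h3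
    rw [h4]
    exact pow_dvd_pow p (by omega)
  rw [Nat.card_congr (MulAction.selfEquivSigmaOrbits (P : Subgroup G) {yz : G × G // IsConj g yz.1 ∧ IsConj h yz.2 ∧ yz.2 * yz.1⁻¹ ∈ (P : Subgroup G)})]
  have : Fintype (MulAction.orbitRel.Quotient (P : Subgroup G) {yz : G × G // IsConj g yz.1 ∧ IsConj h yz.2 ∧ yz.2 * yz.1⁻¹ ∈ (P : Subgroup G)}) := Fintype.ofFinite _
  rw [Nat.card_sigma]
  refine Finset.dvd_sum fun ω _ => ?_
  exact horb _

end Cfsg.Agent.S0957
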