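import Cfsg.Statements.S0986
import Cfsg.Agent.Lib.H1Small2

set_option autoImplicit false
open Cfsg

namespace Cfsg.Agent.S0986

/-- Let P and Q be distinct Sylow p-subgroups of a finite group G chosen so that the order of P ∩ Q is as large as possible among intersections of two distinct Sylow p-subgroups, and let N be the normalizer of P ∩ Q. Then N has more than one Sylow p-subgroup, any two distinct Sylow p-subgroups of N intersect exactly in P ∩ Q, and each Sylow p-subgroup of N lies in exactly one Sylow p-subgroup of G. -/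
theorem result {G : Type*} [Group G] [Finite G] (p : ℕ) [Fact p.Prime] (P Q : Sylow p G) (hPQ : P ≠ Q) (hmax : ∀ P' Q' : Sylow p G, P' ≠ Q' → Nat.card ↥((P' : Subgroup G) ⊓ (Q' : Subgroup G)) ≤ Nat.card ↥((P : Subgroup G) ⊓ (Q : Subgroup G))) : 1 < Nat.card (Sylow p ↥(Subgroup.normalizer (((P : Subgroup G) ⊓ (Q : Subgroup G) : Subgroup G) : Set G))) ∧ (∀ S T : Sylow p ↥(Subgroup.normalizer (((P : Subgroup G) ⊓ (Q : Subgroup G) : Subgroup G) : Set G)), S ≠ T → (S : Subgroup _) ⊓ (T : Subgroup _) = ((P : Subgroup G) ⊓ (Q : Subgroup G)).subgroupOf (Subgroup.normalizer (((P : Subgroup G) ⊓ (Q : Subgroup G) : Subgroup G) : Set G))) ∧ ∀ S : Sylow p ↥(Subgroup.normalizer (((P : Subgroup G) ⊓ (Q : Subgroup G) : Subgroup G) : Set G)), ∃! T : Sylow p G, (S : Subgroup _).map (Subgroup.normalizer (((P : Subgroup G) ⊓ (Q : Subgroup G) : Subgroup G) : Set G)).subtype ≤ (T : Subgroup G) := by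
  classical
  set D : Subgroup G := (P : Subgroup G) ⊓ (Q : Subgroup G) with hD
  set N : Subgroup G := Subgroup.normalizer (D : Set G) with hN
  have hpD : IsPGroup p D := P.isPGroup'.to_le inf_le_left
  -- maximal intersections
  have hL : ∀ T₁ T₂ : Sylow p G, D ≤ (T₁ : Subgroup G) → D ≤ (T₂ : Subgroup G) →
      ∀ x ∈ (T₁ : Subgroup G), x ∈ (T₂ : Subgroup G) → x ∉ D → T₁ = T₂ := by
    intro T₁ T₂ h1 h2 x hx1 hx2 hxD
    by_contra hne
    have h3 := hmax T₁ T₂ hne
    have h4 : D = (T₁ : Subgroup G) ⊓ (T₂ : Subgroup G) := Subgroup.eq_of_le_of_card_ge (le_inf h1 h2) h3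
    exact hxD (h4 ▸ Subgroup.mem_inf.mpr ⟨hx1, hx2⟩)
  -- D normal in N, so in every Sylow subgroup of N
  have hDN : ∀ S : Sylow p N, D ≤ (S : Subgroup N).map N.subtype := by
    intro S
    haveI : (D.subgroupOf N).Normal := Subgroup.normal_in_normalizer
    have h1 : IsPGroup p (D.subgroupOf N) := hpD.comap_subtype
    have h2 : IsPGroup p ((D.subgroupOf N) ⊔ (S : Subgroup N) : Subgroup N) :=
      h1.to_sup_of_normal_left S.isPGroup'
    have h3 := S.is_maximal' h2 le_sup_right
    intro d hd
    have hdN : d ∈ N := Subgroup.le_normalizer hd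
    refine ⟨⟨d, hdN⟩, ?_, rfl⟩
    have h4 : (⟨d, hdN⟩ : N) ∈ (D.subgroupOf N) ⊔ (S : Subgroup N) :=
      Subgroup.mem_sup_left (by simpa [Subgroup.mem_subgroupOf] using hd)
    rw [h3] at h4
    exact h4
  -- strictly larger normalizers
  have hstrict : ∀ R R' : Sylow p G, R ≠ R' → D ≤ (R : Subgroup G) → D ≤ (R' : Subgroup G) →
      (∀ x ∈ (R : Subgroup G), x ∈ (R' : Subgroup G) → x ∈ D) →
      ∃ x ∈ (R : Subgroup G), x ∈ N ∧ x ∉ D := by
    intro R R' hne h1 h2 h3
    haveI : Group.IsNilpotent (R : Subgroup G) := R.isPGroup'.isNilpotent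
    have hnc := normalizerCondition_of_isNilpotent (G := (R : Subgroup G))
    have hlt : D.subgroupOf (R : Subgroup G) < ⊤ := by
      refine lt_top_iff_ne_top.mpr ?_
      intro htop
      apply hne
      have hRD : (R : Subgroup G) ≤ D := by
        intro x hx
        have : (⟨x, hx⟩ : (R : Subgroup G)) ∈ D.subgroupOf (R : Subgroup G) := by rw [htop]; trivial
        simpa [Subgroup.mem_subgroupOf] using this
      have h4 : (R : Subgroup G) ≤ (R' : Subgroup G) := hRD.trans h2
      exact Sylow.ext (R.is_maximal' R'.isPGroup' h4).symm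
    have h5 := hnc _ hlt
    obtain ⟨-, x, hx1, hx2⟩ := SetLike.lt_iff_le_and_exists.mp h5
    refine ⟨x, x.2, ?_, ?_⟩
    · rw [hN, Subgroup.mem_normalizer_iff]
      intro d
      have h6 := Subgroup.mem_normalizer_iff.mp hx1
      constructor
      · intro hd
        have h7 := (h6 ⟨d, h1 hd⟩).mp (by simpa [Subgroup.mem_subgroupOf] using hd)
        simpa [Subgroup.mem_subgroupOf] using h7
      · intro hd
        have hdR : d ∈ (R : Subgroup G) := by
          have h8 : (x : G) * d * (x : G)⁻¹ ∈ (R : Subgroup G) := h1 hd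
          have h9 : d = (x : G)⁻¹ * ((x : G) * d * (x : G)⁻¹) * (x : G) := by group
          rw [h9]
          exact (R : Subgroup G).mul_mem ((R : Subgroup G).mul_mem ((R : Subgroup G).inv_mem x.2) h8) x.2
        have h7 := (h6 ⟨d, hdR⟩).mpr (by simpa [Subgroup.mem_subgroupOf] using hd)
        simpa [Subgroup.mem_subgroupOf] using h7
    · intro hxD
      exact hx2 (by simpa [Subgroup.mem_subgroupOf] using hxD)
  have hDP : D ≤ (P : Subgroup G) := inf_le_left
  have hDQ : D ≤ (Q : Subgroup G) := inf_le_right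
  obtain ⟨a, haP, haN, haD⟩ := hstrict P Q hPQ hDP hDQ (fun x h1 h2 => Subgroup.mem_inf.mpr ⟨h1, h2⟩)
  obtain ⟨b, hbQ, hbN, hbD⟩ := hstrict Q P hPQ.symm hDQ hDP (fun x h1 h2 => Subgroup.mem_inf.mpr ⟨h2, h1⟩)
  -- every Sylow subgroup of N lies in a Sylow subgroup of G
  have hext : ∀ S : Sylow p N, ∃ T : Sylow p G, (S : Subgroup N).map N.subtype ≤ (T : Subgroup G) := by
    intro S
    exact (S.isPGroup'.map N.subtype).exists_le_sylow
  -- The big Sylow subgroup of N
  have hpPN : IsPGroup p (((P : Subgroup G) ⊓ N).comap N.subtype) :=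
    (P.isPGroup'.to_le inf_le_left).comap_subtype
  have hpQN : IsPGroup p (((Q : Subgroup G) ⊓ N).comap N.subtype) :=
    (Q.isPGroup'.to_le inf_le_left).comap_subtype
  -- a Sylow subgroup containing `a` (with D ≤ it) must be P
  have hP' : ∀ T : Sylow p G, D ≤ (T : Subgroup G) → a ∈ (T : Subgroup G) → T = P :=
    fun T h1 h2 => hL T P h1 hDP a h2 haP haD
  have hQ' : ∀ T : Sylow p G, D ≤ (T : Subgroup G) → b ∈ (T : Subgroup G) → T = Q :=
    fun T h1 h2 => hL T Q h1 hDQ b h2 hbQ hbD
  refine ⟨?_, ?_, ?_⟩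
  · -- more than one Sylow subgroup
    by_contra hle
    have hone : Nat.card (Sylow p N) = 1 := by
      have h0 : 0 < Nat.card (Sylow p N) := Nat.card_pos
      omega
    haveI : Subsingleton (Sylow p N) := by
      have := (Nat.card_eq_one_iff_unique.mp hone).1
      exact this
    obtain ⟨A, hA⟩ := hpPN.exists_le_sylow
    obtain ⟨B, hB⟩ := hpQN.exists_le_sylow
    have hAB : A = B := Subsingleton.elim _ _
    obtain ⟨T, hT⟩ := hext A
    have hDT : D ≤ (T : Subgroup G) := (hDN A).trans hT
    have ha : a ∈ (T : Subgroup G) := by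
      apply hT
      refine ⟨⟨a, haN⟩, hA ?_, rfl⟩
      exact Subgroup.mem_inf.mpr ⟨haP, haN⟩
    have hb : b ∈ (T : Subgroup G) := by
      apply hT
      refine ⟨⟨b, hbN⟩, ?_, rfl⟩
      rw [hAB]
      apply hB
      exact Subgroup.mem_inf.mpr ⟨hbQ, hbN⟩
    exact hPQ ((hP' T hDT ha).symm.trans (hQ' T hDT hb))
  · intro S T hST
    apply le_antisymm
    · -- intersection inside D
      intro x hx
      obtain ⟨hxS, hxT⟩ := Subgroup.mem_inf.mp hx
      rw [Subgroup.mem_subgroupOf]
      by_contra hxD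
      obtain ⟨S', hS'⟩ := hext S
      obtain ⟨T', hT'⟩ := hext T
      have hx1 : (x : G) ∈ (S' : Subgroup G) := hS' ⟨x, hxS, rfl⟩
      have hx2 : (x : G) ∈ (T' : Subgroup G) := hT' ⟨x, hxT, rfl⟩
      have hee := hL S' T' ((hDN S).trans hS') ((hDN T).trans hT') x hx1 hx2 hxD
      -- Both S and T lie in the p-group S' ∩ N
      have hpS : IsPGroup p ((S' : Subgroup G).comap N.subtype) := S'.isPGroup'.comap_subtype
      have hle1 : (S : Subgroup N) ≤ (S' : Subgroup G).comap N.subtype := by
        intro y hy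
        exact hS' ⟨y, hy, rfl⟩
      have hle2 : (T : Subgroup N) ≤ (S' : Subgroup G).comap N.subtype := by
        intro y hy
        rw [hee]
        exact hT' ⟨y, hy, rfl⟩
      have e1 := S.is_maximal' hpS hle1
      have e2 := T.is_maximal' hpS hle2
      exact hST (Sylow.ext (e1.symm.trans e2))
    · apply le_inf
      · intro d hd
        rw [Subgroup.mem_subgroupOf] at hd
        obtain ⟨d', hd', he⟩ := hDN S hd
        have : d' = d := Subtype.ext he
        rwa [← this]
      · intro d hd
        rw [Subgroup.mem_subgroupOf] at hd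
        obtain ⟨d', hd', he⟩ := hDN T hd
        have : d' = d := Subtype.ext he
        rwa [← this]
  · intro S
    obtain ⟨T, hT⟩ := hext S
    refine ⟨T, hT, ?_⟩
    intro T' hT'
    -- S is not contained in D, by order
    obtain ⟨A, hA⟩ := hpPN.exists_le_sylow
    have hcardle : Nat.card D < Nat.card (S : Subgroup N) := by
      have e1 : Nat.card (S : Subgroup N) = Nat.card (A : Subgroup N) := by
        rw [S.card_eq_multiplicity, A.card_eq_multiplicity]
      rw [e1]
      have hinj : Function.Injective (fun d : D => (⟨⟨d.1, Subgroup.le_normalizer d.2⟩, by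
          refine hA ?_
          exact Subgroup.mem_inf.mpr ⟨hDP d.2, Subgroup.le_normalizer d.2⟩⟩ : (A : Subgroup N))) := by
        intro u v huv
        have := congrArg (fun z : (A : Subgroup N) => ((z : N) : G)) huv
        exact Subtype.ext this
      have hle := Nat.card_le_card_of_injective _ hinj
      refine lt_of_le_of_ne hle ?_
      intro heq
      have hsurj := (Function.Injective.bijective_of_nat_card_le hinj heq.ge).2
      have haA : (⟨a, haN⟩ : N) ∈ (A : Subgroup N) := hA (Subgroup.mem_inf.mpr ⟨haP, haN⟩)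
      obtain ⟨d, hd⟩ := hsurj ⟨⟨a, haN⟩, haA⟩
      have : (d : G) = a := congrArg (fun z : (A : Subgroup N) => ((z : N) : G)) hd
      exact haD (this ▸ d.2)
    have hex : ∃ y ∈ (S : Subgroup N), (y : G) ∉ D := by
      by_contra hall
      push Not at hall
      have : Nat.card (S : Subgroup N) ≤ Nat.card D := by
        apply Nat.card_le_card_of_injective (fun y : (S : Subgroup N) => (⟨(y : N), hall y y.2⟩ : D))
        intro u v huv
        have := congrArg Subtype.val huv
        exact Subtype.ext (Subtype.ext this)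
      omega
    obtain ⟨y, hyS, hyD⟩ := hex
    exact hL T' T ((hDN S).trans hT') ((hDN S).trans hT) y (hT' ⟨y, hyS, rfl⟩) (hT ⟨y, hyS, rfl⟩) hyD

end Cfsg.Agent.S0986
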