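import Cfsg.Statements.S0987
import Cfsg.Agent.Lib.H1Small4
import Cfsg.Agent.Lib.H1Core

set_option autoImplicit false
open Cfsg

namespace Cfsg.Agent.S0987

/-- If a finite group has order pqr for primes p < q < r, then its Sylow r-subgroups are normal. -/
theorem result {G : Type*} [Group G] [Finite G] (p q r : ℕ) (hp : p.Prime) (hq : q.Prime) [Fact r.Prime] (hpq : p < q) (hqr : q < r) (hG : Nat.card G = p * q * r) (R : Sylow r G) : (R : Subgroup G).Normal := by
  classical
  haveI hpF : Fact p.Prime := ⟨hp⟩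
  haveI hqF : Fact q.Prime := ⟨hq⟩
  have hr : r.Prime := Fact.out
  have hmin : (Nat.card G).minFac = p := by
    have h1 : (Nat.card G).minFac ∣ p * q * r := by rw [← hG]; exact Nat.minFac_dvd _
    have hne : Nat.card G ≠ 1 := by
      rw [hG]
      intro h
      have h5 : p ∣ 1 := by rw [← h, mul_assoc]; exact dvd_mul_right _ _
      exact hp.one_lt.ne' (Nat.dvd_one.mp h5)
    have h2 := Nat.minFac_prime hne
    have h3 : (Nat.card G).minFac ≤ p :=
      Nat.minFac_le_of_dvd hp.two_le (by rw [hG, mul_assoc]; exact dvd_mul_right _ _)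
    rcases (Nat.Prime.dvd_mul h2).mp h1 with h4 | h4
    · rcases (Nat.Prime.dvd_mul h2).mp h4 with h5 | h5
      · exact (Nat.prime_dvd_prime_iff_eq h2 hp).mp h5
      · have := (Nat.prime_dvd_prime_iff_eq h2 hq).mp h5
        omega
    · have := (Nat.prime_dvd_prime_iff_eq h2 hr).mp h4
      omega
  have hpq : ¬ p ∣ q * r := by
    intro h
    rcases (Nat.Prime.dvd_mul hp).mp h with h1 | h1
    · have := (Nat.prime_dvd_prime_iff_eq hp hq).mp h1; omega
    · have := (Nat.prime_dvd_prime_iff_eq hp hr).mp h1; omega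
  have hqr0 : q * r ≠ 0 := Nat.mul_ne_zero hq.ne_zero hr.ne_zero
  obtain ⟨S⟩ : Nonempty (Sylow p G) := inferInstance
  obtain ⟨h1, -, -, -⟩ := Cfsg.Agent.Lib.H1Small.sylow_data (p := p) 1 (q * r) (by rw [hG]; ring) hpq S
  rw [pow_one] at h1
  have hcyc : IsCyclic (S : Subgroup G) := isCyclic_of_prime_card h1
  have hcomp := IsCyclic.isComplement' hmin hcyc
  set K := (MonoidHom.transferSylow S (hcyc.normalizer_le_centralizer hmin)).ker with hK
  have hKn : K.Normal := MonoidHom.normal_ker _
  have hKc : Nat.card K = q * r := by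
    have := hcomp.card_mul
    rw [h1, hG] at this
    have h2 : Nat.card K * p = (q * r) * p := by rw [this]; ring
    exact Nat.eq_of_mul_eq_mul_right hp.pos h2
  -- Sylow r in K is unique
  obtain ⟨R₀⟩ : Nonempty (Sylow r K) := inferInstance
  have hrq : ¬ r ∣ q := by
    intro h
    have := Nat.le_of_dvd hq.pos h
    omega
  obtain ⟨h2, h3, h4, -⟩ := Cfsg.Agent.Lib.H1Small.sylow_data (p := r) 1 q (by rw [hKc]; ring) hrq R₀
  rw [pow_one] at h2
  have hn1 : Nat.card (Sylow r K) = 1 := by
    rcases (Nat.dvd_prime hq).mp h3 with h5 | h5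
    · exact h5
    · rw [h5, Nat.mod_eq_of_lt hqr] at h4
      exact absurd h4 hq.one_lt.ne'
  haveI : Subsingleton (Sylow r K) := (Nat.card_eq_one_iff_unique.mp hn1).1
  have hR₀n := Sylow.normal_of_subsingleton R₀
  have hR₀c := Sylow.characteristic_of_normal R₀ hR₀n
  have hR₁n : ((R₀ : Subgroup K).map K.subtype).Normal :=
    Cfsg.Agent.Lib.H1Core.normal_map_of_characteristic K _
  have hR₁p : IsPGroup r ((R₀ : Subgroup K).map K.subtype) := R₀.isPGroup'.map _
  have hle := hR₁p.le_sylow_of_normal R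
  have hcardR : Nat.card (R : Subgroup G) = r := by
    have hrpq : ¬ r ∣ p * q := by
      intro h
      rcases (Nat.Prime.dvd_mul hr).mp h with h1 | h1
      · have := Nat.le_of_dvd hp.pos h1; omega
      · have := Nat.le_of_dvd hq.pos h1; omega
    obtain ⟨h5, -, -, -⟩ := Cfsg.Agent.Lib.H1Small.sylow_data (p := r) 1 (p * q) (by rw [hG]; ring) hrpq R
    rwa [pow_one] at h5
  have hcardR₁ : Nat.card ((R₀ : Subgroup K).map K.subtype) = r := by
    rw [Subgroup.card_map_of_injective K.subtype_injective, h2]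
  have heq : (R₀ : Subgroup K).map K.subtype = (R : Subgroup G) :=
    Subgroup.eq_of_le_of_card_ge hle (by rw [hcardR, hcardR₁])
  rw [← heq]
  exact hR₁n

end Cfsg.Agent.S0987
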