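import Cfsg.Statements.S0988
import Cfsg.Agent.Lib.H1Small4
import Cfsg.Agent.S0144

set_option autoImplicit false
open Cfsg

namespace Cfsg.Agent.S0988

/-- Divisors of `a ^ 2 * b`. -/
private theorem dvd_cases {a b n : ℕ} (ha : a.Prime) (hb : b.Prime) (h : n ∣ a ^ 2 * b) :
    n = 1 ∨ n = a ∨ n = a ^ 2 ∨ n = b ∨ n = a * b ∨ n = a ^ 2 * b := by
  obtain ⟨y, z, hy, hz, rfl⟩ := (Nat.dvd_mul).mp h
  obtain ⟨j, hj, rfl⟩ := (Nat.dvd_prime_pow ha).mp hy
  rcases (Nat.dvd_prime hb).mp hz with rfl | rfl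
  · interval_cases j <;> simp
  · interval_cases j <;> simp

private theorem arith1 {p q r : ℕ} (hp : p.Prime) (hpq : p < q) (hqr : q < r)
    (h1 : (p * q) % r = 1) (h2 : p ∣ r - 1) : p * q = (p - 1) * r + 1 := by
  obtain ⟨t, ht⟩ := h2
  have hr : r = p * t + 1 := by omega
  have hk := Nat.div_add_mod (p * q) r
  rw [h1] at hk
  set k := (p * q) / r with hkdef
  have e1 : p * q = r * k + 1 := hk.symm
  have e2 : p * q = p * (t * k) + (k + 1) := by
    rw [e1, hr]; ring
  have h3 : p ∣ k + 1 := by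
    have : p ∣ p * (t * k) + (k + 1) := by rw [← e2]; exact dvd_mul_right _ _
    exact (Nat.dvd_add_right (dvd_mul_right _ _)).mp this
  obtain ⟨s, hs⟩ := h3
  have hp2 := hp.two_le
  have hs1 : s ≠ 0 := by
    rintro rfl
    simp at hs
  have hs2 : s = 1 := by
    by_contra hne
    have hsge : 2 ≤ s := by omega
    have h4 : 2 * p ≤ k + 1 := by rw [hs]; nlinarith
    have h5 : (2 * p - 1) ≤ k := by omega
    have h6 : r * (2 * p - 1) ≤ r * k := Nat.mul_le_mul_left _ h5
    have h7 : p ≤ 2 * p - 1 := by omega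
    have h8 : r * p ≤ r * (2 * p - 1) := Nat.mul_le_mul_left _ h7
    have h9 : q * p < r * p := Nat.mul_lt_mul_of_pos_right hqr hp.pos
    have h10 : p * q = q * p := mul_comm _ _
    omega
  subst hs2
  have hk2 : k = p - 1 := by omega
  rw [e1, hk2]; ring

private theorem arith2 {p q r : ℕ} (hp : p.Prime) (hq : q.Prime) (hpq : p < q)
    (h : p * q = (p - 1) * r + 1) (hd : q ∣ r - 1) (hqr : q < r) : False := by
  have hp2 := hp.two_le
  have hq2 := hq.two_le
  obtain ⟨u, hu⟩ := Nat.exists_eq_add_of_le (show 1 ≤ p by omega)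
  obtain ⟨v, hv⟩ := Nat.exists_eq_add_of_le (show 1 ≤ r by omega)
  obtain ⟨w, hw⟩ := Nat.exists_eq_add_of_le (show 1 ≤ q by omega)
  have e : u * v = p * w := by
    subst hu hv hw
    simp only [Nat.add_sub_cancel_left] at h
    nlinarith
  have hv' : r - 1 = v := by omega
  rw [hv'] at hd
  have h1 : q ∣ p * w := by rw [← e]; exact hd.mul_left u
  rcases (Nat.Prime.dvd_mul hq).mp h1 with h2 | h2
  · have := Nat.le_of_dvd hp.pos h2
    omega
  · have := Nat.le_of_dvd (by omega) h2
    omega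

private theorem arith3 {p q r : ℕ} (hp : p.Prime) (hq : q.Prime) (hpq : p < q)
    (h : p * q = (p - 1) * r + 1) (h1 : (p * r) % q = 1) (h2 : p ∣ q - 1) :
    p = 2 ∧ q = 3 ∧ r = 5 := by
  have hp2 := hp.two_le
  have hq2 := hq.two_le
  have hk := Nat.div_add_mod (p * r) q
  rw [h1] at hk
  set l := (p * r) / q with hl
  have e1 : p * r = q * l + 1 := hk.symm
  obtain ⟨u, hu⟩ := Nat.exists_eq_add_of_le (show 1 ≤ p by omega)
  have hu' : p - 1 = u := by omega
  rw [hu'] at h
  -- q divides 2p - 1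
  have e3 : q * (p * p) = q * (u * l) + (u + p) := by
    calc q * (p * p) = p * (p * q) := by ring
      _ = p * (u * r + 1) := by rw [h]
      _ = u * (p * r) + p := by ring
      _ = u * (q * l + 1) + p := by rw [e1]
      _ = q * (u * l) + (u + p) := by ring
  have hd : q ∣ u + p := by
    have h3 : q ∣ q * (u * l) + (u + p) := by rw [← e3]; exact dvd_mul_right _ _
    exact (Nat.dvd_add_right (dvd_mul_right _ _)).mp h3
  obtain ⟨c, hc⟩ := hd
  have hc1 : c = 1 := by
    have hc0 : c ≠ 0 := by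
      rintro rfl
      omega
    have hc2 : c < 2 := by
      by_contra hge
      have : q * 2 ≤ q * c := Nat.mul_le_mul_left _ (by omega)
      omega
    omega
  subst hc1
  rw [mul_one] at hc
  have h4 : p ∣ 2 * u := by
    have : q - 1 = 2 * u := by omega
    rwa [this] at h2
  have hp_eq : p = 2 := by
    rcases (Nat.Prime.dvd_mul hp).mp h4 with h5 | h5
    · exact (Nat.le_antisymm (Nat.le_of_dvd (by norm_num) h5) hp2)
    · have hu0 : u ≠ 0 := by omega
      have := Nat.le_of_dvd (Nat.pos_of_ne_zero hu0) h5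
      omega
  subst hp_eq
  have hu1 : u = 1 := by omega
  subst hu1
  refine ⟨rfl, by omega, by omega⟩

/-- Core case. -/
private theorem core {G : Type*} [Group G] [Finite G] [IsSimpleGroup G] (p q r : ℕ) (hp : p.Prime)
    (hq : q.Prime) (hr : r.Prime) (hpq0 : p ≠ q) (hpr0 : p ≠ r) (hqr : q < r)
    (hG : Nat.card G = p ^ 2 * q * r) : Nat.card G = 60 := by
  classical
  haveI hpF : Fact p.Prime := ⟨hp⟩
  haveI hqF : Fact q.Prime := ⟨hq⟩
  haveI hrF : Fact r.Prime := ⟨hr⟩
  have hp2 := hp.two_le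
  have hq2 := hq.two_le
  have hr2 := hr.two_le
  have hnotprime : ¬ (Nat.card G).Prime := by
    rw [hG, mul_assoc]
    apply Nat.not_prime_mul
    · have : 1 < p ^ 2 := Nat.one_lt_pow (by norm_num) hp.one_lt
      omega
    · have : 0 < r := hr.pos
      nlinarith
  have hGc : ¬ IsMulCommutative G := Cfsg.Agent.Lib.H1Small.not_comm_of_not_prime hnotprime
  -- the smallest prime is p
  have hmin : (Nat.card G).minFac = p := by
    have hne : Nat.card G ≠ 1 := by
      intro h
      rw [h] at hnotprime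
      rw [hG] at h
      have : p ∣ 1 := by rw [← h]; exact ⟨p * q * r, by ring⟩
      exact hp.one_lt.ne' (Nat.dvd_one.mp this)
    have h2 := Nat.minFac_prime hne
    have hd : (Nat.card G).minFac ∣ p ^ 2 * q * r := by rw [← hG]; exact Nat.minFac_dvd _
    rcases (Nat.Prime.dvd_mul h2).mp hd with h3 | h3
    · rcases (Nat.Prime.dvd_mul h2).mp h3 with h4 | h4
      · exact (Nat.prime_dvd_prime_iff_eq h2 hp).mp (h2.dvd_of_dvd_pow h4)
      · have h5 := (Nat.prime_dvd_prime_iff_eq h2 hq).mp h4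
        exfalso
        haveI : Fact (Nat.card G).minFac.Prime := ⟨h2⟩
        obtain ⟨Q⟩ : Nonempty (Sylow q G) := inferInstance
        have hpq' : ¬ q ∣ p ^ 2 * r := by
          intro h
          rcases (Nat.Prime.dvd_mul hq).mp h with h6 | h6
          · exact hpq0 ((Nat.prime_dvd_prime_iff_eq hq hp).mp (hq.dvd_of_dvd_pow h6)).symm
          · have := (Nat.prime_dvd_prime_iff_eq hq hr).mp h6
            omega
        obtain ⟨h7, -, -, -⟩ := Cfsg.Agent.Lib.H1Small.sylow_data (p := q) 1 (p ^ 2 * r)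
          (by rw [hG]; ring) hpq' Q
        rw [pow_one] at h7
        exact Cfsg.Agent.Lib.H1Small.not_isCyclic_sylow_minFac hGc h5 Q (isCyclic_of_prime_card h7)
    · have h5 := (Nat.prime_dvd_prime_iff_eq h2 hr).mp h3
      exfalso
      obtain ⟨R⟩ : Nonempty (Sylow r G) := inferInstance
      have hrq' : ¬ r ∣ p ^ 2 * q := by
        intro h
        rcases (Nat.Prime.dvd_mul hr).mp h with h6 | h6
        · exact hpr0 ((Nat.prime_dvd_prime_iff_eq hr hp).mp (hr.dvd_of_dvd_pow h6)).symm
        · have := Nat.le_of_dvd hq.pos h6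
          omega
      obtain ⟨h7, -, -, -⟩ := Cfsg.Agent.Lib.H1Small.sylow_data (p := r) 1 (p ^ 2 * q)
        (by rw [hG]; ring) hrq' R
      rw [pow_one] at h7
      exact Cfsg.Agent.Lib.H1Small.not_isCyclic_sylow_minFac hGc h5 R (isCyclic_of_prime_card h7)
  have hpminq : p ≤ q := by
    rw [← hmin]
    exact Nat.minFac_le_of_dvd hq2 (by rw [hG]; exact ⟨p ^ 2 * r, by ring⟩)
  have hpq : p < q := lt_of_le_of_ne hpminq hpq0
  -- Sylow r
  obtain ⟨R⟩ : Nonempty (Sylow r G) := inferInstance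
  have hrq' : ¬ r ∣ p ^ 2 * q := by
    intro h
    rcases (Nat.Prime.dvd_mul hr).mp h with h6 | h6
    · exact hpr0 ((Nat.prime_dvd_prime_iff_eq hr hp).mp (hr.dvd_of_dvd_pow h6)).symm
    · have := Nat.le_of_dvd hq.pos h6
      omega
  have hGr : Nat.card G = r ^ 1 * (p ^ 2 * q) := by rw [hG]; ring
  obtain ⟨hR1, hR2, hR3, hR4⟩ := Cfsg.Agent.Lib.H1Small.sylow_data (p := r) 1 (p ^ 2 * q) hGr hrq' R
  rw [pow_one] at hR1
  have hm1r : p ^ 2 * q ≠ 1 := by
    intro h
    exact hq.one_lt.ne' (Nat.eq_one_of_mul_eq_one_left h)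
  have hRne := Cfsg.Agent.Lib.H1Small.sylow_card_ne_one R (by rw [hR1]; omega)
    (by rw [hR1, hGr]; intro h; apply hm1r; nlinarith)
  have hnr : Nat.card (Sylow r G) = p * q := by
    rcases dvd_cases hp hq hR2 with h | h | h | h | h | h
    · exact absurd h hRne
    · exfalso
      rw [h, Nat.mod_eq_of_lt (by omega)] at hR3
      omega
    · exfalso
      rw [h] at hR3
      -- r divides p² - 1
      have h3 : r ∣ p ^ 2 - 1 := (Nat.modEq_iff_dvd' (by nlinarith)).mp (by
        unfold Nat.ModEq; rw [hR3, Nat.mod_eq_of_lt hr.one_lt])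
      have h4 : p ^ 2 - 1 = (p + 1) * (p - 1) := by
        obtain ⟨u, rfl⟩ := Nat.exists_eq_add_of_le (show 1 ≤ p by omega)
        simp only [Nat.add_sub_cancel_left]
        rw [Nat.sub_eq_iff_eq_add (by nlinarith)]
        ring
      rw [h4] at h3
      rcases (Nat.Prime.dvd_mul hr).mp h3 with h5 | h5
      · have := Nat.le_of_dvd (by omega) h5
        omega
      · have := Nat.le_of_dvd (by omega) h5
        omega
    · exfalso
      rw [h, Nat.mod_eq_of_lt hqr] at hR3
      omega
    · exact h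
    · exfalso
      exact Cfsg.Agent.Lib.H1Small.false_of_prime_sylow (p := r) (p ^ 2 * q) 1 (by rw [hGr, pow_one])
        hrq' hm1r (by rw [h, mul_one]) (Nat.coprime_one_left _)
  have hpr1 : p ∣ r - 1 := by
    by_contra hnd
    have hcop : Nat.Coprime p (r - 1) := (Nat.Prime.coprime_iff_not_dvd hp).mpr hnd
    exact Cfsg.Agent.Lib.H1Small.false_of_prime_sylow (p := r) (p ^ 2 * q) p (by rw [hGr, pow_one])
      hrq' hm1r (by rw [hnr]; ring) hcop
  have hR3' : (p * q) % r = 1 := by rw [← hnr]; exact hR3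
  have hA := arith1 hp hpq hqr hR3' hpr1
  -- Sylow q
  obtain ⟨Q⟩ : Nonempty (Sylow q G) := inferInstance
  have hqr' : ¬ q ∣ p ^ 2 * r := by
    intro h
    rcases (Nat.Prime.dvd_mul hq).mp h with h6 | h6
    · exact hpq0 ((Nat.prime_dvd_prime_iff_eq hq hp).mp (hq.dvd_of_dvd_pow h6)).symm
    · have := (Nat.prime_dvd_prime_iff_eq hq hr).mp h6
      omega
  have hGq : Nat.card G = q ^ 1 * (p ^ 2 * r) := by rw [hG]; ring
  obtain ⟨hQ1, hQ2, hQ3, hQ4⟩ := Cfsg.Agent.Lib.H1Small.sylow_data (p := q) 1 (p ^ 2 * r) hGq hqr' Q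
  rw [pow_one] at hQ1
  have hm1q : p ^ 2 * r ≠ 1 := by
    intro h
    exact hr.one_lt.ne' (Nat.eq_one_of_mul_eq_one_left h)
  have hQne := Cfsg.Agent.Lib.H1Small.sylow_card_ne_one Q (by rw [hQ1]; omega)
    (by rw [hQ1, hGq]; intro h; apply hm1q; nlinarith)
  have hfin : p = 2 ∧ q = 3 ∧ r = 5 := by
    rcases dvd_cases hp hr hQ2 with h | h | h | h | h | h
    · exact absurd h hQne
    · exfalso
      rw [h, Nat.mod_eq_of_lt hpq] at hQ3
      omega
    · exfalso
      have hcop : Nat.Coprime r (q - 1) := by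
        apply (Nat.Prime.coprime_iff_not_dvd hr).mpr
        intro hd
        have := Nat.le_of_dvd (by omega) hd
        omega
      exact Cfsg.Agent.Lib.H1Small.false_of_prime_sylow (p := q) (p ^ 2 * r) r (by rw [hGq, pow_one])
        hqr' hm1q (by rw [h]) hcop
    · exfalso
      rw [h] at hQ3
      have hd : q ∣ r - 1 := (Nat.modEq_iff_dvd' (by omega)).mp (by
        unfold Nat.ModEq; rw [hQ3, Nat.mod_eq_of_lt hq.one_lt])
      exact arith2 hp hq hpq hA hd hqr
    · rw [h] at hQ3
      have hpq1 : p ∣ q - 1 := by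
        by_contra hnd
        have hcop : Nat.Coprime p (q - 1) := (Nat.Prime.coprime_iff_not_dvd hp).mpr hnd
        exact Cfsg.Agent.Lib.H1Small.false_of_prime_sylow (p := q) (p ^ 2 * r) p (by rw [hGq, pow_one])
          hqr' hm1q (by rw [h]; ring) hcop
      exact arith3 hp hq hpq hA hQ3 hpq1
    · exfalso
      exact Cfsg.Agent.Lib.H1Small.false_of_prime_sylow (p := q) (p ^ 2 * r) 1 (by rw [hGq, pow_one])
        hqr' hm1q (by rw [h, mul_one]) (Nat.coprime_one_left _)
  obtain ⟨rfl, rfl, rfl⟩ := hfin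
  rw [hG]
  norm_num

/-- If a finite simple group has order p^2 * q * r with p, q and r prime, then its order is 60. -/
theorem result {G : Type*} [Group G] [Finite G] [IsSimpleGroup G] (p q r : ℕ) (hp : p.Prime) (hq : q.Prime) (hr : r.Prime) (hG : Nat.card G = p ^ 2 * q * r) : Nat.card G = 60 := by

  classical
  -- solvable groups of non-prime order are not simple
  have hnos : ∀ (a b c d : ℕ), a.Prime → b.Prime → Nat.card G = a ^ c * b ^ d → ¬ (Nat.card G).Prime → False := by
    intro a b c d ha hb hcard hnp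
    have hsolv : IsSolvable G := Cfsg.Agent.S0144.result a b c d ha hb hcard
    apply hnp
    have hcomm : IsMulCommutative G := ⟨⟨IsSimpleGroup.comm_iff_isSolvable.mpr hsolv⟩⟩
    letI : CommGroup G := { (inferInstance : Group G) with mul_comm := hcomm.is_comm.comm }
    exact IsSimpleGroup.prime_card
  have hnotprime : ¬ (Nat.card G).Prime := by
    rw [hG, mul_assoc]
    apply Nat.not_prime_mul
    · have : 1 < p ^ 2 := Nat.one_lt_pow (by norm_num) hp.one_lt
      omega
    · have : 0 < r := hr.pos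
      have : 0 < q := hq.pos
      have h1 := hq.two_le
      nlinarith
  by_cases hqr : q = r
  · subst hqr
    exact (hnos p q 2 2 hp hq (by rw [hG]; ring) hnotprime).elim
  by_cases hpq : p = q
  · subst hpq
    exact (hnos p r 3 1 hp hr (by rw [hG]; ring) hnotprime).elim
  by_cases hpr : p = r
  · subst hpr
    exact (hnos p q 3 1 hp hq (by rw [hG]; ring) hnotprime).elim
  rcases Nat.lt_or_ge q r with h | h
  · exact core p q r hp hq hr hpq hpr h hG
  · exact core p r q hp hr hq hpr hpq (by omega) (by rw [hG]; ring)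

end Cfsg.Agent.S0988
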