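import Cfsg.Statements.S0989
import Cfsg.Agent.Lib.H1Small4

set_option autoImplicit false
open Cfsg

namespace Cfsg.Agent.S0989

/-- In the symmetric group on p or p + 1 letters, p a prime, the normalizer of a Sylow p-subgroup has order p * (p - 1). -/
theorem result {α : Type*} [Fintype α] [DecidableEq α] (p : ℕ) [Fact p.Prime] (hα : Fintype.card α = p ∨ Fintype.card α = p + 1) (P : Sylow p (Equiv.Perm α)) : Nat.card ↥(Subgroup.normalizer ((P : Subgroup (Equiv.Perm α)) : Set (Equiv.Perm α))) = p * (p - 1) := by
  classical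
  have hpp : p.Prime := Fact.out
  have hn : Fintype.card α ≤ p + 1 := by omega
  have hpn : p ≤ Fintype.card α := by omega
  -- order of P
  have hP1 : Nat.card (P : Subgroup (Equiv.Perm α)) = p := by
    have hc : Nat.card (Equiv.Perm α) = (Fintype.card α).factorial := by
      rw [Nat.card_perm, Nat.card_eq_fintype_card]
    have hnd : ¬ p ∣ (p - 1).factorial := by
      rw [hpp.dvd_factorial]
      have := hpp.pos
      omega
    rcases hα with h | h
    · rw [h] at hc
      have h1 : p.factorial = p * (p - 1).factorial := (Nat.mul_factorial_pred hpp.ne_zero).symm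
      obtain ⟨h2, -, -, -⟩ := Cfsg.Agent.Lib.H1Small.sylow_data (p := p) 1 ((p - 1).factorial)
        (by rw [hc, h1, pow_one]) hnd P
      rwa [pow_one] at h2
    · rw [h] at hc
      have h1 : (p + 1).factorial = p * ((p + 1) * (p - 1).factorial) := by
        rw [Nat.factorial_succ, ← Nat.mul_factorial_pred hpp.ne_zero]
        ring
      have hnd2 : ¬ p ∣ (p + 1) * (p - 1).factorial := by
        intro hd
        rcases (Nat.Prime.dvd_mul hpp).mp hd with h3 | h3
        · have h4 : p ∣ 1 := (Nat.dvd_add_right (dvd_refl p)).mp h3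
          exact hpp.one_lt.ne' (Nat.dvd_one.mp h4)
        · exact hnd h3
      obtain ⟨h2, -, -, -⟩ := Cfsg.Agent.Lib.H1Small.sylow_data (p := p) 1 ((p + 1) * (p - 1).factorial)
        (by rw [hc, h1, pow_one]) hnd2 P
      rwa [pow_one] at h2
  -- cycle type of elements of order p
  have hct : ∀ σ : Equiv.Perm α, orderOf σ = p → σ.cycleType = {p} := by
    intro σ hσ
    have hσ1 : σ ≠ 1 := by
      intro h
      rw [h, orderOf_one] at hσ
      exact hpp.one_lt.ne hσ
    have hne : σ.cycleType ≠ 0 := by
      rwa [Ne, Equiv.Perm.cycleType_eq_zero]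
    obtain ⟨k, hk⟩ := Multiset.exists_mem_of_ne_zero hne
    have hk2 := Equiv.Perm.two_le_of_mem_cycleType hk
    have hkd := Equiv.Perm.dvd_of_mem_cycleType hk
    rw [hσ] at hkd
    have hkp : k = p := by
      rcases (Nat.dvd_prime hpp).mp hkd with h | h
      · omega
      · exact h
    subst hkp
    exact Equiv.Perm.cycleType_of_card_le_mem_cycleType_add_two (by omega) hk
  -- an element of order p in P
  obtain ⟨c, hcP, hc⟩ : ∃ c : Equiv.Perm α, c ∈ (P : Subgroup (Equiv.Perm α)) ∧ orderOf c = p := by
    obtain ⟨y, hy⟩ := exists_prime_orderOf_dvd_card' (G := (P : Subgroup (Equiv.Perm α))) p (by rw [hP1])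
    exact ⟨y, y.2, (Subgroup.orderOf_coe y).trans hy⟩
  have hc1 : c ≠ 1 := by
    intro h
    rw [h, orderOf_one] at hc
    exact hpp.one_lt.ne hc
  have hcount := Cfsg.Agent.Lib.H1Small.card_conj_into c (fun y => y ∈ (P : Subgroup (Equiv.Perm α)))
  -- centralizer
  have hcen : Nat.card (Subgroup.centralizer ({c} : Set (Equiv.Perm α))) = p := by
    rw [Equiv.Perm.nat_card_centralizer, hct c hc]
    have : (Fintype.card α - p).factorial = 1 := by
      have : Fintype.card α - p ≤ 1 := by omega
      interval_cases (Fintype.card α - p) <;> rfl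
    simp [this]
  -- first set
  have hl : Nat.card {g : Equiv.Perm α // g⁻¹ * c * g ∈ (P : Subgroup (Equiv.Perm α))} =
      Nat.card (Subgroup.normalizer ((P : Subgroup (Equiv.Perm α)) : Set (Equiv.Perm α))) := by
    apply Nat.card_congr
    apply Equiv.subtypeEquivRight
    intro g
    constructor
    · intro h
      have h1 : g⁻¹ * c * g ≠ 1 := by
        intro h2
        apply hc1
        have : c = g * (g⁻¹ * c * g) * g⁻¹ := by group
        rw [this, h2]; simp
      have h2 : g⁻¹ * c * g ∈ ((g⁻¹ • P : Sylow p _) : Subgroup (Equiv.Perm α)) := by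
        rw [Cfsg.Agent.Lib.H1Small.mem_smul_sylow, inv_inv]
        have : g * (g⁻¹ * c * g) * g⁻¹ = c := by group
        rw [this]; exact hcP
      have h3 := Cfsg.Agent.Lib.H1Small.eq_of_common_prime_card (p := p) _ _
        (by rw [Cfsg.Agent.Lib.H1Small.card_sylow_eq (g⁻¹ • P) P]; exact hP1) hP1 h2 h h1
      have h4 : g⁻¹ • P = P := Sylow.ext h3
      have h5 := (Cfsg.Agent.Lib.H1Small.smul_eq_iff_mem_nrm P g⁻¹).mp h4
      simpa using (Subgroup.inv_mem _ h5)
    · intro h
      have h5 := (Subgroup.mem_normalizer_iff.mp (Subgroup.inv_mem _ h) c).mp hcP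
      simpa using h5
  have hr : Nat.card {y : Equiv.Perm α // IsConj c y ∧ y ∈ (P : Subgroup (Equiv.Perm α))} + 1 = p := by
    have h2 := Cfsg.Agent.Lib.H1Small.card_subtype_ne_add_one (1 : (P : Subgroup (Equiv.Perm α)))
    rw [hP1] at h2
    refine Eq.trans ?_ h2
    congr 1
    apply Nat.card_congr
    exact
      { toFun := fun y => ⟨⟨y.1, y.2.2⟩, by
          intro h
          apply hc1
          have h2 := y.2.1
          have h3 : y.1 = 1 := congrArg Subtype.val h
          rw [h3] at h2
          exact isConj_one_right.mp h2.symm⟩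
        invFun := fun y => ⟨y.1.1, Equiv.Perm.isConj_of_cycleType_eq (by
            rw [hct c hc, hct _ (Cfsg.Agent.Lib.H1Small.orderOf_eq_of_mem_prime_card _ hP1 y.1.2 (by
              intro h
              exact y.2 (Subtype.ext h)))]), y.1.2⟩
        left_inv := fun y => rfl
        right_inv := fun y => rfl }
  rw [← hl, hcount, hcen, mul_comm]
  congr 1
  omega

end Cfsg.Agent.S0989
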