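import Cfsg.Statements.S0990
import Cfsg.Agent.Lib.H1Small4

set_option autoImplicit false
open Cfsg

namespace Cfsg.Agent.S0990

/-- Let p be an odd prime and P a Sylow p-subgroup of the symmetric group on a finite set with at least two elements. Then P is contained in the alternating group, and twice the order of the normalizer of P inside the alternating group equals the order of the normalizer of P in the symmetric group. -/
theorem result {α : Type*} [Fintype α] [DecidableEq α] (hα : 2 ≤ Fintype.card α) (p : ℕ) [Fact p.Prime] (hp : p ≠ 2) (P : Sylow p (Equiv.Perm α)) : (P : Subgroup (Equiv.Perm α)) ≤ alternatingGroup α ∧ 2 * Nat.card ↥(Subgroup.normalizer ((((P : Subgroup (Equiv.Perm α)).subgroupOf (alternatingGroup α) : Subgroup ↥(alternatingGroup α)) : Set ↥(alternatingGroup α)))) = Nat.card ↥(Subgroup.normalizer ((P : Subgroup (Equiv.Perm α)) : Set (Equiv.Perm α))) := by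
  classical
  have hpp : p.Prime := Fact.out
  set A := alternatingGroup α with hA
  set Pp : Subgroup (Equiv.Perm α) := (P : Subgroup (Equiv.Perm α)) with hPp
  have hodd : Odd p := hpp.odd_of_ne_two hp
  have hPA : Pp ≤ A := by
    intro x hx
    rw [hA, Equiv.Perm.mem_alternatingGroup]
    obtain ⟨k, hk⟩ := P.isPGroup' ⟨x, hx⟩
    have h1 : x ^ p ^ k = 1 := by simpa using congrArg Subtype.val hk
    have h2 : (Equiv.Perm.sign x) ^ p ^ k = 1 := by rw [← map_pow, h1, map_one]
    rcases Int.units_eq_one_or (Equiv.Perm.sign x) with h3 | h3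
    · exact h3
    · rw [h3, (hodd.pow).neg_one_pow] at h2
      exact absurd h2 (by decide)
  refine ⟨hPA, ?_⟩
  -- Frattini
  haveI hAn : A.Normal := by rw [hA]; infer_instance
  have hfr : Subgroup.normalizer (Pp : Set (Equiv.Perm α)) ⊔ A = ⊤ :=
    Sylow.normalizer_sup_eq_top' P hPA
  -- a swap is odd
  have hAne : A ≠ ⊤ := by
    intro h
    obtain ⟨a, b, hab⟩ : ∃ a b : α, a ≠ b := by
      haveI : Nontrivial α := Fintype.one_lt_card_iff_nontrivial.mp (by omega)
      exact exists_pair_ne α
    have h1 : Equiv.swap a b ∈ A := by rw [h]; trivial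
    rw [hA, Equiv.Perm.mem_alternatingGroup, Equiv.Perm.sign_swap hab] at h1
    exact absurd h1 (by decide)
  -- N not inside A
  have hNA : ¬ Subgroup.normalizer (Pp : Set (Equiv.Perm α)) ≤ A := by
    intro h
    rw [sup_eq_right.mpr h] at hfr
    exact hAne hfr
  obtain ⟨o, hoN, hoA⟩ := SetLike.not_le_iff_exists.mp hNA
  set N := Subgroup.normalizer (Pp : Set (Equiv.Perm α)) with hN
  -- the sign on N
  let s : N →* ℤˣ := Equiv.Perm.sign.comp N.subtype
  have hs : Function.Surjective s := by
    intro u
    rcases Int.units_eq_one_or u with h | h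
    · exact ⟨1, by rw [h, map_one]⟩
    · refine ⟨⟨o, hoN⟩, ?_⟩
      rw [h]
      show Equiv.Perm.sign o = -1
      rcases Int.units_eq_one_or (Equiv.Perm.sign o) with h3 | h3
      · exact absurd (Equiv.Perm.mem_alternatingGroup.mpr h3) hoA
      · exact h3
  have hker : Nat.card N = 2 * Nat.card s.ker := by
    have h1 := s.ker.index_mul_card
    rw [Subgroup.index_ker, MonoidHom.range_eq_top.mpr hs, Subgroup.card_top] at h1
    have h2 : Nat.card ℤˣ = 2 := by simp
    rw [h2] at h1
    exact h1.symm
  rw [hker]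
  congr 1
  apply Nat.card_congr
  refine
    { toFun := fun x => ⟨⟨x.1.1, ?_⟩, ?_⟩
      invFun := fun x => ⟨⟨x.1.1, ?_⟩, ?_⟩
      left_inv := fun x => rfl
      right_inv := fun x => rfl }
  · rw [hN, Subgroup.mem_normalizer_iff]
    intro g
    have hx := Subgroup.mem_normalizer_iff.mp x.2
    by_cases hg : g ∈ A
    · have := hx ⟨g, hg⟩
      simpa [Subgroup.mem_subgroupOf] using this
    · constructor
      · intro h; exact absurd (hPA h) hg
      · intro h
        exfalso
        apply hg
        have h1 : (x.1 : Equiv.Perm α) * g * (x.1 : Equiv.Perm α)⁻¹ ∈ A := hPA h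
        have h2 : g = (x.1 : Equiv.Perm α)⁻¹ * ((x.1 : Equiv.Perm α) * g * (x.1 : Equiv.Perm α)⁻¹) * (x.1 : Equiv.Perm α) := by group
        rw [h2]
        exact A.mul_mem (A.mul_mem (A.inv_mem x.1.2) h1) x.1.2
  · rw [MonoidHom.mem_ker]
    show Equiv.Perm.sign (x.1 : Equiv.Perm α) = 1
    exact Equiv.Perm.mem_alternatingGroup.mp x.1.2
  · rw [hA, Equiv.Perm.mem_alternatingGroup]
    exact MonoidHom.mem_ker.mp x.2
  · rw [Subgroup.mem_normalizer_iff]
    intro g
    have hx := Subgroup.mem_normalizer_iff.mp x.1.2 (g : Equiv.Perm α)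
    simpa [Subgroup.mem_subgroupOf] using hx

end Cfsg.Agent.S0990
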