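import Cfsg.Statements.S0992
import Cfsg.Agent.Lib.H1Small2

set_option autoImplicit false
open Cfsg

namespace Cfsg.Agent.S0992

/-- Let G be a non-abelian finite simple group of even order not divisible by 8, and T a Sylow 2-subgroup. Then T is a Klein four-group and the centralizer of T has index 3 in the normalizer of T. -/
theorem result {G : Type*} [Group G] [Finite G] [IsSimpleGroup G] (hG : ¬ IsMulCommutative G) (h2 : Even (Nat.card G)) (h8 : ¬ 8 ∣ Nat.card G) (T : Sylow 2 G) : IsKleinFour ↥(T : Subgroup G) ∧ (Subgroup.centralizer ((T : Subgroup G) : Set G)).relIndex (Subgroup.normalizer ((T : Subgroup G) : Set G)) = 3 := by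
  classical
  have htwo : (Nat.card G).minFac = 2 := by
    exact (Nat.minFac_eq_two_iff _).mpr h2.two_dvd
  have hT2 : IsPGroup 2 (T : Subgroup G) := T.isPGroup'
  obtain ⟨k, hk⟩ := (IsPGroup.iff_card).mp hT2
  have hdvd : Nat.card (T : Subgroup G) ∣ Nat.card G := Subgroup.card_subgroup_dvd_card _
  have hne1 := Cfsg.Agent.Lib.H1Small.card_sylow_ne_one T h2.two_dvd
  have hneG := Cfsg.Agent.Lib.H1Small.card_sylow_ne_card hG T
  have hnc := Cfsg.Agent.Lib.H1Small.not_isCyclic_sylow_minFac hG htwo T
  have hk2 : k = 2 := by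
    have h3 : k < 3 := by
      by_contra hge
      apply h8
      have : (8 : ℕ) ∣ 2 ^ k := by
        have : (2 : ℕ) ^ 3 ∣ 2 ^ k := pow_dvd_pow 2 (by omega)
        simpa using this
      rw [hk] at hdvd
      exact this.trans hdvd
    interval_cases k
    · simp [hk] at hne1
    · exfalso
      apply hnc
      haveI : Fact (Nat.Prime 2) := ⟨by norm_num⟩
      exact isCyclic_of_prime_card (p := 2) (by simpa using hk)
    · rfl
  subst hk2
  have hcard4 : Nat.card (T : Subgroup G) = 4 := by simpa using hk
  have hsq : ∀ x : (T : Subgroup G), x ^ 2 = 1 := by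
    intro x
    have hx : orderOf x ∣ 2 ^ 2 := by
      rw [← hk]; exact orderOf_dvd_natCard x
    obtain ⟨j, hj, hj2⟩ := (Nat.dvd_prime_pow Nat.prime_two).mp hx
    interval_cases j
    · rw [pow_zero] at hj2
      rw [← orderOf_dvd_iff_pow_eq_one, hj2]
      exact one_dvd _
    · rw [pow_one] at hj2
      rw [← orderOf_dvd_iff_pow_eq_one, hj2]
    · exfalso
      apply hnc
      exact isCyclic_of_orderOf_eq_card x (by rw [hj2, hk])
  have hexp : Monoid.exponent (T : Subgroup G) = 2 := by
    have h4 : Monoid.exponent (T : Subgroup G) ∣ 2 := Monoid.exponent_dvd_of_forall_pow_eq_one hsq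
    have h5 := (Nat.dvd_prime Nat.prime_two).mp h4
    rcases h5 with h5 | h5
    · exfalso
      have := Monoid.exp_eq_one_iff.mp h5
      have h6 : Nat.card (T : Subgroup G) = 1 := Nat.card_of_subsingleton (1 : (T : Subgroup G))
      omega
    · exact h5
  haveI hK : IsKleinFour (T : Subgroup G) := ⟨hcard4, hexp⟩
  refine ⟨hK, ?_⟩
  have hcomm := hK.isMulCommutative
  have hTC : (T : Subgroup G) ≤ Subgroup.centralizer ((T : Subgroup G) : Set G) := by
    intro a ha
    rw [Subgroup.mem_centralizer_iff]
    intro b hb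
    have := hcomm.is_comm.comm (⟨b, hb⟩ : (T : Subgroup G)) ⟨a, ha⟩
    exact congrArg Subtype.val this
  have h5 := Cfsg.Agent.Lib.H1Small.relIndex_centralizer_dvd_card_mulAut (T : Subgroup G)
  have h6 := Cfsg.Agent.Lib.H1Small.card_mulAut_dvd (A := (T : Subgroup G))
  have h7 : Nat.card {x : (T : Subgroup G) // x ≠ 1} = 3 := by
    have := Cfsg.Agent.Lib.H1Small.card_subtype_ne_add_one (1 : (T : Subgroup G))
    omega
  rw [h7] at h6
  have h8' : (Subgroup.centralizer ((T : Subgroup G) : Set G)).relIndex (Subgroup.normalizer ((T : Subgroup G) : Set G)) ∣ 6 :=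
    h5.trans h6
  have h9 : ¬ 2 ∣ (Subgroup.centralizer ((T : Subgroup G) : Set G)).relIndex (Subgroup.normalizer ((T : Subgroup G) : Set G)) := by
    intro hh
    have h10 : (Subgroup.centralizer ((T : Subgroup G) : Set G)).relIndex (Subgroup.normalizer ((T : Subgroup G) : Set G))
        ∣ (T : Subgroup G).relIndex (Subgroup.normalizer ((T : Subgroup G) : Set G)) :=
      Subgroup.relIndex_dvd_of_le_left _ hTC
    have h11 : (T : Subgroup G).relIndex (Subgroup.normalizer ((T : Subgroup G) : Set G)) ∣ (T : Subgroup G).index :=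
      Subgroup.relIndex_dvd_index_of_le Subgroup.le_normalizer
    exact T.not_dvd_index (hh.trans (h10.trans h11))
  have hne : (Subgroup.centralizer ((T : Subgroup G) : Set G)).relIndex (Subgroup.normalizer ((T : Subgroup G) : Set G)) ≠ 1 := by
    intro h
    exact Cfsg.Agent.Lib.H1Small.not_normalizer_le_centralizer T hne1 hneG (Subgroup.relIndex_eq_one.mp h)
  generalize (Subgroup.centralizer ((T : Subgroup G) : Set G)).relIndex (Subgroup.normalizer ((T : Subgroup G) : Set G)) = r at *
  have : r ∈ Nat.divisors 6 := Nat.mem_divisors.mpr ⟨h8', by norm_num⟩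
  have hd6 : Nat.divisors 6 = {1, 2, 3, 6} := by decide +kernel
  rw [hd6] at this
  simp only [Finset.mem_insert, Finset.mem_singleton] at this
  omega

end Cfsg.Agent.S0992
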