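import Cfsg.Statements.S0995
import Cfsg.Agent.Lib.H1Small4

set_option autoImplicit false
open Cfsg

namespace Cfsg.Agent.S0995

/-- Let G be a finite perfect group containing an element z of prime order p whose centralizer is the cyclic group it generates. Let t be the number of conjugacy classes of elements of order p. Then t divides p - 1, the number of Sylow p-subgroups has the form 1 + n * p, and |G| * t = (p - 1) * p * (1 + n * p). -/
theorem result {G : Type*} [Group G] [Finite G] (hperf : commutator G = ⊤) (p : ℕ) [Fact p.Prime] (z : G) (hz : orderOf z = p) (hC : Subgroup.centralizer ({z} : Set G) = Subgroup.zpowers z) : ∃ n t : ℕ, t = Nat.card {c : ConjClasses G // ∃ g : G, ConjClasses.mk g = c ∧ orderOf g = p} ∧ t ∣ p - 1 ∧ Nat.card (Sylow p G) = 1 + n * p ∧ Nat.card G * t = (p - 1) * p * (1 + n * p) := by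
  classical
  have hpp : p.Prime := Fact.out
  have hz1 : z ≠ 1 := by
    intro h
    rw [h, orderOf_one] at hz
    exact hpp.one_lt.ne hz
  -- Sylow subgroups have order p
  have hzp : IsPGroup p (Subgroup.zpowers z) := Cfsg.Agent.Lib.H1Small.isPGroup_zpowers_of_orderOf hz
  obtain ⟨Q, hQ⟩ := hzp.exists_le_sylow
  have hzQ : z ∈ (Q : Subgroup G) := hQ (Subgroup.mem_zpowers z)
  have hQcard : Nat.card (Q : Subgroup G) = p := by
    -- z is central in Q
    haveI : Nontrivial (Q : Subgroup G) :=
      ⟨⟨⟨z, hzQ⟩, 1, fun h => hz1 (congrArg Subtype.val h)⟩⟩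
    have hcen : Nontrivial (Subgroup.center (Q : Subgroup G)) := Q.isPGroup'.center_nontrivial
    obtain ⟨⟨w, hw⟩, hw1⟩ := exists_ne (1 : Subgroup.center (Q : Subgroup G))
    have hw1' : (w : G) ≠ 1 := by
      intro h
      apply hw1
      apply Subtype.ext
      exact Subtype.ext h
    have hwcz : (w : G) ∈ Subgroup.centralizer ({z} : Set G) := by
      rw [Subgroup.mem_centralizer_iff]
      intro a ha
      rw [Set.mem_singleton_iff] at ha
      subst ha
      have := (Subgroup.mem_center_iff.mp hw) ⟨a, hzQ⟩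
      exact (congrArg Subtype.val this)
    rw [hC] at hwcz
    have hzc : Nat.card (Subgroup.zpowers z) = p := by rw [Nat.card_zpowers, hz]
    have h1 := Cfsg.Agent.Lib.H1Small.zpowers_eq_of_mem_prime_card _ hzc hwcz hw1'
    have hzw : z ∈ Subgroup.zpowers (w : G) := by rw [h1]; exact Subgroup.mem_zpowers z
    -- every element of Q commutes with z
    have hQC : (Q : Subgroup G) ≤ Subgroup.zpowers z := by
      intro a ha
      rw [← hC, Subgroup.mem_centralizer_iff]
      intro b hb
      rw [Set.mem_singleton_iff] at hb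
      subst hb
      obtain ⟨k, hk⟩ := Subgroup.mem_zpowers_iff.mp hzw
      have h3 : (w : G) * a = a * (w : G) := by
        have := (Subgroup.mem_center_iff.mp hw) ⟨a, ha⟩
        exact (congrArg Subtype.val this).symm
      have h4 : Commute (w : G) a := h3
      rw [← hk]
      exact (h4.zpow_left k).eq
    have heq : (Q : Subgroup G) = Subgroup.zpowers z := le_antisymm hQC hQ
    rw [heq, hzc]
  have hcard : ∀ R : Sylow p G, Nat.card (R : Subgroup G) = p := fun R => by
    rw [Cfsg.Agent.Lib.H1Small.card_sylow_eq R Q, hQcard]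
  have hGpos : 0 < Nat.card G := Nat.card_pos
  -- elements of order p
  have hex : ∀ y : {y : G // orderOf y = p}, ∃ R : Sylow p G, y.1 ∈ (R : Subgroup G) := fun y => by
    obtain ⟨R, hR⟩ := (Cfsg.Agent.Lib.H1Small.isPGroup_zpowers_of_orderOf y.2).exists_le_sylow
    exact ⟨R, hR (Subgroup.mem_zpowers _)⟩
  let F : {y : G // orderOf y = p} → Sylow p G := fun y => (hex y).choose
  have hF : ∀ y, y.1 ∈ (F y : Subgroup G) := fun y => (hex y).choose_spec
  have hne1 : ∀ y : G, orderOf y = p → y ≠ 1 := by
    intro y hy h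
    rw [h, orderOf_one] at hy
    exact hpp.one_lt.ne hy
  have huniq : ∀ (y : G) (R R' : Sylow p G), y ≠ 1 → y ∈ (R : Subgroup G) → y ∈ (R' : Subgroup G) → R = R' :=
    fun y R R' hy h1 h2 => Sylow.ext
      (Cfsg.Agent.Lib.H1Small.eq_of_common_prime_card _ _ (hcard R) (hcard R') h1 h2 hy)
  have hXcard : Nat.card {y : G // orderOf y = p} = Nat.card (Sylow p G) * (p - 1) := by
    refine Cfsg.Agent.Lib.H1Small.card_eq_of_fibers F _ ?_
    intro R
    have h2 := Cfsg.Agent.Lib.H1Small.card_subtype_ne_add_one (1 : (R : Subgroup G))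
    rw [hcard R] at h2
    have h3 : Nat.card {y : {y : G // orderOf y = p} // F y = R} = Nat.card {u : (R : Subgroup G) // u ≠ 1} := by
      apply Nat.card_congr
      exact
        { toFun := fun y => ⟨⟨y.1.1, by have := hF y.1; rw [y.2] at this; exact this⟩, fun h => hne1 _ y.1.2 (congrArg Subtype.val h)⟩
          invFun := fun u => ⟨⟨u.1.1, Cfsg.Agent.Lib.H1Small.orderOf_eq_of_mem_prime_card _ (hcard R) u.1.2
              (fun h => u.2 (Subtype.ext h))⟩,
            huniq _ _ _ (fun h => u.2 (Subtype.ext h)) (hF _) u.1.2⟩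
          left_inv := fun y => rfl
          right_inv := fun y => rfl }
    omega
  -- class sizes
  have hzc : Nat.card (Subgroup.zpowers z) = p := by rw [Nat.card_zpowers, hz]
  have hclass0 : ∀ g : G, g ∈ Subgroup.zpowers z → g ≠ 1 →
      Nat.card {h : G // IsConj g h} * p = Nat.card G := by
    intro g hg hg1
    have h1 := Cfsg.Agent.Lib.H1Small.card_conj_into g (fun _ => True)
    have h2 : Subgroup.centralizer ({g} : Set G) = Subgroup.zpowers z := by
      have hzg : Subgroup.zpowers g = Subgroup.zpowers z :=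
        Cfsg.Agent.Lib.H1Small.zpowers_eq_of_mem_prime_card _ hzc hg hg1
      obtain ⟨k, hk⟩ := Subgroup.mem_zpowers_iff.mp hg
      have hzk : z ∈ Subgroup.zpowers g := by rw [hzg]; exact Subgroup.mem_zpowers z
      obtain ⟨l, hl⟩ := Subgroup.mem_zpowers_iff.mp hzk
      apply le_antisymm
      · intro a ha
        rw [← hC, Subgroup.mem_centralizer_iff]
        intro b hb
        rw [Set.mem_singleton_iff] at hb
        subst hb
        have h3 : Commute a g := by
          have := (Subgroup.mem_centralizer_iff.mp ha) g rfl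
          exact this.symm
        rw [← hl]
        exact ((h3.zpow_right l).eq).symm
      · intro a ha
        rw [← hC, Subgroup.mem_centralizer_iff] at ha
        rw [Subgroup.mem_centralizer_iff]
        intro b hb
        rw [Set.mem_singleton_iff] at hb
        subst hb
        have h3 : Commute a z := by
          have := ha z rfl
          exact this.symm
        rw [← hk]
        exact ((h3.zpow_right k).eq).symm
    rw [h2, hzc] at h1
    have h4 : Nat.card {g : G // True} = Nat.card G := Nat.card_congr (Equiv.subtypeUnivEquiv (fun _ => trivial))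
    have h5 : Nat.card {y : G // IsConj g y ∧ True} = Nat.card {h : G // IsConj g h} :=
      Nat.card_congr (Equiv.subtypeEquivRight (by simp))
    rw [h4, h5] at h1
    exact h1.symm
  have hclass : ∀ g : G, orderOf g = p → Nat.card {h : G // IsConj g h} * p = Nat.card G := by
    intro g hg
    obtain ⟨R, hR⟩ := hex ⟨g, hg⟩
    obtain ⟨x, hx⟩ := MulAction.exists_smul_eq G Q R
    have heqQ : (Q : Subgroup G) = Subgroup.zpowers z :=
      (Subgroup.eq_of_le_of_card_ge hQ (by rw [hQcard, hzc])).symm
    have hg' : x⁻¹ * g * x ∈ Subgroup.zpowers z := by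
      rw [← heqQ, ← Cfsg.Agent.Lib.H1Small.mem_smul_sylow, hx]
      exact hR
    have hg1 : x⁻¹ * g * x ≠ 1 := by
      intro h
      apply hne1 g hg
      have : g = x * (x⁻¹ * g * x) * x⁻¹ := by group
      rw [this, h]; simp
    have h1 := hclass0 _ hg' hg1
    have hconj : IsConj g (x⁻¹ * g * x) := by
      rw [isConj_iff]
      exact ⟨x⁻¹, by group⟩
    have h2 : Nat.card {h : G // IsConj g h} = Nat.card {h : G // IsConj (x⁻¹ * g * x) h} :=
      Nat.card_congr (Equiv.subtypeEquivRight (fun h => ⟨fun h1 => hconj.symm.trans h1, fun h1 => hconj.trans h1⟩))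
    rw [h2]; exact h1
  have hpG : p ∣ Nat.card G := by
    rw [← hQcard]; exact Subgroup.card_subgroup_dvd_card _
  obtain ⟨c, hc⟩ := hpG
  -- counting classes
  have hT : Nat.card {y : G // orderOf y = p} =
      Nat.card {c : ConjClasses G // ∃ g : G, ConjClasses.mk g = c ∧ orderOf g = p} * c := by
    refine Cfsg.Agent.Lib.H1Small.card_eq_of_fibers (fun y : {y : G // orderOf y = p} =>
      (⟨ConjClasses.mk y.1, y.1, rfl, y.2⟩ : {c : ConjClasses G // ∃ g : G, ConjClasses.mk g = c ∧ orderOf g = p})) _ ?_
    rintro ⟨d, g, rfl, hg⟩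
    have h1 := hclass g hg
    have h2 : Nat.card {y : {y : G // orderOf y = p} //
        (⟨ConjClasses.mk y.1, y.1, rfl, y.2⟩ : {c : ConjClasses G // ∃ g : G, ConjClasses.mk g = c ∧ orderOf g = p})
          = ⟨ConjClasses.mk g, g, rfl, hg⟩} = Nat.card {h : G // IsConj g h} := by
      apply Nat.card_congr
      refine
        { toFun := fun y => ⟨y.1.1, ?_⟩
          invFun := fun h => ⟨⟨h.1, ?_⟩, ?_⟩
          left_inv := fun y => rfl
          right_inv := fun y => rfl }
      · have := congrArg Subtype.val y.2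
        exact (ConjClasses.mk_eq_mk_iff_isConj.mp this).symm
      · obtain ⟨u, hu⟩ := isConj_iff.mp h.2
        rw [← hu, ← hg]
        exact orderOf_injective (MulAut.conj u).toMonoidHom (MulAut.conj u).injective g
      · apply Subtype.ext
        exact ConjClasses.mk_eq_mk_iff_isConj.mpr h.2.symm
    rw [h2]
    rw [hc, mul_comm] at h1
    exact Nat.eq_of_mul_eq_mul_left hpp.pos h1
  -- normalizer
  have hN : Nat.card (Sylow p G) = (Subgroup.normalizer ((Q : Subgroup G) : Set G)).index :=
    Q.card_eq_index_normalizer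
  have hN2 := (Subgroup.normalizer ((Q : Subgroup G) : Set G)).card_mul_index
  rw [← hN] at hN2
  have hQN : Nat.card (Q : Subgroup G) ∣ Nat.card (Subgroup.normalizer ((Q : Subgroup G) : Set G)) :=
    Subgroup.card_dvd_of_le Subgroup.le_normalizer
  rw [hQcard] at hQN
  obtain ⟨e, he⟩ := hQN
  have hmod : Nat.card (Sylow p G) % p = 1 := by
    have := card_sylow_modEq_one p G
    unfold Nat.ModEq at this
    rw [this, Nat.mod_eq_of_lt hpp.one_lt]
  have hn1 : Nat.card (Sylow p G) = 1 + (Nat.card (Sylow p G) / p) * p := by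
    have := Nat.div_add_mod (Nat.card (Sylow p G)) p
    rw [hmod] at this
    rw [mul_comm]
    omega
  have hnpos : 0 < Nat.card (Sylow p G) := Nat.card_pos
  set t := Nat.card {c : ConjClasses G // ∃ g : G, ConjClasses.mk g = c ∧ orderOf g = p} with ht
  have hkey : t * c = Nat.card (Sylow p G) * (p - 1) := by rw [← hT, hXcard]
  refine ⟨Nat.card (Sylow p G) / p, t, rfl, ?_, ?_, ?_⟩
  · refine ⟨e, ?_⟩
    -- t * e = p - 1
    rw [he, hc] at hN2
    have h5 : c = e * Nat.card (Sylow p G) := by
      have : p * c = p * (e * Nat.card (Sylow p G)) := by rw [← hN2]; ring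
      exact Nat.eq_of_mul_eq_mul_left hpp.pos this
    rw [h5] at hkey
    have h6 : (t * e) * Nat.card (Sylow p G) = (p - 1) * Nat.card (Sylow p G) := by
      rw [mul_assoc, hkey]; ring
    exact (Nat.eq_of_mul_eq_mul_right hnpos h6).symm
  · exact hn1
  · rw [← hn1, hc]
    calc p * c * t = p * (t * c) := by ring
      _ = (p - 1) * p * Nat.card (Sylow p G) := by rw [hkey]; ring

end Cfsg.Agent.S0995
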