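import Cfsg.Statements.S1002
import Cfsg.Agent.Lib.H1Brauer

set_option autoImplicit false
open Cfsg

namespace Cfsg.Agent.S1002

/-- No finite simple group has order 1004913 = 3^3 * 7 * 13 * 409. -/
theorem result {G : Type*} [Group G] [Finite G] [IsSimpleGroup G] : Nat.card G ≠ 1004913 := by
  intro h
  have h409 : Fact (Nat.Prime 409) := ⟨by norm_num⟩
  obtain ⟨P⟩ : Nonempty (Sylow 409 G) := inferInstance
  obtain ⟨h1, h2, h3, h4⟩ := Cfsg.Agent.Lib.H1Small.sylow_data (p := 409) 1 2457 (by rw [h]; norm_num) (by norm_num) P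
  have hne := Cfsg.Agent.Lib.H1Small.sylow_card_ne_one P (by rw [h1]; norm_num) (by rw [h1, h]; norm_num)
  have hcand : Nat.card (Sylow 409 G) ∈ (Nat.divisors 2457).filter (fun d => d % 409 = 1 ∧ 2 ≤ d) :=
    Finset.mem_filter.mpr ⟨Nat.mem_divisors.mpr ⟨h2, by norm_num⟩, h3, by
      have : 0 < Nat.card (Sylow 409 G) := Nat.card_pos
      omega⟩
  rw [show (Nat.divisors 2457).filter (fun d => d % 409 = 1 ∧ 2 ≤ d) = {819} by decide +kernel, Finset.mem_singleton] at hcand
  rw [hcand, h] at h4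
  rw [pow_one] at h1
  exact Cfsg.Agent.Lib.H1Brauer.no_simple_three P 2457 (by rw [h]) h1 (by omega) (by norm_num) (by norm_num) (by decide +kernel)

end Cfsg.Agent.S1002
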