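import Cfsg.Statements.S1006
import Cfsg.Agent.Lib.H1L168b

set_option autoImplicit false
open Cfsg

namespace Cfsg.Agent.S1006

/-- In a simple group of order 168 there are 56 elements of order 3, all conjugate; 42 elements of order 4, all conjugate; and 48 elements of order 7 falling into two conjugacy classes of size 24, an element of order 7 not being conjugate to its inverse. -/
theorem result {G : Type*} [Group G] [Finite G] [IsSimpleGroup G] (h : Nat.card G = 168) : Nat.card {g : G // orderOf g = 3} = 56 ∧ (∀ s t : G, orderOf s = 3 → orderOf t = 3 → IsConj s t) ∧ Nat.card {g : G // orderOf g = 4} = 42 ∧ (∀ s t : G, orderOf s = 4 → orderOf t = 4 → IsConj s t) ∧ Nat.card {g : G // orderOf g = 7} = 48 ∧ ∀ x : G, orderOf x = 7 → Nat.card {g : G // IsConj x g} = 24 ∧ ¬ IsConj x x⁻¹ := by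
  refine ⟨Cfsg.Agent.Lib.H1L168.card_order_three h, fun s t hs ht => Cfsg.Agent.Lib.H1L168.order_three_conj h hs ht,
    Cfsg.Agent.Lib.H1L168.card_order_four h, fun s t hs ht => Cfsg.Agent.Lib.H1L168.order_four_conj h hs ht,
    Cfsg.Agent.Lib.H1L168.card_order_seven h, fun x hx => Cfsg.Agent.Lib.H1L168.order_seven_class h hx⟩

end Cfsg.Agent.S1006
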