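import Cfsg.Statements.S1008
import Cfsg.Agent.Lib.H1L168e

set_option autoImplicit false
open Cfsg

namespace Cfsg.Agent.S1008

open Cfsg.Agent.Lib.H1L168 Cfsg.Agent.Lib.H1Small
/-- In a simple group of order 168 every maximal subgroup is either isomorphic to the symmetric group of degree 4 or non-abelian of order 21; the maximal subgroups of order 21 form one conjugacy class and those isomorphic to the symmetric group of degree 4 form exactly two conjugacy classes. -/
theorem result {G : Type*} [Group G] [Finite G] [IsSimpleGroup G] (h : Nat.card G = 168) : (∀ M : Subgroup G, IsCoatom M → Nonempty (↥M ≃* Equiv.Perm (Fin 4)) ∨ (Nat.card ↥M = 21 ∧ ¬ IsMulCommutative ↥M)) ∧ (∀ M M' : Subgroup G, IsCoatom M → IsCoatom M' → Nat.card ↥M = 21 → Nat.card ↥M' = 21 → ∃ g : G, M' = M.map (MulAut.conj g).toMonoidHom) ∧ ∃ M₁ M₂ : Subgroup G, IsCoatom M₁ ∧ IsCoatom M₂ ∧ Nonempty (↥M₁ ≃* Equiv.Perm (Fin 4)) ∧ Nonempty (↥M₂ ≃* Equiv.Perm (Fin 4)) ∧ (∀ g : G, M₂ ≠ M₁.map (MulAut.conj g).toMonoidHom)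 ∧ ∀ M : Subgroup G, IsCoatom M → Nonempty (↥M ≃* Equiv.Perm (Fin 4)) → ∃ g : G, M = M₁.map (MulAut.conj g).toMonoidHom ∨ M = M₂.map (MulAut.conj g).toMonoidHom := by

  have hC : ∀ M : Subgroup G, IsCoatom M → Nonempty (↥M ≃* Equiv.Perm (Fin 4)) ∨ (Nat.card ↥M = 21 ∧ ¬ IsMulCommutative ↥M) := by
    intro M hM
    by_cases h7 : 7 ∣ Nat.card M
    · obtain ⟨P, rfl⟩ := coatom_seven h M hM h7
      exact Or.inr ⟨(syl7 h P).2.2.1, normalizer_seven_noncomm h P⟩
    · obtain ⟨K, hK, rfl⟩ := coatom_not_seven h M hM h7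
      exact Or.inl (normalizer_klein_iso h hK)
  refine ⟨hC, ?_, ?_⟩
  · intro M M' hM hM' h21 h21'
    obtain ⟨P, rfl⟩ := coatom_seven h M hM (by rw [h21]; norm_num)
    obtain ⟨P', rfl⟩ := coatom_seven h M' hM' (by rw [h21']; norm_num)
    obtain ⟨g, hg⟩ := MulAction.exists_smul_eq G P P'
    refine ⟨g, ?_⟩
    rw [← hg]
    ext z
    rw [mem_nrm_smul]
    constructor
    · intro hz
      refine ⟨g⁻¹ * z * g, hz, ?_⟩
      simp only [MulEquiv.coe_toMonoidHom, MulAut.conj_apply]
      group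
    · rintro ⟨n, hn, rfl⟩
      simp only [MulEquiv.coe_toMonoidHom, MulAut.conj_apply]
      have e : g⁻¹ * (g * n * g⁻¹) * g = n := by group
      rw [e]
      exact hn
  · obtain ⟨T⟩ : Nonempty (Sylow 2 G) := inferInstance
    obtain ⟨A₀, A₁, hne, h0, h1, hk0, hk1, hall⟩ := klein_in_sylow h T
    refine ⟨Subgroup.normalizer (A₀ : Set G), Subgroup.normalizer (A₁ : Set G),
      coatom_of_card h _ (Or.inr (card_normalizer_klein h hk0)),
      coatom_of_card h _ (Or.inr (card_normalizer_klein h hk1)),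
      normalizer_klein_iso h hk0, normalizer_klein_iso h hk1, ?_, ?_⟩
    · intro g hg
      rw [← normalizer_map_conj] at hg
      have hk' : IsKleinFour (A₀.map (MulAut.conj g).toMonoidHom) := klein_map_conj hk0 g
      have := klein_unique h hk1 hk' hg
      exact klein_not_conj h T h0 h1 hk0 hk1 hne g this.symm
    · intro M hM ⟨e⟩
      obtain ⟨K, hK, rfl⟩ := exists_klein_of_iso h M e
      -- conjugate `K` into `T`
      have hpK : IsPGroup 2 K := by
        rw [IsPGroup.iff_card, hK.card_four]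
        exact ⟨2, by norm_num⟩
      obtain ⟨T', hT'⟩ := hpK.exists_le_sylow
      obtain ⟨g, hg⟩ := MulAction.exists_smul_eq G T T'
      have hK' : IsKleinFour (K.map (MulAut.conj g⁻¹).toMonoidHom) := klein_map_conj hK g⁻¹
      have hKT : K.map (MulAut.conj g⁻¹).toMonoidHom ≤ (T : Subgroup G) := by
        rintro _ ⟨x, hx, rfl⟩
        have hx' := hT' hx
        rw [← hg, mem_smul_sylow] at hx'
        simpa using hx'
      have hKK : K = (K.map (MulAut.conj g⁻¹).toMonoidHom).map (MulAut.conj g).toMonoidHom := by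
        ext x
        constructor
        · intro hx
          refine ⟨g⁻¹ * x * g⁻¹⁻¹, ⟨x, hx, rfl⟩, ?_⟩
          simp only [MulEquiv.coe_toMonoidHom, MulAut.conj_apply]
          group
        · rintro ⟨_, ⟨y, hy, rfl⟩, rfl⟩
          simp only [MulEquiv.coe_toMonoidHom, MulAut.conj_apply]
          have e' : g * (g⁻¹ * y * g⁻¹⁻¹) * g⁻¹ = y := by group
          rw [e']
          exact hy
      refine ⟨g, ?_⟩
      rcases hall _ hKT hK' with h2 | h2
      · left
        rw [← normalizer_map_conj, ← h2, ← hKK]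
      · right
        rw [← normalizer_map_conj, ← h2, ← hKK]

end Cfsg.Agent.S1008
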