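import Cfsg.Statements.S1009
import Cfsg.Agent.Lib.H1Small

set_option autoImplicit false
open Cfsg

namespace Cfsg.Agent.S1009

/-- Brodkey's Theorem: if a finite group has abelian Sylow p-subgroups, then there are two Sylow p-subgroups whose intersection equals the intersection of all Sylow p-subgroups. -/
theorem result {G : Type*} [Group G] [Finite G] (p : ℕ) [Fact p.Prime] (hab : ∀ P : Sylow p G, IsMulCommutative ↥(P : Subgroup G)) : ∃ P Q : Sylow p G, (P : Subgroup G) ⊓ (Q : Subgroup G) = ⨅ R : Sylow p G, (R : Subgroup G) := by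
  classical
  -- choose a pair with minimal intersection
  obtain ⟨⟨S, T⟩, hmin⟩ : ∃ x : Sylow p G × Sylow p G, ∀ y : Sylow p G × Sylow p G,
      Nat.card ((x.1 : Subgroup G) ⊓ (x.2 : Subgroup G) : Subgroup G) ≤
      Nat.card ((y.1 : Subgroup G) ⊓ (y.2 : Subgroup G) : Subgroup G) := by
    haveI : Finite (Sylow p G × Sylow p G) := inferInstance
    obtain ⟨x, hx⟩ := Finite.exists_min (fun y : Sylow p G × Sylow p G =>
      Nat.card ((y.1 : Subgroup G) ⊓ (y.2 : Subgroup G) : Subgroup G))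
    exact ⟨x, hx⟩
  simp only at hmin
  refine ⟨S, T, le_antisymm ?_ (le_inf (iInf_le _ S) (iInf_le _ T))⟩
  rw [le_iInf_iff]
  intro R
  set D : Subgroup G := (S : Subgroup G) ⊓ (T : Subgroup G) with hD
  set N : Subgroup G := Subgroup.normalizer (D : Set G) with hN
  have hle : ∀ Q : Sylow p G, D ≤ (Q : Subgroup G) → (Q : Subgroup G) ≤ N := by
    intro Q hQ a ha
    apply Subgroup.centralizer_le_normalizer
    rw [Subgroup.mem_centralizer_iff]
    intro d hd
    have := (hab Q).is_comm.comm (⟨d, hQ hd⟩ : (Q : Subgroup G)) ⟨a, ha⟩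
    exact congrArg Subtype.val this
  have hSN := hle S inf_le_left
  have hTN := hle T inf_le_right
  have hp : IsPGroup p ((R : Subgroup G) ⊓ N : Subgroup G) :=
    R.isPGroup'.to_le inf_le_left
  obtain ⟨n, hn, hRn⟩ := Cfsg.Agent.Lib.H1Small.exists_le_smul_sylow N S hSN _ hp inf_le_right
  by_cases hRT : R = n • T
  · -- `R` contains `D`
    intro d hd
    rw [hRT, Cfsg.Agent.Lib.H1Small.mem_smul_sylow]
    have h1 : n⁻¹ * d * n⁻¹⁻¹ ∈ D := (Subgroup.mem_normalizer_iff.mp (N.inv_mem hn) d).mp hd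
    rw [inv_inv] at h1
    exact (Subgroup.mem_inf.mp h1).2
  · have hsub : (R : Subgroup G) ⊓ ((n • T : Sylow p G) : Subgroup G) ≤ D := by
      intro x hx
      obtain ⟨hx1, hx2⟩ := Subgroup.mem_inf.mp hx
      rw [Cfsg.Agent.Lib.H1Small.mem_smul_sylow] at hx2
      have hxN : x ∈ N := by
        have h3 : n⁻¹ * x * n ∈ N := hTN hx2
        have : x = n * (n⁻¹ * x * n) * n⁻¹ := by group
        rw [this]
        exact N.mul_mem (N.mul_mem hn h3) (N.inv_mem hn)
      have h4 := hRn (Subgroup.mem_inf.mpr ⟨hx1, hxN⟩ : x ∈ (R : Subgroup G) ⊓ N)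
      rw [Cfsg.Agent.Lib.H1Small.mem_smul_sylow] at h4
      have h5 : n⁻¹ * x * n ∈ D := Subgroup.mem_inf.mpr ⟨h4, hx2⟩
      have h6 := (Subgroup.mem_normalizer_iff.mp hn (n⁻¹ * x * n)).mp h5
      have h7 : n * (n⁻¹ * x * n) * n⁻¹ = x := by group
      rwa [h7] at h6
    have hcard := hmin (R, n • T)
    simp only at hcard
    have heq : (R : Subgroup G) ⊓ ((n • T : Sylow p G) : Subgroup G) = D :=
      Subgroup.eq_of_le_of_card_ge hsub hcard
    rw [← heq]
    exact inf_le_left

end Cfsg.Agent.S1009
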