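import Cfsg.Statements.S1013
import Cfsg.Agent.Lib.H1Small4

set_option autoImplicit false
open Cfsg

namespace Cfsg.Agent.S1013

/-- Let G be a transitive permutation group of prime degree p having more than one Sylow p-subgroup, and suppose a Sylow p-subgroup P has prime index in its normalizer. Then G is simple. -/
theorem result {α : Type*} [Fintype α] [DecidableEq α] {p : ℕ} [Fact p.Prime] (hα : Fintype.card α = p) (G : Subgroup (Equiv.Perm α)) [MulAction.IsPretransitive ↥G α] (P : Sylow p ↥G) (hn : 1 < Nat.card (Sylow p ↥G)) (ht : (((P : Subgroup ↥G).subgroupOf (Subgroup.normalizer ((P : Subgroup ↥G) : Set ↥G))).index).Prime) : IsSimpleGroup ↥G := by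
  classical
  have hpp : p.Prime := Fact.out
  have hcα : Nat.card α = p := by rw [Nat.card_eq_fintype_card, hα]
  have hpc : (Nat.card α).Prime := by rw [hcα]; exact hpp
  haveI hprim : MulAction.IsPreprimitive ↥G α := MulAction.IsPreprimitive.of_prime_card hpc
  -- degree divides the order of transitive groups
  have hdvd : ∀ (A : Type _) [Group A] [Finite A] [MulAction A α] [MulAction.IsPretransitive A α],
      p ∣ Nat.card A := by
    intro A _ _ _ _
    obtain ⟨a⟩ : Nonempty α := by
      apply Fintype.card_pos_iff.mp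
      rw [hα]; exact hpp.pos
    have h1 := MulAction.index_stabilizer_of_transitive A a
    rw [hcα] at h1
    rw [← h1]
    exact Subgroup.index_dvd_card _
  -- order of Γ: p divides exactly once
  have hΓ1 : p ∣ Nat.card ↥G := hdvd ↥G
  obtain ⟨m, hm⟩ := hΓ1
  have hmp : ¬ p ∣ m := by
    intro hd
    have h1 : Nat.card ↥G ∣ Nat.card (Equiv.Perm α) := Subgroup.card_subgroup_dvd_card G
    rw [Nat.card_perm, hcα, ← Nat.mul_factorial_pred hpp.ne_zero, hm] at h1
    have h2 : m ∣ (p - 1).factorial := Nat.dvd_of_mul_dvd_mul_left hpp.pos h1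
    have h3 : p ∣ (p - 1).factorial := hd.trans h2
    rw [hpp.dvd_factorial] at h3
    have := hpp.pos
    omega
  obtain ⟨hP1, -, -, -⟩ := Cfsg.Agent.Lib.H1Small.sylow_data (p := p) 1 m (by rw [hm, pow_one]) hmp P
  rw [pow_one] at hP1
  haveI hnt : Nontrivial ↥G := by
    have : 1 < Nat.card ↥G := by
      rw [hm]
      have h0 : 0 < m := Nat.pos_of_ne_zero (by rintro rfl; exact hmp (dvd_zero p))
      nlinarith [hpp.two_le]
    exact Finite.one_lt_card_iff_nontrivial.mp this
  have hfaith : ∀ g : ↥G, (∀ a : α, g • a = a) → g = 1 := by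
    intro g hg
    apply Subtype.ext
    ext a
    exact congrArg (fun z : α => z) (hg a)
  refine ⟨?_⟩
  intro K hK
  by_contra hcon
  push Not at hcon
  obtain ⟨hK1, hK2⟩ := hcon
  -- K transitive
  have hfix : MulAction.fixedPoints K α ≠ Set.univ := by
    intro h
    apply hK1
    rw [eq_bot_iff]
    intro x hx
    rw [Subgroup.mem_bot]
    apply hfaith
    intro a
    have h2 : a ∈ MulAction.fixedPoints K α := h ▸ Set.mem_univ a
    exact h2 ⟨x, hx⟩
  haveI hKtr : MulAction.IsPretransitive K α :=
    MulAction.IsQuasiPreprimitive.isPretransitive_of_normal hfix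
  have hpK : p ∣ Nat.card K := hdvd K
  have hPK : (P : Subgroup ↥G) ≤ K := by
    obtain ⟨y, hy⟩ := exists_prime_orderOf_dvd_card' p hpK
    have hy' : orderOf ((y : ↥G)) = p := (Subgroup.orderOf_coe y).trans hy
    obtain ⟨R, hR⟩ := (Cfsg.Agent.Lib.H1Small.isPGroup_zpowers_of_orderOf hy').exists_le_sylow
    have hRc : Nat.card (R : Subgroup ↥G) = p := by
      rw [Cfsg.Agent.Lib.H1Small.card_sylow_eq R P, hP1]
    have hRz : Subgroup.zpowers (y : ↥G) = (R : Subgroup ↥G) :=
      Subgroup.eq_of_le_of_card_ge hR (by rw [hRc, Nat.card_zpowers, hy'])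
    have hRK : (R : Subgroup ↥G) ≤ K := by
      rw [← hRz, Subgroup.zpowers_le]; exact y.2
    obtain ⟨g, hg⟩ := MulAction.exists_smul_eq ↥G R P
    intro x hx
    rw [← hg, Cfsg.Agent.Lib.H1Small.mem_smul_sylow] at hx
    have h2 := hK.conj_mem _ (hRK hx) g
    have h3 : g * (g⁻¹ * x * g) * g⁻¹ = x := by group
    rwa [h3] at h2
  have hfr : Subgroup.normalizer ((P : Subgroup ↥G) : Set ↥G) ⊔ K = ⊤ :=
    Sylow.normalizer_sup_eq_top' P hPK
  set N := Subgroup.normalizer ((P : Subgroup ↥G) : Set ↥G) with hN
  have hLmid : (P : Subgroup ↥G) ≤ N ⊓ K := le_inf Subgroup.le_normalizer hPK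
  have hmul := Subgroup.relIndex_mul_relIndex (P : Subgroup ↥G) (N ⊓ K) N hLmid inf_le_left
  have ht' : ((P : Subgroup ↥G).relIndex N).Prime := ht
  have hcases : (P : Subgroup ↥G).relIndex (N ⊓ K) = 1 ∨ (N ⊓ K).relIndex N = 1 := by
    rcases Nat.Prime.eq_one_or_self_of_dvd ht' _ (Dvd.intro _ hmul) with h | h
    · exact Or.inl h
    · right
      rw [h] at hmul
      have h2 : (P : Subgroup ↥G).relIndex N * (N ⊓ K).relIndex N = (P : Subgroup ↥G).relIndex N * 1 := by
        rw [hmul, mul_one]
      exact Nat.eq_of_mul_eq_mul_left ht'.pos h2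
  rcases hcases with hL | hL
  · -- the normalizer of P in K is P
    have hLP : N ⊓ K ≤ (P : Subgroup ↥G) := Subgroup.relIndex_eq_one.mp hL
    let P' : Sylow p K := P.subtype hPK
    have hP'mem : ∀ x : K, x ∈ (P' : Subgroup K) ↔ (x : ↥G) ∈ (P : Subgroup ↥G) := by
      intro x
      rw [Sylow.coe_subtype, Subgroup.mem_subgroupOf]
    have hP'card : Nat.card (P' : Subgroup K) = p := by
      refine Eq.trans ?_ hP1
      rw [Sylow.coe_subtype]
      exact Nat.card_congr (Subgroup.subgroupOfEquivOfLe hPK).toEquiv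
    have hNC : Subgroup.normalizer ((P' : Subgroup K) : Set K) ≤
        Subgroup.centralizer ((P' : Subgroup K) : Set K) := by
      intro x hx
      have hxN : (x : ↥G) ∈ N := by
        rw [hN, Subgroup.mem_normalizer_iff]
        intro h
        have hxn := Subgroup.mem_normalizer_iff.mp hx
        constructor
        · intro hh
          have h1 := (hxn ⟨h, hPK hh⟩).mp ((hP'mem _).mpr hh)
          exact (hP'mem _).mp h1
        · intro hh
          have h2 : (x : ↥G) * h * (x : ↥G)⁻¹ ∈ K := hPK hh
          have h3 : h ∈ K := by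
            have h4 : h = (x : ↥G)⁻¹ * ((x : ↥G) * h * (x : ↥G)⁻¹) * (x : ↥G) := by group
            rw [h4]
            exact K.mul_mem (K.mul_mem (K.inv_mem x.2) h2) x.2
          have h5 := (hxn ⟨h, h3⟩).mpr ((hP'mem _).mpr hh)
          exact (hP'mem _).mp h5
      have hxP : (x : ↥G) ∈ (P : Subgroup ↥G) := hLP (Subgroup.mem_inf.mpr ⟨hxN, x.2⟩)
      have hx' : x ∈ (P' : Subgroup K) := (hP'mem x).mpr hxP
      exact Cfsg.Agent.Lib.H1Small.le_centralizer_of_prime_card _ hP'card hx'
    have hc := MonoidHom.ker_transferSylow_isComplement' P' hNC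
    set M := (MonoidHom.transferSylow P' hNC).ker with hMdef
    have hMn : M.Normal := MonoidHom.normal_ker _
    have hMc : Nat.card M * p = Nat.card K := by
      have := hc.card_mul
      rwa [hP'card] at this
    haveI hprimK : MulAction.IsPreprimitive K α := MulAction.IsPreprimitive.of_prime_card hpc
    have hMtriv : M = ⊥ := by
      by_contra hMne
      have hfixM : MulAction.fixedPoints M α ≠ Set.univ := by
        intro h
        apply hMne
        rw [eq_bot_iff]
        intro x hx
        rw [Subgroup.mem_bot]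
        apply Subtype.ext
        apply hfaith
        intro a
        have h2 : a ∈ MulAction.fixedPoints M α := h ▸ Set.mem_univ a
        exact h2 ⟨x, hx⟩
      haveI hMtr : MulAction.IsPretransitive M α :=
        MulAction.IsQuasiPreprimitive.isPretransitive_of_normal hfixM
      have hpM : p ∣ Nat.card M := hdvd M
      -- then p² divides |K|, which divides |Γ|
      obtain ⟨u, hu⟩ := hpM
      have hKΓ : Nat.card K ∣ Nat.card ↥G := Subgroup.card_subgroup_dvd_card K
      rw [← hMc, hu, hm] at hKΓ
      apply hmp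
      have h5 : p * (u * p) ∣ p * m := by
        have : p * u * p = p * (u * p) := by ring
        rwa [this] at hKΓ
      have h6 : u * p ∣ m := Nat.dvd_of_mul_dvd_mul_left hpp.pos h5
      exact (dvd_mul_left p u).trans h6
    rw [hMtriv, Subgroup.card_bot, one_mul] at hMc
    have hKP : (P : Subgroup ↥G) = K :=
      Subgroup.eq_of_le_of_card_ge hPK (by rw [hP1, hMc])
    have hPn : (P : Subgroup ↥G).Normal := by rw [hKP]; exact hK
    have hNt : N = ⊤ := Subgroup.normalizer_eq_top_iff.mpr hPn
    have hn2 : Nat.card (Sylow p ↥G) = 1 := by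
      rw [P.card_eq_index_normalizer]
      have : Subgroup.normalizer ((P : Subgroup ↥G) : Set ↥G) = ⊤ := hNt
      exact (congrArg Subgroup.index this).trans Subgroup.index_top
    omega
  · have hNL : N ≤ N ⊓ K := Subgroup.relIndex_eq_one.mp hL
    have hNK : N ≤ K := hNL.trans inf_le_right
    rw [sup_eq_right.mpr hNK] at hfr
    exact hK2 hfr

end Cfsg.Agent.S1013
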