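import Cfsg.Statements.S1014
import Cfsg.Agent.Lib.H1Small3

set_option autoImplicit false
open Cfsg

namespace Cfsg.Agent.S1014

/-- No finite simple group has order 1104 = 2^4 * 3 * 23. -/
theorem result {G : Type*} [Group G] [Finite G] [IsSimpleGroup G] : Nat.card G ≠ 1104 := by
  intro h
  have hG : ¬ IsMulCommutative G :=
    Cfsg.Agent.Lib.H1Small.not_comm_of_not_prime (by rw [h]; norm_num)
  haveI h23 : Fact (Nat.Prime 23) := ⟨by norm_num⟩
  obtain ⟨P⟩ : Nonempty (Sylow 23 G) := inferInstance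
  obtain ⟨h1, h2, h3, h4⟩ := Cfsg.Agent.Lib.H1Small.sylow_data (p := 23) 1 48 (by omega) (by norm_num) P
  rw [pow_one] at h1
  have hne := Cfsg.Agent.Lib.H1Small.sylow_card_ne_one P (by omega) (by omega)
  have hle := Nat.le_of_dvd (by norm_num) h2
  generalize hn : Nat.card (Sylow 23 G) = n at *
  have hn24 : n = 24 := by
    interval_cases n <;> simp_all <;> omega
  subst hn24
  have hN : Nat.card (Subgroup.normalizer ((P : Subgroup G) : Set G)) = 46 := by omega
  -- an involution in the normalizer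
  have h2N : 2 ∣ Nat.card (Subgroup.normalizer ((P : Subgroup G) : Set G)) := by omega
  haveI h2p : Fact (Nat.Prime 2) := ⟨by norm_num⟩
  obtain ⟨t, ht⟩ := exists_prime_orderOf_dvd_card' 2 h2N
  have ht' : orderOf (t : G) = 2 := by
    rw [← ht]; exact Subgroup.orderOf_coe t
  -- t does not centralize P
  have hnot := Cfsg.Agent.Lib.H1Small.not_normalizer_le_centralizer P (by omega) (by omega)
  have htC : (t : G) ∉ Subgroup.centralizer ((P : Subgroup G) : Set G) := by
    intro htC
    apply hnot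
    exact Cfsg.Agent.Lib.H1Small.normalizer_le_centralizer_of_elem (a := 2) (P : Subgroup G) h1
      (by omega) (by norm_num) (t : G) ht' t.2 htC
  have hb := Cfsg.Agent.Lib.H1Small.card_fixed_mul_le P h1 t t.2 htC
  have hfix : (t : G) • P = P := (Cfsg.Agent.Lib.H1Small.smul_eq_iff_mem_nrm P _).mpr t.2
  have hc := Cfsg.Agent.Lib.H1Small.card_fixedBy_eq (Sylow 23 G) P (t : G) hfix
  obtain ⟨k, hk⟩ := Cfsg.Agent.Lib.H1Small.card_eq_fixedBy_add_four hG (X := Sylow 23 G) (t : G) (by rw [← ht', pow_orderOf_eq_one])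
  omega

end Cfsg.Agent.S1014
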