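import Cfsg.Statements.S1015
import Cfsg.Agent.Lib.H1Small4

set_option autoImplicit false
open Cfsg

namespace Cfsg.Agent.S1015

/-- No finite simple group has order 1200 = 2^4 * 3 * 5^2. -/
theorem result {G : Type*} [Group G] [Finite G] [IsSimpleGroup G] : Nat.card G ≠ 1200 := by
  intro h
  have hG : ¬ IsMulCommutative G :=
    Cfsg.Agent.Lib.H1Small.not_comm_of_not_prime (by rw [h]; norm_num)
  haveI h5 : Fact (Nat.Prime 5) := ⟨by norm_num⟩
  obtain ⟨P⟩ : Nonempty (Sylow 5 G) := inferInstance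
  obtain ⟨h1, h2, h3, h4⟩ := Cfsg.Agent.Lib.H1Small.sylow_data (p := 5) 2 48 (by omega) (by norm_num) P
  have hne := Cfsg.Agent.Lib.H1Small.sylow_card_ne_one P (by omega) (by omega)
  -- all proper subgroups have index at least 10
  have hidx : ∀ H : Subgroup G, H ≠ ⊤ → 10 ≤ H.index := by
    intro H hH
    apply Cfsg.Agent.Lib.H1Small.le_index_of_not_dvd hG H hH
    rw [h]; decide +kernel
  have hN : Nat.card (Sylow 5 G) = (Subgroup.normalizer ((P : Subgroup G) : Set G)).index :=
    P.card_eq_index_normalizer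
  have hNt : Subgroup.normalizer ((P : Subgroup G) : Set G) ≠ ⊤ := by
    intro ht
    apply hne
    rw [hN, ht, Subgroup.index_top]
  have hi := hidx _ hNt
  rw [← hN] at hi
  have hcand := Cfsg.Agent.Lib.H1Small.mem_cands _ 48 5 10 h2 (by norm_num) h3 hi
  rw [show (Nat.divisors 48).filter (fun d => d % 5 = 1 ∧ 10 ≤ d) = {16} by decide +kernel] at hcand
  have hn16 : Nat.card (Sylow 5 G) = 16 := Finset.mem_singleton.mp hcand
  have hcard : ∀ Q : Sylow 5 G, Nat.card (Q : Subgroup G) = 5 ^ 2 := by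
    intro Q
    rw [Cfsg.Agent.Lib.H1Small.card_sylow_eq Q P]; exact h1
  obtain ⟨D, hD, hCt, hC1, hC2⟩ := Cfsg.Agent.Lib.H1Small.exists_large_inter hG hcard
    (by rw [hn16]; decide)
  have hi2 := hidx _ hCt
  have := (Subgroup.centralizer (D : Set G)).index_mul_card
  nlinarith

end Cfsg.Agent.S1015
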