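import Cfsg.Statements.S1018
import Cfsg.Agent.Lib.H1Small2

set_option autoImplicit false
open Cfsg

namespace Cfsg.Agent.S1018

/-- Let P be a Sylow p-subgroup of order p of a finite group G, and consider the action of G on the left cosets of the normalizer N of P. Then every element of order p fixes exactly one coset, and an element of N that does not centralize P fixes at most as many cosets as there are orbits of P. -/
theorem result {G : Type*} [Group G] [Finite G] (p : ℕ) [Fact p.Prime] (P : Sylow p G) (hP : Nat.card ↥(P : Subgroup G) = p) : (∀ y : G, orderOf y = p → Nat.card (MulAction.fixedBy (G ⧸ Subgroup.normalizer ((P : Subgroup G) : Set G)) y) = 1) ∧ ∀ x : G, x ∈ Subgroup.normalizer ((P : Subgroup G) : Set G) → x ∉ Subgroup.centralizer ((P : Subgroup G) : Set G) → Nat.card (MulAction.fixedBy (G ⧸ Subgroup.normalizer ((P : Subgroup G) : Set G)) x) ≤ Nat.card (MulAction.orbitRel.Quotient ↥(P : Subgroup G) (G ⧸ Subgroup.normalizer ((P : Subgroup G) : Set G))) := by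
  classical
  set N : Subgroup G := Subgroup.normalizer ((P : Subgroup G) : Set G) with hN
  have hpp : p.Prime := Fact.out
  have hpP : IsPGroup p (P : Subgroup G) := P.isPGroup'
  -- all Sylow subgroups have order p
  have hcard : ∀ Q : Sylow p G, Nat.card (Q : Subgroup G) = p := by
    intro Q
    rw [Q.card_eq_multiplicity, ← P.card_eq_multiplicity, hP]
  have hmemN : ∀ (Q : Sylow p G) (z : G), orderOf z = p → z ∈ Subgroup.normalizer ((Q : Subgroup G) : Set G) →
      z ∈ (Q : Subgroup G) := by
    intro Q z hz hzN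
    exact Cfsg.Agent.Lib.H1Small.mem_of_mem_nrm Q (Cfsg.Agent.Lib.H1Small.isPGroup_zpowers_of_orderOf hz)
      (Subgroup.mem_zpowers z) hzN
  -- stabilizer description
  have hfix : ∀ (g y : G), (QuotientGroup.mk g : G ⧸ N) ∈ MulAction.fixedBy (G ⧸ N) y ↔ g⁻¹ * y * g ∈ N := by
    intro g y
    rw [MulAction.mem_fixedBy]
    show (QuotientGroup.mk (y * g) : G ⧸ N) = QuotientGroup.mk g ↔ _
    rw [QuotientGroup.eq]
    constructor
    · intro h
      have : g⁻¹ * y * g = ((y * g)⁻¹ * g)⁻¹ := by group
      rw [this]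
      exact N.inv_mem h
    · intro h
      have : (y * g)⁻¹ * g = (g⁻¹ * y * g)⁻¹ := by group
      rw [this]
      exact N.inv_mem h
  have hNsmul : ∀ (g z : G), z ∈ Subgroup.normalizer (((g • P : Sylow p G) : Subgroup G) : Set G) ↔
      g⁻¹ * z * g ∈ N := Cfsg.Agent.Lib.H1Small.mem_nrm_smul P
  refine ⟨?_, ?_⟩
  · intro y hy
    have hyp : IsPGroup p (Subgroup.zpowers y) := by
      rw [IsPGroup.iff_card, Nat.card_zpowers, hy]
      exact ⟨1, by simp⟩
    obtain ⟨Q, hQ⟩ := hyp.exists_le_sylow
    obtain ⟨g₀, hg₀⟩ := MulAction.exists_smul_eq G P Q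
    have hy1 : y ∈ (Q : Subgroup G) := hQ (Subgroup.mem_zpowers y)
    have hy0 : y ≠ 1 := by
      intro h
      rw [h, orderOf_one] at hy
      exact hpp.one_lt.ne hy
    -- Any Sylow subgroup containing y is Q
    have huniq : ∀ Q' : Sylow p G, y ∈ (Q' : Subgroup G) → Q' = Q := by
      intro Q' hQ'
      have e1 : Subgroup.zpowers y = (Q' : Subgroup G) := by
        apply Subgroup.eq_of_le_of_card_ge
        · rwa [Subgroup.zpowers_le]
        · rw [hcard Q', Nat.card_zpowers, hy]
      have e2 : Subgroup.zpowers y = (Q : Subgroup G) := by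
        apply Subgroup.eq_of_le_of_card_ge hQ
        rw [hcard Q, Nat.card_zpowers, hy]
      exact Sylow.ext (e1.symm.trans e2)
    rw [Nat.card_eq_one_iff_unique]
    refine ⟨⟨?_⟩, ⟨⟨QuotientGroup.mk g₀, ?_⟩⟩⟩
    · rintro ⟨q₁, h₁⟩ ⟨q₂, h₂⟩
      apply Subtype.ext
      obtain ⟨g₁, rfl⟩ := QuotientGroup.mk_surjective q₁
      obtain ⟨g₂, rfl⟩ := QuotientGroup.mk_surjective q₂
      rw [hfix] at h₁ h₂
      have h1' : g₁ • P = Q := by
        apply huniq
        exact hmemN _ _ hy ((hNsmul g₁ y).mpr h₁)
      have h2' : g₂ • P = Q := by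
        apply huniq
        exact hmemN _ _ hy ((hNsmul g₂ y).mpr h₂)
      have h3 : g₁⁻¹ * g₂ ∈ N := by
        rw [hN, ← Cfsg.Agent.Lib.H1Small.smul_eq_iff_mem_nrm, mul_smul, h2', ← h1', inv_smul_smul]
      exact QuotientGroup.eq.mpr h3
    · rw [hfix]
      rw [← hNsmul, hg₀]
      exact Subgroup.le_normalizer hy1
  · intro x hxN hxC
    -- non-identity elements of P generate P
    have hgen : ∀ w u : (P : Subgroup G), w ≠ 1 → u ∈ Subgroup.zpowers w := by
      intro w u hw
      exact mem_zpowers_of_prime_card hP hw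
    -- conjugation by x moves every nontrivial element of P
    have hmove : ∀ u : (P : Subgroup G), u ≠ 1 → x * (u : G) * x⁻¹ ≠ u := by
      intro u hu h
      apply hxC
      rw [Subgroup.mem_centralizer_iff]
      intro v hv
      obtain ⟨k, hk⟩ := Subgroup.mem_zpowers_iff.mp (hgen u ⟨v, hv⟩ hu)
      have hv' : ((u : G)) ^ k = v := by
        have := congrArg Subtype.val hk
        simpa using this
      have hcomm : Commute x (u : G) := by
        show x * (u : G) = (u : G) * x
        have := h
        rw [mul_inv_eq_iff_eq_mul] at this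
        exact this
      rw [← hv']
      exact ((hcomm.zpow_right k).eq).symm
    have hmapmem : ∀ q : MulAction.fixedBy (G ⧸ N) x, True := fun _ => trivial
    apply Nat.card_le_card_of_injective (fun q : MulAction.fixedBy (G ⧸ N) x =>
      (Quotient.mk'' q.1 : MulAction.orbitRel.Quotient (P : Subgroup G) (G ⧸ N)))
    rintro ⟨q₁, h₁⟩ ⟨q₂, h₂⟩ h
    apply Subtype.ext
    simp only at h ⊢
    have h' := Quotient.eq''.mp h
    rw [MulAction.orbitRel_apply] at h'
    obtain ⟨u, hu⟩ := h'
    have hu' : (u : G) • q₂ = q₁ := hu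
    by_cases hu1 : u = 1
    · rw [← hu', hu1]; simp
    · rw [MulAction.mem_fixedBy] at h₁ h₂
      have h₁' : x • q₁ = q₁ := h₁
      have h₂' : x • q₂ = q₂ := h₂
      have hxu : x * (u : G) * x⁻¹ ∈ (P : Subgroup G) := (Subgroup.mem_normalizer_iff.mp hxN _).mp u.2
      -- x u x⁻¹ sends q₂ to q₁ as well
      have e1 : (x * (u : G) * x⁻¹) • q₂ = q₁ := by
        have e : (x * (u : G) * x⁻¹) • q₂ = x • (u : G) • x⁻¹ • q₂ := by simp [mul_smul]
        have hinv : x⁻¹ • q₂ = q₂ := by
          rw [inv_smul_eq_iff]; exact h₂'.symm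
        rw [e, hinv, hu', h₁']
      set u' : (P : Subgroup G) := ⟨x * (u : G) * x⁻¹, hxu⟩ with hu'def
      set w : (P : Subgroup G) := u⁻¹ * u' with hw
      have hw1 : w ≠ 1 := by
        intro h1
        have h2 : u' = u := by
          have := mul_eq_one_iff_eq_inv.mp h1
          simpa using this.symm
        exact hmove u hu1 (congrArg Subtype.val h2)
      have hw2 : (w : G) • q₂ = q₂ := by
        have : (w : G) = (u : G)⁻¹ * (x * (u : G) * x⁻¹) := rfl
        rw [this, mul_smul, e1, inv_smul_eq_iff]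
        exact hu'.symm
      have hmem : (u : G) ∈ MulAction.stabilizer G q₂ := by
        obtain ⟨k, hk⟩ := Subgroup.mem_zpowers_iff.mp (hgen w u hw1)
        have hk' : (w : G) ^ k = u := by
          have := congrArg Subtype.val hk
          simpa using this
        rw [← hk']
        exact Subgroup.zpow_mem _ hw2 k
      have : (u : G) • q₂ = q₂ := hmem
      rw [← hu', this]

end Cfsg.Agent.S1018
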