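import Cfsg.Statements.S1019
import Cfsg.Agent.Lib.H1Small

set_option autoImplicit false
open Cfsg

namespace Cfsg.Agent.S1019

/-- Let H be a subgroup of a finite group G and x an element of H. In the action of G on the left cosets of H, the number of cosets fixed by x, multiplied by the size of the conjugacy class of x, equals the index of H multiplied by the number of conjugates of x that lie in H. -/
theorem result {G : Type*} [Group G] [Finite G] (H : Subgroup G) (x : G) (hx : x ∈ H) : Nat.card (MulAction.fixedBy (G ⧸ H) x) * Nat.card {g : G // IsConj x g} = H.index * Nat.card {g : G // IsConj x g ∧ g ∈ H} := by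
  classical
  open Cfsg.Agent.Lib.H1Small in
  have h1 := card_conj_into x (fun y => y ∈ H)
  have h2 := Cfsg.Agent.Lib.H1Small.card_conj_into x (fun _ => True)
  -- fibres over cosets
  have hmemfix : ∀ g : G, g⁻¹ * x * g ∈ H → (QuotientGroup.mk g : G ⧸ H) ∈ MulAction.fixedBy (G ⧸ H) x := by
    intro g hg
    rw [MulAction.mem_fixedBy]
    show (QuotientGroup.mk (x * g) : G ⧸ H) = QuotientGroup.mk g
    rw [QuotientGroup.eq]
    have : (x * g)⁻¹ * g = (g⁻¹ * x * g)⁻¹ := by group
    rw [this]
    exact H.inv_mem hg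
  have h3 : Nat.card {g : G // g⁻¹ * x * g ∈ H} = Nat.card (MulAction.fixedBy (G ⧸ H) x) * Nat.card H := by
    refine Cfsg.Agent.Lib.H1Small.card_eq_of_fibers (fun s : {g : G // g⁻¹ * x * g ∈ H} =>
      (⟨QuotientGroup.mk s.1, hmemfix s.1 s.2⟩ : MulAction.fixedBy (G ⧸ H) x)) _ ?_
    rintro ⟨q, hq⟩
    obtain ⟨g₀, rfl⟩ := QuotientGroup.mk_surjective q
    have h0 : g₀⁻¹ * x * g₀ ∈ H := by
      rw [MulAction.mem_fixedBy] at hq
      have hq' : (QuotientGroup.mk (x * g₀) : G ⧸ H) = QuotientGroup.mk g₀ := hq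
      rw [QuotientGroup.eq] at hq'
      have : g₀⁻¹ * x * g₀ = ((x * g₀)⁻¹ * g₀)⁻¹ := by group
      rw [this]
      exact H.inv_mem hq'
    apply Nat.card_congr
    refine
      { toFun := fun s => ⟨g₀⁻¹ * s.1.1, ?_⟩
        invFun := fun t => ⟨⟨g₀ * t.1, ?_⟩, ?_⟩
        left_inv := ?_
        right_inv := ?_ }
    · have h4 : (QuotientGroup.mk s.1.1 : G ⧸ H) = QuotientGroup.mk g₀ := congrArg Subtype.val s.2
      have h5 := QuotientGroup.eq.mp h4.symm
      exact h5
    · have e : (g₀ * t.1)⁻¹ * x * (g₀ * t.1) = t.1⁻¹ * (g₀⁻¹ * x * g₀) * t.1 := by group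
      rw [e]
      exact H.mul_mem (H.mul_mem (H.inv_mem t.2) h0) t.2
    · apply Subtype.ext
      show (QuotientGroup.mk (g₀ * t.1) : G ⧸ H) = QuotientGroup.mk g₀
      rw [QuotientGroup.eq]
      have : (g₀ * t.1)⁻¹ * g₀ = (t.1 : G)⁻¹ := by group
      rw [this]
      exact H.inv_mem t.2
    · intro s
      apply Subtype.ext
      apply Subtype.ext
      simp
    · intro t
      apply Subtype.ext
      simp
  have h4 : Nat.card {g : G // True} = Nat.card G := by
    simp
  have h5 : Nat.card {y : G // IsConj x y ∧ True} = Nat.card {g : G // IsConj x g} := by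
    simp
  have h6 : Nat.card G = Nat.card {g : G // IsConj x g} * Nat.card (Subgroup.centralizer ({x} : Set G)) := by
    rw [← h5, ← h2, h4]
  have h7 := H.index_mul_card
  have hH : 0 < Nat.card H := Nat.card_pos
  apply Nat.eq_of_mul_eq_mul_right hH
  calc Nat.card (MulAction.fixedBy (G ⧸ H) x) * Nat.card {g : G // IsConj x g} * Nat.card H
      = (Nat.card (MulAction.fixedBy (G ⧸ H) x) * Nat.card H) * Nat.card {g : G // IsConj x g} := by ring
    _ = Nat.card {y : G // IsConj x y ∧ y ∈ H} * (Nat.card {g : G // IsConj x g} * Nat.card (Subgroup.centralizer ({x} : Set G))) := by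
        rw [← h3, h1]; ring
    _ = Nat.card {y : G // IsConj x y ∧ y ∈ H} * (H.index * Nat.card H) := by
        rw [← h6, h7]
    _ = H.index * Nat.card {g : G // IsConj x g ∧ g ∈ H} * Nat.card H := by ring

end Cfsg.Agent.S1019
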