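import Cfsg.Statements.S1036
import Cfsg.Agent.Lib.ChevN3
import Cfsg.Agent.Lib.ChevAll3

set_option autoImplicit false
open Cfsg

namespace Cfsg.Agent.S1036

/-- `H` normalises `U` and `U ∩ H = 1`; thus `B = UH` is the semidirect product of `U` by `H`. -/
theorem result {F : Type*} [Field F] (D : Cfsg.Lie.ChevalleyDatum) (hD : D ∈ [Cfsg.Lie.chevG2, Cfsg.Lie.chevB2, Cfsg.Lie.chevD4, Cfsg.Lie.chevF4, Cfsg.Lie.chevE6, Cfsg.Lie.chevE7, Cfsg.Lie.chevE8]) :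
    D.diagonalSubgroup F ≤ Subgroup.normalizer (D.posUnipotent F : Set (GL D.Idx F)) ∧
      D.posUnipotent F ⊓ D.diagonalSubgroup F = ⊥ := by
  obtain ⟨T, C, X, V, V2, V3⟩ := Cfsg.Agent.Lib.ChevAll3.exists_valid3 hD
  exact ⟨Cfsg.Agent.Lib.ChevN.H_le_normalizer_U V V2 V3, Cfsg.Agent.Lib.ChevN.U_inf_H V V2 V3⟩

end Cfsg.Agent.S1036
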