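import Cfsg.Statements.S1052
import Cfsg.Agent.Lib.ChevSimp2
import Cfsg.Agent.Lib.ChevAll4

set_option autoImplicit false
open Cfsg

namespace Cfsg.Agent.S1052

/-- `G = G'` for every type G₂, B₂, D₄, F₄, E₆, E₇, E₈ over every field, except G₂ and B₂ over the field with two elements. -/
theorem result {F : Type*} [Field F] (D : Cfsg.Lie.ChevalleyDatum) (hD : D ∈ [Cfsg.Lie.chevG2, Cfsg.Lie.chevB2, Cfsg.Lie.chevD4, Cfsg.Lie.chevF4, Cfsg.Lie.chevE6, Cfsg.Lie.chevE7, Cfsg.Lie.chevE8]) (h2 : D = Cfsg.Lie.chevG2 ∨ D = Cfsg.Lie.chevB2 → ∃ a : F, a ≠ 0 ∧ a ≠ 1) :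
    commutator ↥(D.group F) = ⊤ := by
  obtain ⟨T, C, X, Y, V, V2, V3, V4⟩ := Cfsg.Agent.Lib.ChevAll4.exists_valid4 hD
  have hF : (Cfsg.Agent.Lib.ChevTab.allBelow T.n fun q => Nat.beq (Y.pk q) 0) = true ∨ ∃ a : F, a ≠ 0 ∧ a ≠ 1 := by
    rcases V4.hk with h | h
    · exact Or.inr (h2 h)
    · exact Or.inl h
  exact Cfsg.Agent.Lib.ChevSimp2.perfect V V2 V3 V4 hF

end Cfsg.Agent.S1052
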