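import Cfsg.Statements.S1054
import Cfsg.Agent.Lib.ChevSimp2
import Cfsg.Agent.Lib.ChevAll4

set_option autoImplicit false
open Cfsg

namespace Cfsg.Agent.S1054

/-- The Chevalley groups of types D₄, F₄, E₆, E₇, E₈ are simple over every field. -/
theorem result {F : Type*} [Field F] (D : Cfsg.Lie.ChevalleyDatum)
    (hD : D ∈ [Cfsg.Lie.chevD4, Cfsg.Lie.chevF4, Cfsg.Lie.chevE6, Cfsg.Lie.chevE7, Cfsg.Lie.chevE8]) :
    IsSimpleGroup ↥(D.group F) ∧ ¬ IsMulCommutative ↥(D.group F) := by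
  have hD' : D ∈ [Cfsg.Lie.chevG2, Cfsg.Lie.chevB2, Cfsg.Lie.chevD4, Cfsg.Lie.chevF4, Cfsg.Lie.chevE6, Cfsg.Lie.chevE7, Cfsg.Lie.chevE8] := by
    simp only [List.mem_cons, List.not_mem_nil, or_false] at hD ⊢
    tauto
  obtain ⟨T, C, X, Y, V, V2, V3, V4⟩ := Cfsg.Agent.Lib.ChevAll4.exists_valid4 hD'
  have hne : ¬ (D = Cfsg.Lie.chevG2 ∨ D = Cfsg.Lie.chevB2) := by
    have h1 : D.rank ≠ 2 := by
      simp only [List.mem_cons, List.not_mem_nil, or_false] at hD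
      rcases hD with rfl | rfl | rfl | rfl | rfl <;> decide
    rintro (rfl | rfl) <;> exact h1 (by decide)
  have hF : (Cfsg.Agent.Lib.ChevTab.allBelow T.n fun q => Nat.beq (Y.pk q) 0) = true := by
    rcases V4.hk with h | h
    · exact absurd h hne
    · exact h
  exact Cfsg.Agent.Lib.ChevSimp2.simple V V2 V3 V4 (Or.inl hF)

end Cfsg.Agent.S1054
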