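import Cfsg.Statements.S1091
import Cfsg.Agent.Lib.ReeK

set_option autoImplicit false
open Cfsg

namespace Cfsg.Agent.S1091

open Cfsg.Agent.Lib.ReeE Cfsg.Agent.Lib.ReeF Cfsg.Agent.Lib.ReeK Cfsg.Agent.Lib.ReeH Cfsg.Agent.Lib.ReeJ Cfsg.Agent.Lib.ReeI Cfsg.Agent.Lib.ReeD

/-- ²G₂(3^(2m+1)) has a (B,N)-pair: B¹ = G¹ ∩ B and N¹ = G¹ ∩ N, intersections with the ambient Chevalley group's B = UH and N. -/
theorem result {K : Type*} [Field K] [Fintype K] {m : ℕ} (hK : Fintype.card K = 3 ^ (2 * m + 1)) :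
    ∃ P : Cfsg.BNPair ↥(Cfsg.Lie.twistedG2 K (3 ^ m)),
      P.B = (Cfsg.Lie.chevG2.borelSubgroup K ⊓ Cfsg.Lie.twistedG2 K (3 ^ m)).subgroupOf (Cfsg.Lie.twistedG2 K (3 ^ m)) ∧
      P.N = (Cfsg.Lie.chevG2.monomialSubgroup K ⊓ Cfsg.Lie.twistedG2 K (3 ^ m)).subgroupOf (Cfsg.Lie.twistedG2 K (3 ^ m)) := by
  haveI : CharP K 3 := char3 hK
  obtain ⟨θ, he, hθ⟩ := exists_theta hK
  rw [← G1_eq hθ _ he]
  exact ⟨(WF hθ).bn Cfsg.Agent.Lib.ChevV4G2.valid4, rfl, rfl⟩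

end Cfsg.Agent.S1091
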