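import Cfsg.Statements.S1098
import Cfsg.Agent.Lib.RF4C

set_option autoImplicit false
open Cfsg

namespace Cfsg.Agent.S1098


open Cfsg.Lie Cfsg.Agent.Lib.ChevGL Cfsg.Agent.Lib.ChevU Cfsg.Agent.Lib.ChevN2 Cfsg.Agent.Lib.ChevValid Cfsg.Agent.Lib.ChevAut3 in
theorem aux {D : ChevalleyDatum} {T : Cfsg.Agent.Lib.ChevTab.Tb} (V : Valid D T) {K : Type*} [Field K]
    {ρ k : ℕ → ℕ} {α : ↥(D.group K) ≃* ↥(D.group K)}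
    (hα : ∀ {r : ℕ} (hr : r < T.n) (t : K), ((α (xG V hr t) : ↥(D.group K)) : GL D.Idx K) = xU V (ρ r) (t ^ k r))
    (g : ↥(D.group K)) {r s j : ℕ} (hr : r < T.n) (t : K) (h1 : ρ r = s) (h2 : k r = j)
    (hg : ((g : GL D.Idx K) : Matrix D.Idx D.Idx K) = D.x K r t) :
    ((α g : GL D.Idx K) : Matrix D.Idx D.Idx K) = D.x K s (t ^ j) := by
  have e : g = xG V hr t := by
    apply Subtype.ext
    apply Units.ext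
    rw [hg]
    rfl
  rw [e, hα, h1, h2, xU_val]

/-- Graph automorphisms in characteristic 2 (K perfect): for B₂ (a short, b long) `x_a(t) ↦ x_b(t²)`, `x_b(t) ↦ x_a(t)`, and for F₄ (p₁, p₂ short, p₃, p₄ long) `x_{p₁}(t) ↦ x_{p₄}(t²)`, `x_{p₂}(t) ↦ x_{p₃}(t²)`, `x_{p₃}(t) ↦ x_{p₂}(t)`, `x_{p₄}(t) ↦ x_{p₁}(t)`, likewise on the negatives, extend to an automorphism of the group. -/
theorem result {K : Type*} [Field K] [CharP K 2] (hperf : ∀ x : K, ∃ y : K, y ^ 2 = x)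
    (p : Cfsg.Lie.ChevalleyDatum × List (ℕ × ℕ))
    (hp : p ∈ [(Cfsg.Lie.chevB2, [(1, 2), (0, 1)]), (Cfsg.Lie.chevF4, [(3, 2), (2, 2), (1, 1), (0, 1)])]) :
    ∃ α : ↥(p.1.group K) ≃* ↥(p.1.group K), ∀ (g : ↥(p.1.group K)) (i : ℕ) (t : K), i < p.1.rank →
      (((g : GL p.1.Idx K) : Matrix p.1.Idx p.1.Idx K) = p.1.x K (p.1.simple i) t →
        ((α g : GL p.1.Idx K) : Matrix p.1.Idx p.1.Idx K) = p.1.x K (p.1.simple (p.2.getD i (0, 1)).1) (t ^ (p.2.getD i (0, 1)).2)) ∧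
      (((g : GL p.1.Idx K) : Matrix p.1.Idx p.1.Idx K) = p.1.x K (p.1.neg (p.1.simple i)) t →
        ((α g : GL p.1.Idx K) : Matrix p.1.Idx p.1.Idx K) = p.1.x K (p.1.neg (p.1.simple (p.2.getD i (0, 1)).1)) (t ^ (p.2.getD i (0, 1)).2)) := by
  simp only [List.mem_cons, List.not_mem_nil, or_false] at hp
  rcases hp with rfl | rfl
  · obtain ⟨σ, hσ⟩ := Cfsg.Agent.Lib.RF4B_B2.exists_sigma0 (K := K)
    have tb1 : ∀ r, r < 8 → Cfsg.Agent.Lib.RF4B_B2.rhoG r < 8 ∧ Cfsg.Agent.Lib.RF4B_B2.rhoG (Cfsg.Agent.Lib.RF4B_B2.rhoG r) = r ∧ Cfsg.Agent.Lib.RF4B_B2.kG r * Cfsg.Agent.Lib.RF4B_B2.kG (Cfsg.Agent.Lib.RF4B_B2.rhoG r) = 2 := by decide +kernel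
    have hn : Cfsg.Agent.Lib.ChevTbB2.T.n = 8 := by decide +kernel
    obtain ⟨α, hα⟩ := Cfsg.Agent.Lib.RF4C.exists_aut Cfsg.Agent.Lib.ChevValidB2.valid hperf (ρ := Cfsg.Agent.Lib.RF4B_B2.rhoG) (k := Cfsg.Agent.Lib.RF4B_B2.kG)
      (fun {r} h => by rw [hn] at h ⊢; exact (tb1 r h).1) (fun {r} h => by rw [hn] at h; exact (tb1 r h).2.1) (fun {r} h => by rw [hn] at h; exact (tb1 r h).2.2) hσ
    refine ⟨α, fun g i t hi => ?_⟩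
    have hi' : i < 2 := hi
    have tb2 : ∀ i, i < 2 → Cfsg.Lie.chevB2.simple i < 8 ∧ Cfsg.Lie.chevB2.neg (Cfsg.Lie.chevB2.simple i) < 8 ∧
        Cfsg.Agent.Lib.RF4B_B2.rhoG (Cfsg.Lie.chevB2.simple i) = Cfsg.Lie.chevB2.simple (([(1, 2), (0, 1)] : List (ℕ × ℕ)).getD i (0, 1)).1 ∧
        Cfsg.Agent.Lib.RF4B_B2.kG (Cfsg.Lie.chevB2.simple i) = (([(1, 2), (0, 1)] : List (ℕ × ℕ)).getD i (0, 1)).2 ∧
        Cfsg.Agent.Lib.RF4B_B2.rhoG (Cfsg.Lie.chevB2.neg (Cfsg.Lie.chevB2.simple i)) = Cfsg.Lie.chevB2.neg (Cfsg.Lie.chevB2.simple (([(1, 2), (0, 1)] : List (ℕ × ℕ)).getD i (0, 1)).1) ∧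
        Cfsg.Agent.Lib.RF4B_B2.kG (Cfsg.Lie.chevB2.neg (Cfsg.Lie.chevB2.simple i)) = (([(1, 2), (0, 1)] : List (ℕ × ℕ)).getD i (0, 1)).2 := by decide +kernel
    obtain ⟨h1, h2, h3, h4, h5, h6⟩ := tb2 i hi'
    exact ⟨fun hg => aux Cfsg.Agent.Lib.ChevValidB2.valid hα g (by rw [hn]; exact h1) t h3 h4 hg,
      fun hg => aux Cfsg.Agent.Lib.ChevValidB2.valid hα g (by rw [hn]; exact h2) t h5 h6 hg⟩
  · obtain ⟨σ, hσ⟩ := Cfsg.Agent.Lib.RF4B_F4.exists_sigma0 (K := K)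
    have tb1 : ∀ r, r < 48 → Cfsg.Agent.Lib.RF4B_F4.rhoG r < 48 ∧ Cfsg.Agent.Lib.RF4B_F4.rhoG (Cfsg.Agent.Lib.RF4B_F4.rhoG r) = r ∧ Cfsg.Agent.Lib.RF4B_F4.kG r * Cfsg.Agent.Lib.RF4B_F4.kG (Cfsg.Agent.Lib.RF4B_F4.rhoG r) = 2 := by decide +kernel
    have hn : Cfsg.Agent.Lib.ChevTbF4.T.n = 48 := by decide +kernel
    obtain ⟨α, hα⟩ := Cfsg.Agent.Lib.RF4C.exists_aut Cfsg.Agent.Lib.ChevValidF4.valid hperf (ρ := Cfsg.Agent.Lib.RF4B_F4.rhoG) (k := Cfsg.Agent.Lib.RF4B_F4.kG)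
      (fun {r} h => by rw [hn] at h ⊢; exact (tb1 r h).1) (fun {r} h => by rw [hn] at h; exact (tb1 r h).2.1) (fun {r} h => by rw [hn] at h; exact (tb1 r h).2.2) hσ
    refine ⟨α, fun g i t hi => ?_⟩
    have hi' : i < 4 := hi
    have tb2 : ∀ i, i < 4 → Cfsg.Lie.chevF4.simple i < 48 ∧ Cfsg.Lie.chevF4.neg (Cfsg.Lie.chevF4.simple i) < 48 ∧
        Cfsg.Agent.Lib.RF4B_F4.rhoG (Cfsg.Lie.chevF4.simple i) = Cfsg.Lie.chevF4.simple (([(3, 2), (2, 2), (1, 1), (0, 1)] : List (ℕ × ℕ)).getD i (0, 1)).1 ∧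
        Cfsg.Agent.Lib.RF4B_F4.kG (Cfsg.Lie.chevF4.simple i) = (([(3, 2), (2, 2), (1, 1), (0, 1)] : List (ℕ × ℕ)).getD i (0, 1)).2 ∧
        Cfsg.Agent.Lib.RF4B_F4.rhoG (Cfsg.Lie.chevF4.neg (Cfsg.Lie.chevF4.simple i)) = Cfsg.Lie.chevF4.neg (Cfsg.Lie.chevF4.simple (([(3, 2), (2, 2), (1, 1), (0, 1)] : List (ℕ × ℕ)).getD i (0, 1)).1) ∧
        Cfsg.Agent.Lib.RF4B_F4.kG (Cfsg.Lie.chevF4.neg (Cfsg.Lie.chevF4.simple i)) = (([(3, 2), (2, 2), (1, 1), (0, 1)] : List (ℕ × ℕ)).getD i (0, 1)).2 := by decide +kernel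
    obtain ⟨h1, h2, h3, h4, h5, h6⟩ := tb2 i hi'
    exact ⟨fun hg => aux Cfsg.Agent.Lib.ChevValidF4.valid hα g (by rw [hn]; exact h1) t h3 h4 hg,
      fun hg => aux Cfsg.Agent.Lib.ChevValidF4.valid hα g (by rw [hn]; exact h2) t h5 h6 hg⟩

end Cfsg.Agent.S1098
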