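import Cfsg.Statements.S1099
import Cfsg.Agent.Lib.ReeB

set_option autoImplicit false
open Cfsg

namespace Cfsg.Agent.S1099

/-- Graph automorphism of G₂ in characteristic 3 (K perfect): `x_a(t) ↦ x_b(t³)`, `x_b(t) ↦ x_a(t)`, `x_{-a}(t) ↦ x_{-b}(t³)`, `x_{-b}(t) ↦ x_{-a}(t)` extend to an automorphism of the group. -/
theorem result {K : Type*} [Field K] [CharP K 3] (hperf : ∀ x : K, ∃ y : K, y ^ 3 = x) :
    ∃ α : ↥(Cfsg.Lie.chevG2.group K) ≃* ↥(Cfsg.Lie.chevG2.group K), ∀ (g : ↥(Cfsg.Lie.chevG2.group K)) (t : K),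
      (((g : GL Cfsg.Lie.chevG2.Idx K) : Matrix _ _ K) = Cfsg.Lie.chevG2.x K Cfsg.Lie.g2a t →
        ((α g : GL Cfsg.Lie.chevG2.Idx K) : Matrix _ _ K) = Cfsg.Lie.chevG2.x K Cfsg.Lie.g2b (t ^ 3)) ∧
      (((g : GL Cfsg.Lie.chevG2.Idx K) : Matrix _ _ K) = Cfsg.Lie.chevG2.x K Cfsg.Lie.g2b t →
        ((α g : GL Cfsg.Lie.chevG2.Idx K) : Matrix _ _ K) = Cfsg.Lie.chevG2.x K Cfsg.Lie.g2a t) ∧
      (((g : GL Cfsg.Lie.chevG2.Idx K) : Matrix _ _ K) = Cfsg.Lie.chevG2.x K Cfsg.Lie.g2ma t →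
        ((α g : GL Cfsg.Lie.chevG2.Idx K) : Matrix _ _ K) = Cfsg.Lie.chevG2.x K Cfsg.Lie.g2mb (t ^ 3)) ∧
      (((g : GL Cfsg.Lie.chevG2.Idx K) : Matrix _ _ K) = Cfsg.Lie.chevG2.x K Cfsg.Lie.g2mb t →
        ((α g : GL Cfsg.Lie.chevG2.Idx K) : Matrix _ _ K) = Cfsg.Lie.chevG2.x K Cfsg.Lie.g2ma t) := by
  open Cfsg.Agent.Lib.ChevAut3 Cfsg.Agent.Lib.ReeB Cfsg.Agent.Lib.ChevTbG2 Cfsg.Agent.Lib.ChevValidG2 Cfsg.Agent.Lib.ChevGL in
  obtain ⟨σ, hσ⟩ := exists_sigma0 (K := K)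
  have hs := simple_G (K := K)
  have hinj : Function.Injective σ := by
    rw [injective_iff_map_eq_one]
    intro g hg
    have h1 : σ.ker = ⊥ ∨ σ.ker = ⊤ := (MonoidHom.normal_ker σ).eq_bot_or_eq_top
    rcases h1 with h1 | h1
    · have : g ∈ σ.ker := hg
      rw [h1, Subgroup.mem_bot] at this
      exact this
    · exfalso
      have h2 : xG valid (r := 7) (by decide) (1 : K) ∈ σ.ker := by rw [h1]; trivial
      have h3 := hσ (r := 7) (by decide) (1 : K)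
      rw [show σ (xG valid (r := 7) (by decide) (1 : K)) = 1 from h2] at h3
      have h4 : rhoG 7 = 6 := by decide
      rw [h4] at h3
      have h5 := Cfsg.Agent.Lib.ChevTw1.xU_ne_one valid Cfsg.Agent.Lib.ChevV2G2.valid2 Cfsg.Agent.Lib.ChevV3G2.valid3 Cfsg.Agent.Lib.ChevV4G2.valid4 (s := 6) (by decide) (c := (1 : K) ^ kG 7) (by simp)
      exact h5 h3.symm
  have hsurj : Function.Surjective σ := by
    rw [← MonoidHom.range_eq_top]
    rw [eq_top_iff]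
    rintro ⟨g, hg⟩ -
    have hg' := hg
    rw [Cfsg.Agent.Lib.ChevGL.group_eq valid] at hg'
    induction hg' using Subgroup.closure_induction with
    | mem x hx =>
      obtain ⟨r, t, hr, rfl⟩ := hx
      have hr' : r < T.n := by rw [n_eq]; exact hr
      have hr2 : rhoG r < T.n := by rw [n_eq]; exact rho_lt r hr
      have hrr : ∀ r, r < 12 → rhoG (rhoG r) = r := by decide
      have hk : ∃ s : K, s ^ kG (rhoG r) = t := by
        have h12 : ∀ r, r < 12 → kG r = 3 ∨ kG r = 1 := by decide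
        rcases h12 (rhoG r) (by rw [n_eq] at hr2; exact hr2) with h | h
        · obtain ⟨s, hs⟩ := hperf t
          exact ⟨s, by rw [h]; exact hs⟩
        · exact ⟨t, by rw [h, pow_one]⟩
      obtain ⟨s, hs⟩ := hk
      refine ⟨xG valid hr2 s, Subtype.ext ?_⟩
      have := hσ hr2 s
      rw [hrr r hr, hs] at this
      exact this
    | one => exact Subgroup.one_mem _
    | mul a b ha hb h1 h2 =>
      have e : (⟨a * b, hg⟩ : ↥(Cfsg.Lie.chevG2.group K)) = ⟨a, by rw [Cfsg.Agent.Lib.ChevGL.group_eq valid]; exact ha⟩ * ⟨b, by rw [Cfsg.Agent.Lib.ChevGL.group_eq valid]; exact hb⟩ := rfl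
      rw [e]
      exact Subgroup.mul_mem _ (h1 _) (h2 _)
    | inv a ha h1 =>
      have e : (⟨a⁻¹, hg⟩ : ↥(Cfsg.Lie.chevG2.group K)) = (⟨a, by rw [Cfsg.Agent.Lib.ChevGL.group_eq valid]; exact ha⟩)⁻¹ := rfl
      rw [e]
      exact Subgroup.inv_mem _ (h1 _)
  refine ⟨MulEquiv.ofBijective σ ⟨hinj, hsurj⟩, ?_⟩
  intro g t
  have key : ∀ {r : ℕ} (hr : r < T.n), ((g : GL Cfsg.Lie.chevG2.Idx K) : Matrix _ _ K) = Cfsg.Lie.chevG2.x K r t →
      (((MulEquiv.ofBijective σ ⟨hinj, hsurj⟩) g : GL Cfsg.Lie.chevG2.Idx K) : Matrix _ _ K) = Cfsg.Lie.chevG2.x K (rhoG r) (t ^ kG r) := by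
    intro r hr h
    have e : g = xG valid hr t := Subtype.ext (Units.ext h)
    rw [e]
    show (((σ (xG valid hr t) : ↥(Cfsg.Lie.chevG2.group K)) : GL Cfsg.Lie.chevG2.Idx K) : Matrix Cfsg.Lie.chevG2.Idx Cfsg.Lie.chevG2.Idx K) = _
    rw [hσ hr t]
    rfl
  refine ⟨fun h => ?_, fun h => ?_, fun h => ?_, fun h => ?_⟩
  · simpa [show rhoG Cfsg.Lie.g2a = Cfsg.Lie.g2b from by decide, show kG Cfsg.Lie.g2a = 3 from by decide] using key (r := Cfsg.Lie.g2a) (by decide) h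
  · simpa [show rhoG Cfsg.Lie.g2b = Cfsg.Lie.g2a from by decide, show kG Cfsg.Lie.g2b = 1 from by decide] using key (r := Cfsg.Lie.g2b) (by decide) h
  · simpa [show rhoG Cfsg.Lie.g2ma = Cfsg.Lie.g2mb from by decide, show kG Cfsg.Lie.g2ma = 3 from by decide] using key (r := Cfsg.Lie.g2ma) (by decide) h
  · simpa [show rhoG Cfsg.Lie.g2mb = Cfsg.Lie.g2ma from by decide, show kG Cfsg.Lie.g2mb = 1 from by decide] using key (r := Cfsg.Lie.g2mb) (by decide) h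

end Cfsg.Agent.S1099
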