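import Cfsg.Statements.S1137
import Cfsg.Agent.Lib.H1Suzuki

set_option autoImplicit false
open Cfsg

namespace Cfsg.Agent.S1137

/-- In a Suzuki 2-group `P` (a finite non-abelian 2-group with more than one involution admitting a cyclic group of automorphisms regular on its involutions) the involutions are exactly the non-identity central elements, and `Z(P)` is elementary abelian. -/
theorem result {P : Type*} [Group P] (hP : Cfsg.IsSuzukiTwoGroup P) :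
    (∀ x : P, (x ≠ 1 ∧ x * x = 1) ↔ (x ∈ Subgroup.center P ∧ x ≠ 1)) ∧
      ∀ z ∈ Subgroup.center P, z * z = 1 := by
  obtain ⟨hfin, h2, hNA, ⟨i₁, i₂, hne, hi₁, hi₁', hi₂, hi₂'⟩, K, hcyc, hK⟩ := hP
  let ρ : K →* MulAut P := K.subtype
  have hS : Cfsg.Agent.Lib.H1Suzuki.Setup ρ := by
    refine ⟨fun k k' => ?_, fun x y hx hx' hy hy' => ?_, fun k x hx hx' hk => ?_,
      ⟨i₁, i₂, hne, hi₁, hi₁', hi₂, hi₂'⟩⟩
    · letI := IsCyclic.commGroup (α := K)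
      exact mul_comm k k'
    · obtain ⟨k, hk, -⟩ := hK x y hx hx' hy hy'
      exact ⟨k, hk⟩
    · obtain ⟨k₀, -, hu⟩ := hK x x hx hx' hx hx'
      rw [hu k hk, hu 1 rfl]
  have hmain := Cfsg.Agent.Lib.H1Suzuki.center_sq (Nat.card P) P le_rfl h2 ρ hS
    (by
      obtain ⟨x, y, h⟩ := hNA
      exact ⟨x, y, h⟩)
  have hcen : ∀ z ∈ Subgroup.center P, z * z = 1 := fun z hz =>
    hmain z (fun y => (Subgroup.mem_center_iff.1 hz) y)
  refine ⟨fun x => ⟨fun ⟨hx, hx'⟩ => ⟨?_, hx⟩, fun ⟨hx, hx'⟩ => ⟨hx', hcen x hx⟩⟩, hcen⟩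
  haveI : Nontrivial P := ⟨⟨x, 1, hx⟩⟩
  haveI := h2.center_nontrivial
  obtain ⟨⟨z, hz⟩, hz1⟩ := exists_ne (1 : Subgroup.center P)
  have hz1' : z ≠ 1 := fun h => hz1 (Subtype.ext h)
  obtain ⟨k, rfl⟩ := hS.trans z x hz1' (hcen z hz) hx hx'
  exact Subgroup.mem_center_iff.2 (Cfsg.Agent.Lib.H1Suzuki.Cn.rho ρ k
    (fun y => (Subgroup.mem_center_iff.1 hz) y))

end Cfsg.Agent.S1137
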