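import Cfsg.Statements.S1160
import Cfsg.Agent.Lib.PGrp8
import Cfsg.Agent.Lib.H1Frat

set_option autoImplicit false
open Cfsg

namespace Cfsg.Agent.S1160

section Aux

open scoped Classical

variable {P E : Type*} [Group P] [Fintype P] [AddCommGroup E] [DistribMulAction P E]

/-- The sum over a subgroup. -/
noncomputable def sumB (B : Subgroup P) (x : E) : E :=
  ∑ b ∈ Finset.univ.filter (· ∈ B), b • x

lemma sumB_smul {B : Subgroup P} {c : P} (hc : c ∈ B) (x : E) : c • sumB B x = sumB B x := by
  rw [sumB, Finset.smul_sum]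
  refine Finset.sum_nbij' (fun b => c * b) (fun b => c⁻¹ * b) ?_ ?_ ?_ ?_ ?_
  · intro b hb
    simp only [Finset.mem_filter, Finset.mem_univ, true_and] at hb ⊢
    exact B.mul_mem hc hb
  · intro b hb
    simp only [Finset.mem_filter, Finset.mem_univ, true_and] at hb ⊢
    exact B.mul_mem (B.inv_mem hc) hb
  · intro b _
    simp
  · intro b _
    simp
  · intro b _
    rw [mul_smul]

lemma sumB_add (B : Subgroup P) (x y : E) : sumB B (x + y) = sumB B x + sumB B y := by
  simp only [sumB, smul_add, Finset.sum_add_distrib]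

lemma sumB_of_fixed {B : Subgroup P} {x : E} (hx : ∀ b ∈ B, b • x = x) :
    sumB B x = Nat.card B • x := by
  rw [sumB, Finset.sum_congr rfl (fun b hb => hx b (Finset.mem_filter.1 hb).2), Finset.sum_const,
    Nat.card_eq_fintype_card, Fintype.card_subtype]

/-- Conjugate subgroup. -/
abbrev cj (g : P) (B : Subgroup P) : Subgroup P := B.map (MulAut.conj g).toMonoidHom

lemma mem_cj {g b : P} {B : Subgroup P} : b ∈ cj g B ↔ g⁻¹ * b * g ∈ B := by
  constructor
  · rintro ⟨c, hc, rfl⟩
    simpa [mul_assoc] using hc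
  · intro h
    exact ⟨g⁻¹ * b * g, h, by simp [mul_assoc]⟩

lemma card_cj (g : P) (B : Subgroup P) : Nat.card (cj g B) = Nat.card B :=
  Subgroup.card_map_of_injective (MulAut.conj g).injective

lemma sumB_conj (g : P) (B : Subgroup P) (x : E) : g • sumB B x = sumB (cj g B) (g • x) := by
  rw [sumB, sumB, Finset.smul_sum]
  refine Finset.sum_nbij' (fun b => g * b * g⁻¹) (fun b => g⁻¹ * b * g) ?_ ?_ ?_ ?_ ?_
  · intro b hb
    simp only [Finset.mem_filter, Finset.mem_univ, true_and] at hb ⊢
    rw [mem_cj]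
    simpa [mul_assoc] using hb
  · intro b hb
    simp only [Finset.mem_filter, Finset.mem_univ, true_and] at hb ⊢
    exact mem_cj.1 hb
  · intro b _
    simp [mul_assoc]
  · intro b _
    simp [mul_assoc]
  · intro b _
    simp [mul_smul]

lemma smul_nsmul' (c : P) (m : ℕ) (y : E) : c • (m • y) = m • (c • y) :=
  map_nsmul (DistribMulAction.toAddMonoidHom E c) m y

/-- Two subgroups of order `p` fixing `x` inside a group of order `p ^ 2` force `A` to fix `x`. -/
lemma fixed_of_two {p : ℕ} [Fact p.Prime] {A B B' : Subgroup P} (hA : Nat.card A = p ^ 2)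
    (hB : B ≤ A) (hB' : B' ≤ A) (hcB : Nat.card B = p) (hcB' : Nat.card B' = p) (hne : B ≠ B')
    {x : E} (h : ∀ b ∈ B, b • x = x) (h' : ∀ b ∈ B', b • x = x) : ∀ a ∈ A, a • x = x := by
  set S : Subgroup P := MulAction.stabilizer P x ⊓ A with hS
  have hSA : S ≤ A := inf_le_right
  have hBS : B ≤ S := le_inf (fun b hb => h b hb) hB
  have hBS' : B' ≤ S := le_inf (fun b hb => h' b hb) hB'
  have hp : p.Prime := Fact.out
  have hd : Nat.card S ∣ p ^ 2 := hA ▸ Subgroup.card_dvd_of_le hSA
  obtain ⟨i, hi, e⟩ := (Nat.dvd_prime_pow hp).1 hd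
  have hdB : p ∣ Nat.card S := hcB ▸ Subgroup.card_dvd_of_le hBS
  have hcases : i = 1 ∨ i = 2 := by
    rw [e] at hdB
    have : 1 ≤ i := by
      rcases Nat.eq_zero_or_pos i with rfl | h0
      · simp at hdB
        exact absurd hdB hp.one_lt.ne'
      · exact h0
    omega
  rcases hcases with rfl | rfl
  · exfalso
    rw [pow_one] at e
    have h1 : B = S := Subgroup.eq_of_le_of_card_ge hBS (by rw [e, hcB])
    have h2 : B' = S := Subgroup.eq_of_le_of_card_ge hBS' (by rw [e, hcB'])
    exact hne (h1.trans h2.symm)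
  · have : S = A := Subgroup.eq_of_le_of_card_ge hSA (by rw [e, hA])
    intro a ha
    have : a ∈ S := this ▸ ha
    exact this.1

/-- Double counting over the subgroups of order `p`. -/
lemma double_count {p : ℕ} [Fact p.Prime] {A : Subgroup P} (hAe : ∀ a ∈ A, a ^ p = 1)
    (𝓑 : Finset (Subgroup P)) (h𝓑 : ∀ B, B ∈ 𝓑 ↔ B ≤ A ∧ Nat.card B = p)
    {M : Type*} [AddCommMonoid M] (f : P → M) :
    ∑ B ∈ 𝓑, ∑ b ∈ Finset.univ.filter (· ∈ B), f b =
      ∑ b ∈ Finset.univ.filter (fun b => b ∈ A ∧ b ≠ 1), f b + 𝓑.card • f 1 := by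
  have hp : p.Prime := Fact.out
  simp only [Finset.sum_filter]
  rw [Finset.sum_comm]
  have key : ∀ b : P, ∑ B ∈ 𝓑, (if b ∈ B then f b else 0) =
      (if b ∈ A ∧ b ≠ 1 then f b else 0) + (if b = 1 then 𝓑.card • f 1 else 0) := by
    intro b
    by_cases hb1 : b = 1
    · subst hb1
      simp [Subgroup.one_mem]
    · simp only [hb1, if_false, add_zero, ne_eq, not_false_eq_true, and_true]
      by_cases hbA : b ∈ A
      · simp only [hbA, if_true]
        have hord : orderOf b = p := orderOf_eq_prime (hAe b hbA) hb1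
        have hzc : Nat.card (Subgroup.zpowers b) = p := by rw [Nat.card_zpowers, hord]
        have hzm : Subgroup.zpowers b ∈ 𝓑 := (h𝓑 _).2
          ⟨(Subgroup.zpowers_le).2 hbA, hzc⟩
        rw [Finset.sum_eq_single (Subgroup.zpowers b)]
        · simp [Subgroup.mem_zpowers]
        · intro B hB hne
          rw [if_neg]
          intro hbB
          apply hne
          have hc := ((h𝓑 B).1 hB).2
          exact (Subgroup.eq_of_le_of_card_ge ((Subgroup.zpowers_le).2 hbB)
            (by rw [hc, hzc])).symm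
        · intro h
          exact absurd hzm h
      · simp only [hbA, if_false]
        refine Finset.sum_eq_zero fun B hB => ?_
        rw [if_neg]
        exact fun hbB => hbA (((h𝓑 B).1 hB).1 hbB)
  rw [Finset.sum_congr rfl (fun b _ => key b), Finset.sum_add_distrib]
  simp

end Aux

section Main

open scoped Classical

variable {P E : Type*} [Group P] [Fintype P] [AddCommGroup E] [DistribMulAction P E]

lemma stab_eq (hconst : ∀ a b : E, a ≠ 0 → b ≠ 0 →
      Nat.card (MulAction.stabilizer P a) = Nat.card (MulAction.stabilizer P b))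
    {a a' : E} (ha : a ≠ 0) (ha' : a' ≠ 0) (hs : a + a' ≠ 0)
    (h : ∀ g : P, g • (a + a') = a + a' → g • a = a) :
    MulAction.stabilizer P a = MulAction.stabilizer P a' := by
  have hle : MulAction.stabilizer P (a + a') ≤ MulAction.stabilizer P a := fun g hg => h g hg
  have hle' : MulAction.stabilizer P (a + a') ≤ MulAction.stabilizer P a' := fun g hg => by
    have e1 := h g hg
    have e2 : g • a + g • a' = a + a' := by rw [← smul_add]; exact hg
    rw [e1] at e2
    exact add_left_cancel e2
  have e1 := Subgroup.eq_of_le_of_card_ge hle (by rw [hconst a (a + a') ha hs])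
  have e2 := Subgroup.eq_of_le_of_card_ge hle' (by rw [hconst a' (a + a') ha' hs])
  exact e1.symm.trans e2

lemma central_fpf {p m : ℕ} [Fact p.Prime] (hm : ∀ x : E, (m * p) • x = x)
    (hconst : ∀ a b : E, a ≠ 0 → b ≠ 0 →
      Nat.card (MulAction.stabilizer P a) = Nat.card (MulAction.stabilizer P b))
    [FaithfulSMul P E]
    {z : P} (hzc : ∀ g : P, g * z = z * g) (hz1 : z ≠ 1) (hzp : z ^ p = 1)
    {a : E} (ha : a ≠ 0) (hza : z • a = a) : False := by
  set B : Subgroup P := Subgroup.zpowers z with hB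
  have hord : orderOf z = p := orderOf_eq_prime hzp hz1
  have hcard : Nat.card B = p := by rw [hB, Nat.card_zpowers, hord]
  let e : E → E := fun x => m • sumB B x
  have e_fix : ∀ x, ∀ b ∈ B, b • e x = e x := fun x b hb => by
    simp only [e]
    rw [smul_nsmul', sumB_smul hb]
  have e_id : ∀ x, (∀ b ∈ B, b • x = x) → e x = x := fun x hx => by
    simp only [e]
    rw [sumB_of_fixed hx, hcard, smul_smul, hm]
  have e_add : ∀ x y, e (x + y) = e x + e y := fun x y => by
    simp only [e]
    rw [sumB_add, smul_add]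
  have hcj : ∀ g : P, cj g B = B := fun g => by
    have h1 : Subgroup.map (MulAut.conj g).toMonoidHom (Subgroup.zpowers z)
        = Subgroup.zpowers ((MulAut.conj g).toMonoidHom z) := MonoidHom.map_zpowers _ _
    have h2 : (MulAut.conj g).toMonoidHom z = z := by
      show g * z * g⁻¹ = z
      rw [hzc g, mul_inv_cancel_right]
    show Subgroup.map (MulAut.conj g).toMonoidHom B = B
    rw [hB, h1, h2]
  have e_comm : ∀ (g : P) x, g • e x = e (g • x) := fun g x => by
    simp only [e]
    rw [smul_nsmul', sumB_conj, hcj]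
  have hfix_z : ∀ x : E, z • x = x → ∀ b ∈ B, b • x = x := by
    intro x hx b hb
    have : z ∈ MulAction.stabilizer P x := hx
    exact (Subgroup.zpowers_le.2 this) hb
  obtain ⟨x, hx⟩ : ∃ x : E, z • x ≠ x := by
    by_contra hcon
    push Not at hcon
    exact hz1 (FaithfulSMul.eq_of_smul_eq_smul (α := E) (fun x : E => by rw [hcon x, one_smul]))
  set u : E := x - e x with hu
  have hxu : x = u + e x := by rw [hu, sub_add_cancel]
  have heu : e u = 0 := by
    have h1 := e_add u (e x)
    rw [← hxu, e_id (e x) (e_fix x)] at h1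
    have h2 : e u + e x = 0 + e x := by rw [zero_add]; exact h1.symm
    exact add_right_cancel h2
  have hu0 : u ≠ 0 := by
    intro h0
    apply hx
    rw [hxu, h0, zero_add]
    exact e_fix x z (Subgroup.mem_zpowers z)
  have hea : e a = a := e_id a (hfix_z a hza)
  have hs : a + u ≠ 0 := by
    intro h0
    have := e_add a u
    rw [h0, hea, heu, add_zero] at this
    have e0 : e 0 = 0 := by simp [e, sumB]
    rw [e0] at this
    exact ha this.symm
  have hst := stab_eq hconst ha hu0 hs (fun g hg => by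
    have h1 := e_comm g (a + u)
    rw [hg, e_add, hea, heu, add_zero] at h1
    exact h1)
  have hzu : z • u = u := by
    have : z ∈ MulAction.stabilizer P u := hst ▸ (hza : z ∈ MulAction.stabilizer P a)
    exact this
  have := e_id u (hfix_z u hzu)
  rw [heu] at this
  exact hu0 this.symm

end Main

section Final

open scoped Classical

variable {P E : Type*} [Group P] [Fintype P] [AddCommGroup E] [DistribMulAction P E]

lemma no_A {p m : ℕ} [Fact p.Prime] (hp2 : p ≠ 2) (hP : IsPGroup p P)
    (hm : ∀ x : E, (m * p) • x = x)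
    (hconst : ∀ a b : E, a ≠ 0 → b ≠ 0 →
      Nat.card (MulAction.stabilizer P a) = Nat.card (MulAction.stabilizer P b))
    [FaithfulSMul P E] (A : Subgroup P) (hAn : A.Normal) (hAe : Cfsg.IsElementaryAbelian p A)
    (hAc : Nat.card A = p ^ 2) : False := by
  have hp : p.Prime := Fact.out
  obtain ⟨hAcomm, hApow⟩ := hAe
  have hAcm : ∀ a ∈ A, ∀ b ∈ A, a * b = b * a := by
    intro a ha b hb
    have := hAcomm.is_comm.comm ⟨a, ha⟩ ⟨b, hb⟩
    exact congrArg Subtype.val this
  haveI : Group.IsNilpotent P := hP.isNilpotent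
  have hAb : A ≠ ⊥ := by
    intro h
    rw [h, Subgroup.card_bot] at hAc
    have : 1 < p ^ 2 := Nat.one_lt_pow (by norm_num) hp.one_lt
    omega
  have hz := Cfsg.Agent.Lib.H1Frat.normal_inf_center_ne_bot A hAb
  obtain ⟨z, hzm, hz1⟩ := (Subgroup.bot_or_exists_ne_one _).resolve_left hz
  have hzA : z ∈ A := hzm.1
  have hzC : ∀ g : P, g * z = z * g := fun g => (Subgroup.mem_center_iff.1 hzm.2) g
  -- `A` has no fixed points
  have hCA : ∀ x : E, (∀ a ∈ A, a • x = x) → x = 0 := by
    intro x hx
    by_contra hx0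
    exact central_fpf hm hconst hzC hz1 (hApow z hzA) hx0 (hx z hzA)
  -- the family of subgroups of order p
  let 𝓑 : Finset (Subgroup P) :=
    (Set.toFinite {B : Subgroup P | B ≤ A ∧ Nat.card B = p}).toFinset
  have h𝓑 : ∀ B, B ∈ 𝓑 ↔ B ≤ A ∧ Nat.card B = p := fun B => by
    simp [𝓑]
  -- its size
  have hfilt : ∀ B : Subgroup P, (Finset.univ.filter (· ∈ B)).card = Nat.card B := fun B => by
    rw [Nat.card_eq_fintype_card, Fintype.card_subtype]
  have hcount : 𝓑.card = p + 1 := by
    have e1 := double_count (p := p) (A := A) hApow 𝓑 h𝓑 (fun _ => (1 : ℕ))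
    simp only [Finset.sum_const, smul_eq_mul, mul_one] at e1
    have e2 : ∑ B ∈ 𝓑, (Finset.univ.filter (· ∈ B)).card = 𝓑.card * p := by
      rw [Finset.sum_congr rfl (fun B hB => by rw [hfilt, ((h𝓑 B).1 hB).2]), Finset.sum_const,
        smul_eq_mul]
    rw [e2] at e1
    have e3 : (Finset.univ.filter (fun b => b ∈ A ∧ b ≠ 1)).card + 1 = p ^ 2 := by
      rw [← hAc, ← hfilt A]
      have : Finset.univ.filter (· ∈ A) =
          insert 1 (Finset.univ.filter (fun b => b ∈ A ∧ b ≠ 1)) := by
        ext b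
        simp only [Finset.mem_filter, Finset.mem_univ, true_and, Finset.mem_insert]
        constructor
        · intro h
          by_cases hb : b = 1
          · exact Or.inl hb
          · exact Or.inr ⟨h, hb⟩
        · rintro (rfl | h)
          · exact A.one_mem
          · exact h.1
      rw [this, Finset.card_insert_of_notMem (by simp)]
    obtain ⟨k, rfl⟩ : ∃ k, p = k + 2 := ⟨p - 2, by have := hp.two_le; omega⟩
    have e4 : (𝓑.card + 0) * (k + 1) = (k + 3) * (k + 1) := by
      nlinarith
    have := Nat.eq_of_mul_eq_mul_right (by omega) e4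
    omega
  -- the idempotents
  let e : Subgroup P → E → E := fun B x => m • sumB B x
  have e_fix : ∀ B x, ∀ b ∈ B, b • e B x = e B x := fun B x b hb => by
    simp only [e]
    rw [smul_nsmul', sumB_smul hb]
  have e_id : ∀ B, B ∈ 𝓑 → ∀ x, (∀ b ∈ B, b • x = x) → e B x = x := fun B hB x hx => by
    simp only [e]
    rw [sumB_of_fixed hx, ((h𝓑 B).1 hB).2, smul_smul, hm]
  have e_add : ∀ B x y, e B (x + y) = e B x + e B y := fun B x y => by
    simp only [e]
    rw [sumB_add, smul_add]
  have e_van : ∀ B, B ∈ 𝓑 → ∀ D, D ∈ 𝓑 → D ≠ B → ∀ x, (∀ d ∈ D, d • x = x) → e B x = 0 := by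
    intro B hB D hD hne x hx
    apply hCA
    refine fixed_of_two hAc ((h𝓑 B).1 hB).1 ((h𝓑 D).1 hD).1 ((h𝓑 B).1 hB).2 ((h𝓑 D).1 hD).2
      hne.symm (e_fix B x) ?_
    intro d hd
    have hdA := ((h𝓑 D).1 hD).1 hd
    have hcomm : ∀ b ∈ A, d⁻¹ * b * d = b := fun b hb => by
      rw [mul_assoc, hAcm b hb d hdA, inv_mul_cancel_left]
    have hBA := ((h𝓑 B).1 hB).1
    have hcj : cj d B = B := by
      ext b
      rw [mem_cj]
      constructor
      · intro h
        have h1 : d⁻¹ * b * d ∈ A := hBA h
        have h2 : b ∈ A := by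
          have := A.mul_mem (A.mul_mem hdA h1) (A.inv_mem hdA)
          simpa [mul_assoc] using this
        rwa [hcomm b h2] at h
      · intro h
        rwa [hcomm b (hBA h)]
    simp only [e]
    rw [smul_nsmul', sumB_conj, hx d hd, hcj]
  have hins : Finset.univ.filter (· ∈ A) =
      insert 1 (Finset.univ.filter (fun b => b ∈ A ∧ b ≠ 1)) := by
    ext b
    simp only [Finset.mem_filter, Finset.mem_univ, true_and, Finset.mem_insert]
    constructor
    · intro h
      by_cases hb : b = 1
      · exact Or.inl hb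
      · exact Or.inr ⟨h, hb⟩
    · rintro (rfl | h)
      · exact A.one_mem
      · exact h.1
  have e_sum : ∀ x, ∑ B ∈ 𝓑, e B x = x := by
    intro x
    simp only [e]
    rw [← Finset.smul_sum]
    have h1 := double_count (p := p) (A := A) hApow 𝓑 h𝓑 (fun b => b • x)
    simp only [sumB]
    rw [h1, hcount, one_smul]
    have h2 : sumB A x = 0 := hCA _ (fun a ha => sumB_smul ha x)
    rw [sumB, hins, Finset.sum_insert (by simp), one_smul] at h2
    have h3 : ∑ b ∈ Finset.univ.filter (fun b => b ∈ A ∧ b ≠ 1), b • x + (p + 1) • x = p • x := by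
      rw [add_smul, one_smul]
      have h4 : ∑ b ∈ Finset.univ.filter (fun b => b ∈ A ∧ b ≠ 1), b • x + (p • x + x)
          = p • x + (x + ∑ b ∈ Finset.univ.filter (fun b => b ∈ A ∧ b ≠ 1), b • x) := by abel
      rw [h4, h2, add_zero]
    rw [h3, smul_smul, hm]
  -- existence of fixed vectors for several subgroups
  have ex_other : ∀ B₁ ∈ 𝓑, ∃ B₂ ∈ 𝓑, B₂ ≠ B₁ ∧ ∃ x : E, x ≠ 0 ∧ ∀ b ∈ B₂, b • x = x := by
    intro B₁ hB₁
    by_contra hcon
    push Not at hcon
    have hzero : ∀ B ∈ 𝓑, B ≠ B₁ → ∀ x, e B x = 0 := by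
      intro B hB hne x
      by_contra h0
      obtain ⟨b, hb, hb2⟩ := hcon B hB hne (e B x) h0
      exact hb2 (e_fix B x b hb)
    have hfix : ∀ x, e B₁ x = x := by
      intro x
      have := e_sum x
      rwa [Finset.sum_eq_single_of_mem B₁ hB₁ (fun B hB hne => hzero B hB hne x)] at this
    have hbot : B₁ = ⊥ := by
      rw [Subgroup.eq_bot_iff_forall]
      intro b hb
      exact FaithfulSMul.eq_of_smul_eq_smul (α := E) (fun x : E => by
        rw [one_smul, ← hfix x]
        exact e_fix B₁ x b hb)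
    have := ((h𝓑 B₁).1 hB₁).2
    rw [hbot, Subgroup.card_bot] at this
    exact hp.one_lt.ne this
  obtain ⟨B₀, hB₀⟩ : 𝓑.Nonempty := by
    rw [← Finset.card_pos, hcount]
    omega
  obtain ⟨B, hB, -, a, ha, hab⟩ := ex_other B₀ hB₀
  obtain ⟨B', hB', hne, a', ha', hab'⟩ := ex_other B hB
  have hBA := (h𝓑 B).1 hB
  have hBA' := (h𝓑 B').1 hB'
  have hcj𝓑 : ∀ (g : P) (D : Subgroup P), D ∈ 𝓑 → cj g D ∈ 𝓑 := by
    intro g D hD
    refine (h𝓑 _).2 ⟨?_, by rw [card_cj]; exact ((h𝓑 D).1 hD).2⟩
    rintro _ ⟨c, hc, rfl⟩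
    exact hAn.conj_mem c (((h𝓑 D).1 hD).1 hc) g
  have hcjfix : ∀ (g : P) (D : Subgroup P) (x : E), (∀ d ∈ D, d • x = x) →
      ∀ d ∈ cj g D, d • (g • x) = g • x := by
    intro g D x hx d hd
    have h1 := hx _ (mem_cj.1 hd)
    calc d • (g • x) = g • ((g⁻¹ * d * g) • x) := by simp [mul_smul]
      _ = g • x := by rw [h1]
  have hcjinj : ∀ (g : P) (D D' : Subgroup P), cj g D = cj g D' → D = D' := fun g D D' h =>
    Subgroup.map_injective (MulAut.conj g).injective h
  have hodd : ∀ g : P, ∀ x : E, (g * g) • x = x → g • x = x := by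
    intro g x hx
    have hcop : Nat.Coprime 2 (orderOf g) := by
      obtain ⟨n, hn⟩ := hP g
      exact Nat.Coprime.coprime_dvd_right (orderOf_dvd_of_pow_eq_one hn)
        (Nat.Coprime.pow_right n ((Nat.coprime_primes Nat.prime_two hp).2 hp2.symm))
    obtain ⟨k, hk⟩ := exists_pow_eq_self_of_coprime hcop
    have hst : g ^ 2 ∈ MulAction.stabilizer P x := by
      rw [sq]
      exact hx
    have := Subgroup.pow_mem _ hst k
    rw [hk] at this
    exact this
  have key : ∀ g : P, g • (a + a') = a + a' → g • a = a := by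
    intro g hg
    have hg' : g • a + g • a' = a + a' := by rw [← smul_add]; exact hg
    have hfa := hcjfix g B a hab
    have hfa' := hcjfix g B' a' hab'
    have eB : e B (g • a) + e B (g • a') = a := by
      rw [← e_add, hg', e_add, e_id B hB a hab, e_van B hB B' hB' hne a' hab', add_zero]
    have eB' : e B' (g • a) + e B' (g • a') = a' := by
      rw [← e_add, hg', e_add, e_id B' hB' a' hab', e_van B' hB' B hB hne.symm a hab, zero_add]
    by_cases h1 : cj g B = B
    · have hne2 : cj g B' ≠ B := fun h => hne (hcjinj g B' B (h.trans h1.symm))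
      rw [e_id B hB _ (h1 ▸ hfa), e_van B hB (cj g B') (hcj𝓑 g B' hB') hne2 _ hfa', add_zero] at eB
      exact eB
    · by_cases h2 : cj g B' = B
      · rw [e_van B hB (cj g B) (hcj𝓑 g B hB) h1 _ hfa, e_id B hB _ (h2 ▸ hfa'), zero_add] at eB
        by_cases h3 : cj g B = B'
        · have hne3 : cj g B' ≠ B' := by rw [h2]; exact hne.symm
          rw [e_id B' hB' _ (h3 ▸ hfa), e_van B' hB' (cj g B') (hcj𝓑 g B' hB') hne3 _ hfa',
            add_zero] at eB'
          apply hodd
          rw [mul_smul, eB', eB]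
        · have hne3 : cj g B' ≠ B' := by rw [h2]; exact hne.symm
          rw [e_van B' hB' (cj g B) (hcj𝓑 g B hB) h3 _ hfa,
            e_van B' hB' (cj g B') (hcj𝓑 g B' hB') hne3 _ hfa', add_zero] at eB'
          exact absurd eB'.symm ha'
      · rw [e_van B hB (cj g B) (hcj𝓑 g B hB) h1 _ hfa,
          e_van B hB (cj g B') (hcj𝓑 g B' hB') h2 _ hfa', add_zero] at eB
        exact absurd eB.symm ha
  have hs : a + a' ≠ 0 := by
    intro h0
    have e0 : a' = -a := eq_neg_of_add_eq_zero_right h0
    apply ha'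
    apply hCA
    refine fixed_of_two hAc hBA.1 hBA'.1 hBA.2 hBA'.2 hne.symm (fun b hb => ?_) hab'
    rw [e0, smul_neg, hab b hb]
  have hst := stab_eq hconst ha ha' hs key
  apply ha'
  apply hCA
  refine fixed_of_two hAc hBA.1 hBA'.1 hBA.2 hBA'.2 hne.symm (fun b hb => ?_) hab'
  have : b ∈ MulAction.stabilizer P a' := hst ▸ (show b ∈ MulAction.stabilizer P a from hab b hb)
  exact this

end Final
/-- Let `p ≠ 2` be prime and `P` a finite `p`-group acting faithfully by additive automorphisms on a finite elementary abelian `q`-group `E` (`q` prime), such that `|P_a|` is the same for all `a ≠ 0`. Then `P` is cyclic and every non-identity element of `P` fixes only `0`. -/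
theorem result {P E : Type*} [Group P] [Finite P]
    [AddCommGroup E] [Finite E] [DistribMulAction P E] [FaithfulSMul P E]
    {p q : ℕ} [Fact p.Prime] (hp2 : p ≠ 2) (hP : IsPGroup p P) (hq : q.Prime) (hE : ∀ e : E, q • e = 0)
    (hconst : ∀ a b : E, a ≠ 0 → b ≠ 0 →
      Nat.card (MulAction.stabilizer P a) = Nat.card (MulAction.stabilizer P b)) :
    IsCyclic P ∧ ∀ g : P, g ≠ 1 → ∀ a : E, g • a = a → a = 0 := by

  classical
  cases nonempty_fintype P
  cases nonempty_fintype E
  by_cases hpq : p = q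
  · -- the `p`-group acts on a `p`-group
    subst hpq
    have hall : ∀ g : P, g = 1 := by
      by_cases hNt : Nontrivial E
      · obtain ⟨a0, ha0⟩ := exists_ne (0 : E)
        have hord : addOrderOf a0 = p := addOrderOf_eq_prime (hE a0) ha0
        have hdvd : p ∣ Nat.card E := hord ▸ addOrderOf_dvd_natCard a0
        have hmod := hP.card_modEq_card_fixedPoints E
        have hdvd2 : p ∣ Nat.card (MulAction.fixedPoints P E) :=
          (hmod.dvd_iff (dvd_refl p)).1 hdvd
        have hmem : (0 : E) ∈ MulAction.fixedPoints P E := fun g => smul_zero g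
        haveI : Nonempty (MulAction.fixedPoints P E) := ⟨⟨0, hmem⟩⟩
        have hcardpos : 0 < Nat.card (MulAction.fixedPoints P E) := Nat.card_pos
        have hle := Nat.le_of_dvd hcardpos hdvd2
        have hp2' : 1 < Nat.card (MulAction.fixedPoints P E) :=
          lt_of_lt_of_le (Fact.out : p.Prime).one_lt hle
        haveI := Finite.one_lt_card_iff_nontrivial.1 hp2'
        obtain ⟨b, hb⟩ := exists_ne (⟨0, hmem⟩ : MulAction.fixedPoints P E)
        have hb0 : (b : E) ≠ 0 := fun h => hb (Subtype.ext h)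
        have hsb : MulAction.stabilizer P (b : E) = ⊤ := by
          rw [eq_top_iff]
          intro g _
          exact b.2 g
        have hallc : ∀ c : E, c ≠ 0 → MulAction.stabilizer P c = ⊤ := by
          intro c hc
          apply Subgroup.eq_top_of_le_card
          rw [hconst c b hc hb0, hsb]
          simp
        intro g
        apply FaithfulSMul.eq_of_smul_eq_smul (α := E)
        intro c
        by_cases hc : c = 0
        · rw [hc, smul_zero, smul_zero]
        · have : g ∈ MulAction.stabilizer P c := by rw [hallc c hc]; trivial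
          rw [one_smul]
          exact this
      · rw [not_nontrivial_iff_subsingleton] at hNt
        intro g
        exact FaithfulSMul.eq_of_smul_eq_smul (α := E) (fun c => Subsingleton.elim _ _)
    haveI : Subsingleton P := ⟨fun a b => (hall a).trans (hall b).symm⟩
    exact ⟨isCyclic_of_subsingleton, fun g hg => absurd (hall g) hg⟩
  have hp : p.Prime := Fact.out
  have hcop : Nat.Coprime p q := (Nat.coprime_primes hp hq).2 hpq
  obtain ⟨m, -, hm0⟩ := Nat.exists_mul_mod_eq_one_of_coprime hcop hq.one_lt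
  have hm : ∀ x : E, (m * p) • x = x := by
    intro x
    have h1 : m * p = q * ((p * m) / q) + 1 := by
      have := Nat.div_add_mod (p * m) q
      rw [hm0] at this
      rw [mul_comm m p, this]
    rw [h1, add_smul, one_smul, mul_comm, mul_smul, hE, smul_zero, zero_add]
  have hcyc : IsCyclic P := by
    by_contra hnc
    obtain ⟨A, hAn, hAe, hAc⟩ := Cfsg.Agent.Lib.PGrp.exists_elem_sq_of_noncyclic hp2 hP hnc
    exact no_A hp2 hP hm hconst A hAn hAe hAc
  refine ⟨hcyc, fun g hg a hga => ?_⟩
  by_contra ha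
  -- a power of `g` of order `p`
  obtain ⟨n, hn⟩ := hP g
  have hdvd : orderOf g ∣ p ^ n := orderOf_dvd_of_pow_eq_one hn
  obtain ⟨i, -, hi⟩ := (Nat.dvd_prime_pow hp).1 hdvd
  have hi0 : i ≠ 0 := by
    rintro rfl
    rw [pow_zero, orderOf_eq_one_iff] at hi
    exact hg hi
  obtain ⟨j, rfl⟩ : ∃ j, i = j + 1 := ⟨i - 1, by omega⟩
  set z := g ^ (p ^ j) with hz
  have hzp : z ^ p = 1 := by
    rw [hz, ← pow_mul, ← pow_succ, ← hi, pow_orderOf_eq_one]
  have hz1 : z ≠ 1 := by
    intro h
    have := orderOf_dvd_of_pow_eq_one h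
    rw [hi] at this
    have h2 := Nat.le_of_dvd (by have := hp.pos; positivity) this
    have h3 : p ^ j < p ^ (j + 1) := Nat.pow_lt_pow_right hp.one_lt (by omega)
    omega
  letI := IsCyclic.commGroup (α := P)
  have hzC : ∀ g' : P, g' * z = z * g' := fun g' => mul_comm g' z
  have hza : z • a = a := by
    have hst : g ∈ MulAction.stabilizer P a := hga
    exact Subgroup.pow_mem _ hst _
  exact central_fpf hm hconst hzC hz1 hzp ha hza

end Cfsg.Agent.S1160
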