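import Cfsg.Statements.S1166
import Cfsg.Agent.Lib.H1RankOne

set_option autoImplicit false
open Cfsg

namespace Cfsg.Agent.S1166

/-- In the rank-one set-up (`G` finite and doubly transitive on `Ω`, `t` an involution moving `a`, `Q` normal in `G_a` with `G_a = Q D`, `Q ⊓ D = 1` for the two-point stabiliser `D = G_a ⊓ G_{t • a}`, `|Q|` even, `|D|` odd), with `t x t = g_x h_x t f_x` and `t y t = g_y h_y t f_y` (`g, f ∈ Q`, `h ∈ D`) for `x, y ∈ Q ∖ 1` with `x y ≠ 1`: then `z = f_x g_y ≠ 1`, and if `t z t = g_z h_z t f_z` and `t (x y) t = g' h' t f'` then `f' = (t h_y t)⁻¹ f_z (t h_y t) f_y` and `h' = h_x h_z h_y` (H6). -/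
theorem result {G Ω : Type*} [Group G] [Finite G] [MulAction G Ω] {a : Ω} {t : G} {Q : Subgroup G}
    (hS : Cfsg.IsRankOneSetup G Ω a t Q)
    (x y gx hx fx gy hy fy : G) (hxQ : x ∈ Q) (hx1 : x ≠ 1) (hyQ : y ∈ Q) (hy1 : y ≠ 1) (hxy : x * y ≠ 1)
    (hgx : gx ∈ Q) (hhx : hx ∈ (MulAction.stabilizer G a ⊓ MulAction.stabilizer G (t • a))) (hfx : fx ∈ Q) (ex : t * x * t = gx * hx * t * fx)
    (hgy : gy ∈ Q) (hhy : hy ∈ (MulAction.stabilizer G a ⊓ MulAction.stabilizer G (t • a))) (hfy : fy ∈ Q) (ey : t * y * t = gy * hy * t * fy) :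
    fx * gy ≠ 1 ∧
      ∀ gz hz fz g' h' f' : G, gz ∈ Q → hz ∈ (MulAction.stabilizer G a ⊓ MulAction.stabilizer G (t • a)) → fz ∈ Q → t * (fx * gy) * t = gz * hz * t * fz →
        g' ∈ Q → h' ∈ (MulAction.stabilizer G a ⊓ MulAction.stabilizer G (t • a)) → f' ∈ Q → t * (x * y) * t = g' * h' * t * f' →
          f' = (t * hy * t)⁻¹ * fz * (t * hy * t) * fy ∧ h' = hx * hz * hy := by
  have tI := Cfsg.Agent.Lib.H1RankOne.tinv hS
  have tT := Cfsg.Agent.Lib.H1RankOne.tt hS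
  have hD := fun {h : G} (hh : h ∈ (MulAction.stabilizer G a ⊓ MulAction.stabilizer G (t • a))) =>
    Cfsg.Agent.Lib.H1RankOne.conj_D hS hh
  have U := fun {g h f g' h' f' : G} (h1 : g ∈ Q)
    (h2 : h ∈ (MulAction.stabilizer G a ⊓ MulAction.stabilizer G (t • a))) (h3 : f ∈ Q)
    (h4 : g' ∈ Q) (h5 : h' ∈ (MulAction.stabilizer G a ⊓ MulAction.stabilizer G (t • a)))
    (h6 : f' ∈ Q) (e : g * h * t * f = g' * h' * t * f') =>
      Cfsg.Agent.Lib.H1RankOne.uniq hS h1 h2 h3 h4 h5 h6 e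
  have hxa := (Subgroup.mem_inf.1 hhx).1
  have hya := (Subgroup.mem_inf.1 hhy).1
  have hprod : t * (x * y) * t = gx * hx * t * (fx * gy) * hy * t * fy := by
    calc t * (x * y) * t = (t * x * t) * (t * y * t) := by simp [mul_assoc, tT]
      _ = (gx * hx * t * fx) * (gy * hy * t * fy) := by rw [ex, ey]
      _ = _ := by simp [mul_assoc]
  refine ⟨?_, ?_⟩
  · intro hz
    rw [hz] at hprod
    have hyc := hD hhy
    have hw : t * (x * y) * t ∈ MulAction.stabilizer G a := by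
      have e : t * (x * y) * t = gx * hx * (t * hy * t) * fy := by
        rw [hprod]; simp [mul_assoc]
      rw [e]
      exact Subgroup.mul_mem _ (Subgroup.mul_mem _ (Subgroup.mul_mem _ (hS.le hgx) hxa)
        (Subgroup.mem_inf.1 hyc).1) (hS.le hfy)
    have hxy2 : x * y ∈ Q ⊓ MulAction.stabilizer G (t • a) := by
      refine Subgroup.mem_inf.2 ⟨Q.mul_mem hxQ hyQ, ?_⟩
      rw [MulAction.mem_stabilizer_iff]
      rw [MulAction.mem_stabilizer_iff, mul_smul, mul_smul] at hw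
      have := congrArg (fun p => t • p) hw
      simp only [smul_smul t t, hS.mul_self, one_smul] at this
      exact this
    rw [hS.inf_eq_bot, Subgroup.mem_bot] at hxy2
    exact hxy hxy2
  · intro gz hz fz g' h' f' hgz hhz hfz ez hg' hh' hf' e'
    set c := t * hy * t with hc
    have hc' : c ∈ MulAction.stabilizer G a ⊓ MulAction.stabilizer G (t • a) := hD hhy
    have hca := (Subgroup.mem_inf.1 hc').1
    have key : t * (x * y) * t = (gx * (hx * gz * hx⁻¹)) * (hx * hz * hy) * t *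
        (c⁻¹ * fz * c * fy) := by
      rw [hprod]
      calc gx * hx * t * (fx * gy) * hy * t * fy
          = gx * hx * (t * (fx * gy) * t) * c * fy := by
            simp [hc, mul_assoc, tT]
        _ = gx * hx * (gz * hz * t * fz) * c * fy := by rw [ez]
        _ = _ := by simp [hc, mul_assoc, tT, tI]
    have hm1 : hx * gz * hx⁻¹ ∈ Q := hS.conj_mem hx hxa gz hgz
    have hm2 : c⁻¹ * fz * c ∈ Q := by
      have := hS.conj_mem c⁻¹ (Subgroup.inv_mem _ hca) fz hfz
      rwa [inv_inv] at this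
    obtain ⟨-, h2, h3⟩ := U hg' hh' hf' (Q.mul_mem hgx hm1)
      (Subgroup.mul_mem _ (Subgroup.mul_mem _ hhx hhz) hhy) (Q.mul_mem hm2 hfy)
      (e'.symm.trans key)
    exact ⟨h3, h2⟩

end Cfsg.Agent.S1166
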