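import Cfsg.Statements.S1168
import Cfsg.Agent.Lib.H1Dedekind

set_option autoImplicit false
open Cfsg

namespace Cfsg.Agent.S1168

lemma sum_split {α M : Type*} [LinearOrder α] [Fintype α] [AddCommMonoid M] (f : α × α → M) :
    ∑ p, f p = ∑ p ∈ Finset.univ.filter (fun p : α × α => p.1 < p.2), (f p + f p.swap)
      + ∑ a, f (a, a) := by
  classical
  set T := Finset.univ.filter (fun p : α × α => p.1 < p.2) with hT
  have hsw : ∑ p ∈ Finset.univ.filter (fun p : α × α => p.2 < p.1), f p = ∑ p ∈ T, f p.swap := by
    refine Finset.sum_nbij' Prod.swap Prod.swap ?_ ?_ ?_ ?_ ?_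
    · intro p hp
      simpa [hT] using hp
    · intro p hp
      simpa [hT] using hp
    · intro p _
      simp
    · intro p _
      simp
    · intro p _
      simp
  have hd : ∑ p ∈ Finset.univ.filter (fun p : α × α => p.1 = p.2), f p = ∑ a, f (a, a) := by
    symm
    refine Finset.sum_nbij' (fun a => (a, a)) Prod.fst ?_ ?_ ?_ ?_ ?_
    · intro a _
      simp
    · intro p _
      simp
    · intro a _
      simp
    · intro p hp
      have : p.1 = p.2 := by simpa using hp
      ext <;> simp [this]
    · intro a _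
      rfl
  rw [Finset.sum_add_distrib, ← hsw, ← hd, hT, add_assoc]
  rw [← Finset.sum_filter_add_sum_filter_not Finset.univ (fun p : α × α => p.1 < p.2)]
  congr 1
  rw [← Finset.sum_filter_add_sum_filter_not
    (Finset.univ.filter (fun p : α × α => ¬ p.1 < p.2)) (fun p : α × α => p.2 < p.1), add_comm,
    Finset.filter_filter, Finset.filter_filter]
  rw [add_comm]
  congr 1
  · refine Finset.sum_congr ?_ fun _ _ => rfl
    ext p
    simp only [Finset.mem_filter, Finset.mem_univ, true_and]
    constructor
    · exact fun h => h.2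
    · exact fun h => ⟨not_lt.2 h.le, h⟩
  · refine Finset.sum_congr ?_ fun _ _ => rfl
    ext p
    simp only [Finset.mem_filter, Finset.mem_univ, true_and, not_lt]
    constructor
    · exact fun h => le_antisymm h.2 h.1
    · exact fun h => ⟨h.ge, h.le⟩

section

variable {F : Type*} [Field F] [Fintype F] [CharP F 2] [Fintype (F ≃+* F)]

lemma indep2 (d : (F ≃+* F) × (F ≃+* F) → F)
    (h : ∀ x y : F, ∑ p, d p * (p.1 x * p.2 y) = 0) : d = 0 := by
  have h1 : ∀ y : F, ∀ σ : F ≃+* F, ∑ τ, d (σ, τ) * τ y = 0 := by
    intro y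
    have := Cfsg.Agent.Lib.H1Dedekind.indep (fun σ : F ≃+* F => ∑ τ, d (σ, τ) * τ y) (fun x => by
      have e := h x y
      rw [Fintype.sum_prod_type] at e
      rw [← e]
      refine Finset.sum_congr rfl fun σ _ => ?_
      rw [Finset.sum_mul]
      refine Finset.sum_congr rfl fun τ _ => ?_
      ring)
    exact fun σ => congrFun this σ
  funext ⟨σ, τ⟩
  have := Cfsg.Agent.Lib.H1Dedekind.indep (fun τ : F ≃+* F => d (σ, τ)) (fun y => h1 y σ)
  exact congrFun this τ

/-- Squaring as a permutation of the automorphisms. -/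
noncomputable def psi : (F ≃+* F) ≃ (F ≃+* F) where
  toFun σ := σ.trans (frobeniusEquiv F 2)
  invFun σ := σ.trans (frobeniusEquiv F 2).symm
  left_inv σ := by ext x; simp
  right_inv σ := by ext x; simp

lemma psi_apply (σ : F ≃+* F) (x : F) : psi σ x = σ x * σ x := by
  show frobeniusEquiv F 2 (σ x) = _
  rw [frobeniusEquiv_apply, frobenius_def, sq]

end
/-- For a finite field `F` of characteristic 2: if `q : F → F` is quadratic over the prime field, i.e. `(x, y) ↦ q (x + y) + q x + q y` is additive in each variable, then `q x = Σ c_{σ,τ} σ(x) τ(x)` for some coefficients indexed by pairs of field automorphisms. -/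
theorem result {F : Type*} [Field F] [Fintype F] [CharP F 2]
    (q : F → F)
    (hq : ∀ x y z : F, q (x + y + z) + q (x + y) + q (x + z) + q (y + z) + q x + q y + q z = 0) :
    ∃ (s : Finset ((F ≃+* F) × (F ≃+* F))) (c : (F ≃+* F) × (F ≃+* F) → F),
      ∀ x : F, q x = ∑ p ∈ s, c p * (p.1 x * p.2 x) := by

  classical
  letI : Fintype (F ≃+* F) := Fintype.ofFinite _
  have h2 : (2 : F) = 0 := CharTwo.two_eq_zero
  have q0 : q 0 = 0 := by
    have := hq 0 0 0
    simp only [add_zero] at this
    linear_combination this - 3 * q 0 * h2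
  let B0 : F → F → F := fun x y => q (x + y) + q x + q y
  have hB0def : ∀ x y, q (x + y) = B0 x y + q x + q y := fun x y => by
    simp only [B0]
    linear_combination - (q x + q y) * h2
  have hsymm : ∀ x y, B0 x y = B0 y x := fun x y => by
    simp only [B0, add_comm x y]
    ring
  have hadd : ∀ x y z, B0 x (y + z) = B0 x y + B0 x z := fun x y z => by
    simp only [B0]
    have := hq x y z
    rw [← add_assoc x y z]
    linear_combination this - (q (x + y) + q y + q (x + z) + q x + q z) * h2
  let B : F →+ F →+ F := AddMonoidHom.mk'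
    (fun x => AddMonoidHom.mk' (fun y => B0 x y) (hadd x))
    (fun x y => by
      ext z
      show B0 (x + y) z = B0 x z + B0 y z
      rw [hsymm, hadd, hsymm z x, hsymm z y])
  have hB : ∀ x y, B x y = B0 x y := fun _ _ => rfl
  obtain ⟨c, hc⟩ := Cfsg.Agent.Lib.H1Dedekind.biadd_repr B
  -- symmetric coefficients
  have hcs : ∀ p : (F ≃+* F) × (F ≃+* F), c p.swap = c p := by
    have := indep2 (fun p : (F ≃+* F) × (F ≃+* F) => c p - c p.swap) (fun x y => by
      simp only [sub_mul]
      rw [Finset.sum_sub_distrib, ← hc x y]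
      have e : ∑ p : (F ≃+* F) × (F ≃+* F), c p.swap * (p.1 x * p.2 y)
          = ∑ p : (F ≃+* F) × (F ≃+* F), c p * (p.1 y * p.2 x) := by
        rw [← (Equiv.prodComm (F ≃+* F) (F ≃+* F)).sum_comp
          (fun p : (F ≃+* F) × (F ≃+* F) => c p * (p.1 y * p.2 x))]
        refine Finset.sum_congr rfl fun p _ => ?_
        simp [mul_comm]
      rw [e, ← hc y x, hB, hB, hsymm, sub_self])
    intro p
    have e := congrFun this p
    simp only [Pi.zero_apply, sub_eq_zero] at e
    exact e.symm
  -- an order on the automorphisms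
  let e0 := Fintype.equivFin (F ≃+* F)
  letI : LinearOrder (F ≃+* F) := LinearOrder.lift' e0 e0.injective
  set S := Finset.univ.filter (fun p : (F ≃+* F) × (F ≃+* F) => p.1 < p.2) with hS
  -- zero diagonal
  have hdiag : ∀ σ : F ≃+* F, c (σ, σ) = 0 := by
    have key : ∀ x : F, ∑ σ : F ≃+* F, c (σ, σ) * psi σ x = 0 := by
      intro x
      have e1 : B x x = 0 := by
        rw [hB]
        simp only [B0]
        rw [CharTwo.add_self_eq_zero, q0, zero_add, CharTwo.add_self_eq_zero]
      rw [hc, sum_split] at e1
      rw [Finset.sum_eq_zero, zero_add] at e1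
      · rw [← e1]
        refine Finset.sum_congr rfl fun σ _ => ?_
        rw [psi_apply]
      · intro p _
        rw [hcs]
        simp only [Prod.fst_swap, Prod.snd_swap, mul_comm (p.2 x)]
        exact CharTwo.add_self_eq_zero _
    have := Cfsg.Agent.Lib.H1Dedekind.indep
      (fun τ : F ≃+* F => c (psi.symm τ, psi.symm τ)) (fun x => by
        rw [← key x, ← psi.sum_comp]
        simp)
    intro σ
    have e := congrFun this (psi σ)
    simpa using e
  -- the quadratic part
  let q' : F → F := fun x => ∑ p ∈ S, c p * (p.1 x * p.2 x)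
  have hq' : ∀ x y, q' (x + y) = q' x + q' y + B0 x y := by
    intro x y
    rw [← hB, hc, sum_split]
    have e2 : ∑ a : F ≃+* F, c (a, a) * ((a, a).1 x * (a, a).2 y) = 0 :=
      Finset.sum_eq_zero fun a _ => by rw [hdiag, zero_mul]
    rw [e2, add_zero]
    simp only [q']
    rw [← Finset.sum_add_distrib, ← Finset.sum_add_distrib]
    refine Finset.sum_congr rfl fun p _ => ?_
    rw [hcs]
    simp only [Prod.fst_swap, Prod.snd_swap, map_add]
    ring
  -- the additive part
  let r : F →+ F := AddMonoidHom.mk' (fun x => q x - q' x) (fun x y => by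
    rw [hB0def, hq']
    linear_combination - (q x + q y) * 0)
  obtain ⟨d, hd⟩ := Cfsg.Agent.Lib.H1Dedekind.exists_repr r
  refine ⟨Finset.univ, fun p => (if p.1 < p.2 then c p else 0) +
    (if p.1 = p.2 then d (psi p.1) else 0), fun x => ?_⟩
  have e3 : q x = q' x + r x := by
    show q x = q' x + (q x - q' x)
    ring
  rw [e3, hd]
  simp only [add_mul, Finset.sum_add_distrib]
  congr 1
  · simp only [q', hS, Finset.sum_filter, ite_mul, zero_mul]
  · rw [Fintype.sum_prod_type]
    simp only [ite_mul, zero_mul, Finset.sum_ite_eq, Finset.mem_univ, if_true]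
    rw [← psi.sum_comp]
    refine Finset.sum_congr rfl fun σ _ => ?_
    rw [psi_apply]

end Cfsg.Agent.S1168
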