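import Cfsg.Statements.S1176
import Mathlib
import Cfsg.Agent.Lib.Isolated

set_option autoImplicit false
open Cfsg

namespace Cfsg.Agent.S1176

open Cfsg.Agent.Lib.Invol Cfsg.Agent.Lib.InvolSylow Cfsg.Agent.Lib.Isolated
open scoped commutatorElement

/-- Let x₀ be an involution of the finite group G and D its conjugacy class. Assume (a) for each x ∈ D the subgroup W(x) generated by the members of D commuting with x is a 2-group of nilpotency class at most 2, and (b) the product of two distinct commuting members of D again lies in D. Then for all x, y ∈ D, if xy has even order greater than 2, its order is 4. -/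
theorem result {G : Type*} [Group G] [Finite G] (x₀ : G) (hx₀ : orderOf x₀ = 2) (ha : ∀ x : G, IsConj x₀ x → IsPGroup 2 ↥(Subgroup.closure {y : G | IsConj x₀ y ∧ Commute y x}) ∧ ⁅⁅Subgroup.closure {y : G | IsConj x₀ y ∧ Commute y x}, Subgroup.closure {y : G | IsConj x₀ y ∧ Commute y x}⁆, Subgroup.closure {y : G | IsConj x₀ y ∧ Commute y x}⁆ = ⊥) (hb : ∀ x y : G, IsConj x₀ x → IsConj x₀ y → x ≠ y → Commute x y → IsConj x₀ (x * y)) (x y : G) (hx : IsConj x₀ x) (hy : IsConj x₀ y) (heven : Even (orderOf (x * y))) (hgt : 2 < orderOf (x * y)) : orderOf (x * y) = 4 := by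
  have hxo : orderOf x = 2 := by
    obtain ⟨g, rfl⟩ := isConj_iff.mp hx
    rw [orderOf_conj']; exact hx₀
  have hyo : orderOf y = 2 := by
    obtain ⟨g, rfl⟩ := isConj_iff.mp hy
    rw [orderOf_conj']; exact hx₀
  set a := x * y with haa
  have hpos : 0 < orderOf a := orderOf_pos a
  set z := a ^ (orderOf a / 2) with hz
  have hzo : orderOf z = 2 := orderOf_half' heven
  have hzx : Commute z x := half_commute_left hxo hyo heven
  have hzy : Commute z y := half_commute_right hxo hyo heven
  -- z lies in D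
  have hxz : IsConj x₀ (z * x) := by
    obtain ⟨m, hm⟩ := heven
    have hk : orderOf a / 2 = m := by omega
    rcases Nat.even_or_odd' m with ⟨l, hl | hl⟩
    · refine hx.trans (isConj_iff.mpr ⟨a ^ (l : ℤ), ?_⟩)
      rw [zpow_conj hxo hyo]
      congr 1
      rw [hz, hk, hl, ← zpow_natCast]
      congr 1
    · refine hy.trans (isConj_iff.mpr ⟨a ^ ((l + 1 : ℕ) : ℤ), ?_⟩)
      rw [zpow_conj_y hxo hyo]
      congr 1
      rw [hz, hk, hl, ← zpow_natCast]
      congr 1
      push_cast; ring
  have hzD : IsConj x₀ z := by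
    have h1 : x ≠ z * x := by
      intro h
      have : z = 1 := by simpa using h.symm
      exact ne_one_of_two hzo this
    have h2 : Commute x (z * x) := (hzx.symm).mul_right (Commute.refl x)
    have h3 := hb x (z * x) hx hxz h1 h2
    have e : x * (z * x) = z := by
      rw [← mul_assoc, ← hzx.eq, mul_assoc, mul_self_eq_one hxo, mul_one]
    rwa [e] at h3
  obtain ⟨hW1, hW2⟩ := ha z hzD
  set W := Subgroup.closure {w : G | IsConj x₀ w ∧ Commute w z} with hW
  have hxW : x ∈ W := Subgroup.subset_closure ⟨hx, hzx.symm⟩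
  have hyW : y ∈ W := Subgroup.subset_closure ⟨hy, hzy.symm⟩
  have haW : a ∈ W := W.mul_mem hxW hyW
  -- commutator [x, y] = a²
  have hcomm : x * y * x⁻¹ * y⁻¹ = a ^ 2 := by
    rw [inv_eq_self hxo, inv_eq_self hyo, pow_two]
    simp [haa, mul_assoc]
  have h1 : ⁅x, y⁆ ∈ ⁅W, W⁆ := Subgroup.commutator_mem_commutator hxW hyW
  have h2 : ⁅⁅x, y⁆, x⁆ ∈ ⁅⁅W, W⁆, W⁆ := Subgroup.commutator_mem_commutator h1 hxW
  rw [hW2, Subgroup.mem_bot] at h2
  have h3 : Commute (a ^ 2) x := by
    rw [commutatorElement_eq_one_iff_commute] at h2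
    have e : ⁅x, y⁆ = a ^ 2 := by
      rw [commutatorElement_def]; exact hcomm
    rwa [e] at h2
  -- x inverts a
  have h4 : x * a ^ 2 * x⁻¹ = (a ^ 2)⁻¹ := by
    have := conj_zpow_inv hxo hyo 2
    rw [zpow_neg] at this
    exact_mod_cast this
  have h5 : a ^ 2 = (a ^ 2)⁻¹ := by
    rw [← h4, ← h3.eq]
    simp
  have h6 : a ^ 4 = 1 := by
    have : a ^ 4 = a ^ 2 * a ^ 2 := by rw [← pow_add]
    rw [this]
    nth_rewrite 2 [h5]
    simp
  have h7 : orderOf a ∣ 4 := orderOf_dvd_of_pow_eq_one h6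
  have h8 : orderOf a ≤ 4 := Nat.le_of_dvd (by norm_num) h7
  interval_cases h : orderOf a <;> first | rfl | omega | (exfalso; revert h7; decide) | (exfalso; revert heven; decide)

end Cfsg.Agent.S1176
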