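import Cfsg.Statements.S1177
import Mathlib
import Cfsg.Agent.Lib.SylowTools
import Cfsg.Agent.Lib.PNilp
import Cfsg.Agent.Lib.H1Cop

set_option autoImplicit false
open Cfsg

namespace Cfsg.Agent.S1177

open Cfsg.Agent.Lib.SylowTools Cfsg.Agent.Lib.InvolSylow

/-- Let A be a nontrivial elementary abelian 2-subgroup of a finite group G which is a T.I. set (each conjugate of A meets A trivially or equals A) and which does not commute elementwise with any conjugate of A other than A itself. Then for every a ∈ A, a ≠ 1, every conjugate of A contained in C_G(a) is equal to A (A is weakly closed in C_G(a)). -/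
theorem result {G : Type*} [Group G] [Finite G] (A : Subgroup G) (hA : Cfsg.IsElementaryAbelian 2 A) (hA1 : A ≠ ⊥) (hTI : ∀ g : G, A.map (MulAut.conj g).toMonoidHom ⊓ A = ⊥ ∨ A.map (MulAut.conj g).toMonoidHom = A) (hb : ∀ g : G, (∀ a ∈ A, ∀ b ∈ A.map (MulAut.conj g).toMonoidHom, a * b = b * a) → A.map (MulAut.conj g).toMonoidHom = A) (a : G) (ha : a ∈ A) (ha1 : a ≠ 1) (g : G) (hg : A.map (MulAut.conj g).toMonoidHom ≤ Subgroup.centralizer ({a} : Set G)) : A.map (MulAut.conj g).toMonoidHom = A := by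
  haveI : Fact (Nat.Prime 2) := ⟨Nat.prime_two⟩
  rcases hTI g with hdisj | he
  swap
  · exact he
  set B := A.map (MulAut.conj g).toMonoidHom with hB
  have hAB : ∀ x, x ∈ A → x ∈ B → x = 1 := by
    intro x hx hx'
    have : x ∈ B ⊓ A := ⟨hx', hx⟩
    rw [hdisj] at this
    simpa using this
  have hAc : ∀ x ∈ A, ∀ y ∈ A, x * y = y * x := by
    intro x hx y hy
    have h1 := hA.1.is_comm.comm ⟨x, hx⟩ ⟨y, hy⟩
    exact congrArg Subtype.val h1
  have hBc : ∀ x ∈ B, ∀ y ∈ B, x * y = y * x := by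
    rintro _ ⟨x, hx, rfl⟩ _ ⟨y, hy, rfl⟩
    change g * x * g⁻¹ * (g * y * g⁻¹) = g * y * g⁻¹ * (g * x * g⁻¹)
    have := hAc x hx y hy
    calc _ = g * (x * y) * g⁻¹ := by group
      _ = g * (y * x) * g⁻¹ := by rw [this]
      _ = _ := by group
  have hAp : IsPGroup 2 A := by
    rintro ⟨x, hx⟩
    refine ⟨1, ?_⟩
    apply Subtype.ext
    simpa using hA.2 x hx
  have hBp : IsPGroup 2 B := by
    have : B ≃* A := (Subgroup.equivMapOfInjective A _ (MulAut.conj g).injective).symm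
    exact hAp.of_equiv this.symm
  have hBN : B ≤ Subgroup.normalizer (A : Set G) := by
    intro b hb
    rw [conj_mem_normalizer_iff]
    rcases hTI b with h | h
    · exfalso
      apply ha1
      have h1 : a ∈ A.map (MulAut.conj b).toMonoidHom ⊓ A := by
        refine ⟨?_, ha⟩
        refine ⟨a, ha, ?_⟩
        have h2 := hg hb
        rw [Subgroup.mem_centralizer_iff] at h2
        have h3 := h2 a (by simp)
        change b * a * b⁻¹ = a
        rw [← h3]
        simp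
      rw [h] at h1
      simpa using h1
    · exact h
  have hP : IsPGroup 2 (A ⊔ B : Subgroup G) := hAp.to_sup_of_normal_left' hBp hBN
  -- elements of `A` normalizing `B` centralize `B`
  have hcomm : ∀ x ∈ A, x ∈ Subgroup.normalizer (B : Set G) → ∀ b ∈ B, x * b = b * x := by
    intro x hx hxB b hb
    have h1 : x * b * x⁻¹ * b⁻¹ ∈ B := by
      apply mul_mem _ (inv_mem hb)
      exact (Subgroup.le_normalizer_iff.mp (le_refl _)) x hxB b hb
    have h2 : x * b * x⁻¹ * b⁻¹ ∈ A := by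
      have h3 : b * x⁻¹ * b⁻¹ ∈ A := (Subgroup.le_normalizer_iff.mp hBN) b hb x⁻¹ (inv_mem hx)
      have : x * b * x⁻¹ * b⁻¹ = x * (b * x⁻¹ * b⁻¹) := by group
      rw [this]
      exact mul_mem hx h3
    have h4 := hAB _ h2 h1
    have h5 : x * b * x⁻¹ * b⁻¹ * (b * x) = 1 * (b * x) := by rw [h4]
    have h6 : x * b * x⁻¹ * b⁻¹ * (b * x) = x * b := by group
    rw [h6, one_mul] at h5
    exact h5
  set D := (A ⊔ B : Subgroup G) ⊓ Subgroup.normalizer (B : Set G) with hD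
  have hBD : B ≤ D := le_inf le_sup_right Subgroup.le_normalizer
  have hDB : ∀ x ∈ D, ∀ b ∈ B, x * b = b * x := by
    intro x hx b hb
    obtain ⟨a₁, ha₁, b₁, hb₁, rfl⟩ := (Cfsg.Agent.Lib.H1Cop.mem_sup_iff hBN).mp hx.1
    have h1 : a₁ ∈ Subgroup.normalizer (B : Set G) := by
      have h2 : a₁ * b₁ * b₁⁻¹ ∈ Subgroup.normalizer (B : Set G) :=
        mul_mem hx.2 (inv_mem (Subgroup.le_normalizer hb₁))
      simpa using h2
    have h2 := hcomm a₁ ha₁ h1 b hb
    have h3 := hBc b₁ hb₁ b hb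
    rw [mul_assoc, h3, ← mul_assoc, h2, mul_assoc]
  have hhb : ∀ y : G, (∀ c ∈ B, ∀ d ∈ B, c * (y * d * y⁻¹) = (y * d * y⁻¹) * c) → y ∈ Subgroup.normalizer (B : Set G) := by
    intro y hy
    have h1 := hb (g⁻¹ * y * g) (by
      intro a' ha' c hc
      obtain ⟨a₂, ha₂, rfl⟩ := hc
      have h2 := hy (g * a' * g⁻¹) ⟨a', ha', rfl⟩ (g * a₂ * g⁻¹) ⟨a₂, ha₂, rfl⟩
      change a' * (g⁻¹ * y * g * a₂ * (g⁻¹ * y * g)⁻¹) = (g⁻¹ * y * g * a₂ * (g⁻¹ * y * g)⁻¹) * a'
      have h3 : g⁻¹ * (g * a' * g⁻¹ * (y * (g * a₂ * g⁻¹) * y⁻¹)) * g = g⁻¹ * (y * (g * a₂ * g⁻¹) * y⁻¹ * (g * a' * g⁻¹)) * g := by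
        rw [h2]
      have e1 : g⁻¹ * (g * a' * g⁻¹ * (y * (g * a₂ * g⁻¹) * y⁻¹)) * g = a' * (g⁻¹ * y * g * a₂ * (g⁻¹ * y * g)⁻¹) := by group
      have e2 : g⁻¹ * (y * (g * a₂ * g⁻¹) * y⁻¹ * (g * a' * g⁻¹)) * g = (g⁻¹ * y * g * a₂ * (g⁻¹ * y * g)⁻¹) * a' := by group
      rw [e1, e2] at h3
      exact h3)
    rw [conj_mem_normalizer_iff, hB, map_conj_map_conj]
    have : y * g = g * (g⁻¹ * y * g) := by group
    rw [this, ← map_conj_map_conj, h1]
  have hDtop : D = (A ⊔ B : Subgroup G) := by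
    by_contra hne
    have hlt : D < (A ⊔ B : Subgroup G) := lt_of_le_of_ne inf_le_left hne
    have h1 := Cfsg.Agent.Lib.PNilp.lt_inf_normalizer (p := 2) _ D hP hlt
    obtain ⟨y, hy, hyD⟩ := SetLike.exists_of_lt h1
    apply hyD
    refine ⟨hy.1, hhb y ?_⟩
    intro c hc d hd
    have h2 : y * d * y⁻¹ ∈ D := (Subgroup.le_normalizer_iff.mp (le_refl _)) y hy.2 d (hBD hd)
    exact (hDB _ h2 c hc).symm
  have hAN : A ≤ Subgroup.normalizer (B : Set G) := by
    intro x hx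
    have : x ∈ D := by rw [hDtop]; exact (le_sup_left : A ≤ A ⊔ B) hx
    exact this.2
  exact hb g (fun a' ha' b' hb' => hcomm a' ha' (hAN ha') b' hb')

end Cfsg.Agent.S1177
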