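import Cfsg.Statements.S1178
import Mathlib
import Cfsg.Agent.Lib.SylowTools

set_option autoImplicit false
open Cfsg

namespace Cfsg.Agent.S1178

open Cfsg.Agent.Lib.InvolSylow Cfsg.Agent.Lib.SylowTools

/-- Let A be a subgroup of a Sylow 2-subgroup S of the finite group G which is weakly closed in S. If a conjugate g A g⁻¹ commutes elementwise with A, then g A g⁻¹ = A. -/
theorem result {G : Type*} [Group G] [Finite G] (S : Sylow 2 G) (A : Subgroup G) (hW : Cfsg.IsWeaklyClosed A (S : Subgroup G)) (g : G) (hc : ∀ a ∈ A, ∀ b ∈ A.map (MulAut.conj g).toMonoidHom, a * b = b * a) : A.map (MulAut.conj g).toMonoidHom = A := by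
  have hA2 : IsPGroup 2 A := S.isPGroup'.to_le hW.1
  have hAg : IsPGroup 2 (A.map (MulAut.conj g).toMonoidHom) := hA2.map _
  have hsup : IsPGroup 2 (A ⊔ A.map (MulAut.conj g).toMonoidHom : Subgroup G) := by
    apply IsPGroup.to_sup_of_normal_left' hA2 hAg
    intro y hy
    rw [Subgroup.mem_normalizer_iff]
    intro x
    have hxy : ∀ x ∈ A, y * x * y⁻¹ = x := by
      intro x hx
      have := hc x hx y hy
      rw [← this]; group
    constructor
    · intro hx
      rw [hxy x hx]; exact hx
    · intro hx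
      have := hxy _ hx
      have h2 : y * (y * x * y⁻¹) * y⁻¹ = y * x * y⁻¹ := this
      have h3 : y * x * y⁻¹ = x := by
        have : y * x * y⁻¹ = y⁻¹ * (y * (y * x * y⁻¹) * y⁻¹) * y := by group
        rw [this, h2]; group
      rwa [h3] at hx
  obtain ⟨R, hR⟩ := hsup.exists_le_sylow
  exact weaklyClosed_eq_of_le S hW R (le_sup_left.trans hR) (le_sup_right.trans hR)

end Cfsg.Agent.S1178
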