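import Cfsg.Statements.S1181
import Mathlib
import Cfsg.Agent.Lib.Isolated

set_option autoImplicit false
open Cfsg

namespace Cfsg.Agent.S1181

open Cfsg.Agent.Lib.Invol Cfsg.Agent.Lib.InvolSylow Cfsg.Agent.Lib.Isolated

/-- Let z be an isolated involution of the finite group G and N a normal subgroup with z ∉ N. Then the centralizer of zN in G/N is the image of C_G(z), and zN is an isolated involution of G/N. -/
theorem result {G : Type*} [Group G] [Finite G] (z : G) (hz : Cfsg.IsIsolatedInvolution z) (N : Subgroup G) [N.Normal] (hzN : z ∉ N) : Subgroup.centralizer ({(QuotientGroup.mk z : G ⧸ N)} : Set (G ⧸ N)) = (Subgroup.centralizer ({z} : Set G)).map (QuotientGroup.mk' N) ∧ Cfsg.IsIsolatedInvolution (QuotientGroup.mk z : G ⧸ N) := by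
  have hzo := hz.1
  have hcent : Subgroup.centralizer ({(QuotientGroup.mk z : G ⧸ N)} : Set (G ⧸ N)) =
      (Subgroup.centralizer ({z} : Set G)).map (QuotientGroup.mk' N) := by
    apply le_antisymm
    · intro q hq
      induction q using QuotientGroup.induction_on with
      | H g =>
        rw [Subgroup.mem_centralizer_singleton_iff] at hq
        -- z * (g z g⁻¹) ∈ N
        have hN : z * (g * z * g⁻¹) ∈ N := by
          have h1 : (QuotientGroup.mk (z * (g * z * g⁻¹)) : G ⧸ N) = 1 := by
            have e : (QuotientGroup.mk (z * (g * z * g⁻¹)) : G ⧸ N) =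
                (QuotientGroup.mk z : G ⧸ N) * ((QuotientGroup.mk g : G ⧸ N) * (QuotientGroup.mk z : G ⧸ N)) * (QuotientGroup.mk g : G ⧸ N)⁻¹ := by
              simp [mul_assoc]
            rw [e, hq]
            have : (QuotientGroup.mk z : G ⧸ N) * (QuotientGroup.mk z : G ⧸ N) = 1 := by
              rw [← QuotientGroup.mk_mul, mul_self_eq_one hzo]; rfl
            calc (QuotientGroup.mk z : G ⧸ N) * ((QuotientGroup.mk z : G ⧸ N) * (QuotientGroup.mk g : G ⧸ N)) * (QuotientGroup.mk g : G ⧸ N)⁻¹
                = ((QuotientGroup.mk z : G ⧸ N) * (QuotientGroup.mk z : G ⧸ N)) * ((QuotientGroup.mk g : G ⧸ N) * (QuotientGroup.mk g : G ⧸ N)⁻¹) := by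
                  simp only [mul_assoc]
              _ = 1 := by rw [this]; simp
          exact (QuotientGroup.eq_one_iff _).mp h1
        obtain ⟨d, hd, hd2⟩ := exists_zpowers_conj hz g
        have hdN : d ∈ N := by
          have hle : Subgroup.zpowers (z * (g * z * g⁻¹)) ≤ N := by
            rw [Subgroup.zpowers_le]; exact hN
          exact hle hd
        refine ⟨d⁻¹ * g, ?_, ?_⟩
        · show _ ∈ Subgroup.centralizer ({z} : Set G)
          rw [Subgroup.mem_centralizer_singleton_iff]
          calc d⁻¹ * g * z = d⁻¹ * (g * z * g⁻¹) * g := by group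
            _ = d⁻¹ * (d * z * d⁻¹) * g := by rw [hd2]
            _ = z * (d⁻¹ * g) := by group
        · show (QuotientGroup.mk (d⁻¹ * g) : G ⧸ N) = QuotientGroup.mk g
          rw [QuotientGroup.eq]
          have := (inferInstance : N.Normal).conj_mem d hdN g⁻¹
          simpa [mul_assoc] using this
    · rintro _ ⟨c, hc, rfl⟩
      have hc' : c * z = z * c := Subgroup.mem_centralizer_singleton_iff.mp hc
      rw [Subgroup.mem_centralizer_singleton_iff]
      show (QuotientGroup.mk c : G ⧸ N) * QuotientGroup.mk z = QuotientGroup.mk z * QuotientGroup.mk c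
      rw [← QuotientGroup.mk_mul, ← QuotientGroup.mk_mul, hc']
  refine ⟨hcent, ?_, ?_⟩
  · -- order two
    apply orderOf_eq_prime
    · rw [← QuotientGroup.mk_pow, sq_eq_one hzo]; rfl
    · intro h
      exact hzN ((QuotientGroup.eq_one_iff _).mp h)
  · intro q hq
    induction q using QuotientGroup.induction_on with
    | H g =>
      -- a = z v has odd order, and its image squares to one
      set v := g * z * g⁻¹ with hv
      have hvo : orderOf v = 2 := by rw [hv, orderOf_conj']; exact hzo
      have hodd : Odd (orderOf (z * v)) := odd_mul_conj hz g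
      have hq' : Commute (QuotientGroup.mk z : G ⧸ N) (QuotientGroup.mk v : G ⧸ N) := by
        have e : (QuotientGroup.mk v : G ⧸ N) = (QuotientGroup.mk g : G ⧸ N) * QuotientGroup.mk z * (QuotientGroup.mk g : G ⧸ N)⁻¹ := by
          simp [hv]
        rw [e]; exact hq
      have hsq : ((QuotientGroup.mk (z * v) : G ⧸ N)) ^ 2 = 1 := by
        rw [QuotientGroup.mk_mul, hq'.mul_pow, ← QuotientGroup.mk_pow, ← QuotientGroup.mk_pow, sq_eq_one hzo, sq_eq_one hvo]
        simp
      have hone : (QuotientGroup.mk (z * v) : G ⧸ N) = 1 := by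
        have h1 : orderOf (QuotientGroup.mk (z * v) : G ⧸ N) ∣ orderOf (z * v) := by
          rw [orderOf_dvd_iff_pow_eq_one, ← QuotientGroup.mk_pow, pow_orderOf_eq_one]; rfl
        have h2 : orderOf (QuotientGroup.mk (z * v) : G ⧸ N) ∣ 2 := orderOf_dvd_of_pow_eq_one hsq
        have h3 : Nat.Coprime (orderOf (z * v)) 2 := by
          exact Nat.coprime_two_right.mpr hodd
        have h4 := Nat.eq_one_of_dvd_coprimes h3 h1 h2
        exact orderOf_eq_one_iff.mp h4
      -- conclude
      have h5 : (QuotientGroup.mk v : G ⧸ N) = QuotientGroup.mk z := by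
        have h6 : (QuotientGroup.mk z : G ⧸ N) * QuotientGroup.mk v = 1 := by
          rw [← QuotientGroup.mk_mul]; exact hone
        have h7 : (QuotientGroup.mk z : G ⧸ N) * QuotientGroup.mk z = 1 := by
          rw [← QuotientGroup.mk_mul, mul_self_eq_one hzo]; rfl
        exact mul_left_cancel (h6.trans h7.symm)
      have e : (QuotientGroup.mk g : G ⧸ N) * QuotientGroup.mk z * (QuotientGroup.mk g : G ⧸ N)⁻¹ = QuotientGroup.mk v := by
        simp [hv]
      rw [e, h5]

end Cfsg.Agent.S1181
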