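import Cfsg.Statements.S1182
import Mathlib
import Cfsg.Agent.Lib.Isolated

set_option autoImplicit false
open Cfsg

namespace Cfsg.Agent.S1182

open Cfsg.Agent.Lib.Invol Cfsg.Agent.Lib.InvolSylow Cfsg.Agent.Lib.Isolated

/-- Let z be an isolated involution of the finite group G and H a subgroup normalized by z. If x, y ∈ H both commute with z and y = h x h⁻¹ for some h ∈ H, then y = c x c⁻¹ for some c ∈ H commuting with z. -/
theorem result {G : Type*} [Group G] [Finite G] (z : G) (hz : Cfsg.IsIsolatedInvolution z) (H : Subgroup G) (hzH : z ∈ Subgroup.normalizer (H : Set G)) (x y : G) (hx : x ∈ H) (hy : y ∈ H) (hxz : Commute x z) (hyz : Commute y z) (h : G) (hh : h ∈ H) (hconj : h * x * h⁻¹ = y) : ∃ c ∈ H, Commute c z ∧ c * x * c⁻¹ = y := by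
  have hzo := hz.1
  set v := h * z * h⁻¹ with hv
  -- v commutes with y
  have hvy : Commute v y := by
    rw [← hconj]
    show h * z * h⁻¹ * (h * x * h⁻¹) = h * x * h⁻¹ * (h * z * h⁻¹)
    calc h * z * h⁻¹ * (h * x * h⁻¹) = h * (z * x) * h⁻¹ := by group
      _ = h * (x * z) * h⁻¹ := by rw [hxz.eq]
      _ = h * x * h⁻¹ * (h * z * h⁻¹) := by group
  obtain ⟨d, hd, hd2⟩ := exists_zpowers_conj hz h
  rw [← hv] at hd hd2
  -- z v lies in H and commutes with y
  have hzv : z * v ∈ H := by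
    have h1 : z * v = (z * h * z⁻¹) * h⁻¹ := by
      rw [hv, inv_eq_self hzo]; group
    rw [h1]
    exact H.mul_mem ((Subgroup.mem_normalizer_iff.mp hzH h).mp hh) (H.inv_mem hh)
  have hdH : d ∈ H := by
    have hle : Subgroup.zpowers (z * v) ≤ H := by
      rw [Subgroup.zpowers_le]; exact hzv
    exact hle hd
  have hdy : Commute d y := by
    obtain ⟨k, rfl⟩ := hd
    have h2 : Commute (z * v) y := (hyz.symm).mul_left hvy
    exact h2.zpow_left k
  refine ⟨d⁻¹ * h, H.mul_mem (H.inv_mem hdH) hh, ?_, ?_⟩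
  · show d⁻¹ * h * z = z * (d⁻¹ * h)
    calc d⁻¹ * h * z = d⁻¹ * (h * z * h⁻¹) * h := by group
      _ = d⁻¹ * (d * z * d⁻¹) * h := by
        show d⁻¹ * v * h = _
        rw [← hd2]
      _ = z * (d⁻¹ * h) := by group
  · calc d⁻¹ * h * x * (d⁻¹ * h)⁻¹ = d⁻¹ * (h * x * h⁻¹) * d := by group
      _ = d⁻¹ * y * d := by rw [hconj]
      _ = y := by
        have : d⁻¹ * y = y * d⁻¹ := hdy.inv_left.eq
        rw [this]; group

end Cfsg.Agent.S1182
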