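import Cfsg.Statements.S1183
import Mathlib
import Cfsg.Agent.Lib.Isolated2
import Cfsg.Agent.Lib.PNilp
import Cfsg.Agent.Lib.PNilp2

set_option autoImplicit false
open Cfsg

namespace Cfsg.Agent.S1183

open Cfsg.Agent.Lib.Invol Cfsg.Agent.Lib.InvolSylow Cfsg.Agent.Lib.Isolated Cfsg.Agent.Lib.Isolated2 Cfsg.Agent.Lib.PNilp

lemma subsingleton_of_perfect_nilpotent {Q : Type*} [Group Q] [Finite Q] (hn : Group.IsNilpotent Q)
    (h : (⊤ : Subgroup Q) ≤ commutator Q) : Subsingleton Q := by
  haveI hQ' : Group.IsNilpotent (⊤ : Subgroup Q) := Group.isNilpotent_top.mpr hn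
  have h2 := eq_bot_of_le_commutator_of_isNilpotent (⊤ : Subgroup Q) (⊤ : Subgroup Q) hQ' le_rfl h
  exact Subgroup.subsingleton_iff.mp (subsingleton_of_bot_eq_top h2.symm)

/-- Let z be an isolated involution of the finite group G and C = C_G(z). Then the subgroup of G generated by its elements of odd order is all of G if and only if the subgroup of C generated by its elements of odd order is all of C. -/
theorem result {G : Type*} [Group G] [Finite G] (z : G) (hz : Cfsg.IsIsolatedInvolution z) : Cfsg.pResidual 2 G = ⊤ ↔ Cfsg.pResidual 2 ↥(Subgroup.centralizer ({z} : Set G)) = ⊤ := by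
  classical
  have hzo := hz.1
  have hzz := mul_self_eq_one hzo
  have hzi := inv_eq_self hzo
  haveI hp2 : Fact (Nat.Prime 2) := ⟨Nat.prime_two⟩
  constructor
  · intro h
    -- a Sylow 2-subgroup containing z
    have hzp : IsPGroup 2 (Subgroup.zpowers z) := by
      apply IsPGroup.of_card (n := 1)
      rw [Nat.card_zpowers, hzo]; norm_num
    obtain ⟨P, hP⟩ := hzp.exists_le_sylow
    have hzP : z ∈ (P : Subgroup G) := hP (Subgroup.mem_zpowers z)
    have hPC : (P : Subgroup G) ≤ Subgroup.centralizer ({z} : Set G) := by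
      intro t ht
      rw [Subgroup.mem_centralizer_singleton_iff]
      have h1 := odd_mul_conj hz t
      have hmem : z * (t * z * t⁻¹) ∈ (P : Subgroup G) :=
        P.1.mul_mem hzP (P.1.mul_mem (P.1.mul_mem ht hzP) (P.1.inv_mem ht))
      have h2 : orderOf (⟨_, hmem⟩ : (P : Subgroup G)) = orderOf (z * (t * z * t⁻¹)) := Subgroup.orderOf_mk _ _
      obtain ⟨k, hk⟩ := (IsPGroup.iff_orderOf.mp P.2) ⟨_, hmem⟩
      rw [h2] at hk
      rw [hk] at h1
      have hk0 : k = 0 := by
        by_contra hne
        rcases h1 with ⟨m, hm⟩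
        have : 2 ∣ 2 ^ k := dvd_pow_self 2 hne
        omega
      rw [hk0, pow_zero] at hk
      have h3 := orderOf_eq_one_iff.mp hk
      have h4 : t * z * t⁻¹ = z := by
        have : z * (t * z * t⁻¹) = z * z := by rw [h3, hzz]
        exact mul_left_cancel this
      calc t * z = t * z * t⁻¹ * t := by group
        _ = z * t := by rw [h4]
    have hfoc := focal_eq_of_pResidual_eq_top P h
    have hcontrol : (P : Subgroup G).focalSubgroup ≤ ⁅(P : Subgroup G), Subgroup.centralizer ({z} : Set G)⁆ := by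
      apply focal_le_commutator_of_control
      intro x hx u hu
      have hxz : Commute x z := (Subgroup.mem_centralizer_singleton_iff.mp (hPC hx))
      have hyz : Commute (u * x * u⁻¹) z := (Subgroup.mem_centralizer_singleton_iff.mp (hPC hu))
      obtain ⟨d, hd, hdz⟩ := exists_zpowers_conj hz u
      have htz : Commute (u * x * u⁻¹) (u * z * u⁻¹) := (Commute.conj_iff u).mpr hxz
      have hcomm : Commute (u * x * u⁻¹) (z * (u * z * u⁻¹)) := hyz.mul_right htz
      have hdy : Commute (u * x * u⁻¹) d := by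
        obtain ⟨n, rfl⟩ := Subgroup.mem_zpowers_iff.mp hd
        exact hcomm.zpow_right n
      refine ⟨d⁻¹ * u, ?_, ?_⟩
      · rw [Subgroup.mem_centralizer_singleton_iff]
        have : (d⁻¹ * u) * z * (d⁻¹ * u)⁻¹ = z := by
          calc (d⁻¹ * u) * z * (d⁻¹ * u)⁻¹ = d⁻¹ * (u * z * u⁻¹) * d := by group
            _ = d⁻¹ * (d * z * d⁻¹) * d := by rw [hdz]
            _ = z := by group
        calc d⁻¹ * u * z = (d⁻¹ * u) * z * (d⁻¹ * u)⁻¹ * (d⁻¹ * u) := by group
          _ = z * (d⁻¹ * u) := by rw [this]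
      · calc u * x * u⁻¹ = d⁻¹ * (d * (u * x * u⁻¹)) := by group
          _ = d⁻¹ * ((u * x * u⁻¹) * d) := by rw [hdy.eq]
          _ = (d⁻¹ * u) * x * (d⁻¹ * u)⁻¹ := by group
    rw [hfoc] at hcontrol
    -- pass to C
    set C := Subgroup.centralizer ({z} : Set G) with hC
    set N := Cfsg.pResidual 2 ↥C with hN
    haveI hNn : N.Normal := Cfsg.Agent.Lib.PNilp.pResidual_normal
    have hQ : IsPGroup 2 (↥C ⧸ N) := isPGroup_quotient_pResidual
    have hQn : Group.IsNilpotent (↥C ⧸ N) := hQ.isNilpotent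
    let PC : Sylow 2 ↥C := P.subtype hPC
    have hsup := sylow_sup_pResidual PC
    have hPCcomm : (PC : Subgroup ↥C) ≤ commutator ↥C := by
      intro x hx
      have hx' : (x : G) ∈ (P : Subgroup G) := by
        have : x ∈ (P : Subgroup G).subgroupOf C := hx
        exact Subgroup.mem_subgroupOf.mp this
      have h3 : (x : G) ∈ ⁅C, C⁆ := (Subgroup.commutator_mono hPC le_rfl) (hcontrol hx')
      rw [← Subgroup.map_subtype_commutator] at h3
      obtain ⟨y, hy, hyx⟩ := h3
      have : y = x := Subtype.ext hyx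
      rwa [← this]
    have hsub := subsingleton_of_perfect_nilpotent hQn (by
      rintro q -
      obtain ⟨c, rfl⟩ := QuotientGroup.mk_surjective q
      have hc : c ∈ (PC : Subgroup ↥C) ⊔ N := by rw [hsup]; trivial
      obtain ⟨y, hy, w, hw, rfl⟩ := Subgroup.mem_sup_of_normal_right.mp hc
      have h5 : (QuotientGroup.mk (y * w) : ↥C ⧸ N) = QuotientGroup.mk' N y := by
        have h6 : (QuotientGroup.mk w : ↥C ⧸ N) = 1 := (QuotientGroup.eq_one_iff w).mpr hw
        rw [QuotientGroup.mk_mul, h6, mul_one]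
        rfl
      rw [h5]
      have h7 : QuotientGroup.mk' N y ∈ (commutator ↥C).map (QuotientGroup.mk' N) :=
        ⟨y, hPCcomm hy, rfl⟩
      rw [commutator_def, Subgroup.map_commutator] at h7
      exact (Subgroup.commutator_mono le_top le_top) h7)
    apply le_antisymm le_top
    rintro c -
    have : (QuotientGroup.mk c : ↥C ⧸ N) = 1 := Subsingleton.elim _ _
    exact (QuotientGroup.eq_one_iff c).mp this
  · intro h
    rw [eq_top_iff]
    rintro g -
    obtain ⟨k, ⟨⟨hk1, hk2⟩, hk3⟩, -⟩ := existsUnique_inverted hz g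
    have hkm : k ∈ Cfsg.pResidual 2 G := by
      apply coprime_mem_pResidual
      exact Nat.coprime_two_right.mpr hk1
    have hcm : g⁻¹ * k ∈ Cfsg.pResidual 2 G := by
      have := Cfsg.Agent.Lib.PNilp2.pResidual_map_le (p := 2) (Subgroup.centralizer ({z} : Set G))
      rw [h] at this
      apply this
      exact ⟨⟨_, hk3⟩, trivial, rfl⟩
    have : g = k * (g⁻¹ * k)⁻¹ := by group
    rw [this]
    exact Subgroup.mul_mem _ hkm (Subgroup.inv_mem _ hcm)

end Cfsg.Agent.S1183
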