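import Cfsg.Statements.S1184
import Mathlib
import Cfsg.Agent.Lib.Isolated

set_option autoImplicit false
open Cfsg

namespace Cfsg.Agent.S1184

open Cfsg.Agent.Lib.Invol Cfsg.Agent.Lib.InvolSylow Cfsg.Agent.Lib.Isolated

/-- Let z be an isolated involution of the finite group G. If s and t are distinct conjugates of z, then st does not commute with z. -/
theorem result {G : Type*} [Group G] [Finite G] (z : G) (hz : Cfsg.IsIsolatedInvolution z) (g h : G) (hne : g * z * g⁻¹ ≠ h * z * h⁻¹) : ¬ Commute (g * z * g⁻¹ * (h * z * h⁻¹)) z := by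
  intro hc
  have hzo := hz.1
  set s := g * z * g⁻¹ with hs
  set t := h * z * h⁻¹ with ht
  have hso : orderOf s = 2 := by rw [hs, orderOf_conj']; exact hzo
  have hto : orderOf t = 2 := by rw [ht, orderOf_conj']; exact hzo
  set a := s * t with ha
  -- z s has odd order
  have hodd : Odd (orderOf (z * s)) := odd_mul_conj hz g
  have hodda : Odd (orderOf a) := by
    -- s, t conjugate and s isolated
    have hiso := conj_isolated hz g
    have e : t = (h * g⁻¹) * s * (h * g⁻¹)⁻¹ := by
      rw [ht, hs]; group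
    have := odd_mul_conj hiso (h * g⁻¹)
    rw [← e] at this
    exact this
  -- z s inverts a
  have hinv : (z * s) * a * (z * s)⁻¹ = a⁻¹ := by
    have h1 := conj_mul_inv hso hto
    rw [← ha] at h1
    -- conj by z
    have h2 : z * a = a * z := hc.eq.symm
    calc (z * s) * a * (z * s)⁻¹ = z * (s * a * s⁻¹) * z⁻¹ := by group
      _ = z * a⁻¹ * z⁻¹ := by rw [h1]
      _ = (z * a * z⁻¹)⁻¹ := by group
      _ = a⁻¹ := by rw [h2]; group
  -- so z s commutes with a: it is an odd power of its square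
  obtain ⟨m, hm1, -⟩ := odd_self_pow hodd
  have hsq : Commute ((z * s) ^ 2) a := by
    show (z * s) ^ 2 * a = a * (z * s) ^ 2
    have h3 : (z * s) ^ 2 * a * ((z * s) ^ 2)⁻¹ = a := by
      calc (z * s) ^ 2 * a * ((z * s) ^ 2)⁻¹ = (z * s) * ((z * s) * a * (z * s)⁻¹) * (z * s)⁻¹ := by
            simp [pow_two, mul_assoc]
        _ = (z * s) * a⁻¹ * (z * s)⁻¹ := by rw [hinv]
        _ = ((z * s) * a * (z * s)⁻¹)⁻¹ := by group
        _ = a := by rw [hinv, inv_inv]
    rw [mul_inv_eq_iff_eq_mul] at h3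
    exact h3
  have hcomm : Commute (z * s) a := by
    have := hsq.pow_left (m + 1)
    rwa [hm1] at this
  have h4 : a = a⁻¹ := by
    rw [← hinv, hcomm.eq]; group
  have h5 : a ^ 2 = 1 := by
    rw [pow_two]; nth_rewrite 2 [h4]; simp
  have h6 : orderOf a ∣ 2 := orderOf_dvd_of_pow_eq_one h5
  have h7 : orderOf a = 1 := by
    have := Nat.le_of_dvd (by norm_num) h6
    obtain ⟨k, hk⟩ := hodda
    omega
  have h8 : a = 1 := orderOf_eq_one_iff.mp h7
  apply hne
  have h9 : s * t = 1 := h8
  have h10 : s = t⁻¹ := eq_inv_of_mul_eq_one_left h9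
  rw [h10, inv_eq_self hto]

end Cfsg.Agent.S1184
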