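import Cfsg.Statements.S1186
import Mathlib
import Cfsg.Agent.Lib.Isolated2

set_option autoImplicit false
open Cfsg

namespace Cfsg.Agent.S1186

open Cfsg.Agent.Lib.Invol Cfsg.Agent.Lib.InvolSylow Cfsg.Agent.Lib.Isolated Cfsg.Agent.Lib.Isolated2

lemma card_eq_mul_of_fibers {A B : Type*} [Finite A] [Finite B] (f : A → B) (k : ℕ)
    (h : ∀ b, Nat.card {a // f a = b} = k) : Nat.card A = Nat.card B * k := by
  classical
  have : Fintype B := Fintype.ofFinite B
  have e := Equiv.sigmaFiberEquiv f
  rw [← Nat.card_congr e, Nat.card_sigma, Nat.card_eq_fintype_card (α := B)]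
  calc ∑ b : B, Nat.card {a // f a = b} = ∑ _b : B, k := Finset.sum_congr rfl (fun b _ => h b)
    _ = Fintype.card B * k := by simp

/-- Let z be an isolated involution of the finite group G, C = C_G(z), K the set of elements of odd order inverted by z, and s an involution of C. Then |G| = |C| · |C_K(sz)| · |C_K(s)|. -/
theorem result {G : Type*} [Group G] [Finite G] (z : G) (hz : Cfsg.IsIsolatedInvolution z) (s : G) (hs : orderOf s = 2) (hsz : Commute s z) : Nat.card G = Nat.card (Subgroup.centralizer ({z} : Set G)) * Nat.card {k : G // Odd (orderOf k) ∧ z * k * z⁻¹ = k⁻¹ ∧ Commute k (s * z)} * Nat.card {k : G // Odd (orderOf k) ∧ z * k * z⁻¹ = k⁻¹ ∧ Commute k s} := by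
  classical
  have hzo := hz.1
  have hzz := mul_self_eq_one hzo
  have hzi := inv_eq_self hzo
  have hso := hs
  have hss := mul_self_eq_one hs
  have hsi := inv_eq_self hs
  have hsc : s * z = z * s := hsz
  have hG := orbit_conj_card z
  -- the two sets of involutions
  let A := {t : G // IsConj z t ∧ Commute t s}
  let B := {t : G // IsConj z t ∧ Commute t (s * z)}
  have eA : Nat.card {k : G // Odd (orderOf k) ∧ z * k * z⁻¹ = k⁻¹ ∧ Commute k s} = Nat.card A := by
    apply Nat.card_congr
    refine Equiv.subtypeEquiv (Equiv.mulRight z) ?_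
    intro k
    show (Odd (orderOf k) ∧ z * k * z⁻¹ = k⁻¹ ∧ Commute k s) ↔ (IsConj z (k * z) ∧ Commute (k * z) s)
    rw [← inverted_iff_conj hz]
    have hiff : Commute k s ↔ Commute (k * z) s := by
      constructor
      · intro h
        show k * z * s = s * (k * z)
        calc k * z * s = k * (z * s) := by group
          _ = k * (s * z) := by rw [hsc]
          _ = (k * s) * z := by group
          _ = (s * k) * z := by rw [h.eq]
          _ = s * (k * z) := by group
      · intro h
        have h2 : k * z * s = s * (k * z) := h
        show k * s = s * k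
        have h3 : k * s * z = s * k * z := by
          calc k * s * z = k * (s * z) := by group
            _ = k * (z * s) := by rw [hsc]
            _ = k * z * s := by group
            _ = s * (k * z) := h2
            _ = s * k * z := by group
        exact mul_right_cancel h3
    rw [hiff, and_assoc]
  have eB : Nat.card {k : G // Odd (orderOf k) ∧ z * k * z⁻¹ = k⁻¹ ∧ Commute k (s * z)} = Nat.card B := by
    apply Nat.card_congr
    refine Equiv.subtypeEquiv (Equiv.mulRight z) ?_
    intro k
    show (Odd (orderOf k) ∧ z * k * z⁻¹ = k⁻¹ ∧ Commute k (s * z)) ↔ (IsConj z (k * z) ∧ Commute (k * z) (s * z))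
    rw [← inverted_iff_conj hz]
    constructor
    · rintro ⟨h1, h2, h3⟩
      refine ⟨⟨h1, h2⟩, ?_⟩
      have h3' : k * (s * z) = s * z * k := h3
      show k * z * (s * z) = s * z * (k * z)
      calc k * z * (s * z) = k * (z * s * z) := by group
        _ = k * (s * z * z) := by rw [hsc]
        _ = (k * (s * z)) * z := by group
        _ = (s * z * k) * z := by rw [h3']
        _ = s * z * (k * z) := by group
    · rintro ⟨⟨h1, h2⟩, h3⟩
      refine ⟨h1, h2, ?_⟩
      have h3' : k * z * (s * z) = s * z * (k * z) := h3
      show k * (s * z) = s * z * k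
      have h4 : k * (s * z) * z = s * z * k * z := by
        calc k * (s * z) * z = k * (s * z * z) := by group
          _ = k * (z * s * z) := by rw [hsc]
          _ = k * z * (s * z) := by group
          _ = s * z * (k * z) := h3'
          _ = s * z * k * z := by group
      exact mul_right_cancel h4
  -- conjugates by s
  have hconjs : ∀ t, IsConj z t → IsConj z (s * t * s) := by
    intro t ht
    refine ht.trans (isConj_iff.mpr ⟨s, ?_⟩)
    rw [hsi]
  have hex : ∀ t : {t : G // IsConj z t}, ∃ m : A, m.1 * t.1 * m.1 = s * t.1 * s := by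
    rintro ⟨t, ht⟩
    obtain ⟨m, hm1, hm2, hm3⟩ := exists_middle hz hss ht (hconjs t ht)
    exact ⟨⟨m, hm1, hm2⟩, hm3⟩
  choose f hf using hex
  have hz' : IsConj z z := IsConj.refl z
  have hfib : ∀ a : A, Nat.card {t : {t : G // IsConj z t} // f t = a} = Nat.card B := by
    rintro ⟨a, ha, has⟩
    have has' : a * s = s * a := has
    obtain ⟨g', hg'⟩ := isConj_iff.mp ha
    obtain ⟨d, hd, hdz⟩ := exists_zpowers_conj hz g'
    rw [hg'] at hd hdz
    have hza : Commute (z * a) s := by
      show z * a * s = s * (z * a)
      calc z * a * s = z * (a * s) := by group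
        _ = z * (s * a) := by rw [has']
        _ = (z * s) * a := by group
        _ = (s * z) * a := by rw [hsc]
        _ = s * (z * a) := by group
    have hds : d * s = s * d := by
      obtain ⟨n, rfl⟩ := Subgroup.mem_zpowers_iff.mp hd
      exact (hza.zpow_left n).eq
    have haa := conj_mul_self hzo ha
    -- fibre description
    have hfibeq : ∀ t : {t : G // IsConj z t}, f t = ⟨a, ha, has⟩ ↔ Commute t.1 (a * s) := by
      rintro ⟨t, ht⟩
      have hft := hf ⟨t, ht⟩
      have htoa : a * t * a = s * t * s ↔ Commute t (a * s) := by
        constructor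
        · intro h
          show t * (a * s) = a * s * t
          calc t * (a * s) = (a * a) * t * (a * s) := by rw [haa]; group
            _ = a * (a * t * a) * s := by group
            _ = a * (s * t * s) * s := by rw [h]
            _ = a * s * t * (s * s) := by group
            _ = a * s * t := by rw [hss, mul_one]
        · intro h
          have h' : t * (a * s) = a * s * t := h
          calc a * t * a = a * t * a * (s * s) := by rw [hss, mul_one]
            _ = a * (t * (a * s)) * s := by group
            _ = a * (a * s * t) * s := by rw [h']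
            _ = (a * a) * (s * t * s) := by group
            _ = s * t * s := by rw [haa, one_mul]
      constructor
      · intro h
        rw [← htoa]
        have := hft
        rw [h] at this
        exact this
      · intro h
        rw [← htoa] at h
        apply Subtype.ext
        exact middle_unique hz ht (f ⟨t, ht⟩).2.1 ha (hft.trans h.symm)
    have e1 : Nat.card {t : {t : G // IsConj z t} // f t = ⟨a, ha, has⟩} =
        Nat.card {t : G // IsConj z t ∧ Commute t (a * s)} := by
      apply Nat.card_congr
      exact (Equiv.subtypeEquivRight hfibeq).trans (Equiv.subtypeSubtypeEquivSubtypeInter (fun t => IsConj z t) (fun t => Commute t (a * s)))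
    rw [e1]
    apply Nat.card_congr
    refine (Equiv.subtypeEquiv (MulAut.conj d).toEquiv ?_).symm
    intro t
    show (IsConj z t ∧ Commute t (s * z)) ↔ (IsConj z (d * t * d⁻¹) ∧ Commute (d * t * d⁻¹) (a * s))
    have hasd : a * s = d * (s * z) * d⁻¹ := by
      calc a * s = s * a := has'
        _ = s * (d * z * d⁻¹) := by rw [hdz]
        _ = (s * d) * z * d⁻¹ := by group
        _ = (d * s) * z * d⁻¹ := by rw [hds]
        _ = d * (s * z) * d⁻¹ := by group
    rw [hasd, Commute.conj_iff]
    have h1 : IsConj t (d * t * d⁻¹) := isConj_iff.mpr ⟨d, rfl⟩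
    constructor
    · rintro ⟨h2, h3⟩
      exact ⟨h2.trans h1, h3⟩
    · rintro ⟨h2, h3⟩
      exact ⟨h2.trans h1.symm, h3⟩
  have hI : Nat.card {t : G // IsConj z t} = Nat.card A * Nat.card B := card_eq_mul_of_fibers f _ hfib
  rw [eA, eB, ← hG, hI]
  ring

end Cfsg.Agent.S1186
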