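import Cfsg.Statements.S1225
import Mathlib
import Cfsg.Agent.Lib.StrongEmb

set_option autoImplicit false
open Cfsg

namespace Cfsg.Agent.S1225

open Cfsg.Agent.Lib.StrongEmb Cfsg.Agent.Lib.Invol

/-- Let H be a strongly embedded subgroup of the finite group G, u an involution outside H and D = H ∩ uHu⁻¹. Then any two involutions of H are conjugate by an element of D, and any two involutions of G are conjugate in G. -/
theorem result {G : Type*} [Group G] [Finite G] (H : Subgroup G) (hH : Cfsg.IsStronglyEmbedded H) (u : G) (hu : orderOf u = 2) (huH : u ∉ H) (s t : G) (hs : orderOf s = 2) (hsH : s ∈ H) (ht : orderOf t = 2) (htH : t ∈ H) : (∃ d ∈ (H ⊓ H.map (MulAut.conj u).toMonoidHom), d * s * d⁻¹ = t) ∧ ∀ a b : G, orderOf a = 2 → orderOf b = 2 → IsConj a b := by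
  have h := fixOne_of_embedded hH
  set x₀ : G ⧸ H := QuotientGroup.mk 1 with hx₀
  set y₀ : G ⧸ H := QuotientGroup.mk u with hy₀
  have hsm : ∀ g : G, g • x₀ = QuotientGroup.mk g := by
    intro g
    rw [hx₀, MulAction.Quotient.smul_mk, smul_eq_mul, mul_one]
  have hmem : ∀ g : G, g ∈ H ↔ g • x₀ = x₀ := by
    intro g
    rw [hx₀, smul_mk_eq_iff]
    simp
  have hux : u • x₀ = y₀ := hsm u
  have hxy : x₀ ≠ y₀ := by
    intro hc
    apply huH
    rw [hmem, hux]
    exact hc.symm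
  have huy : u • y₀ = x₀ := swap_of hu hux
  refine ⟨?_, ?_⟩
  · have hsx : s • x₀ = x₀ := (hmem s).mp hsH
    have htx : t • x₀ = x₀ := (hmem t).mp htH
    have hut : orderOf (u * t * u⁻¹) = 2 := by rw [orderOf_conj']; exact ht
    have huty : (u * t * u⁻¹) • y₀ = y₀ := by
      rw [← hux, mul_smul, mul_smul, inv_smul_smul, htx]
    obtain ⟨i, hi, hc, hix⟩ := h.exists_swap hs hut hsx huty hxy
    have hiy := swap_of hi hix
    refine ⟨u * i, Subgroup.mem_inf.mpr ⟨?_, ?_⟩, ?_⟩
    · rw [hmem, mul_smul, hix, huy]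
    · rw [mem_map_conj_iff, hmem]
      have : u⁻¹ * (u * i) * u = i * u := by group
      rw [this, mul_smul, hux, hiy]
    · calc u * i * s * (u * i)⁻¹ = u * (i * s * i⁻¹) * u⁻¹ := by group
        _ = u * (u * t * u⁻¹) * u⁻¹ := by rw [hc]
        _ = (u * u) * t * (u * u)⁻¹ := by group
        _ = t := by rw [mul_self_eq_one hu]; simp
  · intro a b ha hb
    obtain ⟨xa, hxa⟩ := h.exists_fix a ha
    obtain ⟨xb, hxb⟩ := h.exists_fix b hb
    by_cases hab : xa = xb
    · subst hab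
      obtain ⟨z, hz⟩ : ∃ z : G ⧸ H, z ≠ xa := by
        by_cases hq : x₀ = xa
        · exact ⟨y₀, fun hc => hxy (hq.trans hc.symm)⟩
        · exact ⟨x₀, hq⟩
      obtain ⟨g, rfl⟩ := MulAction.exists_smul_eq G xa z
      have hv : orderOf (g * a * g⁻¹) = 2 := by rw [orderOf_conj']; exact ha
      have hvz : (g * a * g⁻¹) • (g • xa) = g • xa := by simp [mul_smul, hxa]
      obtain ⟨i, _, hc, _⟩ := h.exists_swap ha hv hxa hvz (Ne.symm hz)
      obtain ⟨i', _, hc', _⟩ := h.exists_swap hb hv hxb hvz (Ne.symm hz)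
      have h1 : IsConj a (g * a * g⁻¹) := isConj_iff.mpr ⟨i, hc⟩
      have h2 : IsConj b (g * a * g⁻¹) := isConj_iff.mpr ⟨i', hc'⟩
      exact h1.trans h2.symm
    · obtain ⟨i, _, hc, _⟩ := h.exists_swap ha hb hxa hxb hab
      exact isConj_iff.mpr ⟨i, hc⟩

end Cfsg.Agent.S1225
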