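import Cfsg.Statements.S1227
import Mathlib
import Cfsg.Agent.Lib.StrongEmb3

set_option autoImplicit false
open Cfsg

namespace Cfsg.Agent.S1227

open Cfsg.Agent.Lib.StrongEmb Cfsg.Agent.Lib.Invol

/-- Let G be a finite group with a Sylow 2-subgroup T that is neither cyclic nor normal, such that the centralizer of every involution is an elementary abelian 2-group; put H = N_G(T), let u be an involution outside H and D = H ∩ uHu⁻¹. Then u inverts every element of D, |H| = |T|·(|T| − 1), and D is a complement to T in H. -/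
theorem result {G : Type*} [Group G] [Finite G] (T : Sylow 2 G) (hnc : ¬ IsCyclic (T : Subgroup G)) (hnn : ¬ (T : Subgroup G).Normal) (hC : ∀ t : G, orderOf t = 2 → IsMulCommutative (Subgroup.centralizer ({t} : Set G)) ∧ ∀ c ∈ Subgroup.centralizer ({t} : Set G), c ^ 2 = 1) (u : G) (hu : orderOf u = 2) (huH : u ∉ Subgroup.normalizer ((T : Subgroup G) : Set G)) : (∀ d ∈ Subgroup.normalizer ((T : Subgroup G) : Set G) ⊓ (Subgroup.normalizer ((T : Subgroup G) : Set G)).map (MulAut.conj u).toMonoidHom, u * d * u⁻¹ = d⁻¹) ∧ Nat.card (Subgroup.normalizer ((T : Subgroup G) : Set G)) = Nat.card T * (Nat.card T - 1) ∧ Subgroup.IsComplement' ((Subgroup.normalizer ((T : Subgroup G) : Set G) ⊓ (Subgroup.normalizer ((T : Subgroup G) : Set G)).map (MulAut.conj u).toMonoidHom).subgroupOf (Subgroup.normalizer ((T : Subgroup G) : Set G))) ((T : Subgroup G).subgroupOf (Subgroup.normalizer ((T : Subgroup G) : Set G))) := by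
  have h := zact_of hnc hnn hC
  have hT := mem_T_iff hnc hnn hC
  obtain ⟨hcomm, hel, hinv⟩ := sylow_facts T hnc hC
  set H := Subgroup.normalizer ((T : Subgroup G) : Set G) with hHdef
  set x₀ : G ⧸ H := QuotientGroup.mk 1 with hx₀
  set y₀ : G ⧸ H := QuotientGroup.mk u with hy₀
  have hD : H ⊓ H.map (MulAut.conj u).toMonoidHom = DD G x₀ y₀ := inf_map_conj_eq u
  have hmem : ∀ g : G, g ∈ H ↔ g • x₀ = x₀ := by
    intro g
    rw [hx₀, smul_mk_eq_iff]
    simp
  have hsm : ∀ g : G, g • x₀ = QuotientGroup.mk g := by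
    intro g
    rw [hx₀, MulAction.Quotient.smul_mk, smul_eq_mul, mul_one]
  have hux : u • x₀ = y₀ := hsm u
  have hxy : x₀ ≠ y₀ := by
    intro hc
    apply huH
    rw [hmem, hux]
    exact hc.symm
  have hTle : (T : Subgroup G) ≤ H := Subgroup.le_normalizer
  rw [hD]
  have hcompl : Subgroup.IsComplement' ((DD G x₀ y₀).subgroupOf H) ((T : Subgroup G).subgroupOf H) := by
    apply Subgroup.isComplement'_of_disjoint_and_mul_eq_univ
    · rw [Subgroup.disjoint_def]
      intro a ha hb
      have h1 : (a : G) ∈ DD G x₀ y₀ := Subgroup.mem_subgroupOf.mp ha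
      have h2 : (a : G) ∈ (T : Subgroup G) := Subgroup.mem_subgroupOf.mp hb
      exact Subtype.ext (h.eq_one_of_sq hxy h1 (hel _ h2))
    · rw [Set.eq_univ_iff_forall]
      rintro ⟨g, hg⟩
      obtain ⟨d, hd, t, ht, hdt⟩ := h.exists_decomp hxy ((hmem g).mp hg)
      have hdH : d ∈ H := (hmem d).mpr (mem_DD.mp hd).1
      have htT : t ∈ (T : Subgroup G) := (hT t).mp ht
      refine Set.mem_mul.mpr ⟨⟨d, hdH⟩, ?_, ⟨t, hTle htT⟩, ?_, Subtype.ext hdt.symm⟩
      · exact Subgroup.mem_subgroupOf.mpr hd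
      · exact Subgroup.mem_subgroupOf.mpr htT
  refine ⟨?_, ?_, hcompl⟩
  · intro d hd
    exact h.inverts hxy hu hux hd
  · have h1 := hcompl.card_mul_card
    have h2 : Nat.card ((DD G x₀ y₀).subgroupOf H) = Nat.card (DD G x₀ y₀) :=
      Nat.card_congr (Subgroup.subgroupOfEquivOfLe (by
        intro g hg
        exact (hmem g).mpr (mem_DD.mp hg).1)).toEquiv
    have h3 : Nat.card ((T : Subgroup G).subgroupOf H) = Nat.card (T : Subgroup G) :=
      Nat.card_congr (Subgroup.subgroupOfEquivOfLe hTle).toEquiv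
    rw [h2, h3] at h1
    have h4 : TT G h x₀ = (T : Subgroup G) := by
      ext t
      exact hT t
    have h5 := h.card_T x₀
    rw [h4] at h5
    have h6 := h.card_DD hxy
    rw [← h6] at h5
    have h7 : Nat.card (DD G x₀ y₀) = Nat.card (T : Subgroup G) - 1 := by omega
    rw [h7, mul_comm] at h1
    exact h1.symm

end Cfsg.Agent.S1227
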