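import Cfsg.Statements.S1228
import Mathlib
import Cfsg.Agent.Lib.StrongEmb3

set_option autoImplicit false
open Cfsg

namespace Cfsg.Agent.S1228

open Cfsg.Agent.Lib.StrongEmb Cfsg.Agent.Lib.Invol

/-- Let G be a finite group with a Sylow 2-subgroup T that is neither cyclic nor normal, such that the centralizer of every involution is an elementary abelian 2-group; put H = N_G(T), let u be an involution outside H and D = H ∩ uHu⁻¹. Then N_G(D) = D ⊔ ⟨u⟩, and a coset gH is fixed by every element of D exactly when gH = H or gH = uH. -/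
theorem result {G : Type*} [Group G] [Finite G] (T : Sylow 2 G) (hnc : ¬ IsCyclic (T : Subgroup G)) (hnn : ¬ (T : Subgroup G).Normal) (hC : ∀ t : G, orderOf t = 2 → IsMulCommutative (Subgroup.centralizer ({t} : Set G)) ∧ ∀ c ∈ Subgroup.centralizer ({t} : Set G), c ^ 2 = 1) (u : G) (hu : orderOf u = 2) (huH : u ∉ Subgroup.normalizer ((T : Subgroup G) : Set G)) : Subgroup.normalizer ((Subgroup.normalizer ((T : Subgroup G) : Set G) ⊓ (Subgroup.normalizer ((T : Subgroup G) : Set G)).map (MulAut.conj u).toMonoidHom : Subgroup G) : Set G) = (Subgroup.normalizer ((T : Subgroup G) : Set G) ⊓ (Subgroup.normalizer ((T : Subgroup G) : Set G)).map (MulAut.conj u).toMonoidHom) ⊔ Subgroup.zpowers u ∧ ∀ g : G, ((∀ d ∈ Subgroup.normalizer ((T : Subgroup G) : Set G) ⊓ (Subgroup.normalizer ((T : Subgroup G) : Set G)).map (MulAut.conj u).toMonoidHom, d • (QuotientGroup.mk g : G ⧸ Subgroup.normalizer ((T : Subgroup G) : Set G)) = QuotientGroup.mk g) ↔ (QuotientGroup.mk g : G ⧸ Subgroup.normalizer ((T : Subgroup G) : Set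 G)) = QuotientGroup.mk 1 ∨ (QuotientGroup.mk g : G ⧸ Subgroup.normalizer ((T : Subgroup G) : Set G)) = QuotientGroup.mk u) := by
  have h := zact_of hnc hnn hC
  set H := Subgroup.normalizer ((T : Subgroup G) : Set G) with hHdef
  set x₀ : G ⧸ H := QuotientGroup.mk 1 with hx₀
  set y₀ : G ⧸ H := QuotientGroup.mk u with hy₀
  have hD : H ⊓ H.map (MulAut.conj u).toMonoidHom = DD G x₀ y₀ := inf_map_conj_eq u
  have hmem : ∀ g : G, g ∈ H ↔ g • x₀ = x₀ := by
    intro g
    rw [hx₀, smul_mk_eq_iff]
    simp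
  have hsm : ∀ g : G, g • x₀ = QuotientGroup.mk g := by
    intro g
    rw [hx₀, MulAction.Quotient.smul_mk, smul_eq_mul, mul_one]
  have hux : u • x₀ = y₀ := hsm u
  have huy : u • y₀ = x₀ := swap_of hu hux
  have hxy : x₀ ≠ y₀ := by
    intro hc
    apply huH
    rw [hmem, hux]
    exact hc.symm
  rw [hD]
  have hun : u ∈ Subgroup.normalizer ((DD G x₀ y₀ : Subgroup G) : Set G) := by
    rw [Subgroup.mem_normalizer_iff]
    intro d
    have hk : ∀ e ∈ DD G x₀ y₀, u * e * u⁻¹ = e⁻¹ := fun e he => h.inverts hxy hu hux he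
    constructor
    · intro hd
      rw [hk d hd]
      exact (DD G x₀ y₀).inv_mem hd
    · intro hd
      have h1 := (DD G x₀ y₀).inv_mem hd
      rw [← hk _ hd] at h1
      have h2 : u * (u * d * u⁻¹) * u⁻¹ = d := by
        have : u * (u * d * u⁻¹) * u⁻¹ = (u * u) * d * (u * u)⁻¹ := by group
        rw [this, mul_self_eq_one hu]; simp
      rw [h2] at h1
      exact h1
  refine ⟨?_, ?_⟩
  · apply le_antisymm
    · intro g hg
      have hgn := Subgroup.mem_normalizer_iff.mp hg
      have hfix : g • x₀ = x₀ ∨ g • x₀ = y₀ := by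
        apply h.fixD hxy
        intro d hd
        have h1 : g⁻¹ * d * g ∈ DD G x₀ y₀ := by
          have := (hgn (g⁻¹ * d * g)).mpr (by
            have : g * (g⁻¹ * d * g) * g⁻¹ = d := by group
            rwa [this])
          exact this
        have h2 := (mem_DD.mp h1).1
        have h3 : d • g • x₀ = g • (g⁻¹ * d * g) • x₀ := by simp [mul_smul]
        rw [h3, h2]
      have hnorm : ∀ k : G, k ∈ Subgroup.normalizer ((DD G x₀ y₀ : Subgroup G) : Set G) →
          ∀ d ∈ DD G x₀ y₀, k * d * k⁻¹ ∈ DD G x₀ y₀ := fun k hk d hd =>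
        (Subgroup.mem_normalizer_iff.mp hk d).mp hd
      rcases hfix with hfix | hfix
      · exact Subgroup.mem_sup_left (h.norm hxy hfix (hnorm g hg))
      · have h1 : u * g ∈ DD G x₀ y₀ := by
          apply h.norm hxy
          · rw [mul_smul, hfix, huy]
          · exact hnorm _ (Subgroup.mul_mem _ hun hg)
        have h2 : g = u⁻¹ * (u * g) := by group
        rw [h2]
        refine Subgroup.mul_mem _ (Subgroup.mem_sup_right ?_) (Subgroup.mem_sup_left h1)
        exact Subgroup.inv_mem _ (Subgroup.mem_zpowers u)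
    · apply sup_le Subgroup.le_normalizer
      rw [Subgroup.zpowers_le]
      exact hun
  · intro g
    constructor
    · intro hfix
      have h1 := h.fixD hxy (z := (QuotientGroup.mk g : G ⧸ H)) hfix
      exact h1
    · rintro (hg | hg) d hd
      · rw [hg]
        exact (mem_DD.mp hd).1
      · rw [hg]
        exact (mem_DD.mp hd).2

end Cfsg.Agent.S1228
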