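import Cfsg.Statements.S1229
import Mathlib
import Cfsg.Agent.Lib.StrongEmb3

set_option autoImplicit false
open Cfsg

namespace Cfsg.Agent.S1229

open Cfsg.Agent.Lib.StrongEmb Cfsg.Agent.Lib.Invol

/-- Let G be a finite group with a Sylow 2-subgroup T that is neither cyclic nor normal, such that the centralizer of every involution is an elementary abelian 2-group; put H = N_G(T) and X = G/H. Then G is triply transitive on X, an element fixing three distinct points of X is the identity, and T acts regularly on X minus the point H. -/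
theorem result {G : Type*} [Group G] [Finite G] (T : Sylow 2 G) (hnc : ¬ IsCyclic (T : Subgroup G)) (hnn : ¬ (T : Subgroup G).Normal) (hC : ∀ t : G, orderOf t = 2 → IsMulCommutative (Subgroup.centralizer ({t} : Set G)) ∧ ∀ c ∈ Subgroup.centralizer ({t} : Set G), c ^ 2 = 1) : (∀ x₁ x₂ x₃ y₁ y₂ y₃ : G ⧸ Subgroup.normalizer ((T : Subgroup G) : Set G), x₁ ≠ x₂ → x₁ ≠ x₃ → x₂ ≠ x₃ → y₁ ≠ y₂ → y₁ ≠ y₃ → y₂ ≠ y₃ → ∃ g : G, g • x₁ = y₁ ∧ g • x₂ = y₂ ∧ g • x₃ = y₃) ∧ (∀ g : G, ∀ x₁ x₂ x₃ : G ⧸ Subgroup.normalizer ((T : Subgroup G) : Set G), x₁ ≠ x₂ → x₁ ≠ x₃ → x₂ ≠ x₃ → g • x₁ = x₁ → g • x₂ = x₂ → g • x₃ = x₃ → g = 1) ∧ (∀ x y : G ⧸ Subgroup.normalizer ((T : Subgroup G) : Set G), x ≠ QuotientGroup.mk 1 → y ≠ QuotientGroup.mk 1 → ∃! t : G, t ∈ T ∧ t • x = y) := by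
  have h := zact_of hnc hnn hC
  have hT := mem_T_iff hnc hnn hC
  refine ⟨?_, ?_, ?_⟩
  · intro x₁ x₂ x₃ y₁ y₂ y₃ h12 h13 h23 k12 k13 k23
    obtain ⟨g₁, hg₁⟩ := MulAction.exists_smul_eq G x₁ y₁
    have hne2 : y₁ ≠ g₁ • x₂ := by
      intro hc
      rw [← hg₁] at hc
      exact h12 (MulAction.injective g₁ hc)
    have hne3 : y₁ ≠ g₁ • x₃ := by
      intro hc
      rw [← hg₁] at hc
      exact h13 (MulAction.injective g₁ hc)
    obtain ⟨a, ha, hax⟩ := h.T_regular_exists hne2 k12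
    have hay : a • y₁ = y₁ := ha.2
    have hne3' : a • g₁ • x₃ ≠ y₁ := by
      intro hc
      rw [← hay] at hc
      exact hne3 (MulAction.injective a hc).symm
    have hne3'' : a • g₁ • x₃ ≠ y₂ := by
      intro hc
      rw [← hax] at hc
      have := MulAction.injective a hc
      exact h23 (MulAction.injective g₁ this).symm
    obtain ⟨d, hd, hdx⟩ := h.D_trans k12 hne3' hne3'' k13.symm k23.symm
    have hd' := mem_DD.mp hd
    refine ⟨d * (a * g₁), ?_, ?_, ?_⟩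
    · rw [mul_smul, mul_smul, hg₁, hay, hd'.1]
    · rw [mul_smul, mul_smul, hax, hd'.2]
    · rw [mul_smul, mul_smul, hdx]
  · intro g x₁ x₂ x₃ h12 h13 h23 h1 h2 h3
    exact h.triple h12 h13 h23 h1 h2 h3
  · intro x y hx hy
    obtain ⟨a, ha, hax⟩ := h.T_regular_exists (Ne.symm hx) (Ne.symm hy)
    refine ⟨a, ⟨(hT a).mp ha, hax⟩, ?_⟩
    rintro b ⟨hb, hbx⟩
    exact h.T_regular_unique (Ne.symm hx) ((hT b).mpr hb) ha (hbx.trans hax.symm)

end Cfsg.Agent.S1229
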