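import Cfsg.Statements.S1230
import Mathlib
import Cfsg.Agent.Lib.StrongEmb4

set_option autoImplicit false
open Cfsg

namespace Cfsg.Agent.S1230

open Cfsg.Agent.Lib.StrongEmb Cfsg.Agent.Lib.Invol

/-- Let G be a finite group with a Sylow 2-subgroup T that is neither cyclic nor normal, such that the centralizer of every involution is an elementary abelian 2-group. Then G ≅ PSL(2,F) for a finite field F with |F| = |T|. -/
theorem result {G : Type*} [Group G] [Finite G] (T : Sylow 2 G) (hnc : ¬ IsCyclic (T : Subgroup G)) (hnn : ¬ (T : Subgroup G).Normal) (hC : ∀ t : G, orderOf t = 2 → IsMulCommutative (Subgroup.centralizer ({t} : Set G)) ∧ ∀ c ∈ Subgroup.centralizer ({t} : Set G), c ^ 2 = 1) : ∃ (F : Type) (_ : Field F) (_ : Fintype F), Fintype.card F = Nat.card T ∧ Nonempty (G ≃* Matrix.ProjectiveSpecialLinearGroup (Fin 2) F) := by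
  classical
  haveI : Fact (Nat.Prime 2) := ⟨Nat.prime_two⟩
  have h := zact_of hnc hnn hC
  have hT := mem_T_iff hnc hnn hC
  set H := Subgroup.normalizer ((T : Subgroup G) : Set G) with hHdef
  have hHtop : H ≠ ⊤ := by
    intro hc
    apply hnn
    rw [← Subgroup.normalizer_eq_top_iff]
    exact hc
  obtain ⟨g, hg⟩ : ∃ g, g ∉ H := by
    by_contra hc
    push Not at hc
    exact hHtop ((Subgroup.eq_top_iff' H).mpr hc)
  set x₀ : G ⧸ H := QuotientGroup.mk 1 with hx₀
  set y₀ : G ⧸ H := QuotientGroup.mk g with hy₀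
  have hxy : x₀ ≠ y₀ := by
    intro hc
    apply hg
    have := QuotientGroup.eq.mp hc
    simpa using this
  obtain ⟨u, hu, hux⟩ := h.ex_swap hxy
  obtain ⟨K, _, _, h2, hcard, ⟨e⟩⟩ := h.iso_SL2 hxy hu hux
  have hTT : TT G h x₀ = (T : Subgroup G) := by
    ext t
    exact hT t
  rw [hTT] at hcard
  have hT2 : IsPGroup 2 (T : Subgroup G) := T.2
  obtain ⟨k, hk⟩ := IsPGroup.iff_card.mp hT2
  have hk0 : k ≠ 0 := by
    rintro rfl
    have h3 : Nat.card (T : Subgroup G) = 1 := by rw [hk, pow_zero]
    have h4 : Subsingleton (T : Subgroup G) := (Finite.card_le_one_iff_subsingleton).mp (by omega)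
    exact hnc inferInstance
  haveI : Fintype K := Fintype.ofFinite K
  haveI : Finite (GaloisField 2 k) := Nat.finite_of_card_ne_zero (by
    rw [GaloisField.card 2 k hk0]; positivity)
  letI : Fintype (GaloisField 2 k) := Fintype.ofFinite _
  have hcardF : Fintype.card (GaloisField 2 k) = Nat.card T := by
    rw [← Nat.card_eq_fintype_card, GaloisField.card 2 k hk0]
    exact hk.symm
  have hKF : Fintype.card K = Fintype.card (GaloisField 2 k) := by
    rw [hcardF, ← Nat.card_eq_fintype_card]
    exact hcard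
  let r : K ≃+* GaloisField 2 k := FiniteField.ringEquivOfCardEq hKF
  have h2F : (2 : GaloisField 2 k) = 0 := by
    calc (2 : GaloisField 2 k) = r 2 := (map_ofNat r 2).symm
      _ = r 0 := by rw [h2]
      _ = 0 := map_zero r
  let eSL : Matrix.SpecialLinearGroup (Fin 2) K ≃* Matrix.SpecialLinearGroup (Fin 2) (GaloisField 2 k) :=
    MonoidHom.toMulEquiv (Matrix.SpecialLinearGroup.map (r : K →+* GaloisField 2 k))
      (Matrix.SpecialLinearGroup.map (r.symm : GaloisField 2 k →+* K))
      (by ext A i j; simp)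
      (by ext A i j; simp)
  have hcenter : Subgroup.center (Matrix.SpecialLinearGroup (Fin 2) (GaloisField 2 k)) = ⊥ := by
    rw [Subgroup.eq_bot_iff_forall]
    intro A hA
    obtain ⟨s, hs, hsA⟩ := Matrix.SpecialLinearGroup.mem_center_iff.mp hA
    have h3 : s = 1 := by
      have h4 : (s - 1) ^ 2 = 0 := by
        have h5 : s ^ 2 = 1 := by simpa using hs
        linear_combination h5 + (1 - s) * h2F
      have h6 := pow_eq_zero_iff (two_ne_zero) |>.mp h4
      linear_combination h6
    apply Subtype.ext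
    rw [← hsA, h3]
    simp
  let ePSL : Matrix.ProjectiveSpecialLinearGroup (Fin 2) (GaloisField 2 k) ≃*
      Matrix.SpecialLinearGroup (Fin 2) (GaloisField 2 k) :=
    (QuotientGroup.quotientMulEquivOfEq hcenter).trans QuotientGroup.quotientBot
  exact ⟨GaloisField 2 k, inferInstance, inferInstance, hcardF, ⟨(e.trans eSL).trans ePSL.symm⟩⟩

end Cfsg.Agent.S1230
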