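import Cfsg.Statements.S1231
import Mathlib
import Cfsg.Agent.Lib.SylowTools
import Cfsg.Agent.Lib.PNilp

set_option autoImplicit false
open Cfsg

namespace Cfsg.Agent.S1231

open Cfsg.Agent.Lib.SylowTools Cfsg.Agent.Lib.PNilp

variable {G : Type*} [Group G]

lemma prank_inj {A B : Type*} [Group A] [Group B] [Finite A] (f : A →* B) (hf : Function.Injective f) {p k : ℕ}
    (h : Cfsg.PRankLE p k B) : Cfsg.PRankLE p k A := by
  intro C hC hexp
  have h1 := h (C.map f) ⟨⟨by
    rintro ⟨_, a, ha, rfl⟩ ⟨_, b, hb, rfl⟩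
    apply Subtype.ext
    show f a * f b = f b * f a
    rw [← map_mul, ← map_mul]
    have := hC.is_comm.comm ⟨a, ha⟩ ⟨b, hb⟩
    rw [show a * b = b * a from congrArg Subtype.val this]⟩⟩ (by
    rintro _ ⟨a, ha, rfl⟩
    rw [← map_pow, hexp a ha, map_one])
  rwa [Subgroup.card_map_of_injective hf] at h1

lemma prank_mono [Finite G] {A B : Subgroup G} (hAB : A ≤ B) {p k : ℕ}
    (h : Cfsg.PRankLE p k B) : Cfsg.PRankLE p k A :=
  prank_inj (Subgroup.inclusion hAB) (Subgroup.inclusion_injective hAB) h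

lemma prank_conj [Finite G] (A : Subgroup G) (g : G) {p k : ℕ}
    (h : Cfsg.PRankLE p k A) : Cfsg.PRankLE p k (A.map (MulAut.conj g).toMonoidHom) := by
  have e : (A.map (MulAut.conj g).toMonoidHom) ≃* A :=
    (MulEquiv.subgroupMap (MulAut.conj g) A).symm
  exact prank_inj e.toMonoidHom e.injective h

lemma prank_conj' [Finite G] (A : Subgroup G) (g : G) {p k : ℕ}
    (h : Cfsg.PRankLE p k (A.map (MulAut.conj g).toMonoidHom)) : Cfsg.PRankLE p k A := by
  have e : A ≃* (A.map (MulAut.conj g).toMonoidHom) := MulEquiv.subgroupMap (MulAut.conj g) A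
  exact prank_inj e.toMonoidHom e.injective h

lemma pgroup_of_exp {A : Type*} [Group A] {p : ℕ} (h : ∀ a : A, a ^ p = 1) : IsPGroup p A := by
  intro a
  exact ⟨1, by rw [pow_one]; exact h a⟩

/-- Let H be a subgroup of the finite group G, p a prime, k ≥ 1, and P a Sylow p-subgroup of H whose p-rank is at least k. Then N_G(X) ≤ H for every subgroup X of P of p-rank at least k if and only if H ∩ gHg⁻¹ has p-rank less than k for every g ∉ H. -/
theorem result {G : Type*} [Group G] [Finite G] {p : ℕ} [Fact p.Prime] (k : ℕ) (hk : 1 ≤ k) (H : Subgroup G) (P : Sylow p ↥H) (hP : ¬ Cfsg.PRankLE p (k - 1) ↥(P : Subgroup ↥H)) : (∀ X : Subgroup G, X ≤ (P : Subgroup ↥H).map H.subtype → ¬ Cfsg.PRankLE p (k - 1) ↥X → Subgroup.normalizer (X : Set G) ≤ H) ↔ (∀ g : G, g ∉ H → Cfsg.PRankLE p (k - 1) ↥(H ⊓ H.map (MulAut.conj g).toMonoidHom)) := by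
  set P' := (P : Subgroup ↥H).map H.subtype with hP'
  have hP'H : P' ≤ H := by
    rintro _ ⟨x, _, rfl⟩
    exact x.2
  have hP'p : IsPGroup p P' := P.isPGroup'.map H.subtype
  have hrankP' : ¬ Cfsg.PRankLE p (k - 1) P' := by
    intro hc
    apply hP
    have e : (P : Subgroup ↥H) ≃* P' := Subgroup.equivMapOfInjective _ _ Subtype.coe_injective
    exact prank_inj e.toMonoidHom e.injective hc
  constructor
  · intro hL g hg
    by_contra hn
    set W := H ⊓ H.map (MulAut.conj g).toMonoidHom with hW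
    -- the elementary abelian subgroup
    have hn' := hn
    unfold Cfsg.PRankLE at hn'
    push Not at hn'
    obtain ⟨E, hEc, hEe, hEcard⟩ := hn'
    set E' : Subgroup G := E.map W.subtype with hE'
    have hE'p : IsPGroup p E' := by
      have : IsPGroup p E := pgroup_of_exp (fun a => Subtype.ext (by
        simpa using hEe a.1 a.2))
      exact this.map W.subtype
    have hE'W : E' ≤ W := by
      rintro _ ⟨x, _, rfl⟩
      exact x.2
    -- a maximal p-subgroup of W
    obtain ⟨R, hER, hRmax⟩ := Finite.exists_le_maximal (p := fun Q : Subgroup G => IsPGroup p Q ∧ Q ≤ W)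
      (a := E') ⟨hE'p, hE'W⟩
    have hRp := hRmax.prop.1
    have hRW := hRmax.prop.2
    have hRrank : ¬ Cfsg.PRankLE p (k - 1) R := by
      intro hc
      have h1 : Cfsg.PRankLE p (k - 1) E' := prank_mono hER hc
      have e : E ≃* E' := Subgroup.equivMapOfInjective _ _ Subtype.coe_injective
      have h2 : Cfsg.PRankLE p (k - 1) E := prank_inj e.toMonoidHom e.injective h1
      have h3 := h2 ⊤ ⟨⟨by
        rintro ⟨a, _⟩ ⟨b, _⟩
        apply Subtype.ext
        exact hEc.is_comm.comm a b⟩⟩ (by
        rintro ⟨a, ha⟩ _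
        apply Subtype.ext
        have := hEe a ha
        simpa using this) 
      rw [Subgroup.card_top] at h3
      exact absurd h3 (not_le.mpr hEcard)
    have hRH : R ≤ H := hRW.trans inf_le_left
    have hRHg : R ≤ H.map (MulAut.conj g).toMonoidHom := hRW.trans inf_le_right
    have hmapp : ∀ a : G, IsPGroup p (R.map (MulAut.conj a).toMonoidHom) := fun a =>
      hRp.map (MulAut.conj a).toMonoidHom
    obtain ⟨h₁, hh₁, hR₁⟩ := exists_conj_le_image H P R hRH hRp
    have hR₀ : R.map (MulAut.conj g⁻¹).toMonoidHom ≤ H := by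
      rintro _ ⟨x, hx, rfl⟩
      have := mem_map_conj.mp (hRHg hx)
      simpa using this
    obtain ⟨h₂, hh₂, hR₂⟩ := exists_conj_le_image H P _ hR₀ (hmapp g⁻¹)
    rw [map_conj_map_conj] at hR₂
    set a := h₂ * g⁻¹ with ha
    -- ranks
    have hr : ∀ b : G, ¬ Cfsg.PRankLE p (k - 1) (R.map (MulAut.conj b).toMonoidHom) := fun b hc =>
      hRrank (prank_conj' R b hc)
    have hN₁ := hL _ hR₁ (hr h₁)
    have hN₂ := hL _ hR₂ (hr a)
    -- the normalizer of R lies in W
    have hNR : Subgroup.normalizer (R : Set G) ≤ W := by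
      intro x hx
      have h3 : h₁ * x * h₁⁻¹ ∈ H := hN₁ (by
        rw [← map_conj_normalizer]
        exact ⟨x, hx, rfl⟩)
      have h4 : a * x * a⁻¹ ∈ H := hN₂ (by
        rw [← map_conj_normalizer]
        exact ⟨x, hx, rfl⟩)
      refine ⟨?_, mem_map_conj.mpr ?_⟩
      · have := H.mul_mem (H.mul_mem (H.inv_mem hh₁) h3) hh₁
        have e : h₁⁻¹ * (h₁ * x * h₁⁻¹) * h₁ = x := by group
        rwa [e] at this
      · have := H.mul_mem (H.mul_mem (H.inv_mem hh₂) h4) hh₂
        have e : h₂⁻¹ * (a * x * a⁻¹) * h₂ = g⁻¹ * x * g := by rw [ha]; group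
        rwa [e] at this
    -- conjugates equal P'
    have hkey : ∀ b : G, R.map (MulAut.conj b).toMonoidHom ≤ P' → R.map (MulAut.conj b).toMonoidHom = P' := by
      intro b hb
      by_contra hne
      have hlt := lt_of_le_of_ne hb hne
      have h3 := lt_inf_normalizer (p := p) P' _ hP'p hlt
      set Q := (P' ⊓ Subgroup.normalizer ((R.map (MulAut.conj b).toMonoidHom : Subgroup G) : Set G)).map
        (MulAut.conj b⁻¹).toMonoidHom with hQ
      have hmap : ∀ X : Subgroup G, (X.map (MulAut.conj b).toMonoidHom).map (MulAut.conj b⁻¹).toMonoidHom = X := by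
        intro X
        rw [map_conj_map_conj, inv_mul_cancel, map_conj_one]
      have hmap' : ∀ X : Subgroup G, (X.map (MulAut.conj b⁻¹).toMonoidHom).map (MulAut.conj b).toMonoidHom = X := by
        intro X
        rw [map_conj_map_conj, mul_inv_cancel, map_conj_one]
      have hRQ : R < Q := by
        refine lt_of_le_not_ge ?_ ?_
        · have := Subgroup.map_mono (f := (MulAut.conj b⁻¹).toMonoidHom) h3.le
          rwa [hmap] at this
        · intro hle
          have := Subgroup.map_mono (f := (MulAut.conj b).toMonoidHom) hle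
          rw [hQ, hmap'] at this
          exact absurd this (not_le_of_gt h3)
      have hQp : IsPGroup p Q := (IsPGroup.to_le hP'p inf_le_left).map _
      have hQN : Q ≤ Subgroup.normalizer (R : Set G) := by
        rw [hQ]
        rintro _ ⟨x, hx, rfl⟩
        have h5 := hx.2
        rw [← map_conj_normalizer] at h5
        obtain ⟨y, hy, rfl⟩ := h5
        convert hy using 1
        simp [MulAut.conj_apply]
        group
      have hQW : Q ≤ W := hQN.trans hNR
      have := hRmax.le_of_ge (y := Q) ⟨hQp, hQW⟩ hRQ.le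
      exact absurd this (not_le_of_gt hRQ)
    have e₁ := hkey h₁ hR₁
    have e₂ := hkey a hR₂
    -- conclusion
    have hc : a * h₁⁻¹ ∈ Subgroup.normalizer (P' : Set G) := by
      rw [conj_mem_normalizer_iff]
      nth_rewrite 1 [← e₁]
      rw [map_conj_map_conj]
      have e3 : a * h₁⁻¹ * h₁ = a := by group
      rw [e3, e₂]
    have hc' := hL P' le_rfl hrankP' hc
    have hg' : g⁻¹ ∈ H := by
      have := H.mul_mem (H.mul_mem (H.inv_mem hh₂) hc') hh₁
      have e : h₂⁻¹ * (a * h₁⁻¹) * h₁ = g⁻¹ := by rw [ha]; group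
      rwa [e] at this
    exact hg (by simpa using H.inv_mem hg')
  · intro hR X hXP hXr x hx
    by_contra hxH
    apply hXr
    apply prank_mono _ (hR x hxH)
    intro y hy
    refine ⟨hP'H (hXP hy), mem_map_conj.mpr ?_⟩
    apply hP'H
    apply hXP
    have h1 := (Subgroup.mem_normalizer_iff.mp ((Subgroup.normalizer _).inv_mem hx) y).mp hy
    simpa using h1

end Cfsg.Agent.S1231
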