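import Cfsg.Statements.S1239
import Mathlib
import Cfsg.Agent.Lib.H9ZW
import Cfsg.Agent.Lib.WR2
import Cfsg.Agent.Lib.QD

set_option autoImplicit false
open Cfsg

namespace Cfsg.Agent.S1239

open Cfsg.Agent.Lib.WR Cfsg.Agent.Lib.WR2 Cfsg.Agent.Lib.H9ZW Cfsg.Agent.Lib.H9ZS

section WRpart

variable {S : Type*} [Group S] [Finite S] {M : ℤ} {x y τ : S}

theorem wr_uniq (d : WData M x y τ) (t : S) (ht : t ∈ Subgroup.center S) (htt : t * t = 1) (ht1 : t ≠ 1) : t = x ^ M * y ^ M := by
  rw [center_eq d] at ht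
  obtain ⟨e, rfl⟩ := Subgroup.mem_zpowers_iff.mp ht
  rw [zpow_x_y d] at htt ht1 ⊢
  have h1 : x ^ (e + e) * y ^ (e + e) = 1 := by rw [← d.u_mul]; exact htt
  have h2 := ((d.hu _ _).mp h1).1
  obtain ⟨f, hf⟩ := h2
  have he : e = M * f := by linarith
  rcases Int.even_or_odd' f with ⟨f', rfl | rfl⟩
  · exfalso
    apply ht1
    rw [d.hu]
    have : 2 * M ∣ e := ⟨f', by rw [he]; ring⟩
    exact ⟨this, this⟩
  · rw [d.u_eq_iff]
    have : 2 * M ∣ e - M := ⟨f', by rw [he]; ring⟩
    exact ⟨this, this⟩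

theorem wr_not (d : WData M x y τ) : ¬ 2 * M ∣ M := by
  intro h
  have hM := d.hM
  have := Int.le_of_dvd (by linarith) h
  linarith

theorem wr_rank (d : WData M x y τ) (t s : S) (htt : t * t = 1) (hss : s * s = 1) (ht1 : t ≠ 1) (hs1 : s ≠ 1)
    (htw : t ≠ x ^ M * y ^ M) (hsw : s ≠ x ^ M * y ^ M) (hts : t * s = s * t) : s = t ∨ s = x ^ M * y ^ M * t := by
  have hn := wr_not d
  rcases d.order2_cases (d.orderOf_eq_two_of htt ht1) with rfl | rfl | rfl | ⟨a, rfl⟩
  · rcases d.order2_cases (d.orderOf_eq_two_of hss hs1) with rfl | rfl | rfl | ⟨b, rfl⟩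
    · exact Or.inl rfl
    · refine Or.inr ?_
      rw [d.u_mul, d.u_eq_iff]
      exact ⟨⟨-1, by ring⟩, ⟨0, by ring⟩⟩
    · exact absurd rfl hsw
    · exfalso
      rw [d.mul3, d.mul1, d.uz_eq_iff] at hts
      have h := hts.1
      rw [show M + b - (b + 0) = M by ring] at h
      exact hn h
  · rcases d.order2_cases (d.orderOf_eq_two_of hss hs1) with rfl | rfl | rfl | ⟨b, rfl⟩
    · refine Or.inr ?_
      rw [d.u_mul, d.u_eq_iff]
      exact ⟨⟨0, by ring⟩, ⟨-1, by ring⟩⟩
    · exact Or.inl rfl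
    · exact absurd rfl hsw
    · exfalso
      rw [d.mul3, d.mul1, d.uz_eq_iff] at hts
      have h := hts.2
      rw [show M + -b - (-b + 0) = M by ring] at h
      exact hn h
  · exact absurd rfl htw
  · rcases d.order2_cases (d.orderOf_eq_two_of hss hs1) with rfl | rfl | rfl | ⟨b, rfl⟩
    · exfalso
      rw [d.mul1, d.mul3, d.uz_eq_iff] at hts
      have h := hts.2
      rw [show -a + M - (0 + -a) = M by ring] at h
      exact hn h
    · exfalso
      rw [d.mul1, d.mul3, d.uz_eq_iff] at hts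
      have h := hts.1
      rw [show a + M - (0 + a) = M by ring] at h
      exact hn h
    · exact absurd rfl hsw
    · rw [d.mul2, d.mul2, d.u_eq_iff] at hts
      obtain ⟨f, hf⟩ := hts.1
      have hM := d.hM
      have hf' : M * (a - b - M * f + M * f) = M * (M * f) := by
        have : 2 * (a - b) = 2 * (M * f) := by linarith
        have : a - b = M * f := by linarith
        rw [this]; ring
      have hab : a - b = M * f := by linarith
      rcases Int.even_or_odd' f with ⟨f', rfl | rfl⟩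
      · refine Or.inl ?_
        rw [d.uz_eq_iff]
        exact ⟨⟨-f', by rw [show b - a = -(a - b) by ring, hab]; ring⟩, ⟨f', by rw [show -b - -a = (a - b) by ring, hab]; ring⟩⟩
      · refine Or.inr ?_
        rw [d.mul3, d.uz_eq_iff]
        exact ⟨⟨-f' - 1, by
          have : b - (M + a) = -(a - b) - M := by ring
          rw [this, hab]; ring⟩, ⟨f', by
          have : -b - (M + -a) = (a - b) - M := by ring
          rw [this, hab]; ring⟩⟩

end WRpart

theorem exists_invol_pow {X : Type*} [Group X] : ∀ (k : ℕ) (a : X), a ^ 2 ^ k = 1 → a ≠ 1 → ∃ i : ℕ, a ^ i * a ^ i = 1 ∧ a ^ i ≠ 1 := by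
  intro k
  induction k with
  | zero =>
    intro a h h1
    exact absurd (by simpa using h) h1
  | succ k ih =>
    intro a h h1
    by_cases haa : a * a = 1
    · exact ⟨1, by simpa using haa, by simpa using h1⟩
    · have h2 : (a * a) ^ 2 ^ k = 1 := by
        rw [← pow_two, ← pow_mul, ← pow_succ']; exact h
      obtain ⟨i, hi, hi'⟩ := ih (a * a) h2 haa
      refine ⟨2 * i, ?_, ?_⟩
      · rw [pow_mul, pow_two]; exact hi
      · rw [pow_mul, pow_two]; exact hi'

theorem wreathed_case {X : Type*} [Group X] [Finite X] (S : Sylow 2 X) (hS : Cfsg.IsWreathed (S : Subgroup X)) (z : X) (hzS : z ∈ S) (hz : Cfsg.IsIsolatedInvolution z) : (Cfsg.oddCore X ⊔ (Subgroup.center (S : Subgroup X)).map (S : Subgroup X).subtype).Normal := by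
  classical
  haveI : Fact (Nat.Prime 2) := ⟨Nat.prime_two⟩
  obtain ⟨n, x, y, τ, hn, hcard, d⟩ := exists_wdata hS
  have hiso : Cfsg.IsIsolated z := fun g hg => hz.2 g hg
  have hzo := hz.1
  have hzz : z * z = 1 := by rw [← pow_two, ← hzo, pow_orderOf_eq_one]
  have hz1 : z ≠ 1 := by
    rintro rfl
    rw [orderOf_one] at hzo
    omega
  have hcen : ∀ r ∈ (S : Subgroup X), r * z = z * r := by
    intro r hr
    have h1 := Cfsg.Agent.Lib.LIso.central_of_isolated (p := 2) S S.2 hzS hiso r hr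
    calc r * z = (r * z * r⁻¹) * r := by group
      _ = z * r := by rw [h1]
  let z₀ : (S : Subgroup X) := ⟨z, hzS⟩
  have hz₀c : z₀ ∈ Subgroup.center (S : Subgroup X) := by
    rw [Subgroup.mem_center_iff]
    intro g
    exact Subtype.ext (hcen g g.2)
  have hz₀z : z₀ * z₀ = 1 := Subtype.ext hzz
  have hz₀1 : z₀ ≠ 1 := fun h => hz1 (congrArg Subtype.val h)
  have hz₀w := wr_uniq d z₀ hz₀c hz₀z hz₀1
  have R : RankCond (S : Subgroup X) z := by
    intro t s ht hs htt hss ht1 hs1 htz hsz hts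
    have r := wr_rank d ⟨t, ht⟩ ⟨s, hs⟩ (Subtype.ext htt) (Subtype.ext hss)
      (fun h => ht1 (congrArg Subtype.val h)) (fun h => hs1 (congrArg Subtype.val h))
      (fun h => htz (by rw [← hz₀w] at h; exact congrArg Subtype.val h))
      (fun h => hsz (by rw [← hz₀w] at h; exact congrArg Subtype.val h))
      (Subtype.ext hts)
    rw [← hz₀w] at r
    rcases r with r | r
    · exact Or.inl (congrArg Subtype.val r)
    · exact Or.inr (congrArg Subtype.val r)
  apply normal_of_central
  intro c hc g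
  by_cases hc1 : c = 1
  · rw [hc1]
    simp
  obtain ⟨k, hk⟩ := S.2 c
  obtain ⟨i, hi, hi'⟩ := exists_invol_pow k c hk hc1
  have hzc : z₀ = c ^ i := by
    rw [hz₀w]
    exact (wr_uniq d (c ^ i) (pow_mem hc i) hi hi').symm
  have hzpow : z ∈ Subgroup.zpowers (c : X) := by
    have : z = (c : X) ^ i := congrArg Subtype.val hzc
    rw [this]
    exact pow_mem (Subgroup.mem_zpowers _) i
  exact central_mod_core S hzo hiso hzpow hzS c.2 (fun s hs => by
    have h1 := Subgroup.mem_center_iff.mp hc ⟨s, hs⟩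
    exact congrArg Subtype.val h1) R g

open Cfsg.Agent.Lib.QD in
theorem qd_center {S : Type*} [Group S] [Finite S] {k : ℤ} {x y : S} (d : QData k x y) (t : S) (ht : t ∈ Subgroup.center S) :
    t = 1 ∨ t = x ^ (4 * k) := by
  have hk := d.hk
  have hc := Subgroup.mem_center_iff.mp ht
  rcases d.hform t with ⟨i, rfl⟩ | ⟨i, rfl⟩
  · have h1 := hc y
    have h2 : y * x ^ i * y = x ^ i := by
      rw [h1, mul_assoc, d.hyy, mul_one]
    rw [d.y_conj, d.zpow_eq_iff] at h2
    have h3 : 4 * k ∣ i := by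
      apply d.dvd_of_conj (dvd_refl _)
      obtain ⟨u, hu⟩ := h2
      exact ⟨-u, by linarith [hu]⟩
    obtain ⟨f, rfl⟩ := h3
    rcases Int.even_or_odd' f with ⟨f', rfl | rfl⟩
    · left
      rw [d.hx]
      exact ⟨f', by ring⟩
    · right
      rw [d.zpow_eq_iff]
      exact ⟨f', by ring⟩
  · exfalso
    have h1 := hc x
    have h2 : x ^ (1 : ℤ) * (x ^ i * y) * (x ^ (1 : ℤ))⁻¹ = x ^ i * y := by
      rw [zpow_one, h1]; group
    rw [d.conj1, d.zpow_mul_y_eq_iff] at h2
    have h3 : 8 * k ∣ 4 * k - 2 := by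
      obtain ⟨u, hu⟩ := h2
      exact ⟨-u, by linarith [hu]⟩
    have h4 := Int.le_of_dvd (by linarith [(by omega : (1 : ℤ) ≤ k)]) h3
    linarith

open Cfsg.Agent.Lib.QD in
theorem qd_case {X : Type*} [Group X] [Finite X] (S : Sylow 2 X) (hS : Cfsg.IsQuasiDihedral (S : Subgroup X)) (z : X) (hzS : z ∈ S) (hz : Cfsg.IsIsolatedInvolution z) : (Cfsg.oddCore X ⊔ (Subgroup.center (S : Subgroup X)).map (S : Subgroup X).subtype).Normal := by
  classical
  haveI : Fact (Nat.Prime 2) := ⟨Nat.prime_two⟩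
  obtain ⟨k, x, y, d⟩ := exists_qdata hS
  have hiso : Cfsg.IsIsolated z := fun g hg => hz.2 g hg
  have hzo := hz.1
  have hz1 : z ≠ 1 := by
    rintro rfl
    rw [orderOf_one] at hzo
    omega
  have hcen : ∀ r ∈ (S : Subgroup X), r * z = z * r := by
    intro r hr
    have h1 := Cfsg.Agent.Lib.LIso.central_of_isolated (p := 2) S S.2 hzS hiso r hr
    calc r * z = (r * z * r⁻¹) * r := by group
      _ = z * r := by rw [h1]
  let z₀ : (S : Subgroup X) := ⟨z, hzS⟩
  have hz₀c : z₀ ∈ Subgroup.center (S : Subgroup X) := by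
    rw [Subgroup.mem_center_iff]
    intro g
    exact Subtype.ext (hcen g g.2)
  have hz₀1 : z₀ ≠ 1 := fun h => hz1 (congrArg Subtype.val h)
  have hz₀w : z₀ = x ^ (4 * k) := (qd_center d z₀ hz₀c).resolve_left hz₀1
  apply normal_of_central
  intro c hc g
  rcases qd_center d c hc with rfl | h
  · simp
  · rw [← hz₀w] at h
    rw [h]
    exact zstar X z hzo hiso g

/-- Let X be a finite group whose Sylow 2-subgroup S is quasi-dihedral or wreathed, and suppose some involution of S is isolated in X. Then the product of the largest normal odd-order subgroup O(X) with the centre of S is normal in X. -/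
theorem result {X : Type*} [Group X] [Finite X] (S : Sylow 2 X) (hS : Cfsg.IsQuasiDihedral (S : Subgroup X) ∨ Cfsg.IsWreathed (S : Subgroup X)) (z : X) (hzS : z ∈ S) (hz : Cfsg.IsIsolatedInvolution z) : (Cfsg.oddCore X ⊔ (Subgroup.center (S : Subgroup X)).map (S : Subgroup X).subtype).Normal := by
  rcases hS with hS | hS
  · exact qd_case S hS z hzS hz
  · exact wreathed_case S hS z hzS hz

end Cfsg.Agent.S1239
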