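import Cfsg.Statements.S1241
import Mathlib
import Cfsg.Agent.Lib.TransferTools

set_option autoImplicit false
open Cfsg

namespace Cfsg.Agent.S1241

open Cfsg.Agent.Lib.TransferTools

/-- Let G be a finite group, p a prime, H a subgroup of index prime to p, K a subgroup of H normal in H with H/K commutative, and g ∈ H ∖ K an element of p-power order such that for all integers m and all a ∈ G with a g^m a⁻¹ ∈ H one has a g^m a⁻¹ ∈ g^m K. Then g ∉ G'. -/
theorem result {G : Type*} [Group G] [Finite G] {p : ℕ} [Fact p.Prime] (H K : Subgroup G) (hHK : K ≤ H) (hKn : (K.subgroupOf H).Normal) (hab : ∀ x ∈ H, ∀ y ∈ H, x * y * x⁻¹ * y⁻¹ ∈ K) (hidx : Nat.Coprime p H.index) (g : G) (hgH : g ∈ H) (hgK : g ∉ K) (hgp : ∃ k : ℕ, orderOf g = p ^ k) (hctrl : ∀ (m : ℤ) (a : G), a * g ^ m * a⁻¹ ∈ H → (a * g ^ m * a⁻¹) * (g ^ m)⁻¹ ∈ K) : g ∉ commutator G := by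
  classical
  intro hgc
  haveI := hKn
  set K' := K.subgroupOf H with hK'
  letI inst : CommGroup (H ⧸ K') :=
    { (QuotientGroup.Quotient.group K') with
      mul_comm := by
        intro a b
        induction a using QuotientGroup.induction_on with
        | H x =>
          induction b using QuotientGroup.induction_on with
          | H y =>
            rw [← QuotientGroup.mk_mul, ← QuotientGroup.mk_mul, QuotientGroup.eq, hK', Subgroup.mem_subgroupOf]
            have h1 := hab y⁻¹ (H.inv_mem y.2) x⁻¹ (H.inv_mem x.2)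
            have h2 : (((x * y)⁻¹ * (y * x) : H) : G) = (y : G)⁻¹ * (x : G)⁻¹ * ((y : G)⁻¹)⁻¹ * ((x : G)⁻¹)⁻¹ := by
              simp [mul_assoc]
            rw [h2]
            exact h1 }
  let ϕ : H →* H ⧸ K' := QuotientGroup.mk' K'
  have hϕ : ∀ x y : H, (x : G) * (y : G)⁻¹ ∈ K → ϕ x = ϕ y := by
    intro x y hxy
    apply QuotientGroup.eq_iff_div_mem.mpr
    rw [hK', Subgroup.mem_subgroupOf]
    simpa [div_eq_mul_inv] using hxy
  set g' : H := ⟨g, hgH⟩ with hg'
  have key : ∀ (k : ℕ) (c : G) (hk : c⁻¹ * g ^ k * c ∈ H), ϕ ⟨c⁻¹ * g ^ k * c, hk⟩ = (ϕ g') ^ k := by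
    intro k c hk
    rw [← map_pow]
    apply hϕ
    have h1 := hctrl (k : ℤ) c⁻¹ (by simpa using hk)
    simpa using h1
  have h1 := transfer_formula H ϕ g (ϕ g') key
  have h2 : ϕ.transfer g = 1 := Abelianization.commutator_subset_ker (ϕ.transfer) hgc
  rw [h2] at h1
  obtain ⟨k, hk⟩ := hgp
  have h3 : (ϕ g') ^ (p ^ k) = 1 := by
    rw [← map_pow]
    have : g' ^ (p ^ k) = 1 := by
      apply Subtype.ext
      show g ^ (p ^ k) = 1
      rw [← hk, pow_orderOf_eq_one]
    rw [this, map_one]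
  have h4 : orderOf (ϕ g') ∣ p ^ k := orderOf_dvd_of_pow_eq_one h3
  have h5 : orderOf (ϕ g') ∣ H.index := orderOf_dvd_of_pow_eq_one h1.symm
  have h6 : Nat.Coprime (p ^ k) H.index := Nat.Coprime.pow_left k hidx
  have h7 : orderOf (ϕ g') = 1 := Nat.eq_one_of_dvd_coprimes h6 h4 h5
  have h8 : ϕ g' = 1 := orderOf_eq_one_iff.mp h7
  have h9 : g' ∈ K' := (QuotientGroup.eq_one_iff g').mp h8
  exact hgK (Subgroup.mem_subgroupOf.mp h9)

end Cfsg.Agent.S1241
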