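import Cfsg.Statements.S1242
import Mathlib
import Cfsg.Agent.Lib.TransferTools
import Cfsg.Agent.Lib.PNilp2

set_option autoImplicit false
open Cfsg

namespace Cfsg.Agent.S1242

open Cfsg.Agent.Lib.TransferTools Cfsg.Agent.Lib.PNilp Cfsg.Agent.Lib.PNilp2
open scoped commutatorElement

/-- Let G be a finite group, p a prime and H a subgroup of index prime to p such that any two elements of H of p-power order that are conjugate in G are conjugate in H. Then (O^p(G)·G') ∩ H = O^p(H)·H', where O^p denotes the subgroup generated by the elements of order prime to p. -/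
theorem result {G : Type*} [Group G] [Finite G] {p : ℕ} [Fact p.Prime] (H : Subgroup G) (hidx : Nat.Coprime p H.index) (hfus : ∀ g ∈ H, (∃ k : ℕ, orderOf g = p ^ k) → ∀ a : G, a * g * a⁻¹ ∈ H → ∃ h ∈ H, h * g * h⁻¹ = a * g * a⁻¹) : (Cfsg.pResidual p G ⊔ commutator G) ⊓ H = (Cfsg.pResidual p ↥H ⊔ commutator ↥H).map H.subtype := by
  classical
  have hp : p.Prime := Fact.out
  set NH : Subgroup H := Cfsg.pResidual p H ⊔ commutator H with hNH
  haveI hNn : NH.Normal := by
    rw [hNH]
    exact Subgroup.sup_normal _ _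
  letI inst : CommGroup (H ⧸ NH) :=
    { (QuotientGroup.Quotient.group NH) with
      mul_comm := by
        intro a b
        induction a using QuotientGroup.induction_on with
        | H x =>
          induction b using QuotientGroup.induction_on with
          | H y =>
            rw [← QuotientGroup.mk_mul, ← QuotientGroup.mk_mul, QuotientGroup.eq]
            apply Subgroup.mem_sup_right
            have h1 : (x * y)⁻¹ * (y * x) = ⁅y⁻¹, x⁻¹⁆ := by
              simp [commutatorElement_def, mul_assoc]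
            rw [h1]
            exact Subgroup.commutator_mem_commutator (Subgroup.mem_top _) (Subgroup.mem_top _) }
  let ϕ : H →* H ⧸ NH := QuotientGroup.mk' NH
  have hϕres : ∀ b : H, (orderOf b).Coprime p → ϕ b = 1 := by
    intro b hb
    apply (QuotientGroup.eq_one_iff b).mpr
    exact Subgroup.mem_sup_left (coprime_mem_pResidual hb)
  have hAp : ∀ y : H ⧸ NH, ∃ e : ℕ, y ^ (p ^ e) = 1 := by
    intro y
    obtain ⟨y', rfl⟩ := QuotientGroup.mk_surjective y
    obtain ⟨a, b, e, hy, _, _, ha, hb⟩ := exists_decomp p hp y'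
    refine ⟨e, ?_⟩
    have h1 : ((y' : H ⧸ NH)) = ϕ a * ϕ b := by
      rw [hy]; exact map_mul ϕ a b
    rw [h1, hϕres b hb, mul_one, ← map_pow, orderOf_dvd_iff_pow_eq_one.mp ha, map_one]
  set V := ϕ.transfer with hV
  have hle : Cfsg.pResidual p G ⊔ commutator G ≤ V.ker := by
    apply sup_le
    · unfold Cfsg.pResidual
      rw [Subgroup.closure_le]
      intro z hz
      show V z = 1
      obtain ⟨e, he⟩ := hAp (V z)
      have h1 : orderOf (V z) ∣ p ^ e := orderOf_dvd_of_pow_eq_one he
      have h2 : orderOf (V z) ∣ orderOf z := orderOf_map_dvd V z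
      have h3 : Nat.Coprime (p ^ e) (orderOf z) := Nat.Coprime.pow_left e (Nat.Coprime.symm hz)
      exact orderOf_eq_one_iff.mp (Nat.eq_one_of_dvd_coprimes h3 h1 h2)
    · exact Abelianization.commutator_subset_ker V
  apply le_antisymm
  · rintro x ⟨hx1, hxH⟩
    obtain ⟨a, b, e, hab, haz, hbz, ha, hb⟩ := exists_decomp p hp x
    have hzH : Subgroup.zpowers x ≤ H := Subgroup.zpowers_le.mpr hxH
    have haH := hzH haz
    have hbH := hzH hbz
    have hb1 : b ∈ Cfsg.pResidual p G := coprime_mem_pResidual hb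
    have ha1 : a ∈ Cfsg.pResidual p G ⊔ commutator G := by
      have h1 : a = x * b⁻¹ := by rw [hab]; simp
      rw [h1]
      exact Subgroup.mul_mem _ hx1 (Subgroup.inv_mem _ (Subgroup.mem_sup_left hb1))
    have hVa : V a = 1 := hle ha1
    set a' : H := ⟨a, haH⟩ with ha'
    set b' : H := ⟨b, hbH⟩ with hb'
    have hpow : ∀ k : ℕ, ∃ j : ℕ, orderOf (a ^ k) = p ^ j := by
      intro k
      have h1 : orderOf (a ^ k) ∣ p ^ e := (orderOf_dvd_of_pow_eq_one (by
        rw [← pow_mul, mul_comm, pow_mul, orderOf_dvd_iff_pow_eq_one.mp ha, one_pow]))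
      obtain ⟨j, _, hj⟩ := (Nat.dvd_prime_pow hp).mp h1
      exact ⟨j, hj⟩
    have key : ∀ (k : ℕ) (c : G) (hk : c⁻¹ * a ^ k * c ∈ H), ϕ ⟨c⁻¹ * a ^ k * c, hk⟩ = (ϕ a') ^ k := by
      intro k c hk
      have hakH : a ^ k ∈ H := H.pow_mem haH k
      obtain ⟨h, hh, hc⟩ := hfus (a ^ k) hakH (hpow k) c⁻¹ (by simpa using hk)
      have h1 : (⟨c⁻¹ * a ^ k * c, hk⟩ : H) = ⟨h, hh⟩ * a' ^ k * (⟨h, hh⟩ : H)⁻¹ := by
        apply Subtype.ext
        simp only [Subgroup.coe_mul, Subgroup.coe_pow, Subgroup.coe_inv, ha']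
        rw [hc, inv_inv]
      rw [h1, map_mul, map_mul, map_inv, map_pow, mul_comm (ϕ ⟨h, hh⟩), mul_assoc, mul_inv_cancel, mul_one]
    have h2 := transfer_formula H ϕ a (ϕ a') key
    rw [show ϕ.transfer a = 1 from hVa] at h2
    have h3 : (ϕ a') ^ (p ^ e) = 1 := by
      rw [← map_pow]
      have : a' ^ (p ^ e) = 1 := Subtype.ext (orderOf_dvd_iff_pow_eq_one.mp ha)
      rw [this, map_one]
    have h4 : orderOf (ϕ a') ∣ p ^ e := orderOf_dvd_of_pow_eq_one h3
    have h5 : orderOf (ϕ a') ∣ H.index := orderOf_dvd_of_pow_eq_one h2.symm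
    have h6 : Nat.Coprime (p ^ e) H.index := Nat.Coprime.pow_left e hidx
    have h7 : ϕ a' = 1 := orderOf_eq_one_iff.mp (Nat.eq_one_of_dvd_coprimes h6 h4 h5)
    have h8 : a' ∈ NH := (QuotientGroup.eq_one_iff a').mp h7
    have h9 : b' ∈ NH := Subgroup.mem_sup_left (coprime_mem_pResidual (by
      rw [hb', Subgroup.orderOf_mk]; exact hb))
    refine ⟨a' * b', NH.mul_mem h8 h9, ?_⟩
    simp [ha', hb', hab]
  · apply le_inf
    · rw [Subgroup.map_le_iff_le_comap]
      apply sup_le
      · rw [← Subgroup.map_le_iff_le_comap]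
        exact (pResidual_map_le H).trans le_sup_left
      · rw [← Subgroup.map_le_iff_le_comap]
        have h1 : (commutator H).map H.subtype ≤ commutator G := by
          rw [commutator_def, Subgroup.map_commutator]
          exact Subgroup.commutator_mono le_top le_top
        exact h1.trans le_sup_right
    · rintro _ ⟨y, _, rfl⟩
      exact y.2

end Cfsg.Agent.S1242
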