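import Cfsg.Statements.S1243
import Mathlib
import Cfsg.Agent.Lib.SylowTools

set_option autoImplicit false
open Cfsg

namespace Cfsg.Agent.S1243

open Cfsg.Agent.Lib.InvolSylow Cfsg.Agent.Lib.SylowTools

/-- Let T be a Sylow p-subgroup of the finite group G and W ≤ T a subgroup weakly closed in T. If d and g d g⁻¹ both centralize W, then g d g⁻¹ = h d h⁻¹ for some h ∈ N_G(W). -/
theorem result {G : Type*} [Group G] [Finite G] {p : ℕ} [Fact p.Prime] (T : Sylow p G) (W : Subgroup G) (hW : Cfsg.IsWeaklyClosed W (T : Subgroup G)) (d g : G) (hd : d ∈ Subgroup.centralizer (W : Set G)) (hgd : g * d * g⁻¹ ∈ Subgroup.centralizer (W : Set G)) : ∃ h ∈ Subgroup.normalizer (W : Set G), h * d * h⁻¹ = g * d * g⁻¹ := by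
  set d' := g * d * g⁻¹ with hd'
  set C := Subgroup.centralizer ({d'} : Set G) with hC
  have hWp : IsPGroup p W := T.isPGroup'.to_le hW.1
  have hWc : Commute d' d' := Commute.refl _
  -- W and W^g lie in C(d')
  have hW1 : W ≤ C := by
    intro x hx
    rw [hC, Subgroup.mem_centralizer_singleton_iff]
    exact Subgroup.mem_centralizer_iff.mp hgd x hx
  have hW2 : W.map (MulAut.conj g).toMonoidHom ≤ C := by
    rw [map_conj_le_iff]
    intro x hx
    rw [hC, Subgroup.mem_centralizer_singleton_iff]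
    have h1 : x * d = d * x := Subgroup.mem_centralizer_iff.mp hd x hx
    show g * x * g⁻¹ * (g * d * g⁻¹) = g * d * g⁻¹ * (g * x * g⁻¹)
    calc g * x * g⁻¹ * (g * d * g⁻¹) = g * (x * d) * g⁻¹ := by group
      _ = g * (d * x) * g⁻¹ := by rw [h1]
      _ = g * d * g⁻¹ * (g * x * g⁻¹) := by group
  -- a Sylow subgroup of C containing W
  have hWpC : IsPGroup p (W.subgroupOf C) := hWp.comap_of_injective C.subtype Subtype.coe_injective
  obtain ⟨Q, hQ⟩ := hWpC.exists_le_sylow
  -- conjugate W^g into it by an element of C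
  have hWg : IsPGroup p (W.map (MulAut.conj g).toMonoidHom) := hWp.map _
  obtain ⟨c, hcC, hc⟩ := exists_conj_le_image C Q _ hW2 hWg
  -- the image of Q lies in a Sylow subgroup R of G
  have hQt : IsPGroup p ((Q : Subgroup C).map C.subtype) := Q.isPGroup'.map _
  obtain ⟨R, hR⟩ := hQt.exists_le_sylow
  have h1 : W ≤ R := by
    intro x hx
    apply hR
    exact ⟨⟨x, hW1 hx⟩, hQ (Subgroup.mem_subgroupOf.mpr hx), rfl⟩
  have h2 : W.map (MulAut.conj (c * g)).toMonoidHom ≤ R := by
    rw [← map_conj_map_conj]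
    exact hc.trans hR
  have h3 := weaklyClosed_eq_of_le T hW R h1 h2
  refine ⟨c * g, conj_mem_normalizer_iff.mpr h3, ?_⟩
  have hcd : c * d' = d' * c := by
    rw [hC, Subgroup.mem_centralizer_singleton_iff] at hcC
    exact hcC
  calc c * g * d * (c * g)⁻¹ = c * d' * c⁻¹ := by rw [hd']; group
    _ = d' := by rw [hcd]; group

end Cfsg.Agent.S1243
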