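import Cfsg.Statements.S1244
import Mathlib
import Cfsg.Agent.Lib.LNorm
import Cfsg.Agent.Lib.KleinSylow
import Cfsg.Agent.Lib.H1Frat

set_option autoImplicit false
open Cfsg

namespace Cfsg.Agent.S1244

open Cfsg.Agent.Lib.LNorm

/-- Let G be a finite group with no subgroup of index 2 whose Sylow 2-subgroup S is commutative, and let R ≤ S be a subgroup whose 2-rank is exactly one less than the 2-rank r of S. Then every involution of S is conjugate, by an element of N_G(S), to an element of R. -/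
theorem result {G : Type*} [Group G] [Finite G] (hG : ∀ H : Subgroup G, H.index ≠ 2) (S : Sylow 2 G) (hS : IsMulCommutative (S : Subgroup G)) (r : ℕ) (hr1 : 1 ≤ r) (hSr : Cfsg.PRankLE 2 r (S : Subgroup G) ∧ ¬ Cfsg.PRankLE 2 (r - 1) (S : Subgroup G)) (R : Subgroup G) (hRS : R ≤ S) (hRr : Cfsg.PRankLE 2 (r - 1) R ∧ (r = 1 ∨ ¬ Cfsg.PRankLE 2 (r - 2) R)) (t : G) (ht : orderOf t = 2) (htS : t ∈ S) : ∃ n ∈ Subgroup.normalizer ((S : Subgroup G) : Set G), n * t * n⁻¹ ∈ R := by
  classical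
  haveI : Fact (Nat.Prime 2) := ⟨Nat.prime_two⟩
  by_contra hcon
  push Not at hcon
  have hab : ∀ x ∈ (S : Subgroup G), ∀ y ∈ (S : Subgroup G), x * y = y * x := by
    intro x hx y hy
    exact congrArg Subtype.val (hS.is_comm.comm ⟨x, hx⟩ ⟨y, hy⟩)
  let Ω : Subgroup G :=
    { carrier := {x | x ∈ (S : Subgroup G) ∧ x ^ 2 = 1}
      one_mem' := ⟨Subgroup.one_mem _, one_pow _⟩
      mul_mem' := by
        rintro a b ⟨ha, ha2⟩ ⟨hb, hb2⟩
        refine ⟨Subgroup.mul_mem _ ha hb, ?_⟩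
        rw [(show Commute a b from hab a ha b hb).mul_pow, ha2, hb2, one_mul]
      inv_mem' := by
        rintro a ⟨ha, ha2⟩
        exact ⟨Subgroup.inv_mem _ ha, by rw [inv_pow, ha2, inv_one]⟩ }
  have hΩS : Ω ≤ (S : Subgroup G) := fun x hx => hx.1
  set V : Subgroup G := R ⊓ Ω with hVdef
  have hVΩ : V ≤ Ω := inf_le_right
  have htΩ : t ∈ Ω := ⟨htS, Cfsg.Agent.Lib.Invol.sq_eq_one ht⟩
  have hnorm1 : (1 : G) ∈ Subgroup.normalizer ((S : Subgroup G) : Set G) := Subgroup.one_mem _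
  have htV : t ∉ V := by
    intro h
    apply hcon 1 hnorm1
    simpa using h.1
  have hΩcard : Nat.card Ω ≤ 2 ^ r := by
    have h1 := hSr.1 (Ω.subgroupOf (S : Subgroup G)) ⟨⟨by
      rintro ⟨a, ha⟩ ⟨b, hb⟩
      apply Subtype.ext
      apply Subtype.ext
      exact hab _ a.2 _ b.2⟩⟩ (by
      rintro a ha
      apply Subtype.ext
      exact ha.2)
    rwa [Nat.card_congr (Subgroup.subgroupOfEquivOfLe hΩS).toEquiv] at h1
  have hV2 : IsPGroup 2 V := IsPGroup.to_le (S.isPGroup') (hVΩ.trans hΩS)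
  have hVcard : 2 ^ (r - 1) ≤ Nat.card V := by
    rcases hRr.2 with hr | hr
    · rw [hr]
      exact Nat.card_pos
    · unfold Cfsg.PRankLE at hr
      push Not at hr
      obtain ⟨D, hDc, hDe, hDcard⟩ := hr
      have hle : D.map R.subtype ≤ V := by
        rintro _ ⟨y, hy, rfl⟩
        refine ⟨y.2, hRS y.2, ?_⟩
        have := hDe y hy
        exact congrArg Subtype.val this
      have h1 : Nat.card D ≤ Nat.card V := by
        have h2 := Subgroup.card_le_of_le hle
        rwa [Subgroup.card_map_of_injective Subtype.coe_injective] at h2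
      obtain ⟨e, he⟩ := IsPGroup.iff_card.mp hV2
      have h3 : 2 ^ (r - 2) < 2 ^ e := by
        rw [← he]
        exact lt_of_lt_of_le hDcard h1
      have h4 : r - 2 < e := (Nat.pow_lt_pow_iff_right (by norm_num)).mp h3
      rw [he]
      exact Nat.pow_le_pow_right (by norm_num) (by omega)
  have hindex : (V.subgroupOf Ω).index = 2 := by
    have h1 := Subgroup.card_mul_index (V.subgroupOf Ω)
    rw [Nat.card_congr (Subgroup.subgroupOfEquivOfLe hVΩ).toEquiv] at h1
    have h2 : (V.subgroupOf Ω).index ≠ 1 := by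
      intro h3
      rw [Subgroup.index_eq_one] at h3
      apply htV
      have : (⟨t, htΩ⟩ : Ω) ∈ V.subgroupOf Ω := by rw [h3]; exact Subgroup.mem_top _
      exact Subgroup.mem_subgroupOf.mp this
    have h3 : (V.subgroupOf Ω).index ≠ 0 := Subgroup.index_ne_zero_of_finite
    have h4 : (V.subgroupOf Ω).index ≤ 2 := by
      by_contra h5
      push Not at h5
      have h6 : 2 ^ (r - 1) * 3 ≤ Nat.card V * (V.subgroupOf Ω).index := Nat.mul_le_mul hVcard h5
      rw [h1] at h6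
      have h7 : 2 ^ r = 2 ^ (r - 1) * 2 := by
        rw [← pow_succ]
        congr 1
        omega
      have h8 : 0 < 2 ^ (r - 1) := by positivity
      omega
    omega
  have hmulV : ∀ a ∈ Ω, ∀ b ∈ Ω, a ∉ V → b ∉ V → a * b ∈ V := by
    intro a ha b hb ha' hb'
    have h1 := (Subgroup.mul_mem_iff_of_index_two hindex (a := ⟨a, ha⟩) (b := ⟨b, hb⟩)).mpr
      (iff_of_false (fun h => ha' (Subgroup.mem_subgroupOf.mp h)) (fun h => hb' (Subgroup.mem_subgroupOf.mp h)))
    exact Subgroup.mem_subgroupOf.mp h1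
  set N := Subgroup.normalizer ((S : Subgroup G) : Set G) with hN
  obtain ⟨n, hn1, hn2, hn3, hn4, hn5, hn6⟩ := exists_norm (S : Subgroup G) N (S : Subgroup G) hab le_rfl
    Subgroup.le_normalizer
  have hconjΩ : ∀ g ∈ N, g * t * g⁻¹ ∈ Ω := by
    intro g hg
    refine ⟨(Subgroup.mem_normalizer_iff.mp hg t).mp htS, ?_⟩
    rw [conj_pow, Cfsg.Agent.Lib.Invol.sq_eq_one ht]
    simp
  have hconjV : ∀ g ∈ N, g * t * g⁻¹ ∉ V := fun g hg h => hcon g hg h.1
  have hW : ∀ g ∈ N, g * t * g⁻¹ * t⁻¹ ∈ V := by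
    intro g hg
    rw [Cfsg.Agent.Lib.Invol.inv_eq_self ht]
    exact hmulV _ (hconjΩ g hg) _ htΩ (hconjV g hg) htV
  have h5 := hn5 t htS V (hVΩ.trans hΩS) hW
  set m := (S : Subgroup G).relIndex N with hm
  have hmodd : Odd m := by
    rw [← Nat.not_even_iff_odd, even_iff_two_dvd]
    intro h
    have h1 : (S : Subgroup G).relIndex N ∣ (S : Subgroup G).index :=
      Subgroup.relIndex_dvd_index_of_le Subgroup.le_normalizer
    exact S.not_dvd_index (h.trans h1)
  have hoddpow : ∀ {x : G} {k : ℕ}, x ^ 2 = 1 → Odd k → x ^ k = x := by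
    intro x k hx hk
    obtain ⟨l, rfl⟩ := hk
    rw [pow_succ, pow_mul, hx, one_pow, one_mul]
  rw [hoddpow (Cfsg.Agent.Lib.Invol.sq_eq_one ht) hmodd] at h5
  set s := n t with hs
  have hsS : s ∈ (S : Subgroup G) := hn1 t htS
  have hn_one : n 1 = 1 := by
    have h1 := hn2 1 (Subgroup.one_mem _) 1 (Subgroup.one_mem _)
    rw [mul_one] at h1
    exact left_eq_mul.mp h1
  have hs2 : s ^ 2 = 1 := by
    rw [sq, hs, ← hn2 t htS t htS, Cfsg.Agent.Lib.Invol.mul_self_eq_one ht, hn_one]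
  have hs1 : s ≠ 1 := by
    intro h
    rw [h, one_mul] at h5
    exact htV (by simpa using V.inv_mem h5)
  have hscent : ∀ g ∈ N, g * s * g⁻¹ = s := by
    apply hn3 t htS
    intro u hu
    rw [hab u hu t htS, mul_assoc, mul_inv_cancel, mul_one]
  -- the transfer
  letI iS : CommGroup ↥(S : Subgroup G) :=
    { (inferInstance : Group ↥(S : Subgroup G)) with
      mul_comm := fun a b => Subtype.ext (hab a a.2 b b.2) }
  have key : ∀ (k : ℕ) (g₀ : G), g₀⁻¹ * s ^ k * g₀ ∈ (S : Subgroup G) → g₀⁻¹ * s ^ k * g₀ = s ^ k := by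
    intro k g₀ hg₀
    obtain ⟨h, hh, hc⟩ := Cfsg.Agent.Lib.KleinSylow.abelian_fusion S hab (u := s ^ k)
      (v := g₀⁻¹ * s ^ k * g₀) (g := g₀⁻¹) (Subgroup.pow_mem _ hsS k) hg₀ (by simp)
    rw [← hc, ← conj_pow, hscent h hh]
  have hT := MonoidHom.transfer_eq_pow (MonoidHom.id ↥(S : Subgroup G)) s key
  set f := (MonoidHom.id ↥(S : Subgroup G)).transfer with hf
  have hidxodd : Odd (S : Subgroup G).index := by
    rw [← Nat.not_even_iff_odd, even_iff_two_dvd]
    exact S.not_dvd_index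
  have hfs : ((f s : ↥(S : Subgroup G)) : G) = s := by
    rw [hT]
    exact hoddpow hs2 hidxodd
  have hfs1 : f s ≠ 1 := by
    intro h
    rw [h] at hfs
    exact hs1 hfs.symm
  -- an index two subgroup
  set Im := f.range with hIm
  have hImp : IsPGroup 2 Im := by
    have h0 : IsPGroup 2 ↥(S : Subgroup G) := S.isPGroup'
    exact IsPGroup.to_subgroup h0 Im
  haveI : Group.IsNilpotent Im := hImp.isNilpotent
  have hbt : (⊥ : Subgroup Im) ≠ ⊤ := by
    intro h
    have h1 : (⟨f s, ⟨s, rfl⟩⟩ : Im) ∈ (⊥ : Subgroup Im) := by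
      rw [h]; exact Subgroup.mem_top _
    rw [Subgroup.mem_bot] at h1
    exact hfs1 (congrArg Subtype.val h1)
  obtain ⟨M, hM, _⟩ := (eq_top_or_exists_le_coatom (⊥ : Subgroup Im)).resolve_left hbt
  obtain ⟨_, hMp, _⟩ := Cfsg.Agent.Lib.H1Frat.coatom_index_prime_of_nilpotent hM
  have hM2 : M.index = 2 := by
    have h1 : M.index ∣ Nat.card Im := Subgroup.index_dvd_card M
    obtain ⟨j, hj⟩ := IsPGroup.iff_card.mp hImp
    rw [hj] at h1
    exact (Nat.prime_dvd_prime_iff_eq hMp Nat.prime_two).mp (hMp.dvd_of_dvd_pow h1)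
  apply hG (M.comap f.rangeRestrict)
  rw [Subgroup.index_comap_of_surjective _ f.rangeRestrict_surjective]
  exact hM2

end Cfsg.Agent.S1244
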