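import Cfsg.Statements.S1247
import Mathlib
import Cfsg.Agent.Lib.H9Bender

set_option autoImplicit false
open Cfsg

namespace Cfsg.Agent.S1247

open Subgroup Cfsg.Agent.Lib.H1Core Cfsg.Agent.Lib.Comp Cfsg.Agent.Lib.H9Bender

theorem norm_core {G : Type*} [Group G] (B : Subgroup G) (r : ℕ) {s : G} (hs : s ∈ B) :
    s ∈ normalizer (((Cfsg.pCore r ↥B).map B.subtype : Subgroup G) : Set G) := by
  have hn := pCore_normal r ↥B
  rw [mem_normalizer_iff]
  intro y
  constructor
  · rintro ⟨w, hw, rfl⟩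
    exact ⟨⟨s, hs⟩ * w * ⟨s, hs⟩⁻¹, hn.conj_mem w hw _, by simp⟩
  · rintro ⟨w, hw, hwy⟩
    refine ⟨⟨s, hs⟩⁻¹ * w * (⟨s, hs⟩⁻¹)⁻¹, hn.conj_mem w hw _, ?_⟩
    have : y = s⁻¹ * (w : G) * s := by
      simp only [coe_subtype] at hwy
      rw [hwy]; group
    rw [this]; simp

/-- Let G be a non-abelian finite simple group, A a maximal subgroup, F = F*(A) its generalized Fitting subgroup (viewed in G), and S ≤ F a subgroup subnormal in F with C_F(S) ≤ S. Let B be any subgroup of G containing S. Then (a) for every prime q not dividing |F(A)|, O_q(B) ∩ A = 1; and (b) for every prime p dividing |F(A)|, O_p(B) commutes elementwise with the subgroup of F generated by its elements of order prime to p. -/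
theorem result {G : Type*} [Group G] [Finite G] [IsSimpleGroup G] (hna : ¬ IsMulCommutative G) (A : Subgroup G) (hA : IsCoatom A) (S : Subgroup G) (hSF : S ≤ (Cfsg.generalizedFittingSubgroup ↥A).map A.subtype) (hSsn : (S.subgroupOf ((Cfsg.generalizedFittingSubgroup ↥A).map A.subtype)).IsSubnormal) (hSC : (Cfsg.generalizedFittingSubgroup ↥A).map A.subtype ⊓ Subgroup.centralizer (S : Set G) ≤ S) (B : Subgroup G) (hSB : S ≤ B) : (∀ q : ℕ, q.Prime → ¬ q ∣ Nat.card (Cfsg.fittingSubgroup ↥A) → (Cfsg.pCore q ↥B).map B.subtype ⊓ A = ⊥) ∧ (∀ p : ℕ, p.Prime → p ∣ Nat.card (Cfsg.fittingSubgroup ↥A) → ∀ x ∈ (Cfsg.pCore p ↥B).map B.subtype, ∀ y ∈ (Cfsg.pResidual p ↥(Cfsg.generalizedFittingSubgroup ↥A)).map ((Cfsg.generalizedFittingSubgroup ↥A).subtype) , x * (A.subtype y) = (A.subtype y) * x) := by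
  classical
  set Fa := Cfsg.generalizedFittingSubgroup ↥A with hFa
  set S₀ := S.subgroupOf A with hS₀def
  have hSA : S ≤ A := hSF.trans (Subgroup.map_subtype_le _)
  have hS₀ : S₀ ≤ Fa := by
    intro s hs
    obtain ⟨f, hf, hfs⟩ := hSF (Subgroup.mem_subgroupOf.mp hs)
    have : f = s := Subtype.ext hfs
    rwa [← this]
  have hsn : S₀.IsSubnormal := by
    let φ : ↥Fa →* ↥(Fa.map A.subtype) := A.subtype.subgroupMap Fa
    have h1 := hSsn.comap φ
    have h2 := Subgroup.IsSubnormal.trans' h1 (Subgroup.Normal.isSubnormal (inferInstance : Fa.Normal))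
    convert h2 using 1
    ext s
    constructor
    · intro hs
      refine ⟨⟨s, hS₀ hs⟩, ?_, rfl⟩
      have h3 : (s : G) ∈ S := Subgroup.mem_subgroupOf.mp hs
      simpa [φ, Subgroup.mem_subgroupOf] using h3
    · rintro ⟨f, hf, rfl⟩
      have h3 : ((f : A) : G) ∈ S := by simpa [φ, Subgroup.mem_subgroupOf] using hf
      exact Subgroup.mem_subgroupOf.mpr h3
  have hC0 : Fa ⊓ centralizer (S₀ : Set ↥A) ≤ S₀ := by
    rintro x ⟨hxF, hxc⟩
    have hxS : (x : G) ∈ S := by
      apply hSC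
      refine ⟨⟨x, hxF, rfl⟩, Subgroup.mem_centralizer_iff.mpr ?_⟩
      intro s hs
      have := Subgroup.mem_centralizer_iff.mp hxc ⟨s, hSA hs⟩ (by
        simpa [hS₀def, Subgroup.mem_subgroupOf] using hs)
      exact congrArg Subtype.val this
    exact Subgroup.mem_subgroupOf.mpr hxS
  have hSn : ∀ r : ℕ, S ≤ normalizer (((Cfsg.pCore r ↥B).map B.subtype : Subgroup G) : Set G) :=
    fun r s hs => norm_core B r (hSB hs)
  refine ⟨?_, ?_⟩
  · intro q hq hqF
    haveI : Fact q.Prime := ⟨hq⟩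
    set Q := (Cfsg.pCore q ↥B).map B.subtype with hQ
    have hQp : IsPGroup q Q := (pCore_isPGroup q).map _
    have hQa : IsPGroup q (Q.subgroupOf A) := by
      refine IsPGroup.iff_card.mpr ?_
      obtain ⟨n, hn'⟩ := IsPGroup.iff_card.mp hQp
      obtain ⟨m, hm⟩ := IsPGroup.iff_card.mp
        (hQp.to_le (inf_le_left : Q ⊓ A ≤ Q))
      refine ⟨m, ?_⟩
      rw [← hm]
      have e : Q.subgroupOf A = ((Q ⊓ A).subgroupOf A) := by
        ext x; simp [Subgroup.mem_subgroupOf]
      rw [e]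
      exact Nat.card_congr (Subgroup.subgroupOfEquivOfLe inf_le_right).toEquiv
    have hbot := q_subgroup_trivial hS₀ hsn hC0 hqF (Q.subgroupOf A) hQa (by
      intro s hs
      have h1 := hSn q (Subgroup.mem_subgroupOf.mp hs)
      rw [Subgroup.mem_normalizer_iff] at h1 ⊢
      intro y
      have h2 := h1 (y : G)
      rw [Subgroup.mem_subgroupOf, Subgroup.mem_subgroupOf]
      have h3 : (s : G) * (y : G) * (s : G)⁻¹ = ((s * y * s⁻¹ : A) : G) := by simp
      rw [← h3]
      exact h2)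
    rw [eq_bot_iff]
    rintro x ⟨hxQ, hxA⟩
    have : (⟨x, hxA⟩ : A) ∈ Q.subgroupOf A := by
      simpa [Subgroup.mem_subgroupOf] using hxQ
    rw [hbot, Subgroup.mem_bot] at this
    have := congrArg Subtype.val this
    simpa using this
  · intro p hp hpF x hx y hy
    haveI : Fact p.Prime := ⟨hp⟩
    have hQp : IsPGroup p ((Cfsg.pCore p ↥B).map B.subtype) := (pCore_isPGroup p).map _
    have := p_subgroup_comm hA S₀ hS₀ hsn hC0 hpF _ hQp (by
      rintro _ ⟨s, hs, rfl⟩
      exact hSn p (Subgroup.mem_subgroupOf.mp hs)) hy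
    simp only [mem_comap] at this
    exact Subgroup.mem_centralizer_iff.mp this x hx

end Cfsg.Agent.S1247
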