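import Cfsg.Statements.S1253
import Mathlib
import Cfsg.Agent.Lib.H9ZV

set_option autoImplicit false
open Cfsg

namespace Cfsg.Agent.S1253

open Cfsg.Agent.Lib.H9ZS in
theorem mem_smul_aux {X : Type*} [Group X] {p : ℕ} (P : Sylow p X) (g x : X) :
    x ∈ ((g • P : Sylow p X) : Subgroup X) ↔ g⁻¹ * x * g ∈ (P : Subgroup X) := by
  rw [Sylow.coe_subgroup_smul, Subgroup.mem_pointwise_smul_iff_inv_smul_mem]
  simp [MulAut.smul_def]

open Cfsg.Agent.Lib.H9ZS in
theorem part1 {G : Type*} [Group G] [Finite G] (z : G) (hz : Cfsg.IsIsolatedInvolution z) {p : ℕ} [Fact p.Prime] (hp : p ≠ 2) (P : Sylow p G) (hzP : z ∈ Subgroup.normalizer ((P : Subgroup G) : Set G)) :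
    ¬ p ∣ ((P : Subgroup G) ⊓ Subgroup.centralizer ({z} : Set G)).relIndex (Subgroup.centralizer ({z} : Set G)) := by
  classical
  haveI : Fact (Nat.Prime 2) := ⟨Nat.prime_two⟩
  set C := Subgroup.centralizer ({z} : Set G) with hC
  have hzo := hz.1
  have hzz : z * z = 1 := by rw [← pow_two, ← hzo, pow_orderOf_eq_one]
  have hzi : z⁻¹ = z := inv_eq_of_mul_eq_one_right hzz
  obtain ⟨S⟩ : Nonempty (Sylow p C) := inferInstance
  have hSp : IsPGroup p ((S : Subgroup C).map C.subtype) := S.2.map C.subtype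
  have hSC : ∀ s ∈ (S : Subgroup C).map C.subtype, s * z = z * s := by
    rintro _ ⟨s, hs, rfl⟩
    exact Subgroup.mem_centralizer_singleton_iff.mp s.2
  have hzS : z ∈ Subgroup.normalizer (((S : Subgroup C).map C.subtype : Subgroup G) : Set G) := by
    rw [Subgroup.mem_normalizer_iff]
    intro x
    constructor
    · intro hx
      have e : z * x * z⁻¹ = x := by rw [← hSC x hx]; group
      rw [e]; exact hx
    · intro hx
      have e0 := hSC _ hx
      have e : z * x * z⁻¹ = x := by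
        have e1 : z * x * z⁻¹ * z = z * (z * x * z⁻¹) := e0
        have e2 : z * x = z * (z * x * z⁻¹) := by
          calc z * x = z * x * z⁻¹ * z := by group
            _ = _ := e1
        have e3 : x = z * x * z⁻¹ := mul_left_cancel e2
        exact e3.symm
      rw [e] at hx; exact hx
  obtain ⟨P₁, hSP₁, hzP₁⟩ := Cfsg.Agent.Lib.H9ZV.exists_invariant_sylow hz hp _ hSp hzS
  obtain ⟨g, hg⟩ := MulAction.exists_smul_eq G P P₁
  set v := g * z * g⁻¹ with hv
  have hvN : v ∈ Subgroup.normalizer ((P₁ : Subgroup G) : Set G) := by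
    rw [Subgroup.mem_normalizer_iff]
    intro x
    rw [← hg, mem_smul_aux, mem_smul_aux, (Subgroup.mem_normalizer_iff.mp hzP) (g⁻¹ * x * g)]
    have e : z * (g⁻¹ * x * g) * z⁻¹ = g⁻¹ * (v * x * v⁻¹) * g := by rw [hv]; group
    rw [e]
  have hvv : v * v = 1 := by
    rw [hv]
    calc g * z * g⁻¹ * (g * z * g⁻¹) = g * (z * z) * g⁻¹ := by group
      _ = 1 := by rw [hzz]; group
  have hiso : Cfsg.IsIsolated z := by
    intro a ha
    exact hz.2 a ha
  have huv : Odd (orderOf (z * v)) := by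
    apply odd_order_of_mem_core
    have h1 := zstar G z hzo hiso g
    rw [hzi] at h1
    have e : z * v = z * g * z * g⁻¹ := by rw [hv]; group
    rw [e]; exact h1
  obtain ⟨k, hk⟩ := conj_of_odd_mul hzz hvv huv
  set n := (z * v) ^ k with hn
  have hnN : n ∈ Subgroup.normalizer ((P₁ : Subgroup G) : Set G) := pow_mem (mul_mem hzP₁ hvN) k
  set c := n⁻¹ * g with hc
  have hcz : c * z = z * c := by
    have e1 : c * z * c⁻¹ = z := by
      calc c * z * c⁻¹ = n⁻¹ * v * n := by rw [hc, hv]; group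
        _ = z := by rw [← hk]; group
    calc c * z = (c * z * c⁻¹) * c := by group
      _ = z * c := by rw [e1]
  have hcC : c ∈ C := Subgroup.mem_centralizer_singleton_iff.mpr hcz
  let c' : C := ⟨c, hcC⟩
  have hsub : ((c'⁻¹ • S : Sylow p C) : Subgroup C) ≤ ((P : Subgroup G) ⊓ C).subgroupOf C := by
    intro s hs
    rw [mem_smul_aux, inv_inv] at hs
    rw [Subgroup.mem_subgroupOf]
    refine ⟨?_, s.2⟩
    have h1 : ((c' * s * c'⁻¹ : C) : G) ∈ ((S : Subgroup C).map C.subtype : Subgroup G) := ⟨_, hs, rfl⟩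
    have h2 := hSP₁ h1
    have h3 : (c : G) * s * c⁻¹ ∈ (P₁ : Subgroup G) := h2
    have h4 := (Subgroup.mem_normalizer_iff.mp hnN _).mp h3
    rw [← hg, mem_smul_aux] at h4
    have e : g⁻¹ * (n * (c * (s : G) * c⁻¹) * n⁻¹) * g = s := by rw [hc]; group
    rw [e] at h4
    exact h4
  have hHp : IsPGroup p (((P : Subgroup G) ⊓ C).subgroupOf C : Subgroup C) := by
    have h1 : IsPGroup p (((P : Subgroup G) ⊓ C : Subgroup G)) := P.2.to_le inf_le_left
    exact h1.comap_subtype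
  have e := (c'⁻¹ • S : Sylow p C).is_maximal' hHp hsub
  rw [Subgroup.relIndex, e]
  exact (c'⁻¹ • S : Sylow p C).not_dvd_index

theorem part2 {G : Type*} [Group G] [Finite G] (z : G) (hzz : z * z = 1) {p : ℕ} [Fact p.Prime] (hp : p ≠ 2) (P : Sylow p G) (hzP : z ∈ Subgroup.normalizer ((P : Subgroup G) : Set G)) :
    ((P : Subgroup G) ⊓ Subgroup.centralizer ({z} : Set G)).relIndex (P : Subgroup G) = Nat.card {x : G // x ∈ P ∧ z * x * z⁻¹ = x⁻¹} := by
  classical
  set C := Subgroup.centralizer ({z} : Set G) with hC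
  have hzi : z⁻¹ = z := inv_eq_of_mul_eq_one_right hzz
  have hconj : ∀ y ∈ (P : Subgroup G), z * y * z⁻¹ ∈ (P : Subgroup G) := fun y hy =>
    (Subgroup.mem_normalizer_iff.mp hzP y).mp hy
  let f : ↥(P : Subgroup G) → {x : G // x ∈ P ∧ z * x * z⁻¹ = x⁻¹} := fun y =>
    ⟨y * (z * (y : G)⁻¹ * z⁻¹), mul_mem y.2 (hconj _ (inv_mem y.2)), by
      have e1 : z⁻¹ * z⁻¹ = 1 := by rw [hzi, hzz]
      calc z * (y * (z * (y : G)⁻¹ * z⁻¹)) * z⁻¹ = z * y * z * (y : G)⁻¹ * (z⁻¹ * z⁻¹) := by group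
        _ = z * y * z * (y : G)⁻¹ := by rw [e1, mul_one]
        _ = z * y * z⁻¹ * (y : G)⁻¹ := by rw [hzi]
        _ = _ := by group⟩
  have hf : ∀ a b : ↥(P : Subgroup G), f a = f b ↔ a⁻¹ * b ∈ ((P : Subgroup G) ⊓ C).subgroupOf (P : Subgroup G) := by
    intro a b
    rw [Subgroup.mem_subgroupOf]
    constructor
    · intro h
      have h1 : (a : G) * (z * (a : G)⁻¹ * z⁻¹) = b * (z * (b : G)⁻¹ * z⁻¹) := congrArg Subtype.val h
      refine ⟨(a⁻¹ * b).2, Subgroup.mem_centralizer_singleton_iff.mpr ?_⟩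
      have h2 : (a : G) * z * (a : G)⁻¹ = b * z * (b : G)⁻¹ := by
        have := congrArg (· * z) h1
        simpa [mul_assoc] using this
      show ((a : G)⁻¹ * b) * z = z * ((a : G)⁻¹ * b)
      calc ((a : G)⁻¹ * b) * z = (a : G)⁻¹ * (b * z * (b : G)⁻¹) * b := by group
        _ = (a : G)⁻¹ * ((a : G) * z * (a : G)⁻¹) * b := by rw [h2]
        _ = z * ((a : G)⁻¹ * b) := by group
    · rintro ⟨-, h⟩
      have h' : ((a : G)⁻¹ * b) * z = z * ((a : G)⁻¹ * b) := Subgroup.mem_centralizer_singleton_iff.mp h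
      apply Subtype.ext
      show (a : G) * (z * (a : G)⁻¹ * z⁻¹) = b * (z * (b : G)⁻¹ * z⁻¹)
      have h2 : (b : G) * z * (b : G)⁻¹ = a * z * (a : G)⁻¹ := by
        calc (b : G) * z * (b : G)⁻¹ = a * (((a : G)⁻¹ * b) * z) * (b : G)⁻¹ := by group
          _ = a * (z * ((a : G)⁻¹ * b)) * (b : G)⁻¹ := by rw [h']
          _ = _ := by group
      calc (a : G) * (z * (a : G)⁻¹ * z⁻¹) = ((a : G) * z * (a : G)⁻¹) * z⁻¹ := by group
        _ = ((b : G) * z * (b : G)⁻¹) * z⁻¹ := by rw [h2]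
        _ = _ := by group
  let F : (↥(P : Subgroup G) ⧸ ((P : Subgroup G) ⊓ C).subgroupOf (P : Subgroup G)) → {x : G // x ∈ P ∧ z * x * z⁻¹ = x⁻¹} :=
    Quotient.lift f (fun a b hab => (hf a b).mpr (QuotientGroup.leftRel_apply.mp hab))
  have hinj : Function.Injective F := by
    intro q1 q2 h
    obtain ⟨a, rfl⟩ := QuotientGroup.mk_surjective q1
    obtain ⟨b, rfl⟩ := QuotientGroup.mk_surjective q2
    exact QuotientGroup.eq.mpr ((hf a b).mp h)
  have hsurj : Function.Surjective F := by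
    rintro ⟨x, hxP, hx⟩
    have hodd : Odd (orderOf x) := by
      obtain ⟨k, hk⟩ := P.2 ⟨x, hxP⟩
      have h1 : x ^ p ^ k = 1 := congrArg Subtype.val hk
      obtain ⟨j, -, hj⟩ := (Nat.dvd_prime_pow (Fact.out : p.Prime)).mp (orderOf_dvd_of_pow_eq_one h1)
      rw [hj]
      exact Odd.pow ((Fact.out : p.Prime).odd_of_ne_two hp)
    obtain ⟨r, hr⟩ := hodd
    set y := x ^ (r + 1) with hy
    have hyP : y ∈ (P : Subgroup G) := pow_mem hxP _
    refine ⟨QuotientGroup.mk (⟨y, hyP⟩ : (P : Subgroup G)), ?_⟩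
    apply Subtype.ext
    show y * (z * y⁻¹ * z⁻¹) = x
    have e1 : z * y⁻¹ * z⁻¹ = y := by
      have e2 : z * y * z⁻¹ = y⁻¹ := by
        rw [hy, ← conj_pow, hx, inv_pow]
      have e3 : z * y⁻¹ * z⁻¹ = (z * y * z⁻¹)⁻¹ := by group
      rw [e3, e2, inv_inv]
    rw [e1, hy, ← pow_add]
    have e4 : r + 1 + (r + 1) = orderOf x + 1 := by omega
    rw [e4, pow_succ, pow_orderOf_eq_one, one_mul]
  show Nat.card _ = _
  exact Nat.card_congr (Equiv.ofBijective F ⟨hinj, hsurj⟩)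

/-- Let z be an isolated involution of the finite group G with centralizer C, p an odd prime and P a Sylow p-subgroup of G normalized by z. Then P ∩ C has p-power-free index in C (it is a Sylow p-subgroup of C), and |P : C_P(z)| equals the number of elements x ∈ P with z x z⁻¹ = x⁻¹. -/
theorem result {G : Type*} [Group G] [Finite G] (z : G) (hz : Cfsg.IsIsolatedInvolution z) {p : ℕ} [Fact p.Prime] (hp : p ≠ 2) (P : Sylow p G) (hzP : z ∈ Subgroup.normalizer ((P : Subgroup G) : Set G)) : ¬ p ∣ ((P : Subgroup G) ⊓ Subgroup.centralizer ({z} : Set G)).relIndex (Subgroup.centralizer ({z} : Set G)) ∧ ((P : Subgroup G) ⊓ Subgroup.centralizer ({z} : Set G)).relIndex (P : Subgroup G) = Nat.card {x : G // x ∈ P ∧ z * x * z⁻¹ = x⁻¹} := by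
  have hzz : z * z = 1 := by rw [← pow_two, ← hz.1, pow_orderOf_eq_one]
  exact ⟨part1 z hz hp P hzP, part2 z hzz hp P hzP⟩

end Cfsg.Agent.S1253
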