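import Cfsg.Statements.S1256
import Mathlib
import Cfsg.Agent.Lib.DihKlein

set_option autoImplicit false
open Cfsg

namespace Cfsg.Agent.S1256

open Cfsg.Agent.Lib.DihKlein Cfsg.Agent.Lib.SylowTools

/-- Let X be a finite group whose Sylow 2-subgroup S is dihedral of order 2m ≥ 4. If |S| = 4, any two Klein four-subgroups of X are conjugate; if |S| > 4, there are Klein four-subgroups U₁, U₂ of X that are not conjugate, and every Klein four-subgroup of X is conjugate to U₁ or to U₂. -/
theorem result {X : Type*} [Group X] [Finite X] (S : Sylow 2 X) (m : ℕ) (hm : 2 ≤ m) (eS : (S : Subgroup X) ≃* DihedralGroup m) : (Nat.card S = 4 → ∀ U V : Subgroup X, IsKleinFour U → IsKleinFour V → (∃ x : X, U.map (MulAut.conj x).toMonoidHom = V)) ∧ (4 < Nat.card S → ∃ U₁ U₂ : Subgroup X, IsKleinFour U₁ ∧ IsKleinFour U₂ ∧ ¬ (∃ x : X, U₁.map (MulAut.conj x).toMonoidHom = U₂) ∧ ∀ V : Subgroup X, IsKleinFour V → (∃ x : X, V.map (MulAut.conj x).toMonoidHom = U₁) ∨ (∃ x : X, V.map (MulAut.conj x).toMonoidHom = U₂)) := by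
  classical
  haveI : Fact (Nat.Prime 2) := ⟨Nat.prime_two⟩
  have hcardS : Nat.card S = 2 * m := by
    rw [Nat.card_congr eS.toEquiv, DihedralGroup.nat_card]
  have hkp : ∀ V : Subgroup X, IsKleinFour V → IsPGroup 2 V := by
    intro V hV
    apply IsPGroup.of_card (n := 2)
    rw [hV.card_four]
    norm_num
  refine ⟨?_, ?_⟩
  · intro h4 U V hU hV
    obtain ⟨g, hg⟩ := exists_conj_le_sylow S (hkp U hU)
    obtain ⟨g', hg'⟩ := exists_conj_le_sylow S (hkp V hV)
    have e1 : U.map (MulAut.conj g).toMonoidHom = S := Subgroup.eq_of_le_of_card_ge hg (by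
      rw [card_map_conj, hU.card_four]; exact h4.le)
    have e2 : V.map (MulAut.conj g').toMonoidHom = S := Subgroup.eq_of_le_of_card_ge hg' (by
      rw [card_map_conj, hV.card_four]; exact h4.le)
    refine ⟨g'⁻¹ * g, ?_⟩
    rw [← map_conj_map_conj, e1, ← e2, map_conj_map_conj, inv_mul_cancel, map_conj_one]
  · intro h4
    obtain ⟨e, he⟩ := (IsPGroup.iff_card.mp S.isPGroup')
    have h2m : 2 * m = 2 ^ e := by rw [← hcardS]; exact he
    have he3 : 3 ≤ e := by
      by_contra hcon
      push Not at hcon
      have : 2 ^ e ≤ 2 ^ 2 := Nat.pow_le_pow_right (by norm_num) (by omega)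
      omega
    have hm2 : m = 2 ^ (e - 1) := by
      have : 2 ^ e = 2 * 2 ^ (e - 1) := by rw [← pow_succ']; congr 1; omega
      omega
    have hk : 2 ≤ e - 1 := by omega
    have h2 : 2 ∣ m := by rw [hm2]; exact dvd_pow_self 2 (by omega)
    haveI : NeZero m := ⟨by omega⟩
    let ι : DihedralGroup m →* X := (S : Subgroup X).subtype.comp eS.symm.toMonoidHom
    have hι : Function.Injective ι := by
      intro a b hab
      exact eS.symm.injective (Subtype.ext hab)
    have hS : ι.range = S := by
      ext x
      constructor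
      · rintro ⟨y, rfl⟩
        exact (eS.symm y).2
      · intro hx
        exact ⟨eS ⟨x, hx⟩, by simp [ι]⟩
    obtain ⟨c, hc, hm', hh, hne, he0⟩ := half_props hk hm2 h2
    have hmap : ∀ i : ZMod m, IsKleinFour ((Akl (c : ZMod m) hh i).map ι) := by
      intro i
      apply Cfsg.Agent.Lib.QD.isKleinFour_of
      · rw [card_map_inj ι hι, card_Akl hne]
      · rintro _ ⟨a, ha, rfl⟩
        rw [← map_mul, Akl_sq a ha, map_one]
    refine ⟨(Akl (c : ZMod m) hh 0).map ι, (Akl (c : ZMod m) hh 1).map ι, hmap 0, hmap 1, ?_, ?_⟩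
    · rintro ⟨x, hx⟩
      have hA : Akl (c : ZMod m) hh 0 ≠ ⊤ := by
        intro h
        have h5 := card_Akl (hh := hh) hne (0 : ZMod m)
        rw [h] at h5
        simp only [Subgroup.card_top, DihedralGroup.nat_card] at h5
        omega
      haveI := Akl_klein (hh := hh) hne (0 : ZMod m)
      have hnc : ¬ IsCyclic (Akl (c : ZMod m) hh 0) := IsKleinFour.not_isCyclic
      have h0 := Akl_le_Hp h2 (hh := hh) he0 (0 : ZMod m)
      rw [map_zero] at h0
      have h1 := tracking S ι hι hS hk hm2 h2 _ _ _ le_rfl hA hnc x hx 0 h0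
      have h3 : DihedralGroup.sr (1 : ZMod m) ∈ Akl (c : ZMod m) hh 1 := Or.inl rfl
      have h5 : ZMod.castHom h2 (ZMod 2) (1 : ZMod m) = 0 := h1 h3
      rw [map_one] at h5
      exact one_ne_zero h5
    · intro V hV
      have hsq : ∀ v ∈ V, v * v = 1 := by
        intro v hv
        have h5 : (⟨v, hv⟩ : V) ^ (Monoid.exponent V) = 1 := Monoid.pow_exponent_eq_one _
        rw [hV.exponent_two] at h5
        have h6 := congrArg Subtype.val h5
        simpa [pow_two] using h6
      obtain ⟨g, hg⟩ := exists_conj_le_sylow S (hkp V hV)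
      set W := V.map (MulAut.conj g).toMonoidHom with hW
      have hWR : W ≤ ι.range := by rw [hS]; exact hg
      set C := W.comap ι with hC
      have hCm : C.map ι = W := Subgroup.map_comap_eq_self hWR
      have hcC : Nat.card C = 4 := by
        rw [← card_map_inj ι hι C, hCm, hW, card_map_conj, hV.card_four]
      have hCnc : ¬ IsCyclic C := by
        apply not_cyclic_of_map ι hι
        rw [hCm, hW]
        exact not_cyclic_map _ (MulAut.conj g).injective _ IsKleinFour.not_isCyclic
      have hCsq : ∀ v ∈ C, v * v = 1 := by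
        intro v hv
        apply hι
        rw [map_mul, map_one]
        have h5 : ι v ∈ W := hv
        obtain ⟨w, hw, hwe⟩ := h5
        rw [← hwe]
        simp only [MulEquiv.coe_toMonoidHom, MulAut.conj_apply]
        have e6 : g * w * g⁻¹ * (g * w * g⁻¹) = g * (w * w) * g⁻¹ := by group
        rw [e6, hsq w hw]
        simp
      obtain ⟨j, hj⟩ := exists_reflection_of_not_cyclic C hCnc
      have hCe := eq_Akl hc hm' hne C hcC hCsq hj (hh := hh)
      -- parity of `j`
      set a := j.val / 2 with ha
      set b := j.val % 2 with hb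
      have hj2 : j - (a : ZMod m) - (a : ZMod m) = (b : ZMod m) := by
        have h5 : (j.val : ZMod m) = j := ZMod.natCast_zmod_val j
        have h6 : j.val = a + a + b := by omega
        have h7 : j = (a : ZMod m) + a + b := by
          rw [← h5, h6]; push_cast; ring
        rw [h7]
        ring
      have hb2 : b = 0 ∨ b = 1 := by omega
      have hfin : V.map (MulAut.conj (ι (DihedralGroup.r (a : ZMod m)) * g)).toMonoidHom = (Akl (c : ZMod m) hh (b : ZMod m)).map ι := by
        rw [← map_conj_map_conj, ← hW, ← hCm, map_conj_iota, hCe, conj_Akl hne, hj2]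
      rcases hb2 with h | h
      · left
        refine ⟨_, hfin.trans ?_⟩
        rw [h]; simp
      · right
        refine ⟨_, hfin.trans ?_⟩
        rw [h]; simp

end Cfsg.Agent.S1256
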