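import Cfsg.Statements.S1270
import Mathlib
import Cfsg.Agent.Lib.LBal

set_option autoImplicit false
open Cfsg

namespace Cfsg.Agent.S1270

open Cfsg.Agent.Lib.LBal Cfsg.Agent.Lib.H1Core

/-- Let G be finite with O_{p'}(G) = 1, x of order p, and L a component with ⁅L, ⟨x⟩⁆ ≠ L. Then ⁅L, O_{p'}(C_G(x))⁆ = 1. -/
theorem result {G : Type*} [Group G] [Finite G] (p : ℕ) [Fact p.Prime] (hO : Cfsg.pPrimeCore p G = ⊥) (x : G) (hx : orderOf x = p) (L : Subgroup G) (hL : Cfsg.IsComponent L) (hne : ⁅L, Subgroup.zpowers x⁆ ≠ L) : ⁅L, Cfsg.centralizerPPrimeCore p x⁆ = ⊥ := by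
  refine lbal hO hx hL (Subgroup.map_subtype_le _) ?_ ?_ hne
  · refine Subgroup.le_normalizer_iff.mpr ?_
    rintro c hc _ ⟨y, hy, rfl⟩
    have hn := pPrimeCore_normal p ↥(Subgroup.centralizer ({x} : Set G))
    exact Subgroup.mem_map_of_mem _ (hn.conj_mem y hy ⟨c, hc⟩)
  · have hcard : Nat.card (Cfsg.centralizerPPrimeCore p x) =
        Nat.card (Cfsg.pPrimeCore p ↥(Subgroup.centralizer ({x} : Set G))) :=
      Subgroup.card_map_of_injective (Subgroup.subtype_injective _)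
    rw [hcard]
    exact pPrimeCore_coprime p

end Cfsg.Agent.S1270
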