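import Cfsg.Statements.S1271
import Mathlib
import Cfsg.Agent.Lib.LBal2

set_option autoImplicit false
open Cfsg

namespace Cfsg.Agent.S1271

open Cfsg.Agent.Lib.LBal Cfsg.Agent.Lib.LBal2 Cfsg.Agent.Lib.H1Core Cfsg.Agent.Lib.Comp

/-- Let G be finite with O_{p'}(G) = 1. Suppose that for every component L of G and every subgroup H ≥ L in which L is normal, the quotient H / C_H(L) is balanced for the prime p. Then G is balanced for p. -/
theorem result {G : Type*} [Group G] [Finite G] (p : ℕ) [Fact p.Prime] (hO : Cfsg.pPrimeCore p G = ⊥) (h : ∀ L : Subgroup G, Cfsg.IsComponent L → ∀ H : Subgroup G, L ≤ H → (L.subgroupOf H).Normal → ∀ [((Subgroup.centralizer (L : Set G)).subgroupOf H).Normal], Cfsg.IsBalancedFor p (↥H ⧸ (Subgroup.centralizer (L : Set G)).subgroupOf H)) : Cfsg.IsBalancedFor p G := by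
  intro x hx
  have hxp : x ^ p = 1 := by rw [← hx]; exact pow_orderOf_eq_one x
  have hYC : Cfsg.centralizerPPrimeCore p x ≤ Subgroup.centralizer ({x} : Set G) :=
    Subgroup.map_subtype_le _
  have hYn : Subgroup.centralizer ({x} : Set G) ≤
      Subgroup.normalizer ((Cfsg.centralizerPPrimeCore p x : Subgroup G) : Set G) := by
    refine Subgroup.le_normalizer_iff.mpr ?_
    rintro c hc _ ⟨y, hy, rfl⟩
    have hn := pPrimeCore_normal p ↥(Subgroup.centralizer ({x} : Set G))
    exact Subgroup.mem_map_of_mem _ (hn.conj_mem y hy ⟨c, hc⟩)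
  have hYc : (Nat.card (Cfsg.centralizerPPrimeCore p x)).Coprime p := by
    have hcard : Nat.card (Cfsg.centralizerPPrimeCore p x) =
        Nat.card (Cfsg.pPrimeCore p ↥(Subgroup.centralizer ({x} : Set G))) :=
      Subgroup.card_map_of_injective (Subgroup.subtype_injective _)
    rw [hcard]
    exact pPrimeCore_coprime p
  have hlay : ∀ L : Subgroup G, Cfsg.IsComponent L → ⁅L, Cfsg.centralizerPPrimeCore p x⁆ = ⊥ := by
    intro L hL
    by_cases hne : ⁅L, Subgroup.zpowers x⁆ = L
    · obtain ⟨hxL, hxc⟩ := of_commutator_eq hL hne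
      have h2 := comp_action_trivial hO hx hL hxL hxc hYC hYn hYc (h L hL)
      have h3 := comp_normalized hO hx hL hxL hYC hYn hYc (Or.inr h2)
      rw [comm_iff]
      intro l hl y hy
      exact (h2 y hy (h3 hy) l hl).symm
    · exact lbal hO hx hL hYC hYn hYc hne
  rw [eq_bot_of_comm_layer hO hxp hYC hYn hYc hlay]
  exact bot_le

end Cfsg.Agent.S1271
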