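import Cfsg.Statements.S1279
import Mathlib
import Cfsg.Agent.Lib.SigBal

set_option autoImplicit false
open Cfsg

namespace Cfsg.Agent.S1279

open Cfsg.Agent.Lib.SigGen Cfsg.Agent.Lib.SigBal Cfsg.Agent.Lib.H1Core Cfsg.Agent.Lib.Comp2

/-- Let A be a noncyclic elementary abelian p-subgroup of the finite group G such that C_G(a) is solvable for every non-identity a ∈ A. Then a ↦ O_{p'}(C_G(a)) is a solvable A-signalizer functor on G. -/
theorem result {G : Type*} [Group G] [Finite G] (p : ℕ) [Fact p.Prime] (A : Subgroup G) (hA : Cfsg.IsElementaryAbelian p A) (hA2 : p ^ 2 ≤ Nat.card ↥A) (hsolv : ∀ a ∈ A, a ≠ 1 → Group.IsSolvable ↥(Subgroup.centralizer ({a} : Set G))) : Cfsg.IsSolvableSignalizerFunctor p A (fun a => Cfsg.centralizerPPrimeCore p a) := by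
  have hcomm : ∀ {x y : G}, x ∈ A → y ∈ A → y ∈ Subgroup.centralizer ({x} : Set G) := by
    intro x y hx hy
    rw [Subgroup.mem_centralizer_iff]
    intro z hz
    rw [Set.mem_singleton_iff] at hz
    rw [hz]
    exact elemAb_comm hA hx hy
  refine ⟨⟨?_, ?_, ?_, ?_⟩, ?_⟩
  · intro a _ _
    exact Subgroup.map_subtype_le _
  · intro a _ _ h
    have hcard : Nat.card (Cfsg.centralizerPPrimeCore p a) =
        Nat.card (Cfsg.pPrimeCore p ↥(Subgroup.centralizer ({a} : Set G))) :=
      Subgroup.card_map_of_injective (Subgroup.subtype_injective _)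
    rw [hcard] at h
    have hc := pPrimeCore_coprime (G := ↥(Subgroup.centralizer ({a} : Set G))) p
    have := Nat.dvd_gcd h (dvd_refl p)
    rw [hc] at this
    exact (Fact.out : p.Prime).one_lt.ne' (Nat.dvd_one.mp this)
  · intro a ha _ b hb x hx
    obtain ⟨x', hx', rfl⟩ := Subgroup.mem_map.mp hx
    have hn := pPrimeCore_normal p ↥(Subgroup.centralizer ({a} : Set G))
    exact Subgroup.mem_map_of_mem _ (hn.conj_mem x' hx' ⟨b, hcomm ha hb⟩)
  · intro a ha ha1 b hb hb1 x hx
    obtain ⟨hxa, hxb⟩ := Subgroup.mem_inf.mp hx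
    haveI := hsolv b hb hb1
    set C := Subgroup.centralizer ({b} : Set G) with hC
    set a' : ↥C := ⟨a, hcomm hb ha⟩ with ha'
    set D : Subgroup ↥C := (Cfsg.centralizerPPrimeCore p a).subgroupOf C with hD
    have hθa : Cfsg.centralizerPPrimeCore p a ≤ Subgroup.centralizer ({a} : Set G) :=
      Subgroup.map_subtype_le _
    have hle := balance_step (C := ↥C) (p := p) (a := a') (D := D) ?_ ?_ ?_ ?_
    · have h1 : (⟨x, hxb⟩ : ↥C) ∈ D := by
        rw [hD, Subgroup.mem_subgroupOf]
        exact hxa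
      exact Subgroup.mem_map_of_mem _ (hle h1)
    · apply Subtype.ext
      simpa [ha'] using hA.2 a ha
    · intro h
      have hdvd : Nat.card D ∣ Nat.card (Cfsg.centralizerPPrimeCore p a) :=
        card_subgroupOf_dvd _ _
      have hcard : Nat.card (Cfsg.centralizerPPrimeCore p a) =
          Nat.card (Cfsg.pPrimeCore p ↥(Subgroup.centralizer ({a} : Set G))) :=
        Subgroup.card_map_of_injective (Subgroup.subtype_injective _)
      have h2 := h.trans hdvd
      rw [hcard] at h2
      have hc := pPrimeCore_coprime (G := ↥(Subgroup.centralizer ({a} : Set G))) p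
      have := Nat.dvd_gcd h2 (dvd_refl p)
      rw [hc] at this
      exact (Fact.out : p.Prime).one_lt.ne' (Nat.dvd_one.mp this)
    · intro y hy
      rw [hD, Subgroup.mem_subgroupOf] at hy
      have h1 := hθa hy
      rw [Subgroup.mem_centralizer_iff] at h1 ⊢
      intro z hz
      rw [Set.mem_singleton_iff] at hz
      rw [hz]
      apply Subtype.ext
      exact h1 a rfl
    · refine Subgroup.le_normalizer_iff.mpr ?_
      intro y hy z hz
      rw [hD, Subgroup.mem_subgroupOf] at hz ⊢
      have hy' : (y : G) ∈ Subgroup.centralizer ({a} : Set G) := by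
        rw [Subgroup.mem_centralizer_iff] at hy ⊢
        intro w hw
        rw [Set.mem_singleton_iff] at hw
        rw [hw]
        exact congrArg Subtype.val (hy a' rfl)
      obtain ⟨z', hz', hzz⟩ := Subgroup.mem_map.mp hz
      have hn := pPrimeCore_normal p ↥(Subgroup.centralizer ({a} : Set G))
      refine Subgroup.mem_map.mpr ⟨_, hn.conj_mem z' hz' ⟨y, hy'⟩, ?_⟩
      simp only [Subgroup.subtype_apply, Subgroup.coe_mul, InvMemClass.coe_inv] at hzz ⊢
      rw [hzz]
  · intro a ha ha1
    exact Cfsg.Agent.Lib.H1SZ.isSolvable_of_le (Subgroup.map_subtype_le _) (hsolv a ha ha1)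

end Cfsg.Agent.S1279
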