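import Cfsg.Statements.S1281
import Mathlib
import Cfsg.Agent.Lib.SigGen

set_option autoImplicit false
open Cfsg

namespace Cfsg.Agent.S1281

open Cfsg.Agent.Lib.SigGen

/-- Let θ be a solvable A-signalizer functor on the finite group G (A a noncyclic elementary abelian p-subgroup) and N a normal subgroup of order prime to p. Then for all non-identity a, b ∈ A, the image of θ a in G / N meets the centralizer of the image of b inside the image of θ b. -/
theorem result {G : Type*} [Group G] [Finite G] (p : ℕ) [Fact p.Prime] (A : Subgroup G) (hA : Cfsg.IsElementaryAbelian p A) (hA2 : p ^ 2 ≤ Nat.card ↥A) (θ : G → Subgroup G) (hθ : Cfsg.IsSolvableSignalizerFunctor p A θ) (N : Subgroup G) [N.Normal] (hN : ¬ p ∣ Nat.card ↥N) (a b : G) (ha : a ∈ A) (ha1 : a ≠ 1) (hb : b ∈ A) (hb1 : b ≠ 1) : (θ a).map (QuotientGroup.mk' N) ⊓ Subgroup.centralizer {QuotientGroup.mk' N b} ≤ (θ b).map (QuotientGroup.mk' N) := by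
  obtain ⟨hc, hp', hinv, hcap⟩ := hθ.1
  intro z hz
  obtain ⟨hz1, hz2⟩ := Subgroup.mem_inf.mp hz
  obtain ⟨x, hx, rfl⟩ := Subgroup.mem_map.mp hz1
  have hfix : ∀ c ∈ Subgroup.zpowers b, c * x * c⁻¹ * x⁻¹ ∈ N ⊓ θ a := by
    intro c hc'
    have hcA : c ∈ A := (Subgroup.zpowers_le.mpr hb) hc'
    refine Subgroup.mem_inf.mpr ⟨?_, (θ a).mul_mem (hinv a ha ha1 c hcA x hx) ((θ a).inv_mem hx)⟩
    rw [← QuotientGroup.eq_one_iff]
    have hcen : QuotientGroup.mk' N c ∈ Subgroup.centralizer {QuotientGroup.mk' N x} := by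
      have : Subgroup.zpowers b ≤ (Subgroup.centralizer {QuotientGroup.mk' N x}).comap
          (QuotientGroup.mk' N) := by
        rw [Subgroup.zpowers_le, Subgroup.mem_comap, Subgroup.mem_centralizer_iff]
        intro y hy
        rw [Set.mem_singleton_iff] at hy
        subst hy
        exact (Subgroup.mem_centralizer_iff.mp hz2 _ rfl).symm
      exact this hc'
    have h3 := Subgroup.mem_centralizer_iff.mp hcen (QuotientGroup.mk' N x) rfl
    have h4 : ((c * x * c⁻¹ * x⁻¹ : G) : G ⧸ N) =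
      (QuotientGroup.mk' N c) * (QuotientGroup.mk' N x) * (QuotientGroup.mk' N c)⁻¹ *
        (QuotientGroup.mk' N x)⁻¹ := by
      simp
    rw [h4, ← h3]
    group
  have hcop := zpowers_coprime (hA.2 b hb) (hp' a ha ha1)
  obtain ⟨n, hn, hnx⟩ := Cfsg.Agent.Lib.H1Cop.fixed_of_coset (A := Subgroup.zpowers b)
    (N := N ⊓ θ a) (K := θ a)
    (zpowers_le_normalizer (hinv a ha ha1) hb) inf_le_right
    (zpowers_le_normalizer (fun c hc u hu => Subgroup.mem_inf.mpr
      ⟨(inferInstance : N.Normal).conj_mem u (Subgroup.mem_inf.mp hu).1 c,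
        hinv a ha ha1 c hc u (Subgroup.mem_inf.mp hu).2⟩) hb)
    hcop (Or.inl (zpowers_solvable b)) hx hfix
  obtain ⟨hnxθ, hnxc⟩ := Subgroup.mem_inf.mp hnx
  have hmem : n * x ∈ θ b := by
    refine hcap a ha ha1 b hb hb1 (Subgroup.mem_inf.mpr ⟨hnxθ, ?_⟩)
    rw [Subgroup.mem_centralizer_iff] at hnxc ⊢
    intro y hy
    rw [Set.mem_singleton_iff] at hy
    subst hy
    exact hnxc _ (Subgroup.mem_zpowers _)
  refine Subgroup.mem_map.mpr ⟨n * x, hmem, ?_⟩
  rw [map_mul]
  have : QuotientGroup.mk' N n = 1 := by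
    rw [QuotientGroup.mk'_apply, QuotientGroup.eq_one_iff]
    exact (Subgroup.mem_inf.mp hn).1
  rw [this, one_mul]

end Cfsg.Agent.S1281
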