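import Cfsg.Statements.S1282
import Mathlib
import Cfsg.Agent.Lib.SigGen

set_option autoImplicit false
open Cfsg

namespace Cfsg.Agent.S1282

open Cfsg.Agent.Lib.SigGen

/-- Let A be an elementary abelian p-subgroup of rank at least 3 of the finite group G, q ≠ p a prime, and Q₁, Q₂ q-subgroups normalized by A with D = Q₁ ∩ Q₂ different from both. Then there is a non-identity a ∈ A such that, for i = 1 and i = 2, N_{Q_i}(D) ∩ C_G(a) is not contained in D. -/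
theorem result {G : Type*} [Group G] [Finite G] (p : ℕ) [Fact p.Prime] (A : Subgroup G) (hA : Cfsg.IsElementaryAbelian p A) (hA3 : p ^ 3 ≤ Nat.card ↥A) (q : ℕ) [Fact q.Prime] (hqp : q ≠ p) (Q₁ Q₂ : Subgroup G) (h₁ : IsPGroup q ↥Q₁) (h₂ : IsPGroup q ↥Q₂) (hA₁ : A ≤ Subgroup.normalizer (Q₁ : Set G)) (hA₂ : A ≤ Subgroup.normalizer (Q₂ : Set G)) (hD₁ : Q₁ ⊓ Q₂ ≠ Q₁) (hD₂ : Q₁ ⊓ Q₂ ≠ Q₂) : ∃ a ∈ A, a ≠ 1 ∧ ¬ (Subgroup.normalizer ((Q₁ ⊓ Q₂ : Subgroup G) : Set G) ⊓ Q₁ ⊓ Subgroup.centralizer {a} ≤ Q₁ ⊓ Q₂) ∧ ¬ (Subgroup.normalizer ((Q₁ ⊓ Q₂ : Subgroup G) : Set G) ⊓ Q₂ ⊓ Subgroup.centralizer {a} ≤ Q₁ ⊓ Q₂) := by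
  have hlt₁ : Q₁ ⊓ Q₂ < Q₁ := lt_of_le_of_ne inf_le_left hD₁
  have hlt₂ : Q₁ ⊓ Q₂ < Q₂ := lt_of_le_of_ne inf_le_right hD₂
  have hAD := inf_normalizer hA₁ hA₂
  have hA2 : p ^ 2 ≤ Nat.card A := by
    refine le_trans ?_ hA3
    exact Nat.pow_le_pow_right (Fact.out : p.Prime).pos (by norm_num)
  obtain ⟨B₁, hB₁, hi₁, x₁, hx₁R, hx₁D, hx₁c⟩ := exists_fixed_hyperplane hqp hA hA2
    (h₁.to_le (inf_le_left : Q₁ ⊓ Subgroup.normalizer ((Q₁ ⊓ Q₂ : Subgroup G) : Set G) ≤ Q₁))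
    (lt_inf_normalizer h₁ hlt₁).le (lt_inf_normalizer h₁ hlt₁).ne inf_le_right
    (normalizer_inf_normalizer hA₁ hAD) hAD
  obtain ⟨B₂, hB₂, hi₂, x₂, hx₂R, hx₂D, hx₂c⟩ := exists_fixed_hyperplane hqp hA hA2
    (h₂.to_le (inf_le_left : Q₂ ⊓ Subgroup.normalizer ((Q₁ ⊓ Q₂ : Subgroup G) : Set G) ≤ Q₂))
    (lt_inf_normalizer h₂ hlt₂).le (lt_inf_normalizer h₂ hlt₂).ne inf_le_right
    (normalizer_inf_normalizer hA₂ hAD) hAD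
  obtain ⟨a, ha, ha1⟩ := exists_ne_one_inf hA3 hB₁ hB₂ hi₁ hi₂
  obtain ⟨ha₁, ha₂⟩ := Subgroup.mem_inf.mp ha
  refine ⟨a, hB₁ ha₁, ha1, ?_, ?_⟩
  · intro hle
    apply hx₁D
    apply hle
    obtain ⟨h1, h2⟩ := Subgroup.mem_inf.mp hx₁R
    refine Subgroup.mem_inf.mpr ⟨Subgroup.mem_inf.mpr ⟨h2, h1⟩, ?_⟩
    rw [Subgroup.mem_centralizer_iff] at hx₁c ⊢
    intro y hy
    rw [Set.mem_singleton_iff] at hy
    subst hy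
    exact hx₁c _ ha₁
  · intro hle
    apply hx₂D
    apply hle
    obtain ⟨h1, h2⟩ := Subgroup.mem_inf.mp hx₂R
    refine Subgroup.mem_inf.mpr ⟨Subgroup.mem_inf.mpr ⟨h2, h1⟩, ?_⟩
    rw [Subgroup.mem_centralizer_iff] at hx₂c ⊢
    intro y hy
    rw [Set.mem_singleton_iff] at hy
    subst hy
    exact hx₂c _ ha₂

end Cfsg.Agent.S1282
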