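import Cfsg.Statements.S1284
import Mathlib
import Cfsg.Agent.Lib.SigGen

set_option autoImplicit false
open Cfsg

namespace Cfsg.Agent.S1284

open Cfsg.Agent.Lib.SigGen

/-- Let θ be a solvable A-signalizer functor on the finite group G, A elementary abelian of rank at least 3, q a prime dividing some |θ a|, and Q maximal among the q-subgroups in the family of θ. Then (a) for every member H of the family, some c in the intersection of the θ a (a ∈ A non-identity) makes c Q c⁻¹ ∩ H a Sylow q-subgroup of H; and (b) for every nontrivial subgroup B ≤ A, C_Q(B) is a Sylow q-subgroup of the intersection of the θ b over the non-identity b ∈ B. -/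
theorem result {G : Type*} [Group G] [Finite G] (p : ℕ) [Fact p.Prime] (A : Subgroup G) (hA : Cfsg.IsElementaryAbelian p A) (hA3 : p ^ 3 ≤ Nat.card ↥A) (θ : G → Subgroup G) (hθ : Cfsg.IsSolvableSignalizerFunctor p A θ) (q : ℕ) [Fact q.Prime] (hq : ∃ a ∈ A, a ≠ 1 ∧ q ∣ Nat.card ↥(θ a)) (Q : Subgroup G) (hQW : Q ∈ Cfsg.signalizerFamily p A θ) (hQq : IsPGroup q ↥Q) (hQmax : ∀ R ∈ Cfsg.signalizerFamily p A θ, IsPGroup q ↥R → Q ≤ R → R = Q) : (∀ H : Subgroup G, H ∈ Cfsg.signalizerFamily p A θ → ∃ c ∈ Cfsg.signalizerInf A θ, ∃ S : Sylow q ↥H, (S : Subgroup ↥H).map H.subtype = Q.map (MulAut.conj c).toMonoidHom ⊓ H) ∧ (∀ B : Subgroup G, B ≤ A → B ≠ ⊥ → ∃ S : Sylow q ↥(Cfsg.signalizerInf B θ), (S : Subgroup ↥(Cfsg.signalizerInf B θ)).map (Cfsg.signalizerInf B θ).subtype = Q ⊓ Subgroup.centralizer (B : Set G)) := by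
  have hqp : q ≠ p := by
    rintro rfl
    obtain ⟨a, ha, ha1, hd⟩ := hq
    exact hθ.1.2.1 a ha ha1 hd
  have hQM : IsMaxQ p A θ q Q := ⟨hQW, hQq, hQmax⟩
  have hApg : IsPGroup p A := elemAb_pgroup hA
  have hAsolv : Group.IsSolvable A := by
    haveI := hApg.isNilpotent
    infer_instance
  have hcopOf : ∀ H : Subgroup G, ¬ p ∣ Nat.card H → (Nat.card A).Coprime (Nat.card H) := by
    intro H hH
    obtain ⟨n, hn⟩ := IsPGroup.iff_card.mp hApg
    rw [hn]
    exact Nat.Coprime.pow_left _ ((Nat.Prime.coprime_iff_not_dvd (Fact.out : p.Prime)).mpr hH)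
  constructor
  · intro H hH
    obtain ⟨R, hRS, hRA⟩ := Cfsg.Agent.Lib.H1Cop.exists_invariant_sylow
      (Subgroup.le_normalizer_iff.mpr hH.2.2.1) (hcopOf H hH.2.1) (Or.inl hAsolv) q
    have hRfam := family_of_le hH hRS.1 hRA
    obtain ⟨Q', hQ', hRQ'⟩ := exists_isMaxQ hRfam hRS.2.1
    obtain ⟨c, hc, hcQ⟩ := transitivity hqp hA hA3 hθ hQM hQ'
    refine ⟨c, hc, ?_⟩
    have hinfq : IsPGroup q ↥(Q' ⊓ H) := hQ'.2.1.to_le inf_le_left
    have hRle : R ≤ Q' ⊓ H := le_inf hRQ' hRS.1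
    have hReq : R = Q' ⊓ H := by
      -- a `q`-subgroup containing a Sylow subgroup
      have hd := Subgroup.relIndex_mul_relIndex R (Q' ⊓ H) H hRle inf_le_right
      have h3 : R.relIndex (Q' ⊓ H) = 1 := by
        obtain ⟨n, hn⟩ := IsPGroup.iff_card.mp (hinfq)
        have h4 : R.relIndex (Q' ⊓ H) ∣ q ^ n := by
          rw [← hn]
          exact Subgroup.relIndex_dvd_card _ _
        obtain ⟨m, -, hm⟩ := (Nat.dvd_prime_pow (Fact.out : q.Prime)).mp h4
        rw [hm]
        by_cases hm0 : m = 0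
        · simp [hm0]
        · exfalso
          apply hRS.2.2
          rw [← hd, hm]
          exact Dvd.dvd.mul_right (dvd_pow_self _ hm0) _
      exact le_antisymm hRle (Subgroup.relIndex_eq_one.mp h3)
    obtain ⟨S, -, hS⟩ := Cfsg.Agent.Lib.H1Cop.IsSylowIn.exists_sylow hRS
    refine ⟨S, ?_⟩
    rw [hS, hcQ, hReq]
  · intro B hB hB1
    obtain ⟨b₀, hb₀, hb₀1⟩ := (Subgroup.bot_or_exists_ne_one B).resolve_left hB1
    set W := Cfsg.signalizerInf B θ with hW
    have hθ' := hθ.1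
    have hWθ : W ≤ θ b₀ := by
      intro x hx
      exact mem_signalizerInf_iff.mp hx b₀ hb₀ hb₀1
    have hWA : A ≤ Subgroup.normalizer (W : Set G) := by
      refine Subgroup.le_normalizer_iff.mpr ?_
      intro b hb x hx
      rw [hW, mem_signalizerInf_iff] at hx ⊢
      intro d hd hd1
      exact hθ'.2.2.1 d (hB hd) hd1 b hb x (hx d hd hd1)
    have hWfam := family_of_le_theta hθ (hB hb₀) hb₀1 hWθ hWA
    have hWB : W ≤ Subgroup.centralizer (B : Set G) := by
      intro x hx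
      rw [Subgroup.mem_centralizer_iff]
      intro y hy
      by_cases hy1 : y = 1
      · simp [hy1]
      · have h1 := hθ'.1 y (hB hy) hy1 (mem_signalizerInf_iff.mp hx y hy hy1)
        rw [Subgroup.mem_centralizer_iff] at h1
        exact h1 y rfl
    have hQW' : Q ⊓ Subgroup.centralizer (B : Set G) ≤ W := by
      intro x hx
      obtain ⟨hx1, hx2⟩ := Subgroup.mem_inf.mp hx
      rw [hW, mem_signalizerInf_iff]
      intro d hd hd1
      refine hQW.2.2.2 d (hB hd) hd1 (Subgroup.mem_inf.mpr ⟨hx1, ?_⟩)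
      rw [Subgroup.mem_centralizer_iff] at hx2 ⊢
      intro y hy
      rw [Set.mem_singleton_iff] at hy
      subst hy
      exact hx2 _ hd
    have hAQC : A ≤ Subgroup.normalizer ((Q ⊓ Subgroup.centralizer (B : Set G) : Subgroup G) : Set G) := by
      refine Subgroup.le_normalizer_iff.mpr ?_
      intro b hb x hx
      obtain ⟨hx1, hx2⟩ := Subgroup.mem_inf.mp hx
      refine Subgroup.mem_inf.mpr ⟨hQW.2.2.1 b hb x hx1, ?_⟩
      rw [Subgroup.mem_centralizer_iff] at hx2 ⊢
      intro y hy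
      have h0 := hx2 y hy
      have h1 : b * y = y * b := elemAb_comm hA hb (hB hy)
      have h2 : b⁻¹ * y = y * b⁻¹ := by
        rw [inv_mul_eq_iff_eq_mul, ← mul_assoc, h1, mul_assoc, mul_inv_cancel, mul_one]
      calc y * (b * x * b⁻¹) = (y * b) * x * b⁻¹ := by group
        _ = (b * y) * x * b⁻¹ := by rw [h1]
        _ = b * (y * x) * b⁻¹ := by group
        _ = b * (x * y) * b⁻¹ := by rw [h0]
        _ = b * x * (y * b⁻¹) := by group
        _ = b * x * (b⁻¹ * y) := by rw [h2]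
        _ = b * x * b⁻¹ * y := by group
    obtain ⟨R, hRS, hQR, hRA⟩ := Cfsg.Agent.Lib.H1Cop.exists_invariant_sylow_containing
      hWA (hcopOf W hWfam.2.1) (Or.inl hAsolv) q hQW'
      (hQq.to_le inf_le_left) hAQC
    have hRfam := family_of_le hWfam hRS.1 hRA
    obtain ⟨Q', hQ', hRQ'⟩ := exists_isMaxQ hRfam hRS.2.1
    obtain ⟨c, hc, hcQ⟩ := transitivity hqp hA hA3 hθ hQ' hQM
    -- `R^c ≤ Q ⊓ C(B)`
    have hcard : Nat.card R ≤ Nat.card ↥(Q ⊓ Subgroup.centralizer (B : Set G)) := by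
      have hle : R.map (MulAut.conj c).toMonoidHom ≤ Q ⊓ Subgroup.centralizer (B : Set G) := by
        intro x hx
        rw [mem_map_conj] at hx
        refine Subgroup.mem_inf.mpr ⟨?_, ?_⟩
        · rw [← hcQ, mem_map_conj]
          exact hRQ' hx
        · have h1 := hWB (hRS.1 hx)
          rw [Subgroup.mem_centralizer_iff] at h1 ⊢
          intro y hy
          have hcy : c * y = y * c := signalizerInf_comm hθ' hc (hB hy)
          have h2 := h1 y hy
          have e : x = c * (c⁻¹ * x * c) * c⁻¹ := by group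
          have h3 : c⁻¹ * y = y * c⁻¹ := by
            rw [inv_mul_eq_iff_eq_mul, ← mul_assoc, hcy, mul_assoc, mul_inv_cancel, mul_one]
          rw [e]
          calc y * (c * (c⁻¹ * x * c) * c⁻¹) = (y * c) * (c⁻¹ * x * c) * c⁻¹ := by group
            _ = (c * y) * (c⁻¹ * x * c) * c⁻¹ := by rw [hcy]
            _ = c * (y * (c⁻¹ * x * c)) * c⁻¹ := by group
            _ = c * ((c⁻¹ * x * c) * y) * c⁻¹ := by rw [h2]
            _ = c * (c⁻¹ * x * c) * (y * c⁻¹) := by group
            _ = c * (c⁻¹ * x * c) * (c⁻¹ * y) := by rw [h3]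
            _ = c * (c⁻¹ * x * c) * c⁻¹ * y := by group
      have := Subgroup.card_le_of_le hle
      rwa [card_map_conj] at this
    have hReq : Q ⊓ Subgroup.centralizer (B : Set G) = R :=
      Subgroup.eq_of_le_of_card_ge hQR hcard
    obtain ⟨S, -, hS⟩ := Cfsg.Agent.Lib.H1Cop.IsSylowIn.exists_sylow hRS
    refine ⟨S, ?_⟩
    rw [hS, hReq]

end Cfsg.Agent.S1284
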