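import Cfsg.Statements.S1285
import Mathlib
import Cfsg.Agent.Lib.SigGen

set_option autoImplicit false
open Cfsg

namespace Cfsg.Agent.S1285

open Cfsg.Agent.Lib.SigGen

/-- Let θ be a solvable A-signalizer functor on the finite group G with A elementary abelian of rank at least 3, and suppose that for some prime q every θ a (a ∈ A non-identity) is a q-group. Then θ is complete. -/
theorem result {G : Type*} [Group G] [Finite G] (p : ℕ) [Fact p.Prime] (A : Subgroup G) (hA : Cfsg.IsElementaryAbelian p A) (hA3 : p ^ 3 ≤ Nat.card ↥A) (θ : G → Subgroup G) (hθ : Cfsg.IsSolvableSignalizerFunctor p A θ) (q : ℕ) [Fact q.Prime] (hq : ∀ a ∈ A, a ≠ 1 → IsPGroup q ↥(θ a)) : Cfsg.IsCompleteSignalizerFunctor p A θ := by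
  classical
  refine ⟨hθ.1, ?_⟩
  have hfam : ∀ a ∈ A, a ≠ 1 → θ a ∈ Cfsg.signalizerFamily p A θ := by
    intro a ha ha1
    exact family_of_le_theta hθ ha ha1 le_rfl (Subgroup.le_normalizer_iff.mpr (hθ.1.2.2.1 a ha ha1))
  by_cases hqp : q = p
  · subst hqp
    have htriv : ∀ a ∈ A, a ≠ 1 → θ a = ⊥ := by
      intro a ha ha1
      have h1 := hq a ha ha1
      obtain ⟨n, hn⟩ := IsPGroup.iff_card.mp h1
      have h2 := hθ.1.2.1 a ha ha1
      rw [hn] at h2
      have h3 : n = 0 := by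
        by_contra hne
        exact h2 (dvd_pow_self _ hne)
      rw [h3, pow_zero] at hn
      exact (Subgroup.card_eq_one).mp hn
    refine ⟨⊥, ?_, ?_, ?_⟩
    · intro b _ x hx
      rw [Subgroup.mem_bot] at hx ⊢
      simp [hx]
    · simpa using (Fact.out : q.Prime).one_lt.ne' ∘ Nat.dvd_one.mp
    · intro a ha ha1
      rw [htriv a ha ha1, bot_inf_eq]
  · have hbot : (⊥ : Subgroup G) ∈ Cfsg.signalizerFamily p A θ := by
      refine ⟨inferInstance, ?_, ?_, ?_⟩
      · simpa using (Fact.out : p.Prime).one_lt.ne' ∘ Nat.dvd_one.mp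
      · intro b _ x hx
        rw [Subgroup.mem_bot] at hx ⊢
        simp [hx]
      · intro a _ _
        exact inf_le_left.trans bot_le
    obtain ⟨Q, hQ, -⟩ := exists_isMaxQ (q := q) hbot IsPGroup.of_bot
    refine ⟨Q, hQ.1.2.2.1, hQ.1.2.1, ?_⟩
    intro a ha ha1
    refine le_antisymm (hQ.1.2.2.2 a ha ha1) ?_
    obtain ⟨Q', hQ', hle⟩ := exists_isMaxQ (hfam a ha ha1) (hq a ha ha1)
    obtain ⟨c, hc, hcQ⟩ := transitivity hqp hA hA3 hθ hQ hQ'
    have hca := mem_signalizerInf_iff.mp hc a ha ha1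
    refine le_inf ?_ (hθ.1.1 a ha ha1)
    intro x hx
    have h2 : c * x * c⁻¹ ∈ Q' := hle ((θ a).mul_mem ((θ a).mul_mem hca hx) ((θ a).inv_mem hca))
    rw [← hcQ, mem_map_conj] at h2
    have e : c⁻¹ * (c * x * c⁻¹) * c = x := by group
    rwa [e] at h2

end Cfsg.Agent.S1285
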