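import Cfsg.Statements.S1286
import Mathlib

set_option autoImplicit false
open Cfsg

namespace Cfsg.Agent.S1286

set_option maxRecDepth 100000
open Equiv

abbrev X5 := Perm (Fin 5)

def a₁ : X5 := swap 0 1
def a₂ : X5 := swap 2 3
def s₁ : X5 := swap 2 3 * swap 3 4
def s₂ : X5 := swap 0 1 * swap 1 4

def mkSub (S : Finset X5) (h1 : 1 ∈ S) (hm : ∀ x ∈ S, ∀ y ∈ S, x * y ∈ S)
    (hi : ∀ x ∈ S, x⁻¹ ∈ S) : Subgroup X5 where
  carrier := (S : Set X5)
  one_mem' := h1
  mul_mem' := fun {a b} ha hb => hm a ha b hb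
  inv_mem' := fun {a} ha => hi a ha

theorem mem_mkSub {S : Finset X5} {h1 : 1 ∈ S} {hm : ∀ x ∈ S, ∀ y ∈ S, x * y ∈ S}
    {hi : ∀ x ∈ S, x⁻¹ ∈ S} {x : X5} : x ∈ mkSub S h1 hm hi ↔ x ∈ S := Iff.rfl

theorem card_mkSub {S : Finset X5} {h1 : 1 ∈ S} {hm : ∀ x ∈ S, ∀ y ∈ S, x * y ∈ S}
    {hi : ∀ x ∈ S, x⁻¹ ∈ S} : Nat.card (mkSub S h1 hm hi) = S.card := by
  have : Nat.card (mkSub S h1 hm hi) = Nat.card (S : Set X5) := rfl
  rw [this, Nat.card_eq_fintype_card]
  simp

def SA : Finset X5 := {1, a₁, a₂, a₁ * a₂}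
def S1 : Finset X5 := {1, s₁, s₁⁻¹}
def S2 : Finset X5 := {1, s₂, s₂⁻¹}

def A5 : Subgroup X5 := mkSub SA (by decide) (by decide) (by decide)
def T1 : Subgroup X5 := mkSub S1 (by decide) (by decide) (by decide)
def T2 : Subgroup X5 := mkSub S2 (by decide) (by decide) (by decide)

def θ5 : X5 → Subgroup X5 := fun g => if g = a₁ then T1 else if g = a₂ then T2 else ⊥

theorem θ5_a₁ : θ5 a₁ = T1 := by simp [θ5]
theorem θ5_a₂ : θ5 a₂ = T2 := by
  have h : a₂ ≠ a₁ := by decide
  simp [θ5, h]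
theorem θ5_a₃ : θ5 (a₁ * a₂) = ⊥ := by
  have h : a₁ * a₂ ≠ a₁ := by decide
  have h' : a₁ * a₂ ≠ a₂ := by decide
  simp [θ5, h, h']

theorem cases_A {a : X5} (ha : a ∈ A5) (ha1 : a ≠ 1) : a = a₁ ∨ a = a₂ ∨ a = a₁ * a₂ := by
  have : a ∈ SA := ha
  simp only [SA, Finset.mem_insert, Finset.mem_singleton] at this
  rcases this with h | h | h | h
  · exact absurd h ha1
  · exact Or.inl h
  · exact Or.inr (Or.inl h)
  · exact Or.inr (Or.inr h)

theorem not_dvd_T1 : ¬ 2 ∣ Nat.card T1 := by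
  have : Nat.card T1 = S1.card := card_mkSub
  rw [this]
  decide

theorem not_dvd_T2 : ¬ 2 ∣ Nat.card T2 := by
  have : Nat.card T2 = S2.card := card_mkSub
  rw [this]
  decide

/-- There exist a finite group X, an elementary abelian subgroup A of order 4 and a solvable A-signalizer functor θ on X for the prime 2 which is not complete. -/
theorem result : ∃ (X : Type) (_ : Group X) (_ : Finite X) (A : Subgroup X) (θ : X → Subgroup X), Cfsg.IsElementaryAbelian 2 A ∧ Nat.card ↥A = 4 ∧ Cfsg.IsSolvableSignalizerFunctor 2 A θ ∧ ¬ Cfsg.IsCompleteSignalizerFunctor 2 A θ := by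
  refine ⟨X5, inferInstance, inferInstance, A5, θ5, ⟨?_, ?_⟩, ?_, ?_, ?_⟩
  · refine IsMulCommutative.of_comm fun x y => Subtype.ext ?_
    have hS : ∀ x ∈ SA, ∀ y ∈ SA, x * y = y * x := by decide
    exact hS x x.2 y y.2
  · have hS : ∀ x ∈ SA, x ^ 2 = 1 := by decide
    exact hS
  · have : Nat.card A5 = SA.card := card_mkSub
    rw [this]
    decide
  · refine ⟨⟨?_, ?_, ?_, ?_⟩, ?_⟩
    · intro a ha ha1
      rcases cases_A ha ha1 with rfl | rfl | rfl
      · rw [θ5_a₁]
        intro x hx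
        have hS : ∀ x ∈ S1, x * a₁ = a₁ * x := by decide
        rw [Subgroup.mem_centralizer_iff]
        intro y hy
        rw [Set.mem_singleton_iff] at hy
        subst hy
        exact (hS x hx).symm
      · rw [θ5_a₂]
        intro x hx
        have hS : ∀ x ∈ S2, x * a₂ = a₂ * x := by decide
        rw [Subgroup.mem_centralizer_iff]
        intro y hy
        rw [Set.mem_singleton_iff] at hy
        subst hy
        exact (hS x hx).symm
      · rw [θ5_a₃]
        exact bot_le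
    · intro a ha ha1
      rcases cases_A ha ha1 with rfl | rfl | rfl
      · rw [θ5_a₁]; exact not_dvd_T1
      · rw [θ5_a₂]; exact not_dvd_T2
      · rw [θ5_a₃]; simp
    · intro a ha ha1 b hb x hx
      have hb' : b ∈ SA := hb
      rcases cases_A ha ha1 with rfl | rfl | rfl
      · rw [θ5_a₁] at hx ⊢
        have hS : ∀ b ∈ SA, ∀ x ∈ S1, b * x * b⁻¹ ∈ S1 := by decide
        exact hS b hb' x hx
      · rw [θ5_a₂] at hx ⊢
        have hS : ∀ b ∈ SA, ∀ x ∈ S2, b * x * b⁻¹ ∈ S2 := by decide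
        exact hS b hb' x hx
      · rw [θ5_a₃] at hx ⊢
        rw [Subgroup.mem_bot] at hx ⊢
        simp [hx]
    · -- the balance condition
      have h12 : ∀ x ∈ S1, x * a₂ = a₂ * x → x = 1 := by decide
      have h13 : ∀ x ∈ S1, x * (a₁ * a₂) = (a₁ * a₂) * x → x = 1 := by decide
      have h21 : ∀ x ∈ S2, x * a₁ = a₁ * x → x = 1 := by decide
      have h23 : ∀ x ∈ S2, x * (a₁ * a₂) = (a₁ * a₂) * x → x = 1 := by decide
      have hcen : ∀ {x b : X5}, x ∈ Subgroup.centralizer {b} → x * b = b * x := by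
        intro x b h
        exact (Subgroup.mem_centralizer_iff.mp h b rfl).symm
      intro a ha ha1 b hb hb1 x hx
      obtain ⟨hx1, hx2⟩ := Subgroup.mem_inf.mp hx
      have hc := hcen hx2
      rcases cases_A ha ha1 with rfl | rfl | rfl
      · rw [θ5_a₁] at hx1
        rcases cases_A hb hb1 with rfl | rfl | rfl
        · rw [θ5_a₁]; exact hx1
        · rw [h12 x hx1 hc]; exact Subgroup.one_mem _
        · rw [h13 x hx1 hc]; exact Subgroup.one_mem _
      · rw [θ5_a₂] at hx1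
        rcases cases_A hb hb1 with rfl | rfl | rfl
        · rw [h21 x hx1 hc]; exact Subgroup.one_mem _
        · rw [θ5_a₂]; exact hx1
        · rw [h23 x hx1 hc]; exact Subgroup.one_mem _
      · rw [θ5_a₃] at hx1
        rw [Subgroup.mem_bot] at hx1
        rw [hx1]; exact Subgroup.one_mem _
    · intro a ha ha1
      rcases cases_A ha ha1 with rfl | rfl | rfl
      · rw [θ5_a₁]
        refine Group.isSolvable_of_comm fun x y => Subtype.ext ?_
        have hS : ∀ x ∈ S1, ∀ y ∈ S1, x * y = y * x := by decide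
        exact hS x x.2 y y.2
      · rw [θ5_a₂]
        refine Group.isSolvable_of_comm fun x y => Subtype.ext ?_
        have hS : ∀ x ∈ S2, ∀ y ∈ S2, x * y = y * x := by decide
        exact hS x x.2 y y.2
      · rw [θ5_a₃]
        infer_instance
  · rintro ⟨-, Y, -, hY2, hY⟩
    have ha1 : a₁ ∈ A5 := by
      show a₁ ∈ SA
      decide
    have ha2 : a₂ ∈ A5 := by
      show a₂ ∈ SA
      decide
    have h1 := hY a₁ ha1 (by decide)
    have h2 := hY a₂ ha2 (by decide)
    rw [θ5_a₁] at h1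
    rw [θ5_a₂] at h2
    have hs₁ : s₁ ∈ Y := by
      have : s₁ ∈ T1 := by
        show s₁ ∈ S1
        decide
      rw [← h1] at this
      exact (Subgroup.mem_inf.mp this).1
    have hs₂ : s₂ ∈ Y := by
      have : s₂ ∈ T2 := by
        show s₂ ∈ S2
        decide
      rw [← h2] at this
      exact (Subgroup.mem_inf.mp this).1
    have hw : s₁ * s₂ * s₁ * s₂⁻¹ ∈ Y :=
      Y.mul_mem (Y.mul_mem (Y.mul_mem hs₁ hs₂) hs₁) (Y.inv_mem hs₂)
    have ho : orderOf (s₁ * s₂ * s₁ * s₂⁻¹) = 2 := by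
      refine orderOf_eq_prime (by decide) (by decide)
    have := Subgroup.orderOf_dvd_natCard Y hw
    rw [ho] at this
    exact hY2 this

end Cfsg.Agent.S1286
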