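import Cfsg.Statements.S1287
import Mathlib
import Cfsg.Agent.Lib.H1Prod
import Cfsg.Agent.Lib.H1Trace
import Cfsg.Agent.Lib.H1Small

set_option autoImplicit false
open scoped Pointwise
open Cfsg

namespace Cfsg.Agent.S1287

open Cfsg Cfsg.Agent.Lib.H1Cop Cfsg.Agent.Lib.H1Prod Cfsg.Agent.Lib.H1Trace Pointwise

theorem card_of_sylowIn {H : Type*} [Group H] [Finite H] {q : ℕ} [hq : Fact q.Prime] {R K : Subgroup H}
    (h : IsSylowIn q R K) : Nat.card R = q ^ (Nat.card K).factorization q := by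
  obtain ⟨hRK, hR, hnd⟩ := h
  obtain ⟨n, hn⟩ := IsPGroup.iff_card.mp hR
  have h1 : R.relIndex K * Nat.card R = Nat.card K := Cfsg.Agent.Lib.H1Small.relIndex_mul_card hRK
  have hne : R.relIndex K ≠ 0 := by
    intro h0
    rw [h0] at hnd
    exact hnd (dvd_zero q)
  have hf : (Nat.card K).factorization q = n := by
    rw [← h1, hn, Nat.factorization_mul hne (pow_ne_zero _ hq.out.ne_zero)]
    simp [Nat.factorization_eq_zero_of_not_dvd hnd, hq.out.factorization_pow]
  rw [hf, hn]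

theorem sub_normalizes {H : Type*} [Group H] {L E : Subgroup H}
    (h : ∀ e ∈ E, ∀ l ∈ L, e * l * e⁻¹ ∈ L) : E ≤ Subgroup.normalizer (L : Set H) := by
  intro e he
  rw [Subgroup.mem_normalizer_iff]
  intro l
  refine ⟨fun hl => h e he l hl, fun hl => ?_⟩
  simpa [mul_assoc] using h e⁻¹ (inv_mem he) _ hl

theorem conj_mem_of_normalizer {H : Type*} [Group H] {L : Subgroup H} {e l : H}
    (he : e ∈ Subgroup.normalizer (L : Set H)) (hl : l ∈ L) : e * l * e⁻¹ ∈ L :=
  (Subgroup.mem_normalizer_iff.mp he l).1 hl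

theorem exists_normal_proper {H : Type*} [Group H] [Finite H] {q : ℕ} [Fact q.Prime] {Q X : Subgroup H}
    (hQ : IsPGroup q Q) (hXQ : X ≤ Q) (hne : X ≠ Q) :
    ∃ M : Subgroup H, X ≤ M ∧ M ≤ Q ∧ M ≠ Q ∧ Q ≤ Subgroup.normalizer (M : Set H) := by
  have hX' : X.subgroupOf Q ≠ ⊤ := by
    intro h
    apply hne
    exact le_antisymm hXQ ((Subgroup.subgroupOf_eq_top).mp h)
  obtain ⟨M', hM', hle⟩ := (eq_top_or_exists_le_coatom (X.subgroupOf Q)).resolve_left hX'
  haveI : Group.IsNilpotent Q := hQ.isNilpotent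
  have h3 : ∀ H : Subgroup Q, IsCoatom H → H.Normal := ((Group.isNilpotent_of_finite_tfae (G := Q)).out 0 2).mp hQ.isNilpotent
  haveI hMn : M'.Normal := h3 M' hM'
  refine ⟨M'.map Q.subtype, ?_, Subgroup.map_subtype_le _, ?_, ?_⟩
  · intro x hx
    exact ⟨⟨x, hXQ hx⟩, hle hx, rfl⟩
  · intro h
    apply hM'.1
    rw [eq_top_iff]
    rintro ⟨g, hg⟩ -
    have : g ∈ M'.map Q.subtype := by rw [h]; exact hg
    obtain ⟨g', hg', hgg⟩ := this
    have : g' = ⟨g, hg⟩ := Subtype.ext hgg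
    rwa [← this]
  · apply sub_normalizes
    rintro e he _ ⟨m, hm, rfl⟩
    exact ⟨⟨e, he⟩ * m * ⟨e, he⟩⁻¹, hMn.conj_mem m hm _, by simp⟩

theorem qcase {H : Type*} [Group H] [Finite H] {q : ℕ} [Fact q.Prime] {A : Subgroup H}
    [IsMulCommutative A] (hnc : ¬ IsCyclic A) (n : ℕ) :
    ∀ Q X Y : Subgroup H, Nat.card Q = n → IsPGroup q Q →
      A ≤ Subgroup.normalizer (Q : Set H) → (Nat.card A).Coprime (Nat.card Q) → X ≤ Q → Y ≤ Q →
      A ≤ Subgroup.normalizer (X : Set H) → A ≤ Subgroup.normalizer (Y : Set H) →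
      (∀ a ∈ A, a ≠ 1 → ∀ g ∈ Q ⊓ Subgroup.centralizer {a},
        ∃ x ∈ X ⊓ Subgroup.centralizer {a}, ∃ y ∈ Y ⊓ Subgroup.centralizer {a}, g = x * y) →
      ∀ g ∈ Q, ∃ x ∈ X, ∃ y ∈ Y, g = x * y := by
  induction n using Nat.strong_induction_on with
  | _ n ih =>
  intro Q X Y hn hQ hAQ hcop hXQ hYQ hAX hAY hfac g hg
  by_cases hXe : X = Q
  · exact ⟨g, hXe ▸ hg, 1, one_mem _, by simp⟩
  obtain ⟨M, hXM, hMQ, hMne, hQM⟩ := exists_normal_proper hQ hXQ hXe
  -- the normal closure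
  set L : Subgroup H := ⨆ g : Q, X.map (MulAut.conj (g : H)).toMonoidHom with hL
  have hgen : ∀ g ∈ Q, ∀ x ∈ X, g * x * g⁻¹ ∈ L := by
    intro g hg x hx
    exact Subgroup.mem_iSup_of_mem ⟨g, hg⟩ ⟨x, hx, rfl⟩
  have hXL : X ≤ L := by
    intro x hx
    simpa using hgen 1 (one_mem _) x hx
  have hLM : L ≤ M := by
    apply iSup_le
    rintro ⟨g, hg⟩ _ ⟨x, hx, rfl⟩
    exact conj_mem_of_normalizer (hQM hg) (hXM hx)
  have hLQ : L ≤ Q := hLM.trans hMQ
  have hLne : Nat.card L < Nat.card Q := by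
    apply Nat.lt_of_le_of_ne (Subgroup.card_le_of_le hLQ)
    intro h
    apply hMne
    have h1 : L = Q := Subgroup.eq_of_le_of_card_ge hLQ h.ge
    exact le_antisymm hMQ (h1 ▸ hLM)
  have hQL : Q ≤ Subgroup.normalizer (L : Set H) := by
    apply sub_normalizes
    intro e he l hl
    have : L ≤ L.comap (MulAut.conj e).toMonoidHom := by
      apply iSup_le
      rintro ⟨g, hg⟩ _ ⟨x, hx, rfl⟩
      change e * (g * x * g⁻¹) * e⁻¹ ∈ L
      have := hgen (e * g) (mul_mem he hg) x hx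
      convert this using 1
      group
    exact this hl
  have hAL : A ≤ Subgroup.normalizer (L : Set H) := by
    apply sub_normalizes
    intro e he l hl
    have : L ≤ L.comap (MulAut.conj e).toMonoidHom := by
      apply iSup_le
      rintro ⟨g, hg⟩ _ ⟨x, hx, rfl⟩
      change e * (g * x * g⁻¹) * e⁻¹ ∈ L
      have := hgen (e * g * e⁻¹) (conj_mem_of_normalizer (hAQ he) hg) (e * x * e⁻¹)
        (conj_mem_of_normalizer (hAX he) hx)
      convert this using 1
      group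
    exact this hl
  have hcopL : (Nat.card A).Coprime (Nat.card L) :=
    Nat.Coprime.coprime_dvd_right (Subgroup.card_dvd_of_le hLQ) hcop
  have hAYL : A ≤ Subgroup.normalizer ((Y ⊓ L : Subgroup H) : Set H) := by
    apply sub_normalizes
    intro e he l hl
    exact ⟨conj_mem_of_normalizer (hAY he) hl.1, conj_mem_of_normalizer (hAL he) hl.2⟩
  have hIH := ih (Nat.card L) (hn ▸ hLne) L X (Y ⊓ L) rfl (hQ.to_le hLQ) hAL hcopL hXL inf_le_right hAX hAYL
    (by
      intro a ha ha1 g hg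
      obtain ⟨x, hx, y, hy, rfl⟩ := hfac a ha ha1 g ⟨hLQ hg.1, hg.2⟩
      refine ⟨x, hx, y, ⟨⟨hy.1, ?_⟩, hy.2⟩, rfl⟩
      have h1 : x⁻¹ * (x * y) ∈ L := mul_mem (inv_mem (hXL hx.1)) hg.1
      simpa using h1)
  -- the subgroup `LY`
  let T : Subgroup H :=
    { carrier := {g | ∃ l ∈ L, ∃ y ∈ Y, g = l * y}
      mul_mem' := by
        rintro _ _ ⟨l, hl, y, hy, rfl⟩ ⟨l', hl', y', hy', rfl⟩
        refine ⟨l * (y * l' * y⁻¹), mul_mem hl (conj_mem_of_normalizer (hQL (hYQ hy)) hl'),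
          y * y', mul_mem hy hy', by group⟩
      one_mem' := ⟨1, one_mem _, 1, one_mem _, by simp⟩
      inv_mem' := by
        rintro _ ⟨l, hl, y, hy, rfl⟩
        refine ⟨y⁻¹ * l⁻¹ * y⁻¹⁻¹, conj_mem_of_normalizer (hQL (inv_mem (hYQ hy))) (inv_mem hl),
          y⁻¹, inv_mem hy, by group⟩ }
  have hQT : Q ≤ T := by
    have h1 := iSup_centralizer_eq A Q hnc hAQ hcop
    rw [← h1]
    apply iSup₂_le
    rintro a ⟨ha, ha1⟩ g hg
    obtain ⟨x, hx, y, hy, rfl⟩ := hfac a ha ha1 g hg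
    exact ⟨x, hXL hx.1, y, hy.1, rfl⟩
  obtain ⟨l, hl, y, hy, rfl⟩ := hQT hg
  obtain ⟨x, hx, y₁, hy₁, rfl⟩ := hIH l hl
  exact ⟨x, hx, y₁ * y, mul_mem hy₁.1 hy, by group⟩

theorem cent_sylow {H : Type*} [Group H] [Finite H] {q : ℕ} [Fact q.Prime] {a : H} {K R : Subgroup H}
    (haK : a ∈ Subgroup.normalizer (K : Set H)) (hcop : (Nat.card (Subgroup.zpowers a)).Coprime (Nat.card K))
    (hR : IsSylowIn q R K) (haR : a ∈ Subgroup.normalizer (R : Set H)) :
    IsSylowIn q (R ⊓ Subgroup.centralizer {a}) (K ⊓ Subgroup.centralizer {a}) := by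
  set E : Subgroup H := Subgroup.zpowers a with hE
  have hEK : E ≤ Subgroup.normalizer (K : Set H) := by
    rw [hE, Subgroup.zpowers_le]; exact haK
  have hER : E ≤ Subgroup.normalizer (R : Set H) := by
    rw [hE, Subgroup.zpowers_le]; exact haR
  have hsolv : Group.IsSolvable E ∨ Group.IsSolvable K := Or.inl (by
    rw [hE]; infer_instance)
  have hEC : ∀ U : Subgroup H, U ≤ Subgroup.centralizer {a} → E ≤ Subgroup.normalizer (U : Set H) := by
    intro U hU
    rw [hE, Subgroup.zpowers_le]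
    apply sub_normalizes (E := Subgroup.zpowers a) _ (Subgroup.mem_zpowers a)
    intro e he l hl
    obtain ⟨i, rfl⟩ := he
    have hc : Commute a l := by
      have := hU hl
      rw [Subgroup.mem_centralizer_singleton_iff] at this
      exact this.symm
    have h2 : (a ^ i) * l = l * (a ^ i) := (hc.zpow_left i).eq
    simp only [h2]
    simpa using hl
  have hRp : IsPGroup q (R ⊓ Subgroup.centralizer {a} : Subgroup H) := hR.2.1.to_le inf_le_left
  have hKc : (Nat.card E).Coprime (Nat.card (K ⊓ Subgroup.centralizer {a} : Subgroup H)) :=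
    Nat.Coprime.coprime_dvd_right (Subgroup.card_dvd_of_le inf_le_left) hcop
  obtain ⟨R', hR', hle, -⟩ := exists_invariant_sylow_containing (A := E) (K := K ⊓ Subgroup.centralizer {a})
    (hEC _ inf_le_right |>.trans (le_refl _)) hKc
    (Or.inl (by rw [hE]; infer_instance)) q (U := R ⊓ Subgroup.centralizer {a})
    (inf_le_inf_right _ hR.1) hRp (hEC _ inf_le_right)
  have hR'K : R' ≤ K := hR'.1.trans inf_le_left
  obtain ⟨R'', hR'', hle2, hER''⟩ := exists_invariant_sylow_containing (A := E) (K := K) hEK hcop hsolv q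
    hR'K hR'.2.1 (hEC _ (hR'.1.trans inf_le_right))
  obtain ⟨c, hc, hcR⟩ := invariant_sylow_conj hEK hcop hsolv q hR hR'' hER hER''
  have hca : c * a * c⁻¹ = a := by
    have := hc.2 a (Subgroup.mem_zpowers a)
    rw [← this]; group
  have hcard : Nat.card R' ≤ Nat.card (R ⊓ Subgroup.centralizer {a} : Subgroup H) := by
    have h1 : R'.map (MulAut.conj c⁻¹).toMonoidHom ≤ R ⊓ Subgroup.centralizer {a} := by
      rintro _ ⟨g, hg, rfl⟩
      constructor
      · have h2 : g ∈ MulAut.conj c • R := by rw [hcR]; exact hle2 hg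
        rw [Subgroup.mem_pointwise_smul_iff_inv_smul_mem] at h2
        simpa using h2
      · have hg2 := hR'.1 hg
        have hgc : g ∈ Subgroup.centralizer {a} := hg2.2
        change _ ∈ Subgroup.centralizer {a}
        rw [Subgroup.mem_centralizer_singleton_iff] at hgc ⊢
        have hgc2 : (c⁻¹ * a * c) = a := by
          calc c⁻¹ * a * c = c⁻¹ * (c * a * c⁻¹) * c := by rw [hca]
            _ = a := by group
        change c⁻¹ * g * c⁻¹⁻¹ * a = a * (c⁻¹ * g * c⁻¹⁻¹)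
        calc c⁻¹ * g * c⁻¹⁻¹ * a = c⁻¹ * g * c⁻¹⁻¹ * (c⁻¹ * a * c) := by rw [hgc2]
          _ = c⁻¹ * (g * a) * c := by group
          _ = c⁻¹ * (a * g) * c := by rw [hgc]
          _ = (c⁻¹ * a * c) * (c⁻¹ * g * c) := by group
          _ = a * (c⁻¹ * g * c⁻¹⁻¹) := by rw [hgc2]; group
    calc Nat.card R' = Nat.card (R'.map (MulAut.conj c⁻¹).toMonoidHom) :=
          (Subgroup.card_map_of_injective (MulAut.conj c⁻¹).injective).symm
      _ ≤ _ := Subgroup.card_le_of_le h1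
  have heq : R ⊓ Subgroup.centralizer {a} = R' := Subgroup.eq_of_le_of_card_ge hle hcard
  rw [heq]
  exact hR'

theorem sylowIn_eq_of_le {H : Type*} [Group H] [Finite H] {q : ℕ} [Fact q.Prime] {R R' K : Subgroup H}
    (hR : IsSylowIn q R K) (hle : R ≤ R') (hR'K : R' ≤ K) (hR' : IsPGroup q R') : R' = R := by
  symm
  apply Subgroup.eq_of_le_of_card_ge hle
  have h1 := Subgroup.card_dvd_of_le hR'K
  obtain ⟨n, hn⟩ := IsPGroup.iff_card.mp hR'
  rw [card_of_sylowIn hR, hn]
  rw [hn] at h1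
  apply Nat.pow_le_pow_right (Fact.out : q.Prime).pos
  have hKne : Nat.card K ≠ 0 := Nat.card_pos.ne'
  exact ((Fact.out : q.Prime).pow_dvd_iff_le_factorization hKne).mp h1

/-- Let A be a noncyclic elementary abelian p-subgroup of a finite group H normalizing a subgroup K of order prime to p, and X, Y ≤ K subgroups normalized by A with C_K(a) = C_X(a) C_Y(a) (as sets) for every non-identity a ∈ A, where X is also normalized by C_K(A). Then K = XY as sets. -/
theorem result {H : Type*} [Group H] [Finite H] (p : ℕ) [Fact p.Prime] (A K X Y : Subgroup H) (hA : Cfsg.IsElementaryAbelian p A) (hA2 : p ^ 2 ≤ Nat.card ↥A) (hK : ¬ p ∣ Nat.card ↥K) (hAK : A ≤ Subgroup.normalizer (K : Set H)) (hX : X ≤ K) (hY : Y ≤ K) (hAX : A ≤ Subgroup.normalizer (X : Set H)) (hAY : A ≤ Subgroup.normalizer (Y : Set H)) (hCX : K ⊓ Subgroup.centralizer (A : Set H) ≤ Subgroup.normalizer (X : Set H)) (hfac : ∀ a ∈ A, a ≠ 1 → ((K ⊓ Subgroup.centralizer {a} : Subgroup H) :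 Set H) = ((X ⊓ Subgroup.centralizer {a} : Subgroup H) : Set H) * ((Y ⊓ Subgroup.centralizer {a} : Subgroup H) : Set H)) : (K : Set H) = (X : Set H) * (Y : Set H) := by
  classical
  obtain ⟨hcomm, hexp⟩ := hA
  haveI := hcomm
  -- `A` is a non-cyclic `p`-group
  have hpp : p.Prime := Fact.out
  have hnc : ¬ IsCyclic A := by
    intro hcyc
    obtain ⟨g, hg⟩ := IsCyclic.exists_ofOrder_eq_natCard (α := A)
    have h1 : g ^ p = 1 := by
      apply Subtype.ext
      simpa using hexp g g.2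
    have h2 : orderOf g ∣ p := orderOf_dvd_of_pow_eq_one h1
    rw [hg] at h2
    have h3 := Nat.le_of_dvd hpp.pos h2
    have h4 : p < p ^ 2 := by nlinarith [hpp.two_le]
    omega
  have hAp : IsPGroup p A := by
    intro g
    refine ⟨1, ?_⟩
    apply Subtype.ext
    simpa using hexp g g.2
  have hcopAK : ∀ U : Subgroup H, U ≤ K → (Nat.card A).Coprime (Nat.card U) := by
    intro U hU
    obtain ⟨n, hn⟩ := IsPGroup.iff_card.mp hAp
    rw [hn]
    apply Nat.Coprime.pow_left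
    exact (Nat.Prime.coprime_iff_not_dvd hpp).mpr (fun h => hK (h.trans (Subgroup.card_dvd_of_le hU)))
  have hsolv : ∀ U : Subgroup H, Group.IsSolvable A ∨ Group.IsSolvable U := fun U => Or.inl (by
    haveI : Group.IsNilpotent A := hAp.isNilpotent
    infer_instance)
  have hXYK : X ⊓ Y ≤ K := inf_le_left.trans hX
  have hAXY : A ≤ Subgroup.normalizer ((X ⊓ Y : Subgroup H) : Set H) := by
    apply sub_normalizes
    intro e he l hl
    exact ⟨conj_mem_of_normalizer (hAX he) hl.1, conj_mem_of_normalizer (hAY he) hl.2⟩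
  -- the identity for a prime `q`
  have key : ∀ q : ℕ, q.Prime → (Nat.card K).factorization q + (Nat.card (X ⊓ Y : Subgroup H)).factorization q =
      (Nat.card X).factorization q + (Nat.card Y).factorization q := by
    intro q hq
    haveI : Fact q.Prime := ⟨hq⟩
    obtain ⟨W, hW, hAW⟩ := exists_invariant_sylow hAXY (hcopAK _ hXYK) (hsolv _) q
    obtain ⟨Y₀, hY₀, hWY₀, hAY₀⟩ := exists_invariant_sylow_containing hAY (hcopAK _ hY) (hsolv _) q
      (hW.1.trans inf_le_right) hW.2.1 hAW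
    obtain ⟨Q, hQ, hY₀Q, hAQ⟩ := exists_invariant_sylow_containing hAK (hcopAK _ le_rfl) (hsolv _) q
      (hY₀.1.trans hY) hY₀.2.1 hAY₀
    obtain ⟨X₁, hX₁, hAX₁⟩ := exists_invariant_sylow hAX (hcopAK _ hX) (hsolv _) q
    obtain ⟨Q', hQ', hX₁Q', hAQ'⟩ := exists_invariant_sylow_containing hAK (hcopAK _ le_rfl) (hsolv _) q
      (hX₁.1.trans hX) hX₁.2.1 hAX₁
    obtain ⟨c, hc, hcQ⟩ := invariant_sylow_conj hAK (hcopAK _ le_rfl) (hsolv _) q hQ' hQ hAQ' hAQ
    have hX₂ := hX₁.conj_smul (hCX hc)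
    have hX₂Q : MulAut.conj c • X₁ ≤ Q ⊓ X := by
      rw [← hcQ]
      refine le_inf (Subgroup.pointwise_smul_le_pointwise_smul_iff.mpr hX₁Q') hX₂.1
    have hQp : ∀ U : Subgroup H, IsPGroup q (Q ⊓ U : Subgroup H) := fun U => hQ.2.1.to_le inf_le_left
    have hX₀ : IsSylowIn q (Q ⊓ X) X := by
      rw [sylowIn_eq_of_le hX₂ hX₂Q inf_le_right (hQp _)]
      exact hX₂
    have hY₀' : IsSylowIn q (Q ⊓ Y) Y := by
      rw [sylowIn_eq_of_le hY₀ (le_inf hY₀Q hY₀.1) inf_le_right (hQp _)]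
      exact hY₀
    have hW' : IsSylowIn q (Q ⊓ (X ⊓ Y)) (X ⊓ Y) := by
      rw [sylowIn_eq_of_le hW (le_inf (hWY₀.trans hY₀Q) hW.1) inf_le_right (hQp _)]
      exact hW
    have hAinf : ∀ U : Subgroup H, A ≤ Subgroup.normalizer (U : Set H) →
        A ≤ Subgroup.normalizer ((Q ⊓ U : Subgroup H) : Set H) := by
      intro U hU
      apply sub_normalizes
      intro e he l hl
      exact ⟨conj_mem_of_normalizer (hAQ he) hl.1, conj_mem_of_normalizer (hU he) hl.2⟩
    have hinf : (Q ⊓ X) ⊓ (Q ⊓ Y) = Q ⊓ (X ⊓ Y) := by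
      ext g; simp only [Subgroup.mem_inf]; tauto
    -- the factorisation of `Q`
    have hQfac : ∀ g ∈ Q, ∃ x ∈ Q ⊓ X, ∃ y ∈ Q ⊓ Y, g = x * y := by
      apply qcase hnc (Nat.card Q) Q (Q ⊓ X) (Q ⊓ Y) rfl hQ.2.1 hAQ (hcopAK _ hQ.1) inf_le_left inf_le_left
        (hAinf _ hAX) (hAinf _ hAY)
      intro a ha ha1 g hg
      have hcopa : ∀ U : Subgroup H, U ≤ K → (Nat.card (Subgroup.zpowers a)).Coprime (Nat.card U) := by
        intro U hU
        have h1 : Subgroup.zpowers a ≤ A := by rw [Subgroup.zpowers_le]; exact ha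
        exact Nat.Coprime.coprime_dvd_left (Subgroup.card_dvd_of_le h1) (hcopAK U hU)
      have hs1 := cent_sylow (hAK ha) (hcopa _ le_rfl) hQ (hAQ ha)
      have hs2 := cent_sylow (hAX ha) (hcopa _ hX) hX₀ (hAinf _ hAX ha)
      have hs3 := cent_sylow (hAY ha) (hcopa _ hY) hY₀' (hAinf _ hAY ha)
      have hs4 := cent_sylow (hAXY ha) (hcopa _ hXYK) hW' (hAinf _ hAXY ha)
      have hf := hfac a ha ha1
      have hprod := card_mul_set (X ⊓ Subgroup.centralizer {a}) (Y ⊓ Subgroup.centralizer {a})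
      rw [← hf] at hprod
      have hinf2 : (X ⊓ Subgroup.centralizer {a}) ⊓ (Y ⊓ Subgroup.centralizer {a}) =
          (X ⊓ Y) ⊓ Subgroup.centralizer {a} := by
        ext g; simp only [Subgroup.mem_inf]; tauto
      rw [hinf2] at hprod
      have hprod' : Nat.card (K ⊓ Subgroup.centralizer {a} : Subgroup H) *
          Nat.card ((X ⊓ Y) ⊓ Subgroup.centralizer {a} : Subgroup H) =
          Nat.card (X ⊓ Subgroup.centralizer {a} : Subgroup H) *
            Nat.card (Y ⊓ Subgroup.centralizer {a} : Subgroup H) := by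
        rw [← hprod]
        congr 1
      have hprodq := card_mul_set ((Q ⊓ X) ⊓ Subgroup.centralizer {a}) ((Q ⊓ Y) ⊓ Subgroup.centralizer {a})
      have hinf3 : ((Q ⊓ X) ⊓ Subgroup.centralizer {a}) ⊓ ((Q ⊓ Y) ⊓ Subgroup.centralizer {a}) =
          (Q ⊓ (X ⊓ Y)) ⊓ Subgroup.centralizer {a} := by
        ext g; simp only [Subgroup.mem_inf]; tauto
      rw [hinf3, card_of_sylowIn hs2, card_of_sylowIn hs3, card_of_sylowIn hs4] at hprodq
      have hfacq : (Nat.card (K ⊓ Subgroup.centralizer {a} : Subgroup H)).factorization q +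
          (Nat.card ((X ⊓ Y) ⊓ Subgroup.centralizer {a} : Subgroup H)).factorization q =
          (Nat.card (X ⊓ Subgroup.centralizer {a} : Subgroup H)).factorization q +
            (Nat.card (Y ⊓ Subgroup.centralizer {a} : Subgroup H)).factorization q := by
        have h1 := congrArg (fun n => n.factorization q) hprod'
        beta_reduce at h1
        rw [Nat.factorization_mul Nat.card_pos.ne' Nat.card_pos.ne', Nat.factorization_mul Nat.card_pos.ne' Nat.card_pos.ne'] at h1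
        simpa only [Finsupp.add_apply] using h1
      have hqne : q ^ (Nat.card ((X ⊓ Y) ⊓ Subgroup.centralizer {a} : Subgroup H)).factorization q ≠ 0 :=
        pow_ne_zero _ hq.ne_zero
      have hScard : Nat.card (((Q ⊓ X) ⊓ Subgroup.centralizer {a} : Subgroup H) * ((Q ⊓ Y) ⊓ Subgroup.centralizer {a} : Subgroup H) : Set H) =
          Nat.card (Q ⊓ Subgroup.centralizer {a} : Subgroup H) := by
        rw [card_of_sylowIn hs1]
        apply Nat.eq_of_mul_eq_mul_right (Nat.pos_of_ne_zero hqne)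
        rw [hprodq, ← pow_add, ← pow_add, hfacq]
      have hSsub : ((((Q ⊓ X) ⊓ Subgroup.centralizer {a} : Subgroup H) : Set H) * (((Q ⊓ Y) ⊓ Subgroup.centralizer {a} : Subgroup H) : Set H) : Set H) ⊆
          ((Q ⊓ Subgroup.centralizer {a} : Subgroup H) : Set H) := by
        rintro _ ⟨x, hx, y, hy, rfl⟩
        exact mul_mem (show x ∈ Q ⊓ Subgroup.centralizer {a} from ⟨hx.1.1, hx.2⟩)
          (show y ∈ Q ⊓ Subgroup.centralizer {a} from ⟨hy.1.1, hy.2⟩)
      have hSeq := Set.eq_of_subset_of_ncard_le hSsub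
        (by
          have h1 : Nat.card (((Q ⊓ X) ⊓ Subgroup.centralizer {a} : Subgroup H) * ((Q ⊓ Y) ⊓ Subgroup.centralizer {a} : Subgroup H) : Set H) = Set.ncard (((((Q ⊓ X) ⊓ Subgroup.centralizer {a} : Subgroup H) : Set H) * (((Q ⊓ Y) ⊓ Subgroup.centralizer {a} : Subgroup H) : Set H) : Set H)) := rfl
          have h2 : Nat.card (Q ⊓ Subgroup.centralizer {a} : Subgroup H) = Set.ncard ((Q ⊓ Subgroup.centralizer {a} : Subgroup H) : Set H) := rfl
          rw [← h1, ← h2, hScard]) (Set.toFinite _)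
      have hgm : g ∈ ((Q ⊓ Subgroup.centralizer {a} : Subgroup H) : Set H) := hg
      rw [← hSeq] at hgm
      obtain ⟨x, hx, y, hy, rfl⟩ := hgm
      exact ⟨x, hx, y, hy, rfl⟩
    -- count
    have hprodQ := card_mul_set (Q ⊓ X) (Q ⊓ Y)
    rw [hinf, card_of_sylowIn hX₀, card_of_sylowIn hY₀', card_of_sylowIn hW'] at hprodQ
    have hSQ : (((Q ⊓ X : Subgroup H) : Set H) * ((Q ⊓ Y : Subgroup H) : Set H) : Set H) = (Q : Set H) := by
      ext g
      constructor
      · rintro ⟨x, hx, y, hy, rfl⟩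
        exact mul_mem hx.1 hy.1
      · intro hg
        obtain ⟨x, hx, y, hy, rfl⟩ := hQfac g hg
        exact ⟨x, hx, y, hy, rfl⟩
    rw [hSQ] at hprodQ
    have h1 : Nat.card (Q : Set H) = q ^ (Nat.card K).factorization q := card_of_sylowIn hQ
    rw [h1, ← pow_add, ← pow_add] at hprodQ
    exact Nat.pow_right_injective hq.two_le hprodQ
  have hcards : Nat.card K * Nat.card (X ⊓ Y : Subgroup H) = Nat.card X * Nat.card Y := by
    apply Nat.eq_of_factorization_eq (mul_ne_zero Nat.card_pos.ne' Nat.card_pos.ne')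
      (mul_ne_zero Nat.card_pos.ne' Nat.card_pos.ne')
    intro q
    by_cases hq : q.Prime
    · rw [Nat.factorization_mul Nat.card_pos.ne' Nat.card_pos.ne',
        Nat.factorization_mul Nat.card_pos.ne' Nat.card_pos.ne']
      simpa using key q hq
    · simp [Nat.factorization_eq_zero_of_not_prime _ hq]
  have hSsub : ((X : Set H) * (Y : Set H) : Set H) ⊆ (K : Set H) := by
    rintro _ ⟨x, hx, y, hy, rfl⟩
    exact mul_mem (hX hx) (hY hy)
  have hprod := card_mul_set X Y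
  have hle : Nat.card K ≤ Nat.card ((X : Set H) * (Y : Set H) : Set H) := by
    refine Nat.le_of_mul_le_mul_right (?_ : _ * Nat.card (X ⊓ Y : Subgroup H) ≤ _ * _) Nat.card_pos
    rw [hprod, hcards]
  exact (Set.eq_of_subset_of_ncard_le hSsub hle (Set.toFinite _)).symm

end Cfsg.Agent.S1287
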