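import Cfsg.Statements.S1288
import Mathlib
import Cfsg.Agent.Lib.H9Hyp
import Cfsg.Agent.Lib.H9Two
import Cfsg.Agent.Lib.H1Fit
import Cfsg.Agent.Lib.H1Core
import Cfsg.Agent.Lib.H1Cop2
import Cfsg.Agent.Lib.Comp2

set_option autoImplicit false
open Cfsg

namespace Cfsg.Agent.S1288

open Cfsg
open scoped commutatorElement

lemma pPrimePCore_char (q : ℕ) (X : Type*) [Group X] : (pPrimePCore q X).Characteristic := by
  haveI hN := Cfsg.Agent.Lib.Comp2.pPrimeCore_char (G := X) q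
  refine (Subgroup.characteristic_iff_le_comap).2 ?_
  intro ϕ x hx
  have hmap : (pPrimeCore q X).map ϕ.toMonoidHom = pPrimeCore q X := by
    rw [Subgroup.map_equiv_eq_comap_symm']
    exact hN.fixed ϕ.symm
  let e : (X ⧸ pPrimeCore q X) ≃* (X ⧸ pPrimeCore q X) := QuotientGroup.congr _ _ ϕ hmap
  have hc := Cfsg.Agent.Lib.Comp2.pCore_char (G := X ⧸ pPrimeCore q X) q
  have h1 : (QuotientGroup.mk' (pPrimeCore q X)) x ∈ pCore q (X ⧸ pPrimeCore q X) := hx
  have h2 : e ((QuotientGroup.mk' (pPrimeCore q X)) x) ∈ pCore q (X ⧸ pPrimeCore q X) := by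
    have h3 := hc.fixed e
    rw [← h3] at h1
    simpa using h1
  have h4 : e ((QuotientGroup.mk' (pPrimeCore q X)) x) = (QuotientGroup.mk' (pPrimeCore q X)) (ϕ x) := rfl
  rw [h4] at h2
  exact h2

/-- Let A be a noncyclic elementary abelian p-subgroup of a finite group H normalizing a solvable subgroup K of order prime to p, q a prime dividing |K|, and U ≤ K a subgroup of order prime to q such that ⁅U, C_K(B)⁆ has order prime to q for every subgroup B of index p in A. Then U ≤ O_{q'}(K). -/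
theorem result {H : Type*} [Group H] [Finite H] (p : ℕ) [Fact p.Prime] (A K : Subgroup H) (hA : Cfsg.IsElementaryAbelian p A) (hA2 : p ^ 2 ≤ Nat.card ↥A) (hK : ¬ p ∣ Nat.card ↥K) (hKs : Group.IsSolvable ↥K) (hAK : A ≤ Subgroup.normalizer (K : Set H)) (q : ℕ) [Fact q.Prime] (hqK : q ∣ Nat.card ↥K) (U : Subgroup H) (hU : U ≤ K) (hUq : ¬ q ∣ Nat.card ↥U) (hcomm : ∀ B : Subgroup H, B ≤ A → B.relIndex A = p → ¬ q ∣ Nat.card ↥⁅U, K ⊓ Subgroup.centralizer (B : Set H)⁆) : U ≤ (Cfsg.pPrimeCore q ↥K).map K.subtype := by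
  haveI := hKs
  classical
  set N := pPrimeCore q ↥K with hN
  set Qb := pCore q (↥K ⧸ N) with hQb
  haveI hRc := pPrimePCore_char q ↥K
  set Rt := pPrimePCore q ↥K with hRt
  set R : Subgroup H := Rt.map K.subtype with hR
  have hRK : R ≤ K := Subgroup.map_subtype_le _
  have hAR : A ≤ Subgroup.normalizer (R : Set H) :=
    hAK.trans (Cfsg.Agent.Lib.H1Cop2.normalizer_le_normalizer_map_of_characteristic Rt)
  have hRp : ¬ p ∣ Nat.card R := fun hd => hK (hd.trans (Subgroup.card_dvd_of_le hRK))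
  have hA1 : A ≠ ⊥ := by
    rintro rfl
    have hpp : Nat.Prime p := Fact.out
    simp only [Subgroup.card_bot] at hA2
    have := hpp.two_le
    nlinarith
  have hgen := Cfsg.Agent.Lib.H9Hyp.le_iSup_hyperplane _ A R rfl hA hA1 hAR hRp
  intro u hu
  let ut : ↥K := ⟨u, hU hu⟩
  let ub : ↥K ⧸ N := QuotientGroup.mk' N ut
  have hQp : IsPGroup q Qb := Cfsg.Agent.Lib.H1Core.pCore_isPGroup q
  haveI hQn : Qb.Normal := Cfsg.Agent.Lib.H1Core.pCore_normal q (↥K ⧸ N)
  have hucop : (Nat.card U).Coprime q := by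
    exact ((Nat.Prime.coprime_iff_not_dvd (Fact.out : Nat.Prime q)).2 hUq).symm
  -- `ub` centralizes `Qb`
  let L : Subgroup H := ((Subgroup.centralizer ({ub} : Set (↥K ⧸ N))).comap (QuotientGroup.mk' N)).map K.subtype
  have hRL : R ≤ L := by
    refine hgen.trans (iSup_le ?_)
    rintro ⟨B, hBA, hBrel⟩
    rintro r ⟨hrR, hrB⟩
    replace hrB : r ∈ Subgroup.centralizer ((B : Subgroup H) : Set H) := hrB
    obtain ⟨rt, hrt, rfl⟩ := hrR
    refine ⟨rt, ?_, rfl⟩
    show (QuotientGroup.mk' N) rt ∈ Subgroup.centralizer ({ub} : Set (↥K ⧸ N))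
    have hcnd := hcomm B hBA hBrel
    have hc : ⁅u, K.subtype rt⁆ ∈ ⁅U, K ⊓ Subgroup.centralizer ((B : Subgroup H) : Set H)⁆ :=
      Subgroup.commutator_mem_commutator hu ⟨rt.2, hrB⟩
    have hpow : ⁅u, K.subtype rt⁆ ^ Nat.card ↥⁅U, K ⊓ Subgroup.centralizer ((B : Subgroup H) : Set H)⁆ = 1 := by
      have := pow_card_eq_one' (G := ↥⁅U, K ⊓ Subgroup.centralizer ((B : Subgroup H) : Set H)⁆) (x := ⟨_, hc⟩)
      exact congrArg Subtype.val this
    have hcop2 : (Nat.card ↥⁅U, K ⊓ Subgroup.centralizer ((B : Subgroup H) : Set H)⁆).Coprime q :=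
      ((Nat.Prime.coprime_iff_not_dvd (Fact.out : Nat.Prime q)).2 hcnd).symm
    set cb : ↥K ⧸ N := ⁅ub, (QuotientGroup.mk' N) rt⁆ with hcb
    have hrb : (QuotientGroup.mk' N) rt ∈ Qb := hrt
    have hcbQ : cb ∈ Qb := by
      have : cb = (ub * (QuotientGroup.mk' N) rt * ub⁻¹) * ((QuotientGroup.mk' N) rt)⁻¹ := rfl
      rw [this]
      exact Qb.mul_mem (hQn.conj_mem _ hrb _) (Qb.inv_mem hrb)
    have hcb1 : cb ^ Nat.card ↥⁅U, K ⊓ Subgroup.centralizer ((B : Subgroup H) : Set H)⁆ = 1 := by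
      have e : cb = (QuotientGroup.mk' N) ⁅ut, rt⁆ := by rw [map_commutatorElement]
      rw [e, ← map_pow]
      have e2 : ⁅ut, rt⁆ ^ Nat.card ↥⁅U, K ⊓ Subgroup.centralizer ((B : Subgroup H) : Set H)⁆ = 1 := by
        apply Subtype.ext
        exact hpow
      rw [e2, map_one]
    obtain ⟨k, hk⟩ := hQp ⟨cb, hcbQ⟩
    have hk' : cb ^ q ^ k = 1 := congrArg Subtype.val hk
    have hone : cb = 1 := by
      have hdvd1 : orderOf cb ∣ q ^ k := orderOf_dvd_of_pow_eq_one hk'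
      have hdvd2 := orderOf_dvd_of_pow_eq_one hcb1
      have : orderOf cb = 1 := Nat.eq_one_of_dvd_coprimes (hcop2.pow_right k) hdvd2 hdvd1
      exact orderOf_eq_one_iff.1 this
    rw [Subgroup.mem_centralizer_iff]
    intro y hy
    have hy' : y = ub := hy
    subst hy'
    exact (commutatorElement_eq_one_iff_mul_comm.1 hone)
  have hub : ub ∈ Subgroup.centralizer (Qb : Set (↥K ⧸ N)) := by
    rw [Subgroup.mem_centralizer_iff]
    intro y hy
    obtain ⟨yt, rfl⟩ := QuotientGroup.mk'_surjective N y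
    have h1 : K.subtype yt ∈ R := ⟨yt, hy, rfl⟩
    obtain ⟨z, hz, hzy⟩ := hRL h1
    have hzy' : z = yt := Subtype.ext hzy
    subst hzy'
    have hz2 : (QuotientGroup.mk' N) z ∈ Subgroup.centralizer ({ub} : Set (↥K ⧸ N)) := hz
    rw [Subgroup.mem_centralizer_iff] at hz2
    exact (hz2 ub rfl).symm
  have hubQ : ub ∈ Qb :=
    Cfsg.Agent.Lib.H9Two.centralizer_core_le q (Cfsg.Agent.Lib.H1Fit.pPrimeCore_quotient (G := ↥K) q) hub
  have hub1 : ub = 1 := by
    obtain ⟨k, hk⟩ := hQp ⟨ub, hubQ⟩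
    have hk' : ub ^ q ^ k = 1 := congrArg Subtype.val hk
    have h2 : ub ^ Nat.card U = 1 := by
      have e0 : u ^ Nat.card U = 1 := by
        have := pow_card_eq_one' (G := ↥U) (x := ⟨u, hu⟩)
        exact congrArg Subtype.val this
      have e1 : ut ^ Nat.card U = 1 := Subtype.ext e0
      show (QuotientGroup.mk' N) ut ^ Nat.card U = 1
      rw [← map_pow, e1, map_one]
    have hdvd1 : orderOf ub ∣ q ^ k := orderOf_dvd_of_pow_eq_one hk'
    have hdvd2 := orderOf_dvd_of_pow_eq_one h2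
    have : orderOf ub = 1 := Nat.eq_one_of_dvd_coprimes (hucop.pow_right k) hdvd2 hdvd1
    exact orderOf_eq_one_iff.1 this
  have hutN : ut ∈ N := (QuotientGroup.eq_one_iff ut).1 hub1
  exact ⟨ut, hutN, rfl⟩

end Cfsg.Agent.S1288
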