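import Cfsg.Statements.S1300
import Mathlib

set_option autoImplicit false
open Cfsg

namespace Cfsg.Agent.S1300

theorem mem_two {G : Type*} [Group G] {x a : G} (hx : orderOf x = 2) (ha : a ∈ Subgroup.zpowers x) :
    a = 1 ∨ a = x := by
  obtain ⟨k, rfl⟩ := Subgroup.mem_zpowers_iff.mp ha
  have h2 : x ^ 2 = 1 := by rw [← hx]; exact pow_orderOf_eq_one x
  rcases Int.even_or_odd' k with ⟨m, rfl | rfl⟩
  · left
    rw [zpow_mul]
    have : x ^ (2 : ℤ) = 1 := by exact_mod_cast h2
    rw [this, one_zpow]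
  · right
    rw [zpow_add, zpow_mul]
    have : x ^ (2 : ℤ) = 1 := by exact_mod_cast h2
    rw [this, one_zpow, one_mul, zpow_one]

theorem key_dir {G : Type*} [Group G] [Finite G] (h : Cfsg.IsKBalanced 2 1 G) (x y : G)
    (hx : orderOf x = 2) (hy : orderOf y = 2) (hxy : x * y = y * x) :
    Cfsg.centralizerPPrimeCore 2 x ⊓ Subgroup.centralizer {y} ≤
      Cfsg.centralizerPPrimeCore 2 y ⊓ Subgroup.centralizer {x} := by
  intro z hz
  obtain ⟨hz1, hz2⟩ := Subgroup.mem_inf.mp hz
  have hzC : z ∈ Subgroup.centralizer {x} := by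
    obtain ⟨w, _, rfl⟩ := hz1
    exact w.2
  refine Subgroup.mem_inf.mpr ⟨?_, hzC⟩
  refine h (Subgroup.zpowers x) ⟨inferInstance, ?_⟩ ?_ y hy ?_ (Subgroup.mem_inf.mpr ⟨?_, hz2⟩)
  · intro a ha
    rcases mem_two hx ha with rfl | rfl
    · simp
    · rw [← hx]; exact pow_orderOf_eq_one _
  · rw [Nat.card_zpowers, hx]; norm_num
  · intro a ha
    rcases mem_two hx ha with rfl | rfl
    · simp
    · exact hxy
  · unfold Cfsg.signalizerDelta
    rw [Subgroup.mem_iInf]
    rintro ⟨a, ha, ha1⟩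
    rcases mem_two hx ha with rfl | rfl
    · exact absurd rfl ha1
    · exact hz1

/-- For a finite group G, balance in the sense of commuting involutions is the same as 1-balance for the prime 2. -/
theorem result {G : Type*} [Group G] [Finite G] : Cfsg.IsBalanced G ↔ Cfsg.IsKBalanced 2 1 G := by
  constructor
  · intro h A hA hcard b hb hAb
    -- A = {1, a}
    have hcard2 : Nat.card A = 2 := by simpa using hcard
    haveI : Nontrivial A := by
      rw [← Finite.one_lt_card_iff_nontrivial]; omega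
    obtain ⟨⟨a, haA⟩, ha1⟩ := exists_ne (1 : A)
    have ha1' : a ≠ 1 := fun h => ha1 (Subtype.ext h)
    have ha2 : orderOf a = 2 := orderOf_eq_prime (hA.2 a haA) ha1'
    intro z hz
    obtain ⟨hz1, hz2⟩ := Subgroup.mem_inf.mp hz
    unfold Cfsg.signalizerDelta at hz1
    rw [Subgroup.mem_iInf] at hz1
    have h1 := hz1 ⟨a, haA, ha1'⟩
    have h2 : z ∈ Cfsg.centralizerPPrimeCore 2 a ⊓ Subgroup.centralizer {b} :=
      Subgroup.mem_inf.mpr ⟨h1, hz2⟩
    rw [h a b ha2 hb (hAb a haA)] at h2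
    exact (Subgroup.mem_inf.mp h2).1
  · intro h x y hx hy hxy
    exact le_antisymm (key_dir h x y hx hy hxy) (key_dir h y x hy hx hxy.symm)

end Cfsg.Agent.S1300
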