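import Cfsg.Statements.S1303
import Mathlib
import Cfsg.Agent.Lib.PSolv

set_option autoImplicit false
open Cfsg

namespace Cfsg.Agent.S1303

abbrev SL23 := Matrix.SpecialLinearGroup (Fin 2) (ZMod 3)

theorem d1 : ∀ x : SL23, x ≠ 1 → (x^4 = 1 ∨ ∃ h : SL23, (x*h*x⁻¹*h⁻¹)^4 = 1 ∧ x*h*x⁻¹*h⁻¹ ≠ 1) := by
  decide +kernel
theorem d2 : ∀ x y : SL23, x^4 = 1 → y^4 = 1 → (x*y)^4 = 1 := by decide +kernel
theorem d3 : ∀ x y : SL23, x^4 = 1 → (y*x*y⁻¹)^4 = 1 := by decide +kernel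
theorem d4 : ∀ y : SL23, (∀ x : SL23, x^4 = 1 → y*x = x*y) → y^4 = 1 := by decide +kernel
theorem d5 : ∀ t y : SL23, t^2 = 1 → t ≠ 1 → t*y = y*t := by decide +kernel
theorem d6 : ∃ g : SL23, g^3 = 1 ∧ g ≠ 1 := by decide +kernel

theorem d7 : ∀ x : SL23, x^4 = 1 → x⁻¹^4 = 1 := by decide +kernel

instance : Fact (Nat.Prime 2) := ⟨Nat.prime_two⟩

theorem core_bot : Cfsg.pPrimeCore 2 SL23 = ⊥ := by
  classical
  rw [eq_bot_iff]
  intro x hx
  by_contra hne
  have hne' : x ≠ 1 := fun h => hne (by simp [h])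
  have hcop : (Nat.card (Cfsg.pPrimeCore 2 SL23)).Coprime 2 := Cfsg.Agent.Lib.H1Core.pPrimeCore_coprime 2
  have hN := Cfsg.Agent.Lib.H1Core.pPrimeCore_normal 2 SL23
  have key : ∀ w ∈ Cfsg.pPrimeCore 2 SL23, w^4 = 1 → w = 1 := by
    intro w hw h4
    have h1 : orderOf (⟨w, hw⟩ : Cfsg.pPrimeCore 2 SL23) ∣ 4 := by
      apply orderOf_dvd_of_pow_eq_one
      exact Subtype.ext (by simpa using h4)
    have h2 : orderOf (⟨w, hw⟩ : Cfsg.pPrimeCore 2 SL23) ∣ Nat.card (Cfsg.pPrimeCore 2 SL23) := orderOf_dvd_natCard _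
    have h3 : (orderOf (⟨w, hw⟩ : Cfsg.pPrimeCore 2 SL23)).Coprime 4 :=
      Nat.Coprime.coprime_dvd_left h2 (by
        have : (Nat.card (Cfsg.pPrimeCore 2 SL23)).Coprime (2^2) := Nat.Coprime.pow_right 2 hcop
        simpa using this)
    have h5 : orderOf (⟨w, hw⟩ : Cfsg.pPrimeCore 2 SL23) = 1 := Nat.Coprime.eq_one_of_dvd h3 h1
    have h6 := orderOf_eq_one_iff.mp h5
    simpa using congrArg Subtype.val h6
  rcases d1 x hne' with h | ⟨h, h4, hc⟩
  · exact hne' (key x hx h)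
  · refine hc (key _ ?_ h4)
    have e : x*h*x⁻¹*h⁻¹ = x * (h * x⁻¹ * h⁻¹) := by group
    rw [e]
    exact Subgroup.mul_mem _ hx (hN.conj_mem _ (Subgroup.inv_mem _ hx) h)

/-- The group X = SL(2, 3): it is 2-constrained, O_{2'}(X) = 1, its centre A = Z(X) contains every involution of X = C_X(A), and X has a subgroup of order 3 (normalized by A) not contained in O_{2'}(X). -/
theorem result : Cfsg.IsPConstrained 2 (Matrix.SpecialLinearGroup (Fin 2) (ZMod 3)) ∧ Cfsg.pPrimeCore 2 (Matrix.SpecialLinearGroup (Fin 2) (ZMod 3)) = ⊥ ∧ (∀ t : Matrix.SpecialLinearGroup (Fin 2) (ZMod 3), orderOf t = 2 → t ∈ Subgroup.center (Matrix.SpecialLinearGroup (Fin 2) (ZMod 3))) ∧ ∃ Q : Subgroup (Matrix.SpecialLinearGroup (Fin 2) (ZMod 3)), Nat.card ↥Q = 3 ∧ ¬ (Q ≤ Cfsg.pPrimeCore 2 (Matrix.SpecialLinearGroup (Fin 2) (ZMod 3))) := by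
  classical
  refine ⟨?_, core_bot, ?_, ?_⟩
  · rw [Cfsg.Agent.Lib.PSolv.pconstrained_iff_of_bot core_bot]
    let Q : Subgroup SL23 :=
      { carrier := {x | x^4 = 1}
        mul_mem' := fun {a b} ha hb => d2 a b ha hb
        one_mem' := one_pow _
        inv_mem' := fun {a} ha => d7 a ha }
    have hQn : Q.Normal := ⟨fun x hx g => d3 x g hx⟩
    have hQ2 : IsPGroup 2 Q := fun x => ⟨2, Subtype.ext (by have h : (x:SL23)^4 = 1 := x.2; simpa using h)⟩
    have hle : Q ≤ Cfsg.pCore 2 SL23 := Cfsg.Agent.Lib.H1Core.le_pCore hQn hQ2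
    intro y hy
    apply hle
    show y^4 = 1
    apply d4
    intro x hx
    have := Subgroup.mem_centralizer_iff.mp hy x (hle hx)
    exact this.symm
  · intro t ht
    rw [Subgroup.mem_center_iff]
    intro y
    have h2 : t^2 = 1 := by have := pow_orderOf_eq_one t; simpa only [ht] using this
    have h1 : t ≠ 1 := by rintro rfl; simp at ht
    exact (d5 t y h2 h1).symm
  · obtain ⟨g, h3, h1⟩ := d6
    refine ⟨Subgroup.zpowers g, ?_, ?_⟩
    · rw [Nat.card_zpowers]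
      haveI : Fact (Nat.Prime 3) := ⟨Nat.prime_three⟩
      exact orderOf_eq_prime h3 h1
    · rw [core_bot]
      intro h
      exact h1 (Subgroup.mem_bot.mp (h (Subgroup.mem_zpowers g)))

end Cfsg.Agent.S1303
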