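import Cfsg.Statements.S1306
import Mathlib
import Cfsg.Agent.Lib.Comp3

set_option autoImplicit false
open Cfsg

namespace Cfsg.Agent.S1306

open Cfsg.Agent.Lib.Comp Cfsg.Agent.Lib.Comp3
open scoped commutatorElement
section
variable {G : Type*} [Group G]

abbrev cj (g : G) (A : Subgroup G) : Subgroup G := A.map (MulAut.conj g).toMonoidHom

theorem mem_cj {g x : G} {A : Subgroup G} : x ∈ cj g A ↔ g⁻¹ * x * g ∈ A := by
  constructor
  · rintro ⟨u, hu, rfl⟩
    have : g⁻¹ * ((MulAut.conj g).toMonoidHom u) * g = u := by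
      simp [MulAut.conj_apply]
      group
    rwa [this]
  · intro h
    refine ⟨_, h, ?_⟩
    simp [MulAut.conj_apply]
    group

theorem cj_centralizer (g : G) (A : Subgroup G) :
    cj g (Subgroup.centralizer (A : Set G)) = Subgroup.centralizer ((cj g A : Subgroup G) : Set G) := by
  ext y
  rw [mem_cj, Subgroup.mem_centralizer_iff, Subgroup.mem_centralizer_iff]
  constructor
  · intro h z hz
    have hz' : g⁻¹ * z * g ∈ A := mem_cj.mp hz
    have := h _ hz'
    have e1 : g * ((g⁻¹ * z * g) * (g⁻¹ * y * g)) * g⁻¹ = z * y := by group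
    have e2 : g * ((g⁻¹ * y * g) * (g⁻¹ * z * g)) * g⁻¹ = y * z := by group
    rw [← e1, ← e2, this]
  · intro h z hz
    have hz' : g * z * g⁻¹ ∈ cj g A := mem_cj.mpr (by simpa [mul_assoc] using hz)
    have := h _ hz'
    have e1 : g⁻¹ * ((g * z * g⁻¹) * y) * g = z * (g⁻¹ * y * g) := by group
    have e2 : g⁻¹ * (y * (g * z * g⁻¹)) * g = (g⁻¹ * y * g) * z := by group
    rw [← e1, ← e2, this]

theorem mem_normalizer_of_cj {g : G} {A : Subgroup G} (h : cj g A = A) :
    g ∈ Subgroup.normalizer (A : Set G) := by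
  rw [Subgroup.mem_normalizer_iff]
  intro z
  constructor
  · intro hz
    rw [← h]
    exact ⟨z, hz, rfl⟩
  · intro hz
    rw [← h] at hz
    have := mem_cj.mp hz
    simpa [mul_assoc] using this

theorem cj_of_mem_normalizer [Finite G] {g : G} {A : Subgroup G}
    (h : g ∈ Subgroup.normalizer (A : Set G)) : cj g A = A := by
  ext z
  rw [mem_cj]
  have := (Subgroup.mem_normalizer_iff.mp h (g⁻¹ * z * g))
  have e : g * (g⁻¹ * z * g) * g⁻¹ = z := by group
  rw [e] at this
  exact this

/-- conjugation between centralizers -/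
def cenConj (g y : G) : ↥(Subgroup.centralizer ({y} : Set G)) ≃*
    ↥(Subgroup.centralizer ({g * y * g⁻¹} : Set G)) where
  toFun z := ⟨g * z * g⁻¹, by
    rw [Subgroup.mem_centralizer_iff]
    intro w hw
    rw [Set.mem_singleton_iff] at hw
    rw [hw]
    have := Subgroup.mem_centralizer_iff.mp z.2 y rfl
    calc g * y * g⁻¹ * (g * z * g⁻¹) = g * (y * z) * g⁻¹ := by group
      _ = g * (z * y) * g⁻¹ := by rw [this]
      _ = g * z * g⁻¹ * (g * y * g⁻¹) := by group⟩
  invFun z := ⟨g⁻¹ * z * g, by
    rw [Subgroup.mem_centralizer_iff]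
    intro w hw
    rw [Set.mem_singleton_iff] at hw
    rw [hw]
    have := Subgroup.mem_centralizer_iff.mp z.2 (g * y * g⁻¹) rfl
    calc y * (g⁻¹ * z * g) = g⁻¹ * ((g * y * g⁻¹) * z) * g := by group
      _ = g⁻¹ * (z * (g * y * g⁻¹)) * g := by rw [this]
      _ = g⁻¹ * z * g * y := by group⟩
  left_inv z := by
    apply Subtype.ext
    simp [mul_assoc]
  right_inv z := by
    apply Subtype.ext
    simp [mul_assoc]
  map_mul' a b := by
    apply Subtype.ext
    simp [mul_assoc]

end

/-- Let G be finite, x an involution and L ≤ C_G(x) a component of C_G(x). Suppose L is a component of C_G(y) for every involution y ∈ C_G(L), and ⁅L, g L g⁻¹⁆ ≠ 1 whenever g L g⁻¹ ≠ L. Then L is a standard subgroup of G. -/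
theorem result {G : Type*} [Group G] [Finite G] (x : G) (hx : orderOf x = 2) (L : Subgroup G) (hLx : L ≤ Subgroup.centralizer ({x} : Set G)) (hL : Cfsg.IsComponent (L.subgroupOf (Subgroup.centralizer ({x} : Set G)))) (hne : ∀ y : G, orderOf y = 2 → y ∈ Subgroup.centralizer (L : Set G) → L ≤ Subgroup.centralizer ({y} : Set G) ∧ Cfsg.IsComponent (L.subgroupOf (Subgroup.centralizer ({y} : Set G)))) (hnc : ∀ g : G, L.map (MulAut.conj g).toMonoidHom ≠ L → ⁅L, L.map (MulAut.conj g).toMonoidHom⁆ ≠ ⊥) : Cfsg.IsStandardSubgroup L := by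
  have hqs : Cfsg.IsQuasisimple ↥L := qs_of_equiv (Subgroup.subgroupOfEquivOfLe hLx) hL.2
  have hxL : x ∈ Subgroup.centralizer (L : Set G) := by
    rw [Subgroup.mem_centralizer_iff]
    intro l hl
    exact (Subgroup.mem_centralizer_iff.mp (hLx hl) x rfl).symm
  have key : ∀ g y : G, orderOf y = 2 → y ∈ Subgroup.centralizer (L : Set G) →
      y ∈ Subgroup.centralizer ((cj g L : Subgroup G) : Set G) → cj g L = L := by
    intro g y hy hyL hyLg
    by_contra hneq
    obtain ⟨y₀, rfl⟩ : ∃ y₀, y = g * y₀ * g⁻¹ := ⟨g⁻¹ * y * g, by group⟩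
    have hy₀L : y₀ ∈ Subgroup.centralizer (L : Set G) := by
      rw [← cj_centralizer] at hyLg
      have := mem_cj.mp hyLg
      simpa [mul_assoc] using this
    have hy₀o : orderOf y₀ = 2 := by
      have := orderOf_injective (MulAut.conj g).toMonoidHom (MulAut.conj g).injective y₀
      rw [← hy]
      simpa [MulAut.conj_apply] using this.symm
    obtain ⟨h1, h2⟩ := hne _ hy hyL
    obtain ⟨h3, h4⟩ := hne y₀ hy₀o hy₀L
    have h5 := isComponent_map_mulEquiv (cenConj g y₀) h4
    have h6 : (L.subgroupOf (Subgroup.centralizer ({y₀} : Set G))).map (cenConj g y₀).toMonoidHom =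
        (cj g L).subgroupOf (Subgroup.centralizer ({g * y₀ * g⁻¹} : Set G)) := by
      ext z
      rw [Subgroup.mem_subgroupOf, mem_cj]
      constructor
      · rintro ⟨u, hu, rfl⟩
        have hu' : (u : G) ∈ L := Subgroup.mem_subgroupOf.mp hu
        have : g⁻¹ * ((cenConj g y₀).toMonoidHom u : G) * g = u := by
          show g⁻¹ * (g * (u : G) * g⁻¹) * g = u
          group
        rwa [this]
      · intro hz
        refine ⟨(cenConj g y₀).symm z, ?_, by simp⟩
        exact Subgroup.mem_subgroupOf.mpr hz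
    rw [h6] at h5
    have hLcj : cj g L ≤ Subgroup.centralizer ({g * y₀ * g⁻¹} : Set G) := by
      intro m hm
      rw [Subgroup.mem_centralizer_iff]
      intro w hw
      rw [Set.mem_singleton_iff] at hw
      rw [hw]
      exact (Subgroup.mem_centralizer_iff.mp hyLg m hm).symm
    have hneq' : L.subgroupOf (Subgroup.centralizer ({g * y₀ * g⁻¹} : Set G)) ≠
        (cj g L).subgroupOf (Subgroup.centralizer ({g * y₀ * g⁻¹} : Set G)) := by
      intro h
      apply hneq
      have h7 := congrArg (Subgroup.map (Subgroup.centralizer ({g * y₀ * g⁻¹} : Set G)).subtype) h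
      rw [Subgroup.subgroupOf_map_subtype, Subgroup.subgroupOf_map_subtype,
        inf_of_le_left h1, inf_of_le_left hLcj] at h7
      exact h7.symm
    have hc := comp_comm_comp h2 h5 hneq'
    apply hnc g hneq
    rw [eq_bot_iff, Subgroup.commutator_le]
    intro l hl m hm
    have h8 : ⁅(⟨l, h1 hl⟩ : ↥(Subgroup.centralizer ({g * y₀ * g⁻¹} : Set G))), ⟨m, hLcj hm⟩⁆ ∈
        ⁅L.subgroupOf (Subgroup.centralizer ({g * y₀ * g⁻¹} : Set G)),
          (cj g L).subgroupOf (Subgroup.centralizer ({g * y₀ * g⁻¹} : Set G))⁆ :=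
      Subgroup.commutator_mem_commutator (by rw [Subgroup.mem_subgroupOf]; exact hl)
        (by rw [Subgroup.mem_subgroupOf]; exact hm)
    rw [hc, Subgroup.mem_bot] at h8
    rw [Subgroup.mem_bot]
    exact congrArg Subtype.val h8
  have hNle : Subgroup.normalizer (L : Set G) ≤
      Subgroup.normalizer (Subgroup.centralizer (L : Set G) : Set G) := by
    intro g hg
    rw [mem_normalizer_iff_map] at hg ⊢
    have : cj g (Subgroup.centralizer (L : Set G)) = Subgroup.centralizer (L : Set G) := by
      rw [cj_centralizer]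
      show Subgroup.centralizer ((L.map (MulAut.conj g).toMonoidHom : Subgroup G) : Set G) = _
      rw [hg]
    exact this
  refine ⟨hqs, ⟨?_, ?_⟩, hnc, ?_⟩
  · rw [even_iff_two_dvd]
    have := Subgroup.orderOf_dvd_natCard _ hxL
    rwa [hx] at this
  · intro g hg
    rw [← Nat.not_even_iff_odd, even_iff_two_dvd]
    intro hd
    haveI : Fact (Nat.Prime 2) := ⟨Nat.prime_two⟩
    obtain ⟨y, hy⟩ := exists_prime_orderOf_dvd_card' 2 hd
    have hyo : orderOf (y : G) = 2 := by
      rw [← hy]
      exact Subgroup.orderOf_coe y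
    obtain ⟨hy1, hy2⟩ := Subgroup.mem_inf.mp y.2
    have hy3 : (y : G) ∈ cj g (Subgroup.centralizer (L : Set G)) := hy2
    rw [cj_centralizer] at hy3
    have h9 := key g y hyo hy1 hy3
    apply hg
    apply hNle
    rw [mem_normalizer_iff_map]
    exact h9
  · apply le_antisymm hNle
    intro g hg
    rw [mem_normalizer_iff_map] at hg ⊢
    have h10 : x ∈ Subgroup.centralizer ((cj g L : Subgroup G) : Set G) := by
      rw [← cj_centralizer]
      show x ∈ (Subgroup.centralizer (L : Set G)).map (MulAut.conj g).toMonoidHom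
      rw [hg]
      exact hxL
    exact key g x hx hxL h10

end Cfsg.Agent.S1306
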