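import Cfsg.Statements.S1314
import Mathlib
import Cfsg.Agent.Lib.H1Cop

set_option autoImplicit false
open Cfsg

namespace Cfsg.Agent.S1314

open scoped commutatorElement

/-- Let x be an involution of a group G and L a perfect subgroup with ⁅L, x L x⁻¹⁆ = 1. Then l ↦ l (x l x⁻¹) is a group homomorphism π from L to G whose kernel is central in L and whose image lies in C_G(x); and the commutator subgroup of C_{L ⊔ xLx⁻¹}(x) equals the image of π. -/
theorem result {G : Type*} [Group G] [Finite G] (x : G) (hx : orderOf x = 2) (L : Subgroup G) (hperf : ⁅L, L⁆ = L) (hcomm : ⁅L, L.map (MulAut.conj x).toMonoidHom⁆ = ⊥) : ∃ π : ↥L →* G, (∀ l : ↥L, π l = (l : G) * (x * (l : G) * x⁻¹)) ∧ π.ker ≤ Subgroup.center ↥L ∧ π.range ≤ Subgroup.centralizer ({x} : Set G) ∧ ⁅(L ⊔ L.map (MulAut.conj x).toMonoidHom) ⊓ Subgroup.centralizer ({x} : Set G), (L ⊔ L.map (MulAut.conj x).toMonoidHom) ⊓ Subgroup.centralizer ({x} : Set G)⁆ = π.range := by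
  have hx2 : x * x = 1 := by
    have := pow_orderOf_eq_one x
    rw [hx, pow_two] at this
    exact this
  have hxinv : x⁻¹ = x := inv_eq_of_mul_eq_one_left hx2
  have hcomm' : ∀ l ∈ L, ∀ m ∈ L, l * (x * m * x⁻¹) = (x * m * x⁻¹) * l := by
    intro l hl m hm
    have h1 : ⁅l, x * m * x⁻¹⁆ ∈ ⁅L, L.map (MulAut.conj x).toMonoidHom⁆ :=
      Subgroup.commutator_mem_commutator hl ⟨m, hm, rfl⟩
    rw [hcomm, Subgroup.mem_bot] at h1
    exact commutatorElement_eq_one_iff_mul_comm.mp h1
  have hmemconj : ∀ y, y ∈ L.map (MulAut.conj x).toMonoidHom ↔ x * y * x⁻¹ ∈ L := by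
    intro y
    constructor
    · rintro ⟨m, hm, rfl⟩
      have : x * ((MulAut.conj x).toMonoidHom m) * x⁻¹ = m := by
        simp only [MulEquiv.coe_toMonoidHom, MulAut.conj_apply, hxinv]
        calc x * (x * m * x) * x = (x * x) * m * (x * x) := by group
          _ = m := by rw [hx2]; group
      rwa [this]
    · intro h
      refine ⟨_, h, ?_⟩
      simp only [MulEquiv.coe_toMonoidHom, MulAut.conj_apply, hxinv]
      calc x * (x * y * x) * x = (x * x) * y * (x * x) := by group
        _ = y := by rw [hx2]; group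
  -- the homomorphism
  let π : ↥L →* G :=
    { toFun := fun l => (l : G) * (x * (l : G) * x⁻¹)
      map_one' := by simp
      map_mul' := by
        intro a b
        simp only [Subgroup.coe_mul]
        have h1 := hcomm' b b.2 a a.2
        calc (a : G) * b * (x * (a * b) * x⁻¹)
            = a * (b * (x * a * x⁻¹)) * (x * b * x⁻¹) := by group
          _ = a * ((x * a * x⁻¹) * b) * (x * b * x⁻¹) := by rw [h1]
          _ = a * (x * a * x⁻¹) * (b * (x * b * x⁻¹)) := by group }
  have hπ : ∀ l : ↥L, π l = (l : G) * (x * (l : G) * x⁻¹) := fun l => rfl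
  have hπx : ∀ l : ↥L, x * π l * x⁻¹ = π l := by
    intro l
    rw [hπ]
    have h1 := hcomm' l l.2 l l.2
    calc x * ((l : G) * (x * l * x⁻¹)) * x⁻¹
        = (x * l * x⁻¹) * (x * (x * l * x⁻¹) * x⁻¹) := by group
      _ = (x * l * x⁻¹) * ((x * x) * l * (x⁻¹ * x⁻¹)) := by group
      _ = (x * l * x⁻¹) * l := by
          rw [hx2, hxinv, hx2]; group
      _ = (l : G) * (x * l * x⁻¹) := h1.symm
  have hrange : π.range ≤ Subgroup.centralizer ({x} : Set G) := by
    rintro _ ⟨l, rfl⟩
    rw [Subgroup.mem_centralizer_iff]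
    intro y hy
    rw [Set.mem_singleton_iff] at hy
    rw [hy]
    have := hπx l
    rw [mul_inv_eq_iff_eq_mul] at this
    exact this
  refine ⟨π, hπ, ?_, hrange, ?_⟩
  · intro l hl
    rw [MonoidHom.mem_ker, hπ] at hl
    have h1 : (l : G) = (x * (l : G) * x⁻¹)⁻¹ := eq_inv_of_mul_eq_one_left hl
    rw [Subgroup.mem_center_iff]
    intro m
    apply Subtype.ext
    show (m : G) * l = l * m
    have h2 := hcomm' m m.2 l l.2
    -- `l` is the inverse of an element of `L^x`, which commutes with `L`
    have h3 : (m : G) * (x * (l : G) * x⁻¹)⁻¹ = (x * (l : G) * x⁻¹)⁻¹ * m := by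
      calc (m : G) * (x * (l : G) * x⁻¹)⁻¹ = (x * (l : G) * x⁻¹)⁻¹ * ((x * (l : G) * x⁻¹) * m) * (x * (l : G) * x⁻¹)⁻¹ := by group
        _ = (x * (l : G) * x⁻¹)⁻¹ * (m * (x * (l : G) * x⁻¹)) * (x * (l : G) * x⁻¹)⁻¹ := by rw [h2]
        _ = (x * (l : G) * x⁻¹)⁻¹ * m := by group
    rw [← h1] at h3
    exact h3
  · set C : Subgroup G := (L ⊔ L.map (MulAut.conj x).toMonoidHom) ⊓ Subgroup.centralizer ({x} : Set G) with hC
    apply le_antisymm
    · -- `C = π(L) · central`
      have hdecomp : ∀ g ∈ C, ∃ m : ↥L, ∃ z : G, g = π m * z ∧ z ∈ L ∧ x * z * x⁻¹ ∈ L := by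
        intro g hg
        obtain ⟨hg1, hg2⟩ := Subgroup.mem_inf.mp hg
        have hnorm : L.map (MulAut.conj x).toMonoidHom ≤ Subgroup.normalizer (L : Set G) := by
          refine Subgroup.le_normalizer_iff.mpr ?_
          rintro _ ⟨m, hm, rfl⟩ k hk
          have := hcomm' k hk m hm
          have e : (MulAut.conj x).toMonoidHom m = x * m * x⁻¹ := rfl
          rw [e, ← this, mul_inv_cancel_right]
          exact hk
        obtain ⟨l, hl, y, hy, rfl⟩ := (Cfsg.Agent.Lib.H1Cop.mem_sup_iff hnorm).mp hg1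
        have hm := (hmemconj y).mp hy
        set m := x * y * x⁻¹ with hmdef
        have hyeq : y = x * m * x⁻¹ := by
          rw [hmdef, hxinv]
          calc y = (x * x) * y * (x * x) := by rw [hx2]; group
            _ = x * (x * y * x) * x := by group
        have hfix : x * (l * y) * x⁻¹ = l * y := by
          have := Subgroup.mem_centralizer_iff.mp hg2 x rfl
          rw [mul_inv_eq_iff_eq_mul]
          exact this
        have h1 : (x * l * x⁻¹) * m = l * y := by
          rw [← hfix, hmdef]
          group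
        have h2 : m * (x * l * x⁻¹) = l * y := by
          rw [← h1]
          exact hcomm' m hm l hl
        set z := m⁻¹ * l with hz
        have hzL : z ∈ L := L.mul_mem (L.inv_mem hm) hl
        have hzeq : z = (x * l * x⁻¹) * y⁻¹ := by
          rw [hz, eq_mul_inv_iff_mul_eq]
          calc m⁻¹ * l * y = m⁻¹ * (l * y) := by group
            _ = m⁻¹ * (m * (x * l * x⁻¹)) := by rw [h2]
            _ = x * l * x⁻¹ := by group
        have hzx : x * z * x⁻¹ ∈ L := by
          have e : x * z * x⁻¹ = l * m⁻¹ := by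
            rw [hzeq, hyeq, hxinv]
            calc x * (x * l * x * (x * m * x)⁻¹) * x = (x * x) * l * m⁻¹ := by group
              _ = l * m⁻¹ := by rw [hx2]; group
          rw [e]
          exact L.mul_mem hl (L.inv_mem hm)
        refine ⟨⟨m, hm⟩, z, ?_, hzL, hzx⟩
        rw [hπ]
        have h3 : z * (x * m * x⁻¹) = (x * m * x⁻¹) * z := hcomm' z hzL m hm
        calc l * y = m * z * (x * m * x⁻¹) := by rw [hz, ← hyeq]; group
          _ = m * (z * (x * m * x⁻¹)) := by group
          _ = m * ((x * m * x⁻¹) * z) := by rw [h3]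
          _ = m * (x * m * x⁻¹) * z := by group
      have hcentral : ∀ z, z ∈ L → x * z * x⁻¹ ∈ L → ∀ m : ↥L, z * π m = π m * z := by
        intro z hz hzx m
        rw [hπ]
        have h1 : z * (x * m * x⁻¹) = (x * m * x⁻¹) * z := hcomm' z hz m m.2
        have hz' : z = x * (x * z * x⁻¹) * x⁻¹ := by
          rw [hxinv]
          calc z = (x * x) * z * (x * x) := by rw [hx2]; group
            _ = x * (x * z * x) * x := by group
        have h2 : (m : G) * z = z * m := by
          have := hcomm' m m.2 _ hzx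
          rwa [← hz'] at this
        calc z * ((m : G) * (x * m * x⁻¹)) = (z * m) * (x * m * x⁻¹) := by group
          _ = (m * z) * (x * m * x⁻¹) := by rw [h2]
          _ = m * (z * (x * m * x⁻¹)) := by group
          _ = m * ((x * m * x⁻¹) * z) := by rw [h1]
          _ = (m : G) * (x * m * x⁻¹) * z := by group
      rw [Subgroup.commutator_le]
      intro g hg h hh
      obtain ⟨m, z, rfl, hz, hzx⟩ := hdecomp g hg
      obtain ⟨n, w, rfl, hw, hwx⟩ := hdecomp h hh
      set a := π m with ha
      set b := π n with hb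
      have hzb : z * b = b * z := hcentral z hz hzx n
      have hwa : w * a = a * w := hcentral w hw hwx m
      have hzw : z * w = w * z := by
        have hw' : w = x * (x * w * x⁻¹) * x⁻¹ := by
          rw [hxinv]
          calc w = (x * x) * w * (x * x) := by rw [hx2]; group
            _ = x * (x * w * x) * x := by group
        have := hcomm' z hz _ hwx
        rwa [← hw'] at this
      have hwai : w * a⁻¹ = a⁻¹ * w := by
        rw [eq_inv_mul_iff_mul_eq, ← mul_assoc, ← hwa, mul_assoc, mul_inv_cancel, mul_one]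
      have hcalc : ⁅a * z, b * w⁆ = ⁅a, b⁆ := by
        rw [commutatorElement_def, commutatorElement_def]
        calc a * z * (b * w) * (a * z)⁻¹ * (b * w)⁻¹
            = a * (z * b) * w * z⁻¹ * a⁻¹ * w⁻¹ * b⁻¹ := by group
          _ = a * b * (z * w) * z⁻¹ * a⁻¹ * w⁻¹ * b⁻¹ := by rw [hzb]; group
          _ = a * b * (w * z) * z⁻¹ * a⁻¹ * w⁻¹ * b⁻¹ := by rw [hzw]
          _ = a * b * (w * a⁻¹) * w⁻¹ * b⁻¹ := by group
          _ = a * b * (a⁻¹ * w) * w⁻¹ * b⁻¹ := by rw [hwai]
          _ = a * b * a⁻¹ * b⁻¹ := by group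
      rw [hcalc, ha, hb]
      refine ⟨⁅m, n⁆, ?_⟩
      rw [commutatorElement_def, commutatorElement_def]
      simp only [map_mul, map_inv]
    · -- perfectness
      have hperf' : commutator ↥L = ⊤ := by
        have h1 : (commutator ↥L).map L.subtype = ⁅L, L⁆ := by
          rw [Subgroup.map_subtype_commutator]
        rw [hperf] at h1
        have h2 : (commutator ↥L).map L.subtype = (⊤ : Subgroup ↥L).map L.subtype := by
          rw [h1, ← MonoidHom.range_eq_map, Subgroup.range_subtype]
        exact Subgroup.map_injective L.subtype_injective h2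
      have h3 : π.range = ⁅π.range, π.range⁆ := by
        have h4 := Subgroup.map_commutator (⊤ : Subgroup ↥L) (⊤ : Subgroup ↥L) π
        rw [← MonoidHom.range_eq_map] at h4
        rw [← h4]
        have h5 : ⁅(⊤ : Subgroup ↥L), (⊤ : Subgroup ↥L)⁆ = ⊤ := hperf'
        rw [h5, MonoidHom.range_eq_map]
      rw [h3]
      have hle : π.range ≤ C := by
        refine le_inf ?_ hrange
        rintro _ ⟨l, rfl⟩
        rw [hπ]
        refine Subgroup.mul_mem _ (Subgroup.mem_sup_left l.2) (Subgroup.mem_sup_right ?_)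
        exact ⟨l, l.2, rfl⟩
      exact Subgroup.commutator_mono hle hle

end Cfsg.Agent.S1314
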