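import Cfsg.Statements.S1328
import Mathlib
import Cfsg.Agent.Lib.LBal3

set_option autoImplicit false
open Cfsg

namespace Cfsg.Agent.S1328

open Cfsg.Agent.Lib.LBal Cfsg.Agent.Lib.LBal2 Cfsg.Agent.Lib.LBal3 Cfsg.Agent.Lib.H1Core Cfsg.Agent.Lib.Comp Cfsg.Agent.Lib.Comp3

/-- Let G be finite, H ≤ G with O(H) = 1, t an involution of G normalizing H, and Y a nontrivial subgroup of O(C_H(t)). Then some component E of H is normalized by t and by Y and centralized by neither t nor Y. -/
theorem result {G : Type*} [Group G] [Finite G] (H : Subgroup G) (hO : Cfsg.oddCore ↥H = ⊥) (t : G) (ht : orderOf t = 2) (htH : t ∈ Subgroup.normalizer (H : Set G)) (Y : Subgroup G) (hY1 : Y ≠ ⊥) (hY : Y ≤ (Cfsg.oddCore ↥(H ⊓ Subgroup.centralizer ({t} : Set G))).map (H ⊓ Subgroup.centralizer ({t} : Set G)).subtype) : ∃ E : Subgroup ↥H, Cfsg.IsComponent E ∧ (E.map H.subtype).map (MulAut.conj t).toMonoidHom = E.map H.subtype ∧ Y ≤ Subgroup.normalizer ((E.map H.subtype : Subgroup G) : Set G) ∧ ¬ (t ∈ Subgroup.centralizer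 ((E.map H.subtype : Subgroup G) : Set G)) ∧ ¬ (Y ≤ Subgroup.centralizer ((E.map H.subtype : Subgroup G) : Set G)) := by
  classical
  haveI : Fact (Nat.Prime 2) := ⟨Nat.prime_two⟩
  set A : Subgroup G := H ⊔ Subgroup.zpowers t with hA
  have hHA : H ≤ A := le_sup_left
  have htA : t ∈ A := (le_sup_right : Subgroup.zpowers t ≤ A) (Subgroup.mem_zpowers t)
  have htHN : Subgroup.zpowers t ≤ Subgroup.normalizer (H : Set G) := by
    rw [Subgroup.zpowers_le]
    exact htH
  have hAN : A ≤ Subgroup.normalizer (H : Set G) := sup_le Subgroup.le_normalizer htHN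
  let H₁ : Subgroup ↥A := H.subgroupOf A
  haveI hH₁ : H₁.Normal := Subgroup.normal_subgroupOf_iff_le_normalizer hHA |>.mpr hAN
  have ht2 : t ^ 2 = 1 := by rw [← ht]; exact pow_orderOf_eq_one t
  -- squares lie in H
  have hsq : ∀ g : ↥A, g ^ 2 ∈ H₁ := by
    intro g
    obtain ⟨h, hh, c, hc, hg⟩ := (Cfsg.Agent.Lib.H1Cop.mem_sup_iff htHN).mp g.2
    rw [Subgroup.mem_subgroupOf]
    have hc2 : c ^ 2 = 1 := by
      obtain ⟨k, rfl⟩ := Subgroup.mem_zpowers_iff.mp hc
      rw [← zpow_natCast, ← zpow_mul, mul_comm, zpow_mul, zpow_natCast, ht2, one_zpow]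
    have hcN := htHN hc
    have h1 : c * h * c⁻¹ ∈ H := (Subgroup.mem_normalizer_iff.mp hcN h).mp hh
    have h2 : ((g ^ 2 : ↥A) : G) = h * (c * h * c⁻¹) * c ^ 2 := by
      rw [Subgroup.coe_pow, ← hg, pow_two, pow_two]
      group
    rw [h2, hc2, mul_one]
    exact H.mul_mem hh h1
  -- O(A) = 1
  have hOA : pPrimeCore 2 ↥A = ⊥ := by
    set O := pPrimeCore 2 ↥A with hOdef
    have hOc : (Nat.card O).Coprime 2 := pPrimeCore_coprime 2
    haveI hOn : O.Normal := pPrimeCore_normal 2 _
    have hN' : O.comap (Subgroup.inclusion hHA) ≤ pPrimeCore 2 ↥H := by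
      refine le_pPrimeCore (hOn.comap _) ?_
      exact Nat.Coprime.coprime_dvd_left
        (Subgroup.card_comap_dvd_of_injective _ _ (Subgroup.inclusion_injective hHA)) hOc
    have hO' : pPrimeCore 2 ↥H = ⊥ := hO
    rw [hO'] at hN'
    rw [eq_bot_iff]
    intro o ho
    have ho2 : o ^ 2 ∈ O := O.pow_mem ho 2
    have ho3 := hsq o
    have h4 : (⟨((o ^ 2 : ↥A) : G), Subgroup.mem_subgroupOf.mp ho3⟩ : ↥H) ∈
        O.comap (Subgroup.inclusion hHA) := by
      rw [Subgroup.mem_comap]
      exact ho2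
    have h5 := hN' h4
    rw [Subgroup.mem_bot] at h5 ⊢
    have h6 : o ^ 2 = 1 := by
      apply Subtype.ext
      have := congrArg Subtype.val h5
      exact this
    have h7 : orderOf o ∣ 2 := orderOf_dvd_of_pow_eq_one h6
    have h8 : orderOf o ∣ Nat.card O := Subgroup.orderOf_dvd_natCard O ho
    have h9 := Nat.Coprime.eq_one_of_dvd (Nat.Coprime.coprime_dvd_left h8 hOc) h7
    exact orderOf_eq_one_iff.mp h9
  set HC : Subgroup G := H ⊓ Subgroup.centralizer ({t} : Set G) with hHC
  set Y₀ : Subgroup G := (oddCore ↥HC).map HC.subtype with hY₀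
  have hY₀HC : Y₀ ≤ HC := Subgroup.map_subtype_le _
  have hY₀A : Y₀ ≤ A := hY₀HC.trans (inf_le_left.trans hHA)
  have hYA : Y ≤ A := hY.trans hY₀A
  let t₁ : ↥A := ⟨t, htA⟩
  have ht₁ : orderOf t₁ = 2 := by
    rw [← ht]
    exact Subgroup.orderOf_mk t htA
  obtain ⟨E, hE, hEH, htN, hY0N, hnt, hnY⟩ :=
    exists_moved_comp hH₁ hOA (t := t₁) ht₁ (Y₀ := Y₀.subgroupOf A) (Y := Y.subgroupOf A)
      (by
        intro hbot
        apply hY1
        rw [Subgroup.subgroupOf_eq_bot] at hbot
        exact eq_bot_iff.mpr (fun y hy => by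
          have := Subgroup.disjoint_def.mp hbot hy (hYA hy)
          simpa using this))
      (Subgroup.comap_mono hY)
      (by
        intro y hy
        rw [Subgroup.mem_subgroupOf] at hy ⊢
        exact (hY₀HC (hY hy)).1)
      (by
        intro y hy
        rw [Subgroup.mem_subgroupOf] at hy
        rw [Subgroup.mem_centralizer_iff]
        intro w hw
        rw [Set.mem_singleton_iff] at hw
        rw [hw]
        apply Subtype.ext
        have := Subgroup.mem_centralizer_iff.mp (hY₀HC hy).2 t rfl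
        exact this)
      (by
        refine Subgroup.le_normalizer_iff.mpr (fun c hc y hy => ?_)
        have hct : (c : G) ∈ Subgroup.centralizer ({t} : Set G) := by
          rw [Subgroup.mem_centralizer_iff]
          intro w hw
          rw [Set.mem_singleton_iff] at hw
          rw [hw]
          have := Subgroup.mem_centralizer_iff.mp hc t₁ rfl
          exact congrArg Subtype.val this
        have hcHC : (c : G) ∈ Subgroup.normalizer (HC : Set G) := by
          rw [Subgroup.mem_normalizer_iff]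
          intro x
          have h1 := Subgroup.mem_normalizer_iff.mp (hAN c.2) x
          have h2 := Subgroup.mem_normalizer_iff.mp
            (Subgroup.le_normalizer (H := Subgroup.centralizer ({t} : Set G)) hct) x
          simp only [hHC, Subgroup.mem_inf]
          exact and_congr h1 h2
        rw [Subgroup.mem_subgroupOf] at hy ⊢
        exact pPrimeCore_conj HC 2 hcHC hy)
      (by
        refine Nat.Coprime.coprime_dvd_left
          (Subgroup.card_comap_dvd_of_injective Y₀ A.subtype (Subgroup.subtype_injective A)) ?_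
        rw [hY₀, Subgroup.card_map_of_injective (Subgroup.subtype_injective _)]
        exact pPrimeCore_coprime 2)
  let e : ↥H₁ ≃* ↥H := Subgroup.subgroupOfEquivOfLe hHA
  set E' : Subgroup ↥H := (E.subgroupOf H₁).map e.toMonoidHom with hE'
  have hmap : E'.map H.subtype = E.map A.subtype := by
    ext x
    constructor
    · rintro ⟨_, ⟨u, hu, rfl⟩, rfl⟩
      exact ⟨u, Subgroup.mem_subgroupOf.mp hu, rfl⟩
    · rintro ⟨u, hu, rfl⟩
      exact ⟨e ⟨u, hEH hu⟩, ⟨⟨u, hEH hu⟩, Subgroup.mem_subgroupOf.mpr hu, rfl⟩, rfl⟩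
  have hnorm : ∀ c : ↥A, c ∈ Subgroup.normalizer (E : Set ↥A) →
      (c : G) ∈ Subgroup.normalizer ((E.map A.subtype : Subgroup G) : Set G) := by
    intro c hc
    exact Subgroup.le_normalizer_map _ ⟨c, hc, rfl⟩
  refine ⟨E', isComponent_map_mulEquiv e (isComponent_subgroupOf hEH hE), ?_, ?_, ?_, ?_⟩
  · rw [hmap]
    have h1 := hnorm t₁ htN
    ext x
    constructor
    · rintro ⟨y, hy, rfl⟩
      exact (Subgroup.mem_normalizer_iff.mp h1 y).mp hy
    · intro hx
      refine ⟨t⁻¹ * x * t, ?_, by simp [mul_assoc]⟩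
      have h2 := (Subgroup.mem_normalizer_iff.mp (Subgroup.inv_mem _ h1) x).mp hx
      simpa using h2
  · rw [hmap]
    intro y hy
    have hyA := hYA hy
    exact hnorm ⟨y, hyA⟩ (hY0N (Subgroup.mem_subgroupOf.mpr (hY hy)))
  · rw [hmap]
    intro hC
    apply hnt
    intro l hl
    apply Subtype.ext
    have := Subgroup.mem_centralizer_iff.mp hC (l : G) ⟨l, hl, rfl⟩
    exact this.symm
  · rw [hmap]
    intro hC
    apply hnY
    intro y hy
    rw [Subgroup.mem_centralizer_iff]
    intro l hl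
    apply Subtype.ext
    have := Subgroup.mem_centralizer_iff.mp (hC (Subgroup.mem_subgroupOf.mp hy)) (l : G) ⟨l, hl, rfl⟩
    exact this

end Cfsg.Agent.S1328
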