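import Cfsg.Statements.S1331
import Mathlib
import Cfsg.Agent.Lib.SigGen

set_option autoImplicit false
open Cfsg

namespace Cfsg.Agent.S1331



/-- Let θ be a solvable A-signalizer functor on the finite group G for the prime p, A elementary abelian of rank at least 3, X a member of the family of θ, and B ≤ A with |B| ≥ p². Then X is generated by the subgroups X ∩ ⋂_{d ∈ D, d ≠ 1} θ d, D ranging over the subgroups of index p in B. -/
theorem result {G : Type*} [Group G] [Finite G] (p : ℕ) [Fact p.Prime] (A : Subgroup G) (hA : Cfsg.IsElementaryAbelian p A) (hA3 : p ^ 3 ≤ Nat.card ↥A) (θ : G → Subgroup G) (hθ : Cfsg.IsSolvableSignalizerFunctor p A θ) (X : Subgroup G) (hX : X ∈ Cfsg.signalizerFamily p A θ) (B : Subgroup G) (hB : B ≤ A) (hB2 : p ^ 2 ≤ Nat.card ↥B) : X = ⨆ D : {D : Subgroup G // D ≤ B ∧ D.relIndex B = p}, X ⊓ Cfsg.signalizerInf (D : Subgroup G) θ := by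
  obtain ⟨hXs, hXp, hXA, hXθ⟩ := hX
  have hBX : B ≤ Subgroup.normalizer (X : Set G) :=
    Subgroup.le_normalizer_iff.mpr fun b hb x hx => hXA b (hB hb) x hx
  have hBe : Cfsg.IsElementaryAbelian p B := Cfsg.Agent.Lib.SigGen.elemAb_of_le hA hB
  refine le_antisymm ?_ (iSup_le fun B => inf_le_left)
  refine (Cfsg.Agent.Lib.SigGen.gen_general hBe hB2 hXp hBX).trans ?_
  refine iSup_mono fun D => ?_
  refine le_inf inf_le_left ?_
  intro x hx
  obtain ⟨hxX, hxD⟩ := Subgroup.mem_inf.mp hx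
  unfold Cfsg.signalizerInf
  rw [Subgroup.mem_iInf]
  rintro ⟨d, hdD, hd1⟩
  refine hXθ d (hB (D.2.1 hdD)) hd1 (Subgroup.mem_inf.mpr ⟨hxX, ?_⟩)
  rw [Subgroup.mem_centralizer_iff] at hxD ⊢
  intro y hy
  rw [Set.mem_singleton_iff] at hy
  subst hy
  exact hxD _ hdD

end Cfsg.Agent.S1331
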