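import Cfsg.Statements.S1335
import Mathlib
import Cfsg.Agent.Lib.SigGen

set_option autoImplicit false
open Cfsg

namespace Cfsg.Agent.S1335

open Cfsg.Agent.Lib.SigGen

/-- Let H be a subgroup of the finite group G, p a prime, k ≥ 1, P a Sylow p-subgroup of H of p-rank at least k, and suppose N_G(X) ≤ H for every subgroup X ≤ P of p-rank at least k. Then P is a Sylow p-subgroup of G. -/
theorem result {G : Type*} [Group G] [Finite G] {p : ℕ} [Fact p.Prime] (k : ℕ) (hk : 1 ≤ k) (H : Subgroup G) (P : Sylow p ↥H) (hP : ¬ Cfsg.PRankLE p (k - 1) ↥(P : Subgroup ↥H)) (hΓ : (∀ X : Subgroup G, X ≤ (P : Subgroup ↥H).map H.subtype → ¬ Cfsg.PRankLE p (k - 1) ↥X → Subgroup.normalizer (X : Set G) ≤ H)) : ∃ Q : Sylow p G, (Q : Subgroup G) = (P : Subgroup ↥H).map H.subtype := by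
  classical
  set P₀ : Subgroup G := (P : Subgroup ↥H).map H.subtype with hP₀
  have hP₀H : P₀ ≤ H := Subgroup.map_subtype_le _
  have hP₀p : IsPGroup p P₀ := P.isPGroup'.map _
  -- rank of `P₀`
  have hrank : ¬ Cfsg.PRankLE p (k - 1) ↥P₀ := by
    intro h
    apply hP
    intro A hAc hAp
    let e : ↥(P : Subgroup ↥H) ≃* ↥P₀ := (P : Subgroup ↥H).equivMapOfInjective H.subtype H.subtype_injective
    have hcard := h (A.map e.toMonoidHom) ?_ ?_
    · rwa [Subgroup.card_map_of_injective e.injective] at hcard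
    · refine IsMulCommutative.of_comm ?_
      rintro ⟨_, x, hx, rfl⟩ ⟨_, y, hy, rfl⟩
      apply Subtype.ext
      show e.toMonoidHom x * e.toMonoidHom y = e.toMonoidHom y * e.toMonoidHom x
      rw [← map_mul, ← map_mul]
      congr 1
      exact congrArg Subtype.val (hAc.is_comm.comm (⟨x, hx⟩ : A) ⟨y, hy⟩)
    · rintro _ ⟨x, hx, rfl⟩
      rw [← map_pow, hAp x hx, map_one]
  have hN := hΓ P₀ le_rfl hrank
  obtain ⟨Q, hQ⟩ := hP₀p.exists_le_sylow
  refine ⟨Q, ?_⟩
  by_contra hne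
  have hlt : P₀ < (Q : Subgroup G) := lt_of_le_of_ne hQ (fun h => hne h.symm)
  have hgrow := lt_inf_normalizer Q.isPGroup' hlt
  set R : Subgroup G := (Q : Subgroup G) ⊓ Subgroup.normalizer (P₀ : Set G) with hR
  have hRH : R ≤ H := inf_le_right.trans hN
  have hRp : IsPGroup p ↥R := Q.isPGroup'.to_le inf_le_left
  have hRp' : IsPGroup p ↥(R.subgroupOf H) := by
    exact hRp.of_equiv (Subgroup.subgroupOfEquivOfLe hRH).symm
  have hle : (P : Subgroup ↥H) ≤ R.subgroupOf H := by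
    intro x hx
    rw [Subgroup.mem_subgroupOf]
    exact hgrow.le (Subgroup.mem_map_of_mem _ hx)
  have heq := P.is_maximal' hRp' hle
  apply absurd hgrow
  apply not_lt_of_ge
  intro x hx
  have hxH : x ∈ H := hRH hx
  have : (⟨x, hxH⟩ : ↥H) ∈ (P : Subgroup ↥H) := by
    rw [← heq, Subgroup.mem_subgroupOf]
    exact hx
  exact Subgroup.mem_map_of_mem _ this

end Cfsg.Agent.S1335
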