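import Cfsg.Statements.S1336
import Mathlib

set_option autoImplicit false
open Cfsg

namespace Cfsg.Agent.S1336

set_option linter.unusedSectionVars false

section
variable {G : Type*} [Group G] [Finite G] {p : ℕ} [hp : Fact p.Prime]

abbrev Ed (p : ℕ) (A B : Subgroup G) : Prop :=
  Cfsg.IsElementaryAbelian p A ∧ p ^ 1 ≤ Nat.card ↥A ∧ Cfsg.IsElementaryAbelian p B ∧
    p ^ 1 ≤ Nat.card ↥B ∧ ∀ a ∈ A, ∀ b ∈ B, a * b = b * a

abbrev Rt (p : ℕ) : Subgroup G → Subgroup G → Prop := Relation.ReflTransGen (Ed p)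

abbrev cj (g : G) (A : Subgroup G) : Subgroup G := A.map (MulAut.conj g).toMonoidHom

theorem ed_symm {A B : Subgroup G} (h : Ed p A B) : Ed p B A := by
  obtain ⟨h1, h2, h3, h4, h5⟩ := h
  exact ⟨h3, h4, h1, h2, fun a ha b hb => (h5 b hb a ha).symm⟩

theorem rt_symm {A B : Subgroup G} (h : Rt p A B) : Rt p B A := by
  induction h with
  | refl => exact Relation.ReflTransGen.refl
  | tail _ hbc ih => exact Relation.ReflTransGen.head (ed_symm hbc) ih

theorem ea_cj {A : Subgroup G} (g : G) (h : Cfsg.IsElementaryAbelian p A) :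
    Cfsg.IsElementaryAbelian p (cj g A) := by
  refine ⟨?_, ?_⟩
  · refine IsMulCommutative.of_comm ?_
    rintro ⟨_, x, hx, rfl⟩ ⟨_, y, hy, rfl⟩
    apply Subtype.ext
    show (MulAut.conj g).toMonoidHom x * (MulAut.conj g).toMonoidHom y =
      (MulAut.conj g).toMonoidHom y * (MulAut.conj g).toMonoidHom x
    rw [← map_mul, ← map_mul]
    congr 1
    exact congrArg Subtype.val (h.1.is_comm.comm (⟨x, hx⟩ : A) ⟨y, hy⟩)
  · rintro _ ⟨x, hx, rfl⟩
    rw [← map_pow, h.2 x hx, map_one]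

theorem card_cj (g : G) (A : Subgroup G) : Nat.card (cj g A) = Nat.card A :=
  Subgroup.card_map_of_injective (MulAut.conj g).injective

theorem ed_cj {A B : Subgroup G} (g : G) (h : Ed p A B) : Ed p (cj g A) (cj g B) := by
  obtain ⟨h1, h2, h3, h4, h5⟩ := h
  refine ⟨ea_cj g h1, by rwa [card_cj], ea_cj g h3, by rwa [card_cj], ?_⟩
  rintro _ ⟨x, hx, rfl⟩ _ ⟨y, hy, rfl⟩
  rw [← map_mul, ← map_mul, h5 x hx y hy]

theorem rt_cj {A B : Subgroup G} (g : G) (h : Rt p A B) : Rt p (cj g A) (cj g B) := by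
  induction h with
  | refl => exact Relation.ReflTransGen.refl
  | tail _ hbc ih => exact ih.tail (ed_cj g hbc)

theorem cj_mul (g h : G) (A : Subgroup G) : cj (g * h) A = cj g (cj h A) := by
  ext x
  simp only [cj, Subgroup.mem_map]
  constructor
  · rintro ⟨a, ha, rfl⟩
    exact ⟨_, ⟨a, ha, rfl⟩, by simp [mul_assoc]⟩
  · rintro ⟨_, ⟨a, ha, rfl⟩, rfl⟩
    exact ⟨a, ha, by simp [mul_assoc]⟩

theorem cj_one (A : Subgroup G) : cj (1 : G) A = A := by
  ext x
  simp [cj]

theorem ea_zpowers {x : G} (hx : orderOf x = p) :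
    Cfsg.IsElementaryAbelian p (Subgroup.zpowers x) := by
  refine ⟨inferInstance, ?_⟩
  rintro _ ⟨k, rfl⟩
  have : x ^ p = 1 := by rw [← hx]; exact pow_orderOf_eq_one x
  simp only
  rw [← zpow_natCast, ← zpow_mul, mul_comm, zpow_mul, zpow_natCast, this, one_zpow]

theorem card_zpowers_ge {x : G} (hx : orderOf x = p) : p ^ 1 ≤ Nat.card (Subgroup.zpowers x) := by
  rw [Nat.card_zpowers, hx, pow_one]

theorem cj_zpowers (g x : G) : cj g (Subgroup.zpowers x) = Subgroup.zpowers (g * x * g⁻¹) := by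
  rw [cj, MonoidHom.map_zpowers]
  rfl

theorem orderOf_cj (g x : G) : orderOf (g * x * g⁻¹) = orderOf x := by
  have := orderOf_injective (MulAut.conj g).toMonoidHom (MulAut.conj g).injective x
  simpa using this

/-- elementary abelian subgroups with order at least `p` are nontrivial -/
theorem exists_ne_one_of_card {A : Subgroup G} (h2 : p ^ 1 ≤ Nat.card ↥A) : ∃ a ∈ A, a ≠ 1 := by
  by_contra hno
  push Not at hno
  have : A = ⊥ := by
    rw [eq_bot_iff]
    intro x hx
    exact hno x hx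
  rw [this, Subgroup.card_bot, pow_one] at h2
  exact absurd hp.out.one_lt (not_lt.mpr h2)

theorem orderOf_eq_of {A : Subgroup G} (h : Cfsg.IsElementaryAbelian p A) {a : G} (ha : a ∈ A)
    (ha1 : a ≠ 1) : orderOf a = p := orderOf_eq_prime (h.2 a ha) ha1

theorem forward {H : Subgroup G} (hH : H ≠ ⊤) (hp' : p ∣ Nat.card ↥H)
    (hs : ∀ g : G, g ∉ H → ¬ p ∣ Nat.card ↥(H ⊓ H.map (MulAut.conj g).toMonoidHom)) :
    ¬ Cfsg.IsKConnected p 1 G := by
  intro hc
  obtain ⟨e, he⟩ := exists_prime_orderOf_dvd_card' p hp'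
  have he1 : (e : G) ∈ H := e.2
  have heo : orderOf (e : G) = p := by
    rw [← he]
    exact Subgroup.orderOf_coe e
  obtain ⟨g, hg⟩ : ∃ g, g ∉ H := by
    by_contra hno
    push Not at hno
    exact hH (eq_top_iff.mpr fun x _ => hno x)
  have key : ∀ A B : Subgroup G, Ed p A B → A ≤ H → B ≤ H := by
    intro A B hAB hAH b hb
    by_contra hbH
    obtain ⟨h1, h2, h3, h4, h5⟩ := hAB
    obtain ⟨a, ha, ha1⟩ := exists_ne_one_of_card h2
    apply hs b hbH
    have hmem : a ∈ H ⊓ H.map (MulAut.conj b).toMonoidHom := by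
      refine Subgroup.mem_inf.mpr ⟨hAH ha, a, hAH ha, ?_⟩
      show b * a * b⁻¹ = a
      rw [← h5 a ha b hb]
      group
    have := Subgroup.orderOf_dvd_natCard _ hmem
    rwa [orderOf_eq_of h1 ha ha1] at this
  have hall : ∀ F, Rt p (Subgroup.zpowers (e : G)) F → F ≤ H := by
    intro F hF
    induction hF with
    | refl =>
      rw [Subgroup.zpowers_le]
      exact he1
    | tail _ hbc ih => exact key _ _ hbc ih
  have h1 := hc (Subgroup.zpowers (e : G)) (Subgroup.zpowers (g * e * g⁻¹))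
    (ea_zpowers heo) (card_zpowers_ge heo)
    (ea_zpowers (by rw [orderOf_cj, heo])) (card_zpowers_ge (by rw [orderOf_cj, heo]))
  have h2 := hall _ h1
  rw [Subgroup.zpowers_le] at h2
  apply hs g hg
  have hmem : g * e * g⁻¹ ∈ H ⊓ H.map (MulAut.conj g).toMonoidHom :=
    Subgroup.mem_inf.mpr ⟨h2, e, he1, rfl⟩
  have := Subgroup.orderOf_dvd_natCard _ hmem
  rwa [orderOf_cj, heo] at this

/-- an order-`p` element central in the Sylow subgroup. -/
theorem exists_central {Q : Subgroup G} (hQ : IsPGroup p Q) {E : Subgroup G} (hE : E ≤ Q)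
    (hE2 : p ^ 1 ≤ Nat.card ↥E) : ∃ z ∈ Q, orderOf z = p ∧ ∀ y ∈ Q, y * z = z * y := by
  obtain ⟨a, ha, ha1⟩ := exists_ne_one_of_card hE2
  haveI : Nontrivial ↥Q := ⟨⟨⟨a, hE ha⟩, 1, fun h => ha1 (congrArg Subtype.val h)⟩⟩
  haveI hnt := hQ.center_nontrivial
  have hd : p ∣ Nat.card (Subgroup.center ↥Q) := by
    have hcp : IsPGroup p (Subgroup.center ↥Q) := hQ.to_subgroup _
    obtain ⟨n, hn⟩ := IsPGroup.iff_card.mp hcp
    have h1 : 1 < Nat.card (Subgroup.center ↥Q) := Finite.one_lt_card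
    rw [hn] at h1 ⊢
    have hn0 : n ≠ 0 := by
      rintro rfl
      simp at h1
    exact dvd_pow_self _ hn0
  obtain ⟨z, hz⟩ := exists_prime_orderOf_dvd_card' p hd
  refine ⟨((z : ↥Q) : G), (z : ↥Q).2, ?_, ?_⟩
  · rw [← hz]
    rw [Subgroup.orderOf_coe, Subgroup.orderOf_coe]
  · intro y hy
    have := Subgroup.mem_center_iff.mp z.2 ⟨y, hy⟩
    exact congrArg Subtype.val this

theorem backward (hc : ¬ Cfsg.IsKConnected p 1 G) :
    ∃ H : Subgroup G, H ≠ ⊤ ∧ p ∣ Nat.card ↥H ∧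
      ∀ g : G, g ∉ H → ¬ p ∣ Nat.card ↥(H ⊓ H.map (MulAut.conj g).toMonoidHom) := by
  classical
  unfold Cfsg.IsKConnected at hc
  push Not at hc
  obtain ⟨E, E', hE, hE2, hE', hE'2, hnot⟩ := hc
  change ¬ Rt p E E' at hnot
  have hEp : IsPGroup p E := fun g => ⟨1, by
    ext
    simpa using hE.2 g g.2⟩
  have hE'p : IsPGroup p E' := fun g => ⟨1, by
    ext
    simpa using hE'.2 g g.2⟩
  let H : Subgroup G :=
    { carrier := {g | Rt p E (cj g E)}
      one_mem' := by
        show Rt p E (cj 1 E)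
        rw [cj_one]
      mul_mem' := by
        intro a b ha hb
        show Rt p E (cj (a * b) E)
        rw [cj_mul]
        exact Relation.ReflTransGen.trans ha (rt_cj a hb)
      inv_mem' := by
        intro a ha
        show Rt p E (cj a⁻¹ E)
        have h1 := rt_cj a⁻¹ ha
        rw [← cj_mul, inv_mul_cancel, cj_one] at h1
        exact rt_symm h1 }
  have hHmem : ∀ g, g ∈ H ↔ Rt p E (cj g E) := fun g => Iff.rfl
  have hHact : ∀ g ∈ H, ∀ F, Rt p E F → Rt p E (cj g F) := by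
    intro g hg F hF
    exact Relation.ReflTransGen.trans hg (rt_cj g hF)
  obtain ⟨Q, hEQ⟩ := hEp.exists_le_sylow
  obtain ⟨z, hzQ, hzo, hzc⟩ := exists_central Q.isPGroup' hEQ hE2
  have hFz : ∀ F : Subgroup G, Cfsg.IsElementaryAbelian p F → p ^ 1 ≤ Nat.card ↥F →
      F ≤ (Q : Subgroup G) → Rt p F (Subgroup.zpowers z) := by
    intro F hF hF2 hFQ
    refine Relation.ReflTransGen.single ⟨hF, hF2, ea_zpowers hzo, card_zpowers_ge hzo, ?_⟩
    intro a ha b hb
    obtain ⟨k, rfl⟩ := hb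
    have h1 : Commute a z := hzc a (hFQ ha)
    exact (h1.zpow_right k)
  have hEz : Rt p E (Subgroup.zpowers z) := hFz E hE hE2 hEQ
  have hcjQ : ∀ (u : G) (F : Subgroup G), u ∈ (Q : Subgroup G) → F ≤ (Q : Subgroup G) →
      cj u F ≤ (Q : Subgroup G) := by
    rintro u F hu hF _ ⟨x, hx, rfl⟩
    exact Q.1.mul_mem (Q.1.mul_mem hu (hF hx)) (Q.1.inv_mem hu)
  have hQH : (Q : Subgroup G) ≤ H := by
    intro u hu
    rw [hHmem]
    refine Relation.ReflTransGen.trans hEz (rt_symm ?_)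
    exact hFz _ (ea_cj u hE) (by rwa [card_cj]) (hcjQ u E hu hEQ)
  refine ⟨H, ?_, ?_, ?_⟩
  · -- `H ≠ ⊤`
    intro hHtop
    obtain ⟨Q', hE'Q'⟩ := hE'p.exists_le_sylow
    obtain ⟨g, hg⟩ := MulAction.exists_smul_eq G Q Q'
    have hgH : g ∈ H := by rw [hHtop]; trivial
    apply hnot
    have h1 : Rt p E (cj g (Subgroup.zpowers z)) := hHact g hgH _ hEz
    refine Relation.ReflTransGen.trans h1 (rt_symm ?_)
    rw [cj_zpowers]
    refine Relation.ReflTransGen.single ⟨hE', hE'2, ea_zpowers (by rw [orderOf_cj, hzo]),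
      card_zpowers_ge (by rw [orderOf_cj, hzo]), ?_⟩
    intro a ha b hb
    obtain ⟨k, rfl⟩ := hb
    have hQ' : (Q' : Subgroup G) = cj g (Q : Subgroup G) := by
      rw [← hg]
      rfl
    have haQ : a ∈ cj g (Q : Subgroup G) := by
      rw [← hQ']
      exact hE'Q' ha
    obtain ⟨y, hy, rfl⟩ := haQ
    have h1 : Commute ((MulAut.conj g).toMonoidHom y) (g * z * g⁻¹) := by
      have h2 := hzc y hy
      show (MulAut.conj g).toMonoidHom y * (MulAut.conj g).toMonoidHom z =
        (MulAut.conj g).toMonoidHom z * (MulAut.conj g).toMonoidHom y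
      rw [← map_mul, ← map_mul, h2]
    exact h1.zpow_right k
  · have := Subgroup.orderOf_dvd_natCard H (hQH hzQ)
    rwa [hzo] at this
  · -- the strongly embedded condition
    have hxH : ∀ x ∈ H, orderOf x = p → Rt p E (Subgroup.zpowers x) := by
      intro x hx hxo
      let Q₁ : Sylow p ↥H := Q.subtype hQH
      have hxp : IsPGroup p (Subgroup.zpowers (⟨x, hx⟩ : ↥H)) := by
        apply IsPGroup.of_card (n := 1)
        rw [Nat.card_zpowers, Subgroup.orderOf_mk, hxo, pow_one]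
      obtain ⟨S, hS⟩ := hxp.exists_le_sylow
      obtain ⟨h, hh⟩ := MulAction.exists_smul_eq ↥H Q₁ S
      have hxS : (⟨x, hx⟩ : ↥H) ∈ (S : Subgroup ↥H) := hS (Subgroup.mem_zpowers _)
      rw [← hh] at hxS
      obtain ⟨y, hy, hyx⟩ := hxS
      have hyQ : (y : G) ∈ (Q : Subgroup G) := by
        have : y ∈ (Q₁ : Subgroup ↥H) := hy
        exact this
      have hxeq : x = (h : G) * y * (h : G)⁻¹ := by
        have := congrArg Subtype.val hyx
        exact this.symm
      have hyo : orderOf (y : G) = p := by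
        rw [← hxo, hxeq, orderOf_cj]
      have h1 : Rt p E (Subgroup.zpowers (y : G)) := by
        refine Relation.ReflTransGen.trans hEz (rt_symm ?_)
        refine hFz _ (ea_zpowers hyo) (card_zpowers_ge hyo) ?_
        rw [Subgroup.zpowers_le]
        exact hyQ
      have h2 := hHact h h.2 _ h1
      rw [cj_zpowers, ← hxeq] at h2
      exact h2
    intro g hg hdvd
    obtain ⟨x, hx⟩ := exists_prime_orderOf_dvd_card' p hdvd
    have hxo : orderOf (x : G) = p := by
      rw [← hx]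
      exact Subgroup.orderOf_coe x
    obtain ⟨hx1, y, hy, hyx⟩ := Subgroup.mem_inf.mp x.2
    have hxeq : (x : G) = g * y * g⁻¹ := hyx.symm
    have hyo : orderOf y = p := by
      rw [← hxo, hxeq, orderOf_cj]
    have h1 := hxH _ hx1 hxo
    have h2 := rt_cj g (hxH y hy hyo)
    rw [cj_zpowers, ← hxeq] at h2
    apply hg
    rw [hHmem]
    exact Relation.ReflTransGen.trans h1 (rt_symm h2)

end

/-- Let G be finite and p prime. Then G has a proper subgroup H with p ∣ |H| and p ∤ |H ∩ gHg⁻¹| for every g ∉ H (a strongly p-embedded subgroup) if and only if G is not 1-connected for p. -/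
theorem result {G : Type*} [Group G] [Finite G] (p : ℕ) [Fact p.Prime] : (∃ H : Subgroup G, H ≠ ⊤ ∧ p ∣ Nat.card ↥H ∧ ∀ g : G, g ∉ H → ¬ p ∣ Nat.card ↥(H ⊓ H.map (MulAut.conj g).toMonoidHom)) ↔ ¬ Cfsg.IsKConnected p 1 G := by
  constructor
  · rintro ⟨H, hH, hp', hs⟩
    exact forward hH hp' hs
  · exact backward

end Cfsg.Agent.S1336
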