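import Cfsg.Statements.S1337
import Mathlib
import Cfsg.Agent.Lib.NormalKlein
import Cfsg.Agent.Lib.H1Frat
import Cfsg.Agent.Lib.InvolSylow
import Cfsg.Agent.Lib.PGrp8
import Cfsg.Agent.Lib.Comp

set_option autoImplicit false
open Cfsg

namespace Cfsg.Agent.S1337

variable {P : Type*} [Group P] [Finite P] {p : ℕ} [hp : Fact p.Prime]

theorem card_le_prime_mul_inf (hP : IsPGroup p P)
    (U : Subgroup P) [hUn : U.Normal] (hUe : Cfsg.IsElementaryAbelian p U) (hUc : Nat.card U = p ^ 2) (E : Subgroup P) :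
    Nat.card E ≤ p * Nat.card ↥(E ⊓ Subgroup.centralizer (U : Set P)) := by
  classical
  haveI : Group.IsNilpotent P := hP.isNilpotent
  have hpp := hp.out
  have hp2 := hpp.two_le
  have hpsq : p < p ^ 2 := by nlinarith
  have hUne : U ≠ ⊥ := by
    intro h
    rw [h, Subgroup.card_bot] at hUc
    have : 1 < p ^ 2 := by nlinarith
    omega
  obtain ⟨⟨z, hzm⟩, hz1⟩ := Subgroup.ne_bot_iff_exists_ne_one.mp (Cfsg.Agent.Lib.H1Frat.normal_inf_center_ne_bot U hUne)
  have hzU : z ∈ U := hzm.1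
  have hzZ : z ∈ Subgroup.center P := hzm.2
  have hzne : z ≠ 1 := fun h => hz1 (Subtype.ext h)
  set Z := Subgroup.zpowers z with hZ
  have hZc : Nat.card Z = p := by
    rw [hZ, Nat.card_zpowers]; exact orderOf_eq_prime (hUe.2 z hzU) hzne
  have hZU : Z ≤ U := (Subgroup.zpowers_le).mpr hzU
  obtain ⟨w, hwU, hwZ⟩ : ∃ w ∈ U, w ∉ Z := by
    by_contra hcon
    push Not at hcon
    have : U ≤ Z := hcon
    have := Subgroup.card_le_of_le this
    omega
  -- commuting with w implies centralizing U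
  have hcentr : ∀ e : P, e * w = w * e → e ∈ Subgroup.centralizer (U : Set P) := by
    intro e he
    set W := U ⊓ Subgroup.centralizer ({e} : Set P) with hW
    have hZW : Z ≤ W := by
      refine le_inf hZU ?_
      rw [hZ, Subgroup.zpowers_le, Subgroup.mem_centralizer_singleton_iff]
      exact (Subgroup.mem_center_iff.mp hzZ e).symm
    have hwW : w ∈ W := ⟨hwU, Subgroup.mem_centralizer_singleton_iff.mpr he.symm⟩
    have hdvd : Nat.card W ∣ p ^ 2 := by rw [← hUc]; exact Subgroup.card_dvd_of_le inf_le_left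
    obtain ⟨k, hk, hkc⟩ := (Nat.dvd_prime_pow hpp).mp hdvd
    have hlt : p < Nat.card W := by
      by_contra hcon
      have : Z = W := Subgroup.eq_of_le_of_card_ge hZW (by omega)
      exact hwZ (this ▸ hwW)
    have hk2 : k = 2 := by
      interval_cases k
      · rw [hkc] at hlt; simp at hlt; omega
      · rw [hkc] at hlt; simp at hlt
      · rfl
    have hWU : W = U := by
      apply Subgroup.eq_of_le_of_card_ge inf_le_left
      rw [hkc, hk2, hUc]
    rw [Subgroup.mem_centralizer_iff]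
    intro u hu
    have : u ∈ W := by rw [hWU]; exact hu
    exact Subgroup.mem_centralizer_singleton_iff.mp this.2
  set K := E ⊓ Subgroup.centralizer (U : Set P) with hK
  have hconj : ∀ e : P, e * w * e⁻¹ ∈ U ∧ e * w * e⁻¹ ∉ Z := by
    intro e
    refine ⟨hUn.conj_mem _ hwU e, ?_⟩
    intro hin
    apply hwZ
    obtain ⟨k, hk⟩ := Subgroup.mem_zpowers_iff.mp hin
    have hzk : z ^ k ∈ Subgroup.center P := Subgroup.zpow_mem _ hzZ k
    have h4 : w = z ^ k := by
      have := Subgroup.mem_center_iff.mp hzk e⁻¹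
      calc w = e⁻¹ * (e * w * e⁻¹) * e := by group
        _ = e⁻¹ * z ^ k * e := by rw [hk]
        _ = z ^ k * e⁻¹ * e := by rw [this]
        _ = z ^ k := by group
    rw [h4]
    exact Subgroup.zpow_mem _ (Subgroup.mem_zpowers z) k
  let B := {u : P // u ∈ U ∧ u ∉ Z}
  let f : E → B := fun e => ⟨(e : P) * w * (e : P)⁻¹, hconj e⟩
  have hfib : ∀ b, Nat.card {a // f a = b} ≤ Nat.card K := by
    intro b
    by_cases hb : ∃ a, f a = b
    · obtain ⟨a₀, ha₀⟩ := hb
      apply Nat.card_le_card_of_injective (fun a : {a // f a = b} => (⟨(a₀ : P)⁻¹ * (a.1 : P), ?_⟩ : K))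
      · intro a a' h
        have h2 := congrArg Subtype.val h
        simp only [mul_right_inj] at h2
        exact Subtype.ext (Subtype.ext h2)
      · refine ⟨E.mul_mem (E.inv_mem a₀.2) a.1.2, hcentr _ ?_⟩
        have h1 : (a.1 : P) * w * (a.1 : P)⁻¹ = (a₀ : P) * w * (a₀ : P)⁻¹ := by
          have h3 : f a.1 = f a₀ := a.2.trans ha₀.symm
          exact congrArg Subtype.val h3
        calc (a₀ : P)⁻¹ * (a.1 : P) * w = (a₀ : P)⁻¹ * ((a.1 : P) * w * (a.1 : P)⁻¹) * (a.1 : P) := by group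
          _ = (a₀ : P)⁻¹ * ((a₀ : P) * w * (a₀ : P)⁻¹) * (a.1 : P) := by rw [h1]
          _ = w * ((a₀ : P)⁻¹ * (a.1 : P)) := by group
    · have : IsEmpty {a // f a = b} := ⟨fun a => hb ⟨a.1, a.2⟩⟩
      rw [Nat.card_of_isEmpty]; exact Nat.zero_le _
  have hcard := Cfsg.Agent.Lib.InvolSylow.card_le_mul_of_fibers f _ hfib
  have hBlt : Nat.card B < p ^ 2 := by
    rw [← hUc]
    have h1 : Nat.card B = ({u : P | u ∈ U ∧ u ∉ Z}).ncard := Nat.card_coe_set_eq _
    have h2 : Nat.card U = (U : Set P).ncard := Nat.card_coe_set_eq _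
    rw [h1, h2]
    apply Set.ncard_lt_ncard _ (Set.toFinite _)
    refine ⟨fun u hu => hu.1, fun h => ?_⟩
    have : (1 : P) ∈ ({u : P | u ∈ U ∧ u ∉ Z}) := h U.one_mem
    exact this.2 Z.one_mem
  have hKpos : 0 < Nat.card K := Nat.card_pos
  have hEp : IsPGroup p E := hP.to_subgroup E
  have hKp : IsPGroup p K := hP.to_subgroup K
  obtain ⟨a, ha⟩ := IsPGroup.iff_card.mp hEp
  obtain ⟨b, hb⟩ := IsPGroup.iff_card.mp hKp
  rw [ha, hb] at hcard
  rw [ha, hb]
  have hab : a < b + 2 := by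
    have h1 : p ^ a < p ^ (b + 2) := by
      rw [pow_add]
      calc p ^ a ≤ p ^ b * Nat.card B := hcard
        _ < p ^ b * p ^ 2 := Nat.mul_lt_mul_of_pos_left hBlt (by positivity)
    exact (Nat.pow_lt_pow_iff_right hpp.one_lt).mp h1
  calc p ^ a ≤ p ^ (b + 1) := Nat.pow_le_pow_right hpp.pos (by omega)
    _ = p * p ^ b := by ring

theorem isEl_sup {A B : Subgroup P} (hA : Cfsg.IsElementaryAbelian p A) (hB : Cfsg.IsElementaryAbelian p B)
    (h : ∀ a ∈ A, ∀ b ∈ B, a * b = b * a) : Cfsg.IsElementaryAbelian p (A ⊔ B) := by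
  have hAc : ∀ a ∈ A, ∀ a' ∈ A, a * a' = a' * a := fun a ha a' ha' =>
    congrArg Subtype.val (hA.1.is_comm.comm (⟨a, ha⟩ : A) ⟨a', ha'⟩)
  have hBc : ∀ a ∈ B, ∀ a' ∈ B, a * a' = a' * a := fun a ha a' ha' =>
    congrArg Subtype.val (hB.1.is_comm.comm (⟨a, ha⟩ : B) ⟨a', ha'⟩)
  refine ⟨⟨⟨?_⟩⟩, ?_⟩
  · rintro ⟨x, hx⟩ ⟨y, hy⟩
    obtain ⟨a, ha, b, hb, rfl⟩ := Cfsg.Agent.Lib.Comp.mem_sup_of_comm h hx
    obtain ⟨a', ha', b', hb', rfl⟩ := Cfsg.Agent.Lib.Comp.mem_sup_of_comm h hy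
    apply Subtype.ext
    show a * b * (a' * b') = a' * b' * (a * b)
    calc a * b * (a' * b') = a * (b * a') * b' := by group
      _ = a * (a' * b) * b' := by rw [h a' ha' b hb]
      _ = (a * a') * (b * b') := by group
      _ = (a' * a) * (b' * b) := by rw [hAc a ha a' ha', hBc b hb b' hb']
      _ = a' * (a * b') * b := by group
      _ = a' * (b' * a) * b := by rw [h a ha b' hb']
      _ = a' * b' * (a * b) := by group
  · intro x hx
    obtain ⟨a, ha, b, hb, rfl⟩ := Cfsg.Agent.Lib.Comp.mem_sup_of_comm h hx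
    have hc : Commute a b := h a ha b hb
    rw [hc.mul_pow, hA.2 a ha, hB.2 b hb, one_mul]

theorem comm_of {Q : Type*} [Group Q] (A : Subgroup Q) (h : ∀ a ∈ A, ∀ b ∈ A, a * b = b * a) : IsMulCommutative A :=
  ⟨⟨fun a b => Subtype.ext (h a a.2 b b.2)⟩⟩

theorem comm_mem {Q : Type*} [Group Q] {A : Subgroup Q} (hA : IsMulCommutative A) : ∀ a ∈ A, ∀ b ∈ A, a * b = b * a :=
  fun a ha b hb => congrArg Subtype.val (hA.is_comm.comm (⟨a, ha⟩ : A) ⟨b, hb⟩)

/-- the rank condition in terms of subgroups of `P` -/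
theorem rank_iff (X : Subgroup P) : ¬ Cfsg.PRankLE p 2 ↥(Subgroup.centralizer (X : Set P)) ↔
    ∃ E : Subgroup P, E ≤ Subgroup.centralizer (X : Set P) ∧ Cfsg.IsElementaryAbelian p E ∧ p ^ 2 < Nat.card E := by
  constructor
  · intro h
    unfold Cfsg.PRankLE at h
    push Not at h
    obtain ⟨A, hAc, hAe, hAl⟩ := h
    refine ⟨A.map (Subgroup.centralizer (X : Set P)).subtype, Subgroup.map_subtype_le _, ⟨?_, ?_⟩, ?_⟩
    · apply comm_of
      rintro _ ⟨a, ha, rfl⟩ _ ⟨b, hb, rfl⟩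
      exact congrArg Subtype.val (comm_mem hAc a ha b hb)
    · rintro _ ⟨a, ha, rfl⟩
      have := hAe a ha
      exact congrArg Subtype.val this
    · have : Nat.card (A.map (Subgroup.centralizer (X : Set P)).subtype) = Nat.card A :=
        (Nat.card_congr ((A.equivMapOfInjective _ Subtype.val_injective).toEquiv)).symm
      rw [this]; exact hAl
  · rintro ⟨E, hE, hEe, hEl⟩ hrk
    have h1 := hrk (E.subgroupOf (Subgroup.centralizer (X : Set P))) ?_ ?_
    · have : Nat.card (E.subgroupOf (Subgroup.centralizer (X : Set P))) = Nat.card E :=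
        Nat.card_congr (Subgroup.subgroupOfEquivOfLe hE).toEquiv
      omega
    · apply comm_of
      rintro ⟨a, ha⟩ ha' ⟨b, hb⟩ hb'
      apply Subtype.ext
      exact comm_mem hEe.1 a (Subgroup.mem_subgroupOf.mp ha') b (Subgroup.mem_subgroupOf.mp hb')
    · rintro ⟨a, ha⟩ ha'
      apply Subtype.ext
      exact hEe.2 a (Subgroup.mem_subgroupOf.mp ha')

theorem exists_normal_U (hP : IsPGroup p P) (A : Subgroup P) (hA : Cfsg.IsElementaryAbelian p A) (hAc : p ^ 2 < Nat.card A) :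
    ∃ U : Subgroup P, U.Normal ∧ Cfsg.IsElementaryAbelian p U ∧ Nat.card ↥U = p ^ 2 := by
  classical
  have hpp := hp.out
  by_cases hp2 : p = 2
  · subst hp2
    have hAp : IsPGroup 2 A := hP.to_subgroup A
    obtain ⟨k, hk⟩ := IsPGroup.iff_card.mp hAp
    have hk3 : 3 ≤ k := by
      by_contra hlt
      have : k ≤ 2 := by omega
      have h3 : 2 ^ k ≤ 2 ^ 2 := Nat.pow_le_pow_right (by norm_num) this
      omega
    have hdvd : 2 ^ 3 ∣ Nat.card P := by
      have h1 : 2 ^ 3 ∣ Nat.card A := by rw [hk]; exact pow_dvd_pow 2 hk3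
      exact h1.trans (Subgroup.card_subgroup_dvd_card A)
    obtain ⟨E₀, hE₀⟩ : ∃ E₀ : Subgroup A, Nat.card E₀ = 2 ^ 3 :=
      Sylow.exists_subgroup_card_pow_prime 2 (by rw [hk]; exact pow_dvd_pow 2 hk3)
    set E := E₀.map A.subtype with hE
    have hEc : Nat.card E = 8 := by
      have : Nat.card E = Nat.card E₀ := (Nat.card_congr ((E₀.equivMapOfInjective _ Subtype.val_injective).toEquiv)).symm
      rw [this, hE₀]; norm_num
    obtain ⟨U, hUn, hUc, hUs⟩ := Cfsg.Agent.Lib.NormalKlein.exists_normal_klein hP E hEc (by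
      rintro _ ⟨a, -, rfl⟩
      have := hA.2 a a.2
      rw [pow_two] at this
      exact this)
    refine ⟨U, hUn, ⟨⟨⟨?_⟩⟩, ?_⟩, by rw [hUc]; norm_num⟩
    · rintro ⟨a, ha⟩ ⟨b, hb⟩
      apply Subtype.ext
      have h1 := hUs a ha
      have h2 := hUs b hb
      have h3 := hUs _ (U.mul_mem ha hb)
      show a * b = b * a
      calc a * b = a * (a * b * (a * b)) * b := by rw [h3]; group
        _ = (a * a) * (b * (a * b)) * b := by group
        _ = b * a * (b * b) := by rw [h1]; group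
        _ = b * a := by rw [h2]; group
    · intro a ha
      rw [pow_two]; exact hUs a ha
  · have hnc : ¬ IsCyclic P := by
      intro hc
      have hcA : IsCyclic A := inferInstance
      obtain ⟨g, hg⟩ := hcA.exists_generator
      have hgp := hA.2 g g.2
      have hord : orderOf g ∣ p := by
        apply orderOf_dvd_of_pow_eq_one
        exact Subtype.ext hgp
      have hcard : Nat.card A = orderOf g := by
        rw [← Nat.card_zpowers g]
        have : Subgroup.zpowers g = ⊤ := by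
          ext x; simp [hg x]
        rw [this]; simp
      have := Nat.le_of_dvd hpp.pos hord
      have h3 : p ≤ p ^ 2 := by nlinarith [hpp.two_le]
      omega
    obtain ⟨U, h1, h2, h3⟩ := Cfsg.Agent.Lib.PGrp.exists_elem_sq_of_noncyclic hp2 hP hnc
    exact ⟨U, h1, h2, h3⟩

theorem isEl_inf {A : Subgroup P} (hA : Cfsg.IsElementaryAbelian p A) (B : Subgroup P) : Cfsg.IsElementaryAbelian p (A ⊓ B) := by
  refine ⟨?_, fun a ha => hA.2 a ha.1⟩
  apply comm_of
  intro a ha b hb
  exact comm_mem hA.1 a ha.1 b hb.1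

theorem sq_le_card (hP : IsPGroup p P) (U : Subgroup P) [hUn : U.Normal] (hUe : Cfsg.IsElementaryAbelian p U)
    (hUc : Nat.card U = p ^ 2) (E : Subgroup P) (hE : p ^ 2 < Nat.card E) :
    p ^ 2 ≤ Nat.card ↥(E ⊓ Subgroup.centralizer (U : Set P)) := by
  have hpp := hp.out
  have h1 := card_le_prime_mul_inf hP U hUe hUc E
  obtain ⟨a, ha⟩ := IsPGroup.iff_card.mp (hP.to_subgroup E)
  obtain ⟨b, hb⟩ := IsPGroup.iff_card.mp (hP.to_subgroup (E ⊓ Subgroup.centralizer (U : Set P)))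
  rw [ha] at hE h1
  rw [hb] at h1 ⊢
  have h2 : 2 < a := (Nat.pow_lt_pow_iff_right hpp.one_lt).mp hE
  have h3 : a ≤ b + 1 := by
    have : p ^ a ≤ p ^ (b + 1) := by rw [pow_succ']; exact h1
    exact (Nat.pow_le_pow_iff_right hpp.one_lt).mp this
  exact Nat.pow_le_pow_right hpp.pos (by omega)

/-- propagation along an edge -/
theorem step_R {A B : Subgroup P} (hA : Cfsg.IsElementaryAbelian p A) (hAc : p ^ 2 ≤ Nat.card A)
    (hB : Cfsg.IsElementaryAbelian p B) (hBc : p ^ 2 ≤ Nat.card B) (h : ∀ a ∈ A, ∀ b ∈ B, a * b = b * a)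
    (hR : ∃ E : Subgroup P, E ≤ Subgroup.centralizer (B : Set P) ∧ Cfsg.IsElementaryAbelian p E ∧ p ^ 2 < Nat.card E) :
    ∃ E : Subgroup P, E ≤ Subgroup.centralizer (A : Set P) ∧ Cfsg.IsElementaryAbelian p E ∧ p ^ 2 < Nat.card E := by
  have hD := isEl_sup hA hB h
  by_cases hlt : p ^ 2 < Nat.card ↥(A ⊔ B)
  · refine ⟨A ⊔ B, ?_, hD, hlt⟩
    rw [sup_le_iff]
    constructor
    · intro u hu
      rw [Subgroup.mem_centralizer_iff]
      intro v hv
      exact congrArg Subtype.val (hA.1.is_comm.comm (⟨v, hv⟩ : A) ⟨u, hu⟩)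
    · intro u hu
      rw [Subgroup.mem_centralizer_iff]
      intro v hv
      exact h v hv u hu
  · have h1 : A = A ⊔ B := Subgroup.eq_of_le_of_card_ge le_sup_left (by omega)
    have h2 : B = A ⊔ B := Subgroup.eq_of_le_of_card_ge le_sup_right (by omega)
    have : A = B := h1.trans h2.symm
    rw [this]; exact hR

/-- Let P be a finite p-group of p-rank greater than 2. Then P has a normal elementary abelian subgroup U of order p², and for every elementary abelian X ≤ P with |X| ≥ p²: X is joined to U by a chain of pairwise commuting elementary abelian subgroups of order ≥ p² if and only if C_P(X) has p-rank greater than 2. -/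
theorem result {P : Type*} [Group P] [Finite P] (p : ℕ) [Fact p.Prime] (hP : IsPGroup p P) (hrk : ¬ Cfsg.PRankLE p 2 P) : ∃ U : Subgroup P, U.Normal ∧ Cfsg.IsElementaryAbelian p U ∧ Nat.card ↥U = p ^ 2 ∧ ∀ X : Subgroup P, Cfsg.IsElementaryAbelian p X → p ^ 2 ≤ Nat.card ↥X → (Relation.ReflTransGen (fun A B : Subgroup P => Cfsg.IsElementaryAbelian p A ∧ p ^ 2 ≤ Nat.card ↥A ∧ Cfsg.IsElementaryAbelian p B ∧ p ^ 2 ≤ Nat.card ↥B ∧ ∀ a ∈ A, ∀ b ∈ B, a * b = b * a) X U ↔ ¬ Cfsg.PRankLE p 2 ↥(Subgroup.centralizer (X : Set P))) := by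
  classical
  have hrk' := hrk
  unfold Cfsg.PRankLE at hrk'
  push Not at hrk'
  obtain ⟨A, hAc, hAe, hAl⟩ := hrk'
  have hAEl : Cfsg.IsElementaryAbelian p A := ⟨hAc, hAe⟩
  obtain ⟨U, hUn, hUe, hUc⟩ := exists_normal_U hP A hAEl hAl
  refine ⟨U, hUn, hUe, hUc, ?_⟩
  haveI := hUn
  intro X hXe hXc
  rw [rank_iff]
  have hUcomm : ∀ a ∈ U, ∀ b ∈ U, a * b = b * a := fun a ha a' ha' =>
    congrArg Subtype.val (hUe.1.is_comm.comm (⟨a, ha⟩ : U) ⟨a', ha'⟩)
  constructor
  · intro hchain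
    -- R(U)
    have hRU : ∃ E : Subgroup P, E ≤ Subgroup.centralizer (U : Set P) ∧ Cfsg.IsElementaryAbelian p E ∧ p ^ 2 < Nat.card E := by
      set F := A ⊓ Subgroup.centralizer (U : Set P) with hF
      have hFc : p ^ 2 ≤ Nat.card F := sq_le_card hP U hUe hUc A hAl
      have hFe : Cfsg.IsElementaryAbelian p F := isEl_inf hAEl _
      have hFU : ∀ a ∈ F, ∀ b ∈ U, a * b = b * a := fun a ha b hb => (Subgroup.mem_centralizer_iff.mp ha.2 b hb).symm
      have hstep := step_R hFe hFc hUe hUc.ge hFU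
      by_cases hD : p ^ 2 < Nat.card ↥(F ⊔ U)
      · refine ⟨F ⊔ U, ?_, isEl_sup hFe hUe hFU, hD⟩
        rw [sup_le_iff]
        refine ⟨inf_le_right, ?_⟩
        intro u hu
        rw [Subgroup.mem_centralizer_iff]
        intro v hv
        exact hUcomm v hv u hu
      · have h1 : U = F ⊔ U := Subgroup.eq_of_le_of_card_ge le_sup_right (by omega)
        have h2 : F = F ⊔ U := Subgroup.eq_of_le_of_card_ge le_sup_left (by omega)
        have h3 : U ≤ A := by rw [h1, ← h2]; exact inf_le_left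
        refine ⟨A, ?_, hAEl, hAl⟩
        intro a ha
        rw [Subgroup.mem_centralizer_iff]
        intro u hu
        exact congrArg Subtype.val (hAc.is_comm.comm (⟨u, h3 hu⟩ : A) ⟨a, ha⟩)
    clear hXe hXc
    induction hchain using Relation.ReflTransGen.head_induction_on with
    | refl => exact hRU
    | head hab _ ih =>
      obtain ⟨h1, h2, h3, h4, h5⟩ := hab
      exact step_R h1 h2 h3 h4 h5 ih
  · rintro ⟨E, hE, hEe, hEl⟩
    set F := E ⊓ Subgroup.centralizer (U : Set P) with hF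
    have hFc : p ^ 2 ≤ Nat.card F := sq_le_card hP U hUe hUc E hEl
    have hFe : Cfsg.IsElementaryAbelian p F := isEl_inf hEe _
    refine Relation.ReflTransGen.head (b := F) ?_ (Relation.ReflTransGen.single ?_)
    · refine ⟨hXe, hXc, hFe, hFc, ?_⟩
      intro a ha b hb
      exact Subgroup.mem_centralizer_iff.mp (hE hb.1) a ha
    · refine ⟨hFe, hFc, hUe, hUc.ge, ?_⟩
      intro a ha b hb
      exact (Subgroup.mem_centralizer_iff.mp ha.2 b hb).symm

end Cfsg.Agent.S1337
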