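import Cfsg.Statements.S1386
import Cfsg.Agent.Lib.H1FH

set_option autoImplicit false
open Cfsg

namespace Cfsg.Agent.S1386

open scoped commutatorElement

/-- Let G be a finite group, W₁, W₂ subgroups forming a self-normalizing cyclic pair, S a subgroup with W₂ ≤ S and W₁ a complement to S' in S, and (W₁, U, W₂') type-P data for S. Then W₂' = W₂ (that is, C_{S'}(W₁) = W₂). -/
theorem result {G : Type*} [Group G] [Finite G] (W₁ W₂ S U W₂' : Subgroup G) (hW : Cfsg.IsSelfNormalizingCyclic W₁ W₂)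
    (hSW : Cfsg.IsComplIn ⁅S, S⁆ W₁ S) (hW₂S : W₂ ≤ S) (hP : Cfsg.IsTypePWith S W₁ U W₂') :
    W₂' = W₂ := by
  classical
  obtain ⟨hW1, hW2, hinf, hcomm, hcyc, hnorm⟩ := hW
  obtain ⟨hW1', hW2', hinf', hcomm', hcyc', hnorm'⟩ := hP.selfNormalizing
  have hS' : ⁅S, S⁆ ≤ S := hSW.1
  have hW₁S : W₁ ≤ S := hSW.2.1
  have hcop : (Nat.card W₁).Coprime (Nat.card W₂) :=
    Cfsg.Agent.Lib.H1FH.coprime_of_cyclic_disjoint hcyc hinf
  -- `W₂ ≤ S'`
  have hnormal : (⁅S, S⁆ : Subgroup G).subgroupOf S |>.Normal := by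
    refine ⟨fun n hn g => ?_⟩
    rw [Subgroup.mem_subgroupOf] at hn ⊢
    have := Subgroup.commutator_mem_commutator (H₁ := S) (H₂ := S) g.2 n.2
    have e : ((g * n * g⁻¹ : S) : G) = ⁅(g : G), (n : G)⁆ * n := by
      simp [commutatorElement_def]
    rw [e]
    exact Subgroup.mul_mem _ this hn
  have hW₂S' : W₂ ≤ ⁅S, S⁆ := by
    intro y hy
    obtain ⟨s, hs, w, hw, e⟩ := hSW.2.2.2 y (hW₂S hy)
    -- the image of `y` and `w` in `S / S'` coincide
    set D : Subgroup S := (⁅S, S⁆ : Subgroup G).subgroupOf S with hD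
    have hmk : ((⟨y, hW₂S hy⟩ : S) : S ⧸ D) = ((⟨w, hW₁S hw⟩ : S) : S ⧸ D) := by
      rw [QuotientGroup.eq, hD, Subgroup.mem_subgroupOf]
      have : ((⟨y, hW₂S hy⟩ : S)⁻¹ * ⟨w, hW₁S hw⟩ : S).1 = w⁻¹ * s⁻¹ * w := by
        simp [e]
      rw [this]
      have h1 : w⁻¹ * s⁻¹ * w = ⁅w⁻¹, s⁻¹⁆ * s⁻¹ := by
        simp only [commutatorElement_def]
        group
      rw [h1]
      refine Subgroup.mul_mem _ (Subgroup.commutator_mem_commutator (S.inv_mem (hW₁S hw)) (S.inv_mem (hS' hs)))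
        (Subgroup.inv_mem _ hs)
    have hwpow : w ^ Nat.card W₂ = 1 := by
      have h2 : ((⟨w, hW₁S hw⟩ : S) : S ⧸ D) ^ Nat.card W₂ = 1 := by
        rw [← hmk, ← QuotientGroup.mk_pow]
        have : (⟨y, hW₂S hy⟩ : S) ^ Nat.card W₂ = 1 := by
          apply Subtype.ext
          have h := congrArg Subtype.val (pow_card_eq_one' (G := W₂) (x := ⟨y, hy⟩))
          exact h
        rw [this]
        rfl
      rw [← QuotientGroup.mk_pow, QuotientGroup.eq_one_iff, hD, Subgroup.mem_subgroupOf] at h2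
      have h3 : w ^ Nat.card W₂ ∈ ⁅S, S⁆ ⊓ W₁ := 
        Subgroup.mem_inf.mpr ⟨by simpa using h2, W₁.pow_mem hw _⟩
      rwa [hSW.2.2.1, Subgroup.mem_bot] at h3
    have hw1 : w = 1 := by
      have h4 : orderOf w ∣ Nat.card W₂ := orderOf_dvd_of_pow_eq_one hwpow
      have h5 : orderOf w ∣ Nat.card W₁ := by
        have := orderOf_dvd_natCard (⟨w, hw⟩ : W₁)
        simpa using this
      have h6 := Nat.eq_one_of_dvd_coprimes hcop h5 h4
      exact orderOf_eq_one_iff.mp h6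
    rw [e, hw1, mul_one]
    exact hs
  -- `W₂ ≤ W₂'`
  obtain ⟨x, hxW₁, hx1⟩ := (Subgroup.bot_or_exists_ne_one W₁).resolve_left hW1
  have hcent : W₂ ≤ W₂' := by
    rw [← hP.W₂_centralizer x hxW₁ hx1]
    refine le_inf hW₂S' ?_
    intro y hy
    rw [Subgroup.mem_centralizer_iff]
    intro z hz
    rw [Set.mem_singleton_iff] at hz
    rw [hz]
    exact hcomm x hxW₁ y hy
  -- the normalizers coincide
  obtain ⟨y, hyW₂, hy1⟩ := (Subgroup.bot_or_exists_ne_one W₂).resolve_left hW2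
  have hz1 : x * y ∉ W₁ := by
    intro h
    have hy' : y ∈ W₁ := by
      have := Subgroup.mul_mem _ (Subgroup.inv_mem _ hxW₁) h
      simpa using this
    have : y ∈ W₁ ⊓ W₂ := Subgroup.mem_inf.mpr ⟨hy', hyW₂⟩
    rw [hinf, Subgroup.mem_bot] at this
    exact hy1 this
  have hz2' : x * y ∉ W₂' := by
    intro h
    have hx' : x ∈ W₂' := by
      have := Subgroup.mul_mem _ h (Subgroup.inv_mem _ (hcent hyW₂))
      simpa using this
    have : x ∈ W₁ ⊓ W₂' := Subgroup.mem_inf.mpr ⟨hxW₁, hx'⟩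
    rw [hinf', Subgroup.mem_bot] at this
    exact hx1 this
  have hz2 : x * y ∉ W₂ := fun h => hz2' (hcent h)
  have hN1 := hnorm {x * y} (by
    rintro _ rfl
    exact ⟨Subgroup.mul_mem_sup hxW₁ hyW₂, by
      rintro (h | h)
      · exact hz1 h
      · exact hz2 h⟩) (Set.singleton_nonempty _)
  have hN2 := hnorm' {x * y} (by
    rintro _ rfl
    exact ⟨Subgroup.mul_mem_sup hxW₁ (hcent hyW₂), by
      rintro (h | h)
      · exact hz1 h
      · exact hz2' h⟩) (Set.singleton_nonempty _)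
  have hsup : W₁ ⊔ W₂ = W₁ ⊔ W₂' := hN1.symm.trans hN2
  apply le_antisymm _ hcent
  intro v hv
  have hv' : v ∈ W₁ ⊔ W₂ := by rw [hsup]; exact Subgroup.mem_sup_right hv
  -- `v = a b`
  have hWn : W₂ ≤ Subgroup.normalizer (W₁ : Set G) := by
    intro b hb
    rw [Subgroup.mem_normalizer_iff]
    intro a
    constructor
    · intro ha
      rw [← (hcomm a ha b hb)]
      simpa using ha
    · intro ha
      have h1 : a = b⁻¹ * (b * a * b⁻¹) * b := by group
      have h2 := hcomm _ ha b hb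
      have h3 : b⁻¹ * (b * a * b⁻¹) * b = b * a * b⁻¹ := by
        rw [mul_assoc, h2]; group
      have h4 : a = b * a * b⁻¹ := h1.trans h3
      rwa [← h4] at ha
  obtain ⟨a, ha, b, hb, e⟩ := (Cfsg.Agent.Lib.H1Cop.mem_sup_iff hWn).mp hv'
  have ha' : a ∈ W₂' := by
    have : a = v * b⁻¹ := by rw [← e]; group
    rw [this]
    exact Subgroup.mul_mem _ hv (Subgroup.inv_mem _ (hcent hb))
  have ha1 : a ∈ W₁ ⊓ W₂' := Subgroup.mem_inf.mpr ⟨ha, ha'⟩
  rw [hinf', Subgroup.mem_bot] at ha1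
  rw [← e, ha1, one_mul]
  exact hb

end Cfsg.Agent.S1386
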