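import Cfsg.Statements.S1387
import Cfsg.Agent.Lib.H1FH

set_option autoImplicit false
open Cfsg

namespace Cfsg.Agent.S1387

/-- Let M be a subgroup of a finite group G with type-P data (W₁, U, W₂) and H = M_F. Then the Fitting subgroup F(M) is generated by H and the centralizer of H in U. -/
theorem result {G : Type*} [Group G] [Finite G] (M W₁ U W₂ : Subgroup G) (hP : Cfsg.IsTypePWith M W₁ U W₂) :
    Cfsg.fittingOf M = Cfsg.fittingHallOf M ⊔ (U ⊓ Subgroup.centralizer (Cfsg.fittingHallOf M : Set G)) := by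
  have hM' : ⁅M, M⁆ ≤ M := hP.W₁_compl.1
  have hHF : Cfsg.fittingHallOf M ≤ Cfsg.fittingOf M := by
    rw [← hP.fitting_eq]; exact le_sup_left
  have hCF : M ⊓ Subgroup.centralizer (Cfsg.fittingHallOf M : Set G) ≤ Cfsg.fittingOf M := by
    rw [← hP.fitting_eq]; exact le_sup_right
  have hUM : U ≤ M := hP.U_compl.2.1.trans hM'
  apply le_antisymm
  · rw [← hP.fitting_eq]
    refine sup_le le_sup_left ?_
    intro x hx
    have hxF : x ∈ Cfsg.fittingOf M := hCF hx
    obtain ⟨h, hh, u, hu, rfl⟩ := hP.U_compl.2.2.2 x (hP.fitting_le hxF)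
    have huF : u ∈ Cfsg.fittingOf M := by
      have := Subgroup.mul_mem _ (Subgroup.inv_mem _ (hHF hh)) hxF
      simpa using this
    have hc := Cfsg.Agent.Lib.H1FH.mem_centralizer_of_fitting hP.U_compl.2.2.1 hu huF
    exact Subgroup.mul_mem_sup hh (Subgroup.mem_inf.mpr ⟨hu, hc⟩)
  · refine sup_le hHF ?_
    exact (inf_le_inf_right _ hUM).trans hCF

end Cfsg.Agent.S1387
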