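import Cfsg.Statements.S1388
import Cfsg.Agent.Lib.H1FH

set_option autoImplicit false
open Cfsg

namespace Cfsg.Agent.S1388

open scoped commutatorElement

/-- Let M be a subgroup of a finite group G with type-P data (W₁, U, W₂) and H = M_F. Then the derived subgroup of U centralizes H, and if U ≠ 1 then U does not centralize H. -/
theorem result {G : Type*} [Group G] [Finite G] (M W₁ U W₂ : Subgroup G) (hP : Cfsg.IsTypePWith M W₁ U W₂) :
    ⁅U, U⁆ ≤ Subgroup.centralizer (Cfsg.fittingHallOf M : Set G) ∧ (U ≠ ⊥ → ¬ U ≤ Subgroup.centralizer (Cfsg.fittingHallOf M : Set G)) := by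
  classical
  have hM' : ⁅M, M⁆ ≤ M := hP.W₁_compl.1
  have hHF : Cfsg.fittingHallOf M ≤ Cfsg.fittingOf M := by
    rw [← hP.fitting_eq]; exact le_sup_left
  have hCF : M ⊓ Subgroup.centralizer (Cfsg.fittingHallOf M : Set G) ≤ Cfsg.fittingOf M := by
    rw [← hP.fitting_eq]; exact le_sup_right
  have hUM' : U ≤ ⁅M, M⁆ := hP.U_compl.2.1
  have hUM : U ≤ M := hUM'.trans hM'
  refine ⟨?_, ?_⟩
  · intro y hy
    have hyU : y ∈ U := by
      have : ⁅U, U⁆ ≤ U := Subgroup.commutator_le_self U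
      exact this hy
    have hyF : y ∈ Cfsg.fittingOf M := by
      rw [← hP.fitting_eq]
      exact hP.derived_two_le (Subgroup.commutator_mono hUM' hUM' hy)
    exact Cfsg.Agent.Lib.H1FH.mem_centralizer_of_fitting hP.U_compl.2.2.1 hyU hyF
  · intro hU hle
    apply hU
    -- `M'` is a normal nilpotent Hall subgroup of `M`
    have hM'F : ⁅M, M⁆ ≤ Cfsg.fittingOf M := by
      intro x hx
      obtain ⟨h, hh, u, hu, rfl⟩ := hP.U_compl.2.2.2 x hx
      exact Subgroup.mul_mem _ (hHF hh) (hCF (Subgroup.mem_inf.mpr ⟨hUM hu, hle hu⟩))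
    set D : Subgroup M := (⁅M, M⁆ : Subgroup G).subgroupOf M with hD
    have hDnormal : D.Normal := by
      rw [hD]
      refine ⟨fun n hn g => ?_⟩
      rw [Subgroup.mem_subgroupOf] at hn ⊢
      have := Subgroup.commutator_mem_commutator (H₁ := M) (H₂ := M) g.2 n.2
      have e : ((g * n * g⁻¹ : M) : G) = ⁅(g : G), (n : G)⁆ * n := by
        simp [commutatorElement_def]
      rw [e]
      exact Subgroup.mul_mem _ this hn
    have hDF : D ≤ Cfsg.fittingSubgroup M := by
      intro x hx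
      rw [hD, Subgroup.mem_subgroupOf] at hx
      obtain ⟨y, hy, hyx⟩ := hM'F hx
      have : y = x := Subtype.ext hyx
      rwa [← this]
    have hDnil : Group.IsNilpotent D := Cfsg.Agent.Lib.H1Schmidt.isNilpotent_of_le hDF
      Cfsg.Agent.Lib.H1Core.fittingSubgroup_isNilpotent
    -- orders
    set W : Subgroup M := W₁.subgroupOf M with hWdef
    have hW₁M : W₁ ≤ M := hP.W₁_compl.2.1
    have hcompl : Subgroup.IsComplement' D W := by
      apply Subgroup.isComplement'_of_disjoint_and_mul_eq_univ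
      · rw [Subgroup.disjoint_def]
        intro x hx hy
        rw [hD, Subgroup.mem_subgroupOf] at hx
        rw [hWdef, Subgroup.mem_subgroupOf] at hy
        have : (x : G) ∈ ⁅M, M⁆ ⊓ W₁ := Subgroup.mem_inf.mpr ⟨hx, hy⟩
        rw [hP.W₁_compl.2.2.1, Subgroup.mem_bot] at this
        exact Subtype.ext this
      · ext x
        simp only [Set.mem_mul, Set.mem_univ, iff_true]
        obtain ⟨a, ha, b, hb, e⟩ := hP.W₁_compl.2.2.2 x x.2
        refine ⟨⟨a, hM' ha⟩, ?_, ⟨b, hW₁M hb⟩, ?_, Subtype.ext e.symm⟩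
        · rw [SetLike.mem_coe, hD, Subgroup.mem_subgroupOf]; exact ha
        · rw [SetLike.mem_coe, hWdef, Subgroup.mem_subgroupOf]; exact hb
    have hDc : (Nat.card D).Coprime D.index := by
      have h1 : W.index = Nat.card D := hcompl.index_eq_card
      have h2 : D.index = Nat.card W := hcompl.symm.index_eq_card
      rw [h2, ← h1]
      have h3 : Nat.card W = Nat.card W₁ := Cfsg.Agent.Lib.H1SZ.card_subgroupOf_of_le hW₁M
      rw [h3]
      exact hP.W₁_hall.symm
    have hDle : D ≤ Cfsg.fittingHall M :=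
      Cfsg.Agent.Lib.H1FH.le_fittingHall hDnormal hDnil hDc
    rw [eq_bot_iff]
    intro u hu
    have hu1 : (⟨u, hUM hu⟩ : M) ∈ D := by
      rw [hD, Subgroup.mem_subgroupOf]; exact hUM' hu
    have hu2 : u ∈ Cfsg.fittingHallOf M ⊓ U :=
      Subgroup.mem_inf.mpr ⟨⟨_, hDle hu1, rfl⟩, hu⟩
    rwa [hP.U_compl.2.2.1] at hu2

end Cfsg.Agent.S1388
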