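import Cfsg.Statements.S1441
import Cfsg.Agent.Lib.H1Odd

set_option autoImplicit false
open Cfsg

namespace Cfsg.Agent.S1441

/-- Let G be a finite group, H a solvable subgroup and A a subgroup normalizing H. Suppose there is a chain H = H₀ ≥ H₁ ≥ ⋯ ≥ H_n = 1 of subgroups normal in H and normalized by A such that A acts trivially on each factor H_{i-1}/H_i (that is, [H_{i-1}, A] ≤ H_i). Then every prime dividing the index of C_A(H) in A divides the order of H. -/
theorem result {G : Type*} [Group G] [Finite G] (H A : Subgroup G) (hH : Group.IsSolvable H) (hA : (A ≤ Subgroup.normalizer (H : Set G)))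
    (n : ℕ) (c : Fin (n + 1) → Subgroup G) (hc0 : c 0 = H) (hcn : c (Fin.last n) = ⊥) (hanti : Antitone c)
    (hcN : ∀ i, H ≤ Subgroup.normalizer ((c i : Subgroup G) : Set G)) (hcA : ∀ i, A ≤ Subgroup.normalizer ((c i : Subgroup G) : Set G))
    (htriv : ∀ i : Fin n, ⁅c i.castSucc, A⁆ ≤ c i.succ) :
    ∀ p : ℕ, p.Prime → p ∣ (A ⊓ Subgroup.centralizer (H : Set G)).relIndex A → p ∣ Nat.card H := by
  intro p hp hdvd
  by_contra hnd
  haveI : Fact p.Prime := ⟨hp⟩
  -- a Sylow `p`-subgroup of `A` is not contained in `C_A(H)`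
  obtain ⟨P⟩ : Nonempty (Sylow p A) := inferInstance
  have hPnot : ¬ ((P : Subgroup A).map A.subtype ≤ Subgroup.centralizer (H : Set G)) := by
    intro hle
    apply (P.not_dvd_index)
    refine dvd_trans hdvd ?_
    -- relIndex divides the index of P in A
    have h1 : (P : Subgroup A) ≤ (A ⊓ Subgroup.centralizer (H : Set G)).subgroupOf A := by
      intro x hx
      rw [Subgroup.mem_subgroupOf]
      exact Subgroup.mem_inf.mpr ⟨x.2, hle ⟨x, hx, rfl⟩⟩
    exact Subgroup.index_dvd_of_le h1
  obtain ⟨a, ⟨a', ha'P, rfl⟩, hacent⟩ := Set.not_subset.mp hPnot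
  apply hacent
  have hcp : ∀ i, c i ≤ H := fun i => by
    have : c i ≤ c 0 := hanti (Fin.zero_le i)
    rwa [hc0] at this
  have hord : (orderOf ((A.subtype) a')).Coprime (Nat.card H) := by
    have h0 : IsPGroup p (P : Subgroup A) := P.isPGroup'
    obtain ⟨k, hk⟩ := (IsPGroup.iff_orderOf.mp h0) ⟨a', ha'P⟩
    have e : orderOf (A.subtype a') = p ^ k := by
      rw [← hk]
      simp [Subgroup.orderOf_mk]
    rw [e]
    exact Nat.Coprime.pow_left k ((Nat.Prime.coprime_iff_not_dvd hp).mpr hnd)
  have key := Cfsg.Agent.Lib.H1Odd.chain_centralized c hcn H hcp hord (by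
      intro i x hx
      exact htriv i (Subgroup.commutator_mem_commutator hx a'.2)) 0
  rw [hc0] at key
  exact Subgroup.mem_centralizer_iff.mpr (fun x hx => key x hx)

end Cfsg.Agent.S1441
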