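import Cfsg.Statements.S1443
import Cfsg.Agent.Lib.H1Odd

set_option autoImplicit false
open Cfsg

namespace Cfsg.Agent.S1443

/-- Let G be a finite group, p an odd prime, H a p-subgroup, E an elementary abelian subgroup of H, and A a subgroup of order coprime to p normalizing H. If A centralizes every element of order p in H ∩ C_G(E), then A centralizes H. -/
theorem result {G : Type*} [Group G] [Finite G] (p : ℕ) [Fact p.Prime] (hp : p ≠ 2) (H E A : Subgroup G) (hH : IsPGroup p H) (hE : E ≤ H) (hEe : Cfsg.IsElementaryAbelian p E)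
    (hA : (A ≤ Subgroup.normalizer (H : Set G))) (hcop : (Nat.card A).Coprime p)
    (hfix : ∀ x ∈ (H ⊓ Subgroup.centralizer (E : Set G)), orderOf x = p → A ≤ Subgroup.centralizer ({x} : Set G)) :
    A ≤ Subgroup.centralizer (H : Set G) := by
  classical
  have hAE : A ≤ Subgroup.centralizer (E : Set G) := by
    intro a ha
    rw [Subgroup.mem_centralizer_iff]
    intro e he
    by_cases he1 : e = 1
    · simp [he1]
    · have hord : orderOf e = p := orderOf_eq_prime (hEe.2 e he) he1
      have hcomm : ∀ f ∈ E, f * e = e * f := by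
        intro f hf
        have := hEe.1.is_comm.comm (⟨f, hf⟩ : E) ⟨e, he⟩
        exact congrArg Subtype.val this
      have hmem : e ∈ H ⊓ Subgroup.centralizer (E : Set G) :=
        Subgroup.mem_inf.mpr ⟨hE he, Subgroup.mem_centralizer_iff.mpr (fun f hf => hcomm f hf)⟩
      have := hfix e hmem hord ha
      rw [Subgroup.mem_centralizer_iff] at this
      exact this e rfl
  set B : Subgroup G := H ⊓ Subgroup.centralizer (E : Set G) with hB
  have hBn : A ≤ Subgroup.normalizer (B : Set G) := by
    intro a ha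
    rw [Subgroup.mem_normalizer_iff]
    intro x
    have hacent := Subgroup.mem_centralizer_iff.mp (hAE ha)
    have hac : ∀ e ∈ E, a * e = e * a := fun e he => (hacent e he).symm
    constructor
    · intro hx
      refine Subgroup.mem_inf.mpr ⟨(Subgroup.mem_normalizer_iff.mp (hA ha) x).mp (Subgroup.mem_inf.mp hx).1, ?_⟩
      rw [Subgroup.mem_centralizer_iff]
      intro e he
      have h1 := Subgroup.mem_centralizer_iff.mp (Subgroup.mem_inf.mp hx).2 e he
      have h2 : e * a = a * e := (hac e he).symm
      calc e * (a * x * a⁻¹) = (e * a) * x * a⁻¹ := by group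
        _ = a * (e * x) * a⁻¹ := by rw [h2]; group
        _ = a * (x * e) * a⁻¹ := by rw [h1]
        _ = a * x * a⁻¹ * (a * e * a⁻¹) := by group
        _ = a * x * a⁻¹ * e := by rw [hac e he]; group
    · intro hx
      have h0 := (Subgroup.mem_inf.mp hx)
      refine Subgroup.mem_inf.mpr ⟨(Subgroup.mem_normalizer_iff.mp (hA ha) x).mpr h0.1, ?_⟩
      rw [Subgroup.mem_centralizer_iff]
      intro e he
      have h1 := Subgroup.mem_centralizer_iff.mp h0.2 e he
      have h2 : e * a = a * e := (hac e he).symm
      have h3 : a * (e * x) * a⁻¹ = a * (x * e) * a⁻¹ := by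
        have hinv : a⁻¹ * e = e * a⁻¹ := (Commute.inv_left (hac e he)).eq
        calc a * (e * x) * a⁻¹ = e * (a * x * a⁻¹) := by
              rw [← mul_assoc a e x, hac e he]; group
          _ = a * x * a⁻¹ * e := h1
          _ = a * x * (a⁻¹ * e) := by group
          _ = a * (x * e) * a⁻¹ := by rw [hinv]; group
      have h4 := mul_left_cancel (mul_right_cancel h3)
      exact h4
  have hBcent : A ≤ Subgroup.centralizer (B : Set G) :=
    Cfsg.Agent.Lib.H1Odd.omega_one hp A hcop B (hH.to_le inf_le_left) hBn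
      (fun x hx hxp => hfix x hx hxp)
  have hcopH : (Nat.card A).Coprime (Nat.card H) := by
    obtain ⟨k, hk⟩ := IsPGroup.iff_card.mp hH
    rw [hk]
    exact Nat.Coprime.pow_right k hcop
  refine Cfsg.Agent.Lib.H1Odd.centralizes_of_selfcentralizing hH.isNilpotent hA hcopH ?_
  -- `C_H(C_H(A)) ≤ C_H(E) = B ≤ C_H(A)`
  intro x hx
  have hx' := Subgroup.mem_inf.mp hx
  have hEC : E ≤ H ⊓ Subgroup.centralizer (A : Set G) := by
    intro e he
    refine Subgroup.mem_inf.mpr ⟨hE he, ?_⟩
    rw [Subgroup.mem_centralizer_iff]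
    intro a ha
    exact (Subgroup.mem_centralizer_iff.mp (hAE ha) e he).symm
  have hxB : x ∈ B := by
    refine Subgroup.mem_inf.mpr ⟨hx'.1, ?_⟩
    rw [Subgroup.mem_centralizer_iff]
    intro e he
    exact Subgroup.mem_centralizer_iff.mp hx'.2 e (hEC he)
  refine Subgroup.mem_inf.mpr ⟨hx'.1, ?_⟩
  rw [Subgroup.mem_centralizer_iff]
  intro a ha
  exact (Subgroup.mem_centralizer_iff.mp (hBcent ha) x hxB).symm

end Cfsg.Agent.S1443
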