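import Cfsg.Statements.S1452
import Cfsg.Agent.Lib.PGrp7
-- import your own Cfsg.Agent.* helpers here

set_option autoImplicit false
open Cfsg

namespace Cfsg.Agent.S1452

/-- Let p be an odd prime and R a finite p-group containing an elementary abelian subgroup of order p ^ 3. If E is a normal elementary abelian subgroup of R of order p ^ 2, then E ≤ A for some normal subgroup A of R with C_R(A) = A that contains an elementary abelian subgroup of order p ^ 3. -/
theorem result {R : Type*} [Group R] [Finite R] (p : ℕ) [Fact p.Prime] (hp : p ≠ 2) (hR : IsPGroup p R) (hr : ¬ Cfsg.PRankLE p 2 R)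
    (E : Subgroup R) [E.Normal] (hE : Cfsg.IsElementaryAbelian p E) (hE2 : Nat.card E = p ^ 2) :
    ∃ A : Subgroup R, E ≤ A ∧ A.Normal ∧ Subgroup.centralizer (A : Set R) = A ∧ ¬ Cfsg.PRankLE p 2 A := by
  classical
  -- a normal elementary abelian subgroup `F` of order `p ^ 3`
  have hpr := (Fact.out : p.Prime)
  obtain ⟨F, hFn, hFc, hFe, hFcard⟩ : ∃ F : Subgroup R, F.Normal ∧ IsMulCommutative F ∧ (∀ a ∈ F, a ^ p = 1) ∧ Nat.card F = p ^ 3 := by
    by_contra hno
    apply hr
    intro A hAc hAe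
    refine Cfsg.Agent.Lib.PGrp.card_le_of_no_normal_elem_cube hp hR ?_ A hAc hAe
    intro B hBn hBc hBe hBcard
    exact hno ⟨B, hBn, hBc, hBe, hBcard⟩
  haveI := hFn
  have hEc : IsMulCommutative E := hE.1
  have hEe : ∀ a ∈ E, a ^ p = 1 := hE.2
  let C : Subgroup R := Subgroup.centralizer (E : Set R)
  haveI hCn : C.Normal := Cfsg.Agent.Lib.PGrp.centralizer_normal_of_normal E
  have hCi : C.index ≤ p ^ 1 := by
    have := Cfsg.Agent.Lib.PGrp.index_centralizer_le hR E hEc 2 hE2
    simpa using this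
  have hFC : p ^ 3 ≤ Nat.card ↥(F ⊓ C) * p := by
    have h1 := Cfsg.Agent.Lib.PGrp.card_inf_le_mul_index F C
    rw [hFcard] at h1
    refine h1.trans (Nat.mul_le_mul_left _ ?_)
    simpa using hCi
  have hFC2 : p ^ 2 ≤ Nat.card ↥(F ⊓ C) := by
    have : p ^ 2 * p ≤ Nat.card ↥(F ⊓ C) * p := by
      rw [← pow_succ]
      exact hFC
    exact Nat.le_of_mul_le_mul_right this hpr.pos
  have hnot : ¬ F ⊓ C ≤ E := by
    intro hle
    have heq : F ⊓ C = E := Subgroup.eq_of_le_of_card_ge hle (by rw [hE2]; exact hFC2)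
    have hEF : E ≤ F := by rw [← heq]; exact inf_le_left
    have hFC' : F ≤ C := by
      intro f hf
      rw [Subgroup.mem_centralizer_iff]
      intro e he
      exact Cfsg.Agent.Lib.PGrp.comm_of_isMulComm hFc (hEF he) hf
    have h3 : F ⊓ C = F := inf_eq_left.2 hFC'
    rw [h3] at heq
    have := hFcard
    rw [heq, hE2] at this
    have h4 : p ^ 2 < p ^ 3 := Nat.pow_lt_pow_right hpr.one_lt (by norm_num)
    omega
  -- the normal elementary abelian subgroup `A₀`
  let A₀ : Subgroup R := E ⊔ (F ⊓ C)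
  haveI hA₀n : A₀.Normal := Subgroup.sup_normal _ _
  have hcomm : ∀ a ∈ A₀, ∀ b ∈ A₀, a * b = b * a := by
    have hcentF : ∀ a ∈ A₀, ∀ e ∈ E, a * e = e * a := by
      intro a ha e he
      have hle : A₀ ≤ Subgroup.centralizer (E : Set R) := by
        refine sup_le ?_ inf_le_right
        intro x hx
        rw [Subgroup.mem_centralizer_iff]
        intro y hy
        exact Cfsg.Agent.Lib.PGrp.comm_of_isMulComm hEc hy hx
      exact ((Subgroup.mem_centralizer_iff.1 (hle ha)) e he).symm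
    intro a ha b hb
    have hcentFF : ∀ f ∈ F ⊓ C, ∀ b ∈ A₀, f * b = b * f := by
      intro f hf b hb
      have hle : A₀ ≤ Subgroup.centralizer ((F ⊓ C : Subgroup R) : Set R) := by
        refine sup_le ?_ ?_
        · intro x hx
          rw [Subgroup.mem_centralizer_iff]
          intro y hy
          exact ((Subgroup.mem_centralizer_iff.1 (Subgroup.mem_inf.1 hy).2) x hx).symm
        · intro x hx
          rw [Subgroup.mem_centralizer_iff]
          intro y hy
          exact Cfsg.Agent.Lib.PGrp.comm_of_isMulComm hFc (Subgroup.mem_inf.1 hy).1 (Subgroup.mem_inf.1 hx).1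
      exact (Subgroup.mem_centralizer_iff.1 (hle hb)) f hf
    have hle : A₀ ≤ Subgroup.centralizer (A₀ : Set R) := by
      refine sup_le ?_ ?_
      · intro x hx
        rw [Subgroup.mem_centralizer_iff]
        intro y hy
        exact hcentF y hy x hx
      · intro x hx
        rw [Subgroup.mem_centralizer_iff]
        intro y hy
        exact (hcentFF x hx y hy).symm
    exact (Subgroup.mem_centralizer_iff.1 (hle hb)) a ha
  have hA₀c : IsMulCommutative A₀ := Cfsg.Agent.Lib.PGrp.isMulComm_of_comm hcomm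
  let Q : Subgroup R :=
    { carrier := {x | x ∈ A₀ ∧ x ^ p = 1}
      mul_mem' := by
        rintro a b ⟨ha, ha'⟩ ⟨hb, hb'⟩
        refine ⟨A₀.mul_mem ha hb, ?_⟩
        have hc : Commute a b := hcomm a ha b hb
        rw [hc.mul_pow, ha', hb', one_mul]
      one_mem' := ⟨A₀.one_mem, one_pow _⟩
      inv_mem' := by
        rintro a ⟨ha, ha'⟩
        refine ⟨A₀.inv_mem ha, ?_⟩
        rw [inv_pow, ha', inv_one] }
  have hA₀Q : A₀ ≤ Q := by
    refine sup_le ?_ ?_
    · intro x hx
      exact ⟨(le_sup_left : E ≤ A₀) hx, hEe x hx⟩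
    · intro x hx
      exact ⟨(le_sup_right : F ⊓ C ≤ A₀) hx, hFe x (Subgroup.mem_inf.1 hx).1⟩
  have hA₀e : ∀ a ∈ A₀, a ^ p = 1 := fun a ha => (hA₀Q ha).2
  -- a maximal normal abelian overgroup
  let 𝓕 : Set (Subgroup R) := {A | A.Normal ∧ IsMulCommutative A ∧ A₀ ≤ A}
  have hmem : A₀ ∈ 𝓕 := ⟨hA₀n, hA₀c, le_rfl⟩
  obtain ⟨A, -, hA⟩ := (Set.toFinite 𝓕).exists_le_maximal hmem
  obtain ⟨hAn, hAc, hA₀A⟩ := hA.prop
  haveI := hAn
  have hmax : ∀ B : Subgroup R, B.Normal → IsMulCommutative B → A ≤ B → B = A := by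
    intro B hB hc hAB
    exact le_antisymm (hA.le_of_ge ⟨hB, hc, hA₀A.trans hAB⟩ hAB) hAB
  refine ⟨A, (le_sup_left : E ≤ A₀).trans hA₀A, hAn, ?_, ?_⟩
  · apply le_antisymm (Cfsg.Agent.Lib.PGrp.centralizer_le_of_max hR A hAc hmax)
    intro x hx
    rw [Subgroup.mem_centralizer_iff]
    intro y hy
    exact Cfsg.Agent.Lib.PGrp.comm_of_isMulComm hAc hy hx
  · intro hPR
    have h1 := hPR (A₀.subgroupOf A)
      (Cfsg.Agent.Lib.PGrp.isMulComm_of_comm (fun a ha b hb => Subtype.ext (hcomm _ ha _ hb)))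
      (fun a ha => Subtype.ext (by simpa using hA₀e _ ha))
    have h2 : Nat.card ↥(A₀.subgroupOf A) = Nat.card A₀ :=
      Nat.card_congr (Subgroup.subgroupOfEquivOfLe hA₀A).toEquiv
    rw [h2] at h1
    have h3 : E = A₀ := Subgroup.eq_of_le_of_card_ge le_sup_left (by rw [hE2]; exact h1)
    apply hnot
    rw [h3]
    exact le_sup_right

end Cfsg.Agent.S1452
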