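import Cfsg.Statements.S1457
import Cfsg.Agent.Lib.LSt1
import Cfsg.Agent.Lib.LQd4
import Cfsg.Agent.Lib.LZJD
import Cfsg.Agent.Lib.H9Two
import Cfsg.Agent.Lib.H1Fit
import Cfsg.Agent.Lib.PZJ5
import Cfsg.Agent.Lib.PGrp6
-- import your own Cfsg.Agent.* helpers here

set_option autoImplicit false
open Cfsg

namespace Cfsg.Agent.S1457

/-- Let G be a solvable group of odd order, p a prime, S a Sylow p-subgroup of G and A an abelian subgroup of S normal in S. Then A ≤ O_{p',p}(G). -/
theorem result {G : Type*} [Group G] [Finite G] [Group.IsSolvable G] (hodd : Odd (Nat.card G)) (p : ℕ) [Fact p.Prime] (S : Sylow p G) (A : Subgroup G) (hA : A ≤ (S : Subgroup G)) (hAc : IsMulCommutative A)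
    (hAn : (S : Subgroup G) ≤ Subgroup.normalizer (A : Set G)) :
    A ≤ Cfsg.pPrimePCore p G := by
  classical
  by_cases hp2 : p = 2
  · subst hp2
    have hS : (S : Subgroup G) = ⊥ := by
      have hc : Nat.card (S : Subgroup G) ∣ Nat.card G := Subgroup.card_subgroup_dvd_card _
      obtain ⟨n, hn⟩ := IsPGroup.iff_card.1 S.2
      rw [hn] at hc
      have h1 : n = 0 := by
        by_contra hne
        have h2 : 2 ∣ Nat.card G := (dvd_pow_self 2 hne).trans hc
        exact (Nat.not_even_iff_odd.2 hodd) (even_iff_two_dvd.2 h2)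
      rw [h1, pow_zero] at hn
      exact Subgroup.eq_bot_of_card_eq _ hn
    rw [hS] at hA
    exact hA.trans bot_le
  · haveI hQn : (Cfsg.pPrimeCore p G).Normal := Cfsg.Agent.Lib.H1Core.pPrimeCore_normal p G
    let π : G →* G ⧸ Cfsg.pPrimeCore p G := QuotientGroup.mk' _
    have hπs : Function.Surjective π := QuotientGroup.mk'_surjective _
    let S' : Sylow p (G ⧸ Cfsg.pPrimeCore p G) := S.mapSurjective hπs
    have hS' : (S' : Subgroup (G ⧸ Cfsg.pPrimeCore p G)) = (S : Subgroup G).map π := rfl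
    have hoddq : Odd (Nat.card (G ⧸ Cfsg.pPrimeCore p G)) :=
      Odd.of_dvd_nat hodd (Subgroup.card_quotient_dvd_card _)
    have hab : ∀ T : Sylow 2 (G ⧸ Cfsg.pPrimeCore p G), IsMulCommutative T := by
      intro T
      have hc : Nat.card (T : Subgroup (G ⧸ Cfsg.pPrimeCore p G)) ∣ Nat.card (G ⧸ Cfsg.pPrimeCore p G) :=
        Subgroup.card_subgroup_dvd_card _
      obtain ⟨n, hn⟩ := IsPGroup.iff_card.1 T.2
      rw [hn] at hc
      have h1 : n = 0 := by
        by_contra hne
        have h2 : 2 ∣ Nat.card (G ⧸ Cfsg.pPrimeCore p G) := (dvd_pow_self 2 hne).trans hc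
        exact (Nat.not_even_iff_odd.2 hoddq) (even_iff_two_dvd.2 h2)
      rw [h1, pow_zero] at hn
      have hb := Subgroup.eq_bot_of_card_eq _ hn
      refine Cfsg.Agent.Lib.PGrp.isMulComm_of_comm fun a ha b hb' => ?_
      have ha1 : a = 1 := by
        have : a ∈ (T : Subgroup (G ⧸ Cfsg.pPrimeCore p G)) := ha
        rwa [hb, Subgroup.mem_bot] at this
      have hb1 : b = 1 := by
        have : b ∈ (T : Subgroup (G ⧸ Cfsg.pPrimeCore p G)) := hb'
        rwa [hb, Subgroup.mem_bot] at this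
      rw [ha1, hb1]
    have hfree := Cfsg.Agent.Lib.LSt.not_involves_qd_of_sylow_two hp2 hab
    have hst := Cfsg.Agent.Lib.LZJD.stab_of_normalizerPStable (Cfsg.Agent.Lib.LQd.npstable_of_not_involves hp2 hfree)
    have hc := Cfsg.Agent.Lib.H9Two.centralizer_core_le (G := G ⧸ Cfsg.pPrimeCore p G) p
      (Cfsg.Agent.Lib.H1Fit.pPrimeCore_quotient p)
    set D : Subgroup (G ⧸ Cfsg.pPrimeCore p G) := Cfsg.pCore p (G ⧸ Cfsg.pPrimeCore p G) with hD
    have hDp : IsPGroup p D := Cfsg.Agent.Lib.H1Core.pCore_isPGroup p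
    have hDn : D.Normal := Cfsg.pCore_normal p _
    have hDS : D ≤ (S : Subgroup G).map π := Cfsg.Agent.Lib.H1Core.pCore_le_sylow p S'
    obtain ⟨M, hMn, hCM, ⟨k, hk⟩, hAM⟩ := hst D hDn hDp
    have hAc' : IsMulCommutative (A.map π) := by
      refine Cfsg.Agent.Lib.PGrp.isMulComm_of_comm ?_
      rintro _ ⟨a, ha, rfl⟩ _ ⟨b, hb, rfl⟩
      rw [← map_mul, ← map_mul, Cfsg.Agent.Lib.PGrp.comm_of_isMulComm hAc ha hb]
    have hDnorm : D ≤ Subgroup.normalizer ((A.map π : Subgroup _) : Set _) := by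
      refine hDS.trans ?_
      refine (Subgroup.map_mono hAn).trans ?_
      exact Subgroup.le_normalizer_map π
    have hquad := Cfsg.Agent.Lib.PZJ.quadratic_of_normalizes hAc' hDnorm
    have hAp : IsPGroup p (A.map π) := (S.2.to_le hA).map π
    have hAM' := hAM (A.map π) hAp hquad
    have hMp : IsPGroup p M := by
      have hCp : IsPGroup p (Subgroup.centralizer (D : Set _)) := hDp.to_le hc
      obtain ⟨c, hc'⟩ := IsPGroup.iff_card.1 hCp
      have e := Cfsg.Agent.Lib.PNilp.card_mul_relIndex' _ _ hCM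
      rw [hk, hc'] at e
      exact IsPGroup.of_card (n := c + k) (by rw [pow_add]; exact e.symm)
    have hMD : M ≤ D := Cfsg.Agent.Lib.H1Core.le_pCore hMn hMp
    intro a ha
    exact hMD (hAM' ⟨a, ha, rfl⟩)

end Cfsg.Agent.S1457
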