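import Cfsg.Statements.S1458
import Cfsg.Agent.Lib.LSt1
import Cfsg.Agent.Lib.LQd4
import Cfsg.Agent.Lib.LZJD
import Cfsg.Agent.Lib.H9Two
import Cfsg.Agent.Lib.H1Fit
import Cfsg.Agent.Lib.PZJ5
import Cfsg.Agent.Lib.PGrp6
-- import your own Cfsg.Agent.* helpers here

set_option autoImplicit false
open Cfsg

namespace Cfsg.Agent.S1458

/-- Let G be a solvable group of odd order, p a prime and S a Sylow p-subgroup of G. Then the subgroup generated by the centre of the Thompson subgroup of S and O_{p'}(G) is normal in G. -/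
theorem result {G : Type*} [Group G] [Finite G] [Group.IsSolvable G] (hodd : Odd (Nat.card G)) (p : ℕ) [Fact p.Prime] (S : Sylow p G) :
    (Cfsg.centerThompsonOf p (S : Subgroup G) ⊔ Cfsg.pPrimeCore p G).Normal := by
  classical
  by_cases hp2 : p = 2
  · subst hp2
    have hS : (S : Subgroup G) = ⊥ := by
      have hc : Nat.card (S : Subgroup G) ∣ Nat.card G := Subgroup.card_subgroup_dvd_card _
      obtain ⟨n, hn⟩ := IsPGroup.iff_card.1 S.2
      rw [hn] at hc
      have h1 : n = 0 := by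
        by_contra hne
        have h2 : 2 ∣ Nat.card G := (dvd_pow_self 2 hne).trans hc
        exact (Nat.not_even_iff_odd.2 hodd) (even_iff_two_dvd.2 h2)
      rw [h1, pow_zero] at hn
      exact Subgroup.eq_bot_of_card_eq _ hn
    have hZ : Cfsg.centerThompsonOf 2 (S : Subgroup G) = ⊥ := by
      rw [eq_bot_iff, ← hS]
      exact Cfsg.Agent.Lib.PZJ.centerThompsonOf_le _
    rw [hZ, bot_sup_eq]
    exact Cfsg.Agent.Lib.H1Core.pPrimeCore_normal 2 G
  · haveI hQn : (Cfsg.pPrimeCore p G).Normal := Cfsg.Agent.Lib.H1Core.pPrimeCore_normal p G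
    let π : G →* G ⧸ Cfsg.pPrimeCore p G := QuotientGroup.mk' _
    have hπs : Function.Surjective π := QuotientGroup.mk'_surjective _
    let S' : Sylow p (G ⧸ Cfsg.pPrimeCore p G) := S.mapSurjective hπs
    have hS' : (S' : Subgroup (G ⧸ Cfsg.pPrimeCore p G)) = (S : Subgroup G).map π := rfl
    have hoddq : Odd (Nat.card (G ⧸ Cfsg.pPrimeCore p G)) :=
      Odd.of_dvd_nat hodd (Subgroup.card_quotient_dvd_card _)
    have hab : ∀ T : Sylow 2 (G ⧸ Cfsg.pPrimeCore p G), IsMulCommutative T := by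
      intro T
      have hc : Nat.card (T : Subgroup (G ⧸ Cfsg.pPrimeCore p G)) ∣ Nat.card (G ⧸ Cfsg.pPrimeCore p G) :=
        Subgroup.card_subgroup_dvd_card _
      obtain ⟨n, hn⟩ := IsPGroup.iff_card.1 T.2
      rw [hn] at hc
      have h1 : n = 0 := by
        by_contra hne
        have h2 : 2 ∣ Nat.card (G ⧸ Cfsg.pPrimeCore p G) := (dvd_pow_self 2 hne).trans hc
        exact (Nat.not_even_iff_odd.2 hoddq) (even_iff_two_dvd.2 h2)
      rw [h1, pow_zero] at hn
      have hb := Subgroup.eq_bot_of_card_eq _ hn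
      refine Cfsg.Agent.Lib.PGrp.isMulComm_of_comm fun a ha b hb' => ?_
      have ha1 : a = 1 := by
        have : a ∈ (T : Subgroup (G ⧸ Cfsg.pPrimeCore p G)) := ha
        rwa [hb, Subgroup.mem_bot] at this
      have hb1 : b = 1 := by
        have : b ∈ (T : Subgroup (G ⧸ Cfsg.pPrimeCore p G)) := hb'
        rwa [hb, Subgroup.mem_bot] at this
      rw [ha1, hb1]
    have hfree := Cfsg.Agent.Lib.LSt.not_involves_qd_of_sylow_two hp2 hab
    have hst := Cfsg.Agent.Lib.LQd.npstable_of_not_involves hp2 hfree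
    have hc := Cfsg.Agent.Lib.H9Two.centralizer_core_le (G := G ⧸ Cfsg.pPrimeCore p G) p
      (Cfsg.Agent.Lib.H1Fit.pPrimeCore_quotient p)
    have hN := Cfsg.Agent.Lib.LZJD.centerThompson_normal_D hp2 hc
      (Cfsg.Agent.Lib.LZJD.stab_of_normalizerPStable hst) S' (S' : Subgroup (G ⧸ Cfsg.pPrimeCore p G))
      ⟨le_rfl, fun x _ g h => h⟩
    rw [hS', Cfsg.Agent.Lib.PZJ.centerThompsonOf_map π (S : Subgroup G) (by
      intro x hx h1
      have hxQ : x ∈ Cfsg.pPrimeCore p G := (QuotientGroup.eq_one_iff x).1 h1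
      exact Cfsg.Agent.Lib.PJ.eq_one_of_mem_pPrimeCore S.2 hx hxQ) p] at hN
    have h2 := Subgroup.Normal.comap hN π
    rw [Subgroup.comap_map_eq] at h2
    have hker : π.ker = Cfsg.pPrimeCore p G := QuotientGroup.ker_mk' _
    rw [hker] at h2
    exact h2

end Cfsg.Agent.S1458
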