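import Cfsg.Statements.S1460
import Cfsg.Agent.Lib.H1Odd2

set_option autoImplicit false
open Cfsg

namespace Cfsg.Agent.S1460

open scoped commutatorElement Pointwise

theorem aux {G : Type*} [Group G] [Finite G] [Group.IsSolvable G] (K U H : Subgroup G) [hKn : K.Normal] (hKU : K ⊔ U = ⊤) (hH : H ≤ U) (hcop : (Nat.card H).Coprime (Nat.card K))
    (g : G) (hg : H.map (MulAut.conj g).toMonoidHom ≤ U) :
    ∃ u ∈ U, ∃ c ∈ K ⊓ Subgroup.centralizer (H : Set G), g = u * c := by
  classical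
  have hmem : g ∈ U ⊔ K := by rw [sup_comm, hKU]; trivial
  obtain ⟨u, hu, k, hk, rfl⟩ := Subgroup.mem_sup_of_normal_right.mp hmem
  set D : Subgroup G := U ⊓ K with hD
  have hkx : ∀ x ∈ H, k * x * k⁻¹ ∈ U := by
    intro x hx
    have h1 : (u * k) * x * (u * k)⁻¹ ∈ U := hg ⟨x, hx, rfl⟩
    have h2 : k * x * k⁻¹ = u⁻¹ * ((u * k) * x * (u * k)⁻¹) * u := by group
    rw [h2]
    exact U.mul_mem (U.mul_mem (U.inv_mem hu) h1) hu
  have hHD : H ≤ Subgroup.normalizer (D : Set G) := by
    intro x hx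
    rw [Subgroup.mem_normalizer_iff]
    intro y
    have hxU : x ∈ U := hH hx
    constructor
    · intro hy
      obtain ⟨hy1, hy2⟩ := Subgroup.mem_inf.mp hy
      exact Subgroup.mem_inf.mpr ⟨U.mul_mem (U.mul_mem hxU hy1) (U.inv_mem hxU), hKn.conj_mem y hy2 x⟩
    · intro hy
      obtain ⟨hy1, hy2⟩ := Subgroup.mem_inf.mp hy
      have e : y = x⁻¹ * (x * y * x⁻¹) * x := by group
      rw [e]
      have h3 := hKn.conj_mem _ hy2 x⁻¹
      rw [inv_inv] at h3
      exact Subgroup.mem_inf.mpr ⟨U.mul_mem (U.mul_mem (U.inv_mem hxU) hy1) hxU, h3⟩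
  have hcopD : (Nat.card H).Coprime (Nat.card D) :=
    Nat.Coprime.coprime_dvd_right (Subgroup.card_dvd_of_le inf_le_right) hcop
  have hsolv : Group.IsSolvable H ∨ Group.IsSolvable D := Or.inl inferInstance
  set B : Subgroup G := MulAut.conj k • H with hB
  have hBle : B ≤ D ⊔ H := by
    intro b hb
    have hb' := Cfsg.Agent.Lib.H1Core.mem_conj_smul.mp hb
    set x := k⁻¹ * b * k with hx
    have hbx : b = k * x * k⁻¹ := by rw [hx]; group
    have hxH : x ∈ H := by simpa using hb'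
    have hbU : b ∈ U := by rw [hbx]; exact hkx x hxH
    have h1 : b * x⁻¹ ∈ D := by
      refine Subgroup.mem_inf.mpr ⟨U.mul_mem hbU (U.inv_mem (hH hxH)), ?_⟩
      rw [hbx]
      have h2 : k * x * k⁻¹ * x⁻¹ = k * (x * k⁻¹ * x⁻¹) := by group
      rw [h2]
      exact K.mul_mem hk (hKn.conj_mem _ (K.inv_mem hk) x)
    have e : b = (b * x⁻¹) * x := by group
    rw [e]
    exact Subgroup.mul_mem_sup h1 hxH
  have hBcard : Nat.card B = Nat.card H := Cfsg.Agent.Lib.H1Conj.card_conj_smul k H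
  obtain ⟨d, hd, hdB⟩ := Cfsg.Agent.Lib.H1Cop.rel_conj hHD hcopD hsolv hBle hBcard
  have hdk : MulAut.conj (d * k) • H = H := by
    rw [Cfsg.Agent.Lib.H1Conj.conj_mul_smul]
    exact hdB
  have hdK : d ∈ K := (Subgroup.mem_inf.mp hd).2
  have hdU : d ∈ U := (Subgroup.mem_inf.mp hd).1
  have hnK : d * k ∈ K := K.mul_mem hdK hk
  have hnN : d * k ∈ Subgroup.normalizer (H : Set G) := by
    rw [Subgroup.mem_normalizer_iff]
    intro y
    constructor
    · intro hy
      have := Cfsg.Agent.Lib.H1Core.mul_mem_conj_smul (g := d * k) hy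
      rwa [hdk] at this
    · intro hy
      rw [← hdk] at hy
      have := Cfsg.Agent.Lib.H1Core.mem_conj_smul.mp hy
      simpa [mul_assoc] using this
  have hHK : H ≤ Subgroup.normalizer (K : Set G) := by
    rw [Subgroup.normalizer_eq_top_iff.mpr hKn]; exact le_top
  have hinf : H ⊓ K = ⊥ := Subgroup.inf_eq_bot_of_coprime hcop
  have hC := Cfsg.Agent.Lib.H1Cop.mem_centralizer_of_normalizes hHK hinf hnK hnN
  refine ⟨u * d⁻¹, U.mul_mem hu (U.inv_mem hdU), d * k, Subgroup.mem_inf.mpr ⟨hnK, hC⟩, by group⟩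
/-- Let G be a finite solvable group, K a normal subgroup and U a subgroup with G = KU, and H ≤ U a subgroup whose order is coprime to that of K. Then H ∩ G' = H ∩ U'; N_G(H) is generated by K ∩ C_G(H) and U ∩ N_G(H); and if gHg⁻¹ ≤ U for some g ∈ G then g = u c with u ∈ U and c ∈ K ∩ C_G(H). -/
theorem result {G : Type*} [Group G] [Finite G] [Group.IsSolvable G] (K U H : Subgroup G) [K.Normal] (hKU : K ⊔ U = ⊤) (hH : H ≤ U) (hcop : (Nat.card H).Coprime (Nat.card K)) :
    H ⊓ commutator G = H ⊓ ⁅U, U⁆ ∧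
      Subgroup.normalizer (H : Set G) = (K ⊓ Subgroup.centralizer (H : Set G)) ⊔ (U ⊓ Subgroup.normalizer (H : Set G)) ∧
      ∀ g : G, H.map (MulAut.conj g).toMonoidHom ≤ U → ∃ u ∈ U, ∃ c ∈ K ⊓ Subgroup.centralizer (H : Set G), g = u * c := by

  refine ⟨?_, ?_, aux K U H hKU hH hcop⟩
  · apply le_antisymm
    · intro h hh
      obtain ⟨hhH, hhG⟩ := Subgroup.mem_inf.mp hh
      refine Subgroup.mem_inf.mpr ⟨hhH, ?_⟩
      set φ := QuotientGroup.mk' K with hφ
      have hφs : Function.Surjective φ := QuotientGroup.mk'_surjective K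
      have hUtop : U.map φ = ⊤ := by
        rw [eq_top_iff]
        rintro q -
        obtain ⟨g, rfl⟩ := hφs q
        have hmem : g ∈ K ⊔ U := by rw [hKU]; trivial
        obtain ⟨k, hk, u, hu, rfl⟩ := Subgroup.mem_sup_of_normal_left.mp hmem
        refine ⟨u, hu, ?_⟩
        rw [map_mul]
        have : φ k = 1 := (QuotientGroup.eq_one_iff _).mpr hk
        rw [this, one_mul]
      have hcomm : commutator (G ⧸ K) = (⁅U, U⁆ : Subgroup G).map φ := by
        rw [commutator_def, Subgroup.map_commutator, hUtop]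
      have h1 : φ h ∈ commutator (G ⧸ K) :=
        Cfsg.Agent.Lib.H1Odd2.map_commutator_le' φ ⟨h, hhG, rfl⟩
      rw [hcomm] at h1
      obtain ⟨u', hu', hu'h⟩ := h1
      have hu'U : u' ∈ U := Subgroup.commutator_le_self U hu'
      have hdK : u'⁻¹ * h ∈ K := QuotientGroup.eq.mp hu'h
      set d := u'⁻¹ * h with hd
      have hdU : d ∈ U := U.mul_mem (U.inv_mem hu'U) (hH hhH)
      -- in `U / U'`
      set T : Subgroup U := (⁅U, U⁆ : Subgroup G).subgroupOf U with hT
      haveI hTn : T.Normal := by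
        refine ⟨fun n hn g => ?_⟩
        rw [hT, Subgroup.mem_subgroupOf] at hn ⊢
        have h2 := Subgroup.commutator_mem_commutator (H₁ := U) (H₂ := U) g.2 n.2
        have e : ((g * n * g⁻¹ : U) : G) = ⁅(g : G), (n : G)⁆ * n := by
          simp [commutatorElement_def]
        rw [e]
        exact Subgroup.mul_mem _ h2 hn
      have hmk : ((⟨h, hH hhH⟩ : U) : U ⧸ T) = ((⟨d, hdU⟩ : U) : U ⧸ T) := by
        rw [QuotientGroup.eq, hT, Subgroup.mem_subgroupOf]
        have : (((⟨h, hH hhH⟩ : U)⁻¹ * ⟨d, hdU⟩ : U) : G) = h⁻¹ * u'⁻¹ * h := by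
          simp [hd, mul_assoc]
        rw [this]
        have e : h⁻¹ * u'⁻¹ * h = ⁅h⁻¹, u'⁻¹⁆ * u'⁻¹ := by
          simp only [commutatorElement_def]; group
        rw [e]
        exact Subgroup.mul_mem _ (Subgroup.commutator_mem_commutator (U.inv_mem (hH hhH)) (U.inv_mem hu'U)) (Subgroup.inv_mem _ hu')
      have hp1 : ((⟨h, hH hhH⟩ : U) : U ⧸ T) ^ Nat.card H = 1 := by
        rw [← QuotientGroup.mk_pow]
        have : (⟨h, hH hhH⟩ : U) ^ Nat.card H = 1 := by
          apply Subtype.ext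
          have h3 := congrArg Subtype.val (pow_card_eq_one' (G := H) (x := ⟨h, hhH⟩))
          exact h3
        rw [this]
        rfl
      have hp2 : ((⟨h, hH hhH⟩ : U) : U ⧸ T) ^ Nat.card K = 1 := by
        rw [hmk, ← QuotientGroup.mk_pow]
        have : (⟨d, hdU⟩ : U) ^ Nat.card K = 1 := by
          apply Subtype.ext
          have h3 := congrArg Subtype.val (pow_card_eq_one' (G := K) (x := ⟨d, hdK⟩))
          exact h3
        rw [this]
        rfl
      have hp3 := (pow_gcd_eq_one).mpr ⟨hp1, hp2⟩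
      rw [hcop.gcd_eq_one, pow_one, QuotientGroup.eq_one_iff, hT, Subgroup.mem_subgroupOf] at hp3
      exact hp3
    · exact inf_le_inf_left _ (Subgroup.commutator_mono le_top le_top)
  · apply le_antisymm
    · intro g hg
      have h1 : H.map (MulAut.conj g).toMonoidHom ≤ U := by
        rintro _ ⟨x, hx, rfl⟩
        exact hH ((Subgroup.mem_normalizer_iff.mp hg x).mp hx)
      obtain ⟨u, hu, c, hc, rfl⟩ := aux K U H hKU hH hcop g h1
      obtain ⟨hcK, hcC⟩ := Subgroup.mem_inf.mp hc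
      have hcN : c ∈ Subgroup.normalizer (H : Set G) := Subgroup.centralizer_le_normalizer _ hcC
      have huN : u ∈ Subgroup.normalizer (H : Set G) := by
        have := Subgroup.mul_mem _ hg (Subgroup.inv_mem _ hcN)
        simpa using this
      rw [sup_comm]
      exact Subgroup.mul_mem_sup (Subgroup.mem_inf.mpr ⟨hu, huN⟩) hc
    · refine sup_le ?_ inf_le_right
      exact inf_le_right.trans (Subgroup.centralizer_le_normalizer _)

end Cfsg.Agent.S1460
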