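import Cfsg.Statements.S1461
import Cfsg.Agent.Lib.H1PLen
import Cfsg.Agent.S1460

set_option autoImplicit false
open Cfsg

namespace Cfsg.Agent.S1461

open scoped Pointwise

/-- Let G be a finite solvable group, p a prime with G = O_{p',p,p'}(G), and S a Sylow p-subgroup. Then: if S ≤ G' then S ≤ [N_G(S), N_G(S)]; if Y ⊆ S and xYx⁻¹ ⊆ S then x = g c for some g ∈ N_G(S) and c centralizing Y; and for every p-subgroup Q there is x ∈ C_G(Q ∩ S) with xQx⁻¹ ≤ S. -/
theorem result {G : Type*} [Group G] [Finite G] [Group.IsSolvable G] (p : ℕ) [Fact p.Prime] (hpl : Cfsg.PLengthLE p 1 G) (S : Sylow p G) :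
    ((S : Subgroup G) ≤ commutator G → (S : Subgroup G) ≤ ⁅Subgroup.normalizer ((S : Subgroup G) : Set G), Subgroup.normalizer ((S : Subgroup G) : Set G)⁆) ∧
      (∀ (Y : Set G) (x : G), Y ⊆ (S : Subgroup G) → (fun y => x * y * x⁻¹) '' Y ⊆ (S : Subgroup G) →
        ∃ g ∈ Subgroup.normalizer ((S : Subgroup G) : Set G), ∃ c ∈ Subgroup.centralizer Y, g * c = x) ∧
      ∀ Q : Subgroup G, IsPGroup p Q → ∃ x ∈ Subgroup.centralizer ((Q ⊓ (S : Subgroup G) : Subgroup G) : Set G), Q.map (MulAut.conj x).toMonoidHom ≤ (S : Subgroup G) := by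
  classical
  open Cfsg.Agent.Lib.H1PLen in
  have hsup := sup_normalizer_eq_top hpl S
  set V : Subgroup G := Cfsg.pPrimeCore p G with hV
  haveI hVn : V.Normal := Cfsg.Agent.Lib.H1Core.pPrimeCore_normal p G
  set N : Subgroup G := Subgroup.normalizer ((S : Subgroup G) : Set G) with hN
  have hinf : V ⊓ (S : Subgroup G) = ⊥ := Cfsg.Agent.Lib.H1PLen.pPrimeCore_inf_pgroup S.isPGroup'
  have hkey : ∀ v ∈ V, ∀ y ∈ (S : Subgroup G), v * y * v⁻¹ ∈ (S : Subgroup G) → y * v = v * y := by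
    intro v hv y hy h
    have h1 : v * y * v⁻¹ * y⁻¹ ∈ V ⊓ (S : Subgroup G) := by
      refine Subgroup.mem_inf.mpr ⟨?_, (S : Subgroup G).mul_mem h ((S : Subgroup G).inv_mem hy)⟩
      have e : v * y * v⁻¹ * y⁻¹ = v * (y * v⁻¹ * y⁻¹) := by group
      rw [e]
      exact V.mul_mem hv (hVn.conj_mem _ (V.inv_mem hv) y)
    rw [hinf, Subgroup.mem_bot] at h1
    have h2 : v * y = y * v := by
      have := mul_eq_one_iff_eq_inv.mp h1
      calc v * y = (v * y * v⁻¹) * v := by group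
        _ = y⁻¹⁻¹ * v := by rw [this]
        _ = y * v := by rw [inv_inv]
    exact h2.symm
  refine ⟨?_, ?_, ?_⟩
  · intro hle
    have hcop : (Nat.card (S : Subgroup G)).Coprime (Nat.card V) := by
      have hc := Cfsg.Agent.Lib.H1Core.pPrimeCore_coprime (G := G) p
      obtain ⟨k, hk⟩ := IsPGroup.iff_card.mp S.isPGroup'
      rw [hk]
      exact (Nat.Coprime.pow_right k hc).symm
    have h1 := (Cfsg.Agent.S1460.result V N (S : Subgroup G) hsup Subgroup.le_normalizer hcop).1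
    intro s hs
    have h2 : s ∈ (S : Subgroup G) ⊓ commutator G := Subgroup.mem_inf.mpr ⟨hs, hle hs⟩
    rw [h1] at h2
    exact (Subgroup.mem_inf.mp h2).2
  · intro Y x hY hxY
    have hmem : x ∈ N ⊔ V := by rw [sup_comm, hsup]; trivial
    obtain ⟨g, hg, v, hv, rfl⟩ := Subgroup.mem_sup_of_normal_right.mp hmem
    refine ⟨g, hg, v, ?_, rfl⟩
    rw [Subgroup.mem_centralizer_iff]
    intro y hy
    apply hkey v hv y (hY hy)
    have h1 : (g * v) * y * (g * v)⁻¹ ∈ (S : Subgroup G) := hxY ⟨y, hy, rfl⟩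
    have h2 := (Subgroup.mem_normalizer_iff.mp (Subgroup.inv_mem _ hg) _).mp h1
    have e : g⁻¹ * ((g * v) * y * (g * v)⁻¹) * g⁻¹⁻¹ = v * y * v⁻¹ := by group
    rwa [e] at h2
  · intro Q hQ
    obtain ⟨S', hS'⟩ := hQ.exists_le_sylow
    obtain ⟨z, hz⟩ := MulAction.exists_smul_eq G S S'
    have hmem : z ∈ V ⊔ N := by rw [hsup]; trivial
    obtain ⟨v, hv, n, hn, rfl⟩ := Subgroup.mem_sup_of_normal_left.mp hmem
    have hnS : n • S = S := Sylow.smul_eq_iff_mem_normalizer.mpr hn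
    have hvS : v • S = S' := by rw [← hz, mul_smul, hnS]
    have hQv : ∀ y ∈ Q, v⁻¹ * y * v ∈ (S : Subgroup G) := by
      intro y hy
      have h1 : y ∈ ((v • S : Sylow p G) : Subgroup G) := by rw [hvS]; exact hS' hy
      exact Cfsg.Agent.Lib.H1Core.mem_sylow_smul.mp h1
    refine ⟨v⁻¹, ?_, ?_⟩
    · rw [Subgroup.mem_centralizer_iff]
      intro y hy
      obtain ⟨hyQ, hyS⟩ := Subgroup.mem_inf.mp hy
      apply hkey v⁻¹ (V.inv_mem hv) y hyS
      have := hQv y hyQ
      simpa using this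
    · rintro _ ⟨y, hy, rfl⟩
      have := hQv y hy
      simpa using this

end Cfsg.Agent.S1461
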