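import Cfsg.Statements.S1462
import Cfsg.Agent.Lib.H1PLen
import Cfsg.Agent.S1443

set_option autoImplicit false
open Cfsg

namespace Cfsg.Agent.S1462

theorem map_sylow_eq_top {A C : Type*} [Group A] [Group C] [Finite A] [Finite C] {p : ℕ} [Fact p.Prime]
    (f : A →* C) (hf : Function.Surjective f) (hC : IsPGroup p C) (T : Sylow p A) :
    (T : Subgroup A).map f = ⊤ := by
  have h1 : ((T : Subgroup A).map f).index ∣ (T : Subgroup A).index :=
    Subgroup.index_map_dvd _ hf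
  have h2 : ¬ p ∣ (T : Subgroup A).index := T.not_dvd_index
  have h3 : ((T : Subgroup A).map f).index ∣ Nat.card C := Subgroup.index_dvd_card _
  obtain ⟨n, hn⟩ := IsPGroup.iff_card.mp hC
  rw [hn] at h3
  obtain ⟨i, _, hi⟩ := (Nat.dvd_prime_pow (Fact.out : p.Prime)).mp h3
  rw [← Subgroup.index_eq_one, hi]
  rcases i with _ | i
  · simp
  · exfalso
    apply h2
    refine dvd_trans ?_ h1
    rw [hi]
    exact dvd_pow_self p (Nat.succ_ne_zero i)

/-- Let G be a finite solvable group, p an odd prime with G = O_{p',p,p'}(G), E an elementary abelian p-subgroup contained in no larger elementary abelian p-subgroup of G, and L a subgroup of order coprime to p normalized by E. Then L ≤ O_{p'}(G). -/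
theorem result {G : Type*} [Group G] [Finite G] [Group.IsSolvable G] (p : ℕ) [Fact p.Prime] (hp : p ≠ 2) (hpl : Cfsg.PLengthLE p 1 G) (E L : Subgroup G) (hE : Cfsg.IsElementaryAbelian p E)
    (hEmax : ∀ B : Subgroup G, Cfsg.IsElementaryAbelian p B → E ≤ B → B = E) (hL : (Nat.card L).Coprime p) (hEL : E ≤ Subgroup.normalizer (L : Set G)) :
    L ≤ Cfsg.pPrimeCore p G := by

  classical
  set V : Subgroup G := Cfsg.pPrimeCore p G with hV
  haveI hVn : V.Normal := Cfsg.Agent.Lib.H1Core.pPrimeCore_normal p G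
  set ψ := QuotientGroup.mk' V with hψ
  have hψs : Function.Surjective ψ := QuotientGroup.mk'_surjective V
  have hψk : ∀ y, ψ y = 1 ↔ y ∈ V := fun y => QuotientGroup.eq_one_iff y
  set P : Subgroup (G ⧸ V) := Cfsg.pCore p (G ⧸ V) with hP
  haveI hPn : P.Normal := Cfsg.Agent.Lib.H1Core.pCore_normal p (G ⧸ V)
  have hPp : IsPGroup p P := Cfsg.Agent.Lib.H1Core.pCore_isPGroup p
  set Ebar : Subgroup (G ⧸ V) := E.map ψ with hEbar
  set Lbar : Subgroup (G ⧸ V) := L.map ψ with hLbar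
  have hEp : IsPGroup p E := fun e => ⟨1, Subtype.ext (by
    have := hE.2 e e.2
    simpa using this)⟩
  have hEW : E ≤ Cfsg.pPrimePCore p G := Cfsg.Agent.Lib.H1PLen.pgroup_le hpl hEp
  have hEP : Ebar ≤ P := by
    rintro _ ⟨e, he, rfl⟩
    exact hEW he
  have hLbarc : (Nat.card Lbar).Coprime p :=
    Nat.Coprime.coprime_dvd_left (Subgroup.card_map_dvd L ψ) hL
  have hLP : Lbar ⊓ P = ⊥ := by
    apply Subgroup.inf_eq_bot_of_coprime
    obtain ⟨k, hk⟩ := IsPGroup.iff_card.mp hPp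
    rw [hk]
    exact Nat.Coprime.pow_right k hLbarc
  -- Step 1: `L̄` centralizes `Ē`
  have hstep1 : ∀ l ∈ Lbar, ∀ e ∈ Ebar, l * e = e * l := by
    rintro _ ⟨l, hl, rfl⟩ _ ⟨e, he, rfl⟩
    have h1 : ψ (l * e * l⁻¹ * e⁻¹) ∈ Lbar ⊓ P := by
      refine Subgroup.mem_inf.mpr ⟨⟨l * e * l⁻¹ * e⁻¹, ?_, rfl⟩, ?_⟩
      · have h2 : e * l⁻¹ * e⁻¹ ∈ L := (Subgroup.mem_normalizer_iff.mp (hEL he) _).mp (L.inv_mem hl)
        have e1 : l * e * l⁻¹ * e⁻¹ = l * (e * l⁻¹ * e⁻¹) := by group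
        rw [e1]
        exact L.mul_mem hl h2
      · have h3 : ψ e ∈ P := hEW he
        have e1 : ψ (l * e * l⁻¹ * e⁻¹) = (ψ l * ψ e * (ψ l)⁻¹) * (ψ e)⁻¹ := by
          simp only [map_mul, map_inv]
        rw [e1]
        exact P.mul_mem (hPn.conj_mem _ h3 _) (P.inv_mem h3)
    rw [hLP, Subgroup.mem_bot] at h1
    have h4 : ψ l * ψ e * (ψ l)⁻¹ * (ψ e)⁻¹ = 1 := by
      simpa only [map_mul, map_inv] using h1
    calc ψ l * ψ e = (ψ l * ψ e * (ψ l)⁻¹ * (ψ e)⁻¹) * (ψ e * ψ l) := by group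
      _ = ψ e * ψ l := by rw [h4, one_mul]
  -- Ē elementary
  have hEbarE : Cfsg.IsElementaryAbelian p Ebar := by
    refine ⟨⟨⟨?_⟩⟩, ?_⟩
    · rintro ⟨_, a, ha, rfl⟩ ⟨_, b, hb, rfl⟩
      apply Subtype.ext
      have := hE.1.is_comm.comm (⟨a, ha⟩ : E) ⟨b, hb⟩
      have h2 : a * b = b * a := congrArg Subtype.val this
      simp only [Subgroup.coe_mul, ← map_mul, h2]
    · rintro _ ⟨a, ha, rfl⟩
      rw [← map_pow, hE.2 a ha, map_one]
  -- Step 2: the key lifting
  have hstep2 : ∀ x ∈ P ⊓ Subgroup.centralizer (Ebar : Set (G ⧸ V)), orderOf x = p → x ∈ Ebar := by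
    intro x hx hxp
    obtain ⟨hxP, hxC⟩ := Subgroup.mem_inf.mp hx
    set Bbar : Subgroup (G ⧸ V) := Subgroup.closure ((Ebar : Set (G ⧸ V)) ∪ {x}) with hBbar
    have hEB : Ebar ≤ Bbar := fun e he => Subgroup.subset_closure (Or.inl he)
    have hxB : x ∈ Bbar := Subgroup.subset_closure (Or.inr rfl)
    have hBcomm : IsMulCommutative Bbar := by
      apply Subgroup.isMulCommutative_closure
      have hEcomm : ∀ a ∈ Ebar, ∀ b ∈ Ebar, a * b = b * a := fun a ha b hb =>
        congrArg Subtype.val (hEbarE.1.is_comm.comm (⟨a, ha⟩ : Ebar) ⟨b, hb⟩)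
      have hxcomm : ∀ e ∈ Ebar, e * x = x * e := fun e he =>
        Subgroup.mem_centralizer_iff.mp hxC e he
      rintro a (ha | ha) b (hb | hb)
      · exact hEcomm a ha b hb
      · rw [Set.mem_singleton_iff] at hb; rw [hb]; exact hxcomm a ha
      · rw [Set.mem_singleton_iff] at ha; rw [ha]; exact (hxcomm b hb).symm
      · rw [Set.mem_singleton_iff] at ha hb; rw [ha, hb]
    have hBcomm' : ∀ a ∈ Bbar, ∀ b ∈ Bbar, a * b = b * a := fun a ha b hb =>
      congrArg Subtype.val (hBcomm.is_comm.comm (⟨a, ha⟩ : Bbar) ⟨b, hb⟩)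
    have hBexp : ∀ b ∈ Bbar, b ^ p = 1 := by
      intro b hb
      induction hb using Subgroup.closure_induction with
      | mem b hb =>
        rcases hb with hb | hb
        · exact hEbarE.2 b hb
        · rw [Set.mem_singleton_iff] at hb
          rw [hb, ← hxp, pow_orderOf_eq_one]
      | one => simp
      | mul a b ha hb h1 h2 =>
        have hc : Commute a b := hBcomm' a ha b hb
        rw [hc.mul_pow, h1, h2, one_mul]
      | inv a _ h => rw [inv_pow, h, inv_one]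
    have hBp : IsPGroup p Bbar := fun b => ⟨1, Subtype.ext (by
      have := hBexp b b.2
      simpa using this)⟩
    -- lift
    set B₁ : Subgroup G := Bbar.comap ψ with hB₁
    have hEB₁ : E ≤ B₁ := fun e he => hEB ⟨e, he, rfl⟩
    have hEB₁p : IsPGroup p (E.subgroupOf B₁) := hEp.comap_subtype
    obtain ⟨T, hT⟩ := hEB₁p.exists_le_sylow
    set B : Subgroup G := (T : Subgroup B₁).map B₁.subtype with hBdef
    have hBpB : IsPGroup p B := T.isPGroup'.map _
    have hEleB : E ≤ B := fun e he =>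
      ⟨⟨e, hEB₁ he⟩, hT (by rw [Subgroup.mem_subgroupOf]; exact he), rfl⟩
    let f : B₁ →* Bbar := (ψ.comp B₁.subtype).codRestrict Bbar (fun y => y.2)
    have hf : Function.Surjective f := by
      rintro ⟨b, hb⟩
      obtain ⟨y, rfl⟩ := hψs b
      exact ⟨⟨y, hb⟩, rfl⟩
    have htop := map_sylow_eq_top f hf hBp T
    have hxT : (⟨x, hxB⟩ : Bbar) ∈ (T : Subgroup B₁).map f := by rw [htop]; trivial
    obtain ⟨t, htT, htx⟩ := hxT
    have htx' : ψ (t : G) = x := congrArg Subtype.val htx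
    have hψB : ∀ b ∈ B, ψ b ∈ Bbar := by
      rintro _ ⟨y, -, rfl⟩
      exact y.2
    have hBV : V ⊓ B = ⊥ := Cfsg.Agent.Lib.H1PLen.pPrimeCore_inf_pgroup hBpB
    have hBe : Cfsg.IsElementaryAbelian p B := by
      refine ⟨⟨⟨?_⟩⟩, ?_⟩
      · rintro ⟨a, ha⟩ ⟨b, hb⟩
        apply Subtype.ext
        show a * b = b * a
        have h1 : a * b * a⁻¹ * b⁻¹ ∈ V ⊓ B := by
          refine Subgroup.mem_inf.mpr ⟨(hψk _).mp ?_, B.mul_mem (B.mul_mem (B.mul_mem ha hb) (B.inv_mem ha)) (B.inv_mem hb)⟩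
          have h2 := hBcomm' _ (hψB a ha) _ (hψB b hb)
          simp only [map_mul, map_inv]
          rw [h2]
          group
        rw [hBV, Subgroup.mem_bot] at h1
        calc a * b = (a * b * a⁻¹ * b⁻¹) * (b * a) := by group
          _ = b * a := by rw [h1, one_mul]
      · intro b hb
        have h1 : b ^ p ∈ V ⊓ B := by
          refine Subgroup.mem_inf.mpr ⟨(hψk _).mp ?_, B.pow_mem hb p⟩
          rw [map_pow]
          exact hBexp _ (hψB b hb)
        rw [hBV, Subgroup.mem_bot] at h1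
        exact h1
    have hBE : B = E := hEmax B hBe hEleB
    have htE : (t : G) ∈ E := by
      rw [← hBE]
      exact ⟨t, htT, rfl⟩
    rw [← htx']
    exact ⟨_, htE, rfl⟩
  -- Step 3: Thompson
  have hcent : Lbar ≤ Subgroup.centralizer (P : Set (G ⧸ V)) := by
    refine Cfsg.Agent.S1443.result p hp P Ebar Lbar hPp hEP hEbarE ?_ hLbarc ?_
    · rw [Subgroup.normalizer_eq_top_iff.mpr hPn]; exact le_top
    · intro x hx hxp
      have hxE := hstep2 x hx hxp
      intro l hl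
      rw [Subgroup.mem_centralizer_iff]
      intro y hy
      rw [Set.mem_singleton_iff] at hy
      rw [hy]
      exact (hstep1 l hl x hxE).symm
  -- Step 4
  have hO : Cfsg.pPrimeCore p (G ⧸ V) = ⊥ := Cfsg.Agent.Lib.H1Fit.pPrimeCore_quotient p
  have hF : Cfsg.fittingSubgroup (G ⧸ V) = P := Cfsg.Agent.Lib.H1Fit.fitting_eq_pCore_of_pPrimeCore_eq_bot p hO
  have hCF := Cfsg.Agent.Lib.H1Fit.centralizer_fitting_le (G := G ⧸ V)
  rw [hF] at hCF
  intro l hl
  have h1 : ψ l ∈ Lbar ⊓ P := Subgroup.mem_inf.mpr ⟨⟨l, hl, rfl⟩, hCF (hcent ⟨l, hl, rfl⟩)⟩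
  rw [hLP, Subgroup.mem_bot] at h1
  exact (hψk l).mp h1

end Cfsg.Agent.S1462
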