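import Cfsg.Statements.S1463
import Mathlib

set_option autoImplicit false
open scoped MatrixGroups
open Cfsg

namespace Cfsg.Agent.S1463

open Subgroup
open scoped Pointwise

variable {F : Type*} [Field F]

/-- the action on column vectors -/
def act (g : GL (Fin 2) F) (w : Fin 2 → F) : Fin 2 → F := (g : Matrix (Fin 2) (Fin 2) F).mulVec w

theorem act_mul (g h : GL (Fin 2) F) (w : Fin 2 → F) : act (g * h) w = act g (act h w) := by
  change ((g : Matrix (Fin 2) (Fin 2) F) * (h : Matrix (Fin 2) (Fin 2) F)).mulVec w =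
    (g : Matrix (Fin 2) (Fin 2) F).mulVec ((h : Matrix (Fin 2) (Fin 2) F).mulVec w)
  rw [Matrix.mulVec_mulVec]

theorem act_one (w : Fin 2 → F) : act (1 : GL (Fin 2) F) w = w := by
  simp [act]

theorem act_add (g : GL (Fin 2) F) (w w' : Fin 2 → F) : act g (w + w') = act g w + act g w' := by
  simp [act, Matrix.mulVec_add]

theorem act_smul (g : GL (Fin 2) F) (c : F) (w : Fin 2 → F) : act g (c • w) = c • act g w := by
  simp [act, Matrix.mulVec_smul]

theorem act_neg (g : GL (Fin 2) F) (w : Fin 2 → F) : act g (-w) = - act g w := by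
  simp [act, Matrix.mulVec_neg]

theorem act_zero (g : GL (Fin 2) F) : act g 0 = 0 := by
  simp [act]

theorem act_inv_act (g : GL (Fin 2) F) (w : Fin 2 → F) : act g⁻¹ (act g w) = w := by
  rw [← act_mul, inv_mul_cancel, act_one]

theorem act_act_inv (g : GL (Fin 2) F) (w : Fin 2 → F) : act g (act g⁻¹ w) = w := by
  rw [← act_mul, mul_inv_cancel, act_one]

/-- the determinant of two vectors -/
def dt (u v : Fin 2 → F) : F := u 0 * v 1 - u 1 * v 0

theorem span_of_dt {u v : Fin 2 → F} (hD : dt u v ≠ 0) (w : Fin 2 → F) : ∃ α β : F, w = α • u + β • v := by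
  refine ⟨(w 0 * v 1 - w 1 * v 0) / dt u v, (u 0 * w 1 - u 1 * w 0) / dt u v, ?_⟩
  funext i
  fin_cases i
  · simp only [Pi.add_apply, Pi.smul_apply, smul_eq_mul, Fin.zero_eta]
    field_simp
    simp only [dt]
    ring
  · simp only [Pi.add_apply, Pi.smul_apply, smul_eq_mul, Fin.mk_one]
    field_simp
    simp only [dt]
    ring

theorem ind_of_dt {u v : Fin 2 → F} (hD : dt u v ≠ 0) {α β : F} (h : α • u + β • v = 0) : α = 0 ∧ β = 0 := by
  have h0 : α * u 0 + β * v 0 = 0 := by simpa using congrFun h 0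
  have h1 : α * u 1 + β * v 1 = 0 := by simpa using congrFun h 1
  have hD' : u 0 * v 1 - u 1 * v 0 ≠ 0 := hD
  constructor
  · have : α * (u 0 * v 1 - u 1 * v 0) = 0 := by linear_combination v 1 * h0 - v 0 * h1
    exact (mul_eq_zero.1 this).resolve_right hD'
  · have : β * (u 0 * v 1 - u 1 * v 0) = 0 := by linear_combination u 0 * h1 - u 1 * h0
    exact (mul_eq_zero.1 this).resolve_right hD'

theorem dt_zero {u v : Fin 2 → F} (hu : u ≠ 0) (hD : dt u v = 0) : ∃ χ : F, v = χ • u := by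
  have hD' : u 0 * v 1 - u 1 * v 0 = 0 := hD
  by_cases h0 : u 0 = 0
  · have h1 : u 1 ≠ 0 := by
      intro h1
      apply hu
      funext i
      fin_cases i
      · exact h0
      · exact h1
    refine ⟨v 1 / u 1, ?_⟩
    funext i
    fin_cases i
    · simp only [Pi.smul_apply, smul_eq_mul, Fin.zero_eta]
      rw [h0] at hD' ⊢
      have : v 0 = 0 := by
        have h2 : u 1 * v 0 = 0 := by linear_combination -hD'
        exact (mul_eq_zero.1 h2).resolve_left h1
      rw [this]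
      simp
    · simp only [Pi.smul_apply, smul_eq_mul, Fin.mk_one]
      field_simp
  · refine ⟨v 0 / u 0, ?_⟩
    funext i
    fin_cases i
    · simp only [Pi.smul_apply, smul_eq_mul, Fin.zero_eta]
      field_simp
    · simp only [Pi.smul_apply, smul_eq_mul, Fin.mk_one]
      field_simp
      linear_combination hD'

theorem gl_ext {u v : Fin 2 → F} (hD : dt u v ≠ 0) (x y : GL (Fin 2) F) (h1 : act x u = act y u)
    (h2 : act x v = act y v) : x = y := by
  have h3 : ∀ w, act x w = act y w := by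
    intro w
    obtain ⟨α, β, rfl⟩ := span_of_dt hD w
    rw [act_add, act_add, act_smul, act_smul, act_smul, act_smul, h1, h2]
  apply Units.ext
  ext i j
  have h4 := congrFun (h3 (Pi.single j 1)) i
  simpa [act, Matrix.mulVec_single_one] using h4

theorem exists_tau {u v : Fin 2 → F} (hD : dt u v ≠ 0) :
    ∃ τ : GL (Fin 2) F, act τ u = u ∧ act τ v = -v := by
  have hD' : u 0 * v 1 - u 1 * v 0 ≠ 0 := hD
  let T : Matrix (Fin 2) (Fin 2) F :=
    !![(u 0 * v 1 + u 1 * v 0) / dt u v, -(2 * u 0 * v 0) / dt u v;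
       (2 * u 1 * v 1) / dt u v, -(u 0 * v 1 + u 1 * v 0) / dt u v]
  have hdet : T.det ≠ 0 := by
    have : T.det = -1 := by
      simp only [T, Matrix.det_fin_two_of]
      field_simp
      simp only [dt]
      ring
    rw [this]
    simp
  refine ⟨Matrix.GeneralLinearGroup.mkOfDetNeZero T hdet, ?_, ?_⟩
  · funext i
    change (T.mulVec u) i = u i
    fin_cases i
    · simp [T, Matrix.mulVec, dotProduct, Fin.sum_univ_two]
      field_simp
      simp only [dt]
      ring
    · simp [T, Matrix.mulVec, dotProduct, Fin.sum_univ_two]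
      field_simp
      simp only [dt]
      ring
  · funext i
    change (T.mulVec v) i = (-v) i
    fin_cases i
    · simp [T, Matrix.mulVec, dotProduct, Fin.sum_univ_two]
      field_simp
      simp only [dt]
      ring
    · simp [T, Matrix.mulVec, dotProduct, Fin.sum_univ_two]
      field_simp
      simp only [dt]
      ring


variable {p : ℕ} [hpp : Fact p.Prime] [hc : CharP F p]

omit hpp in
theorem scalar_one {χ : F} {m : ℕ} (hp' : p.Prime) (h : χ ^ (p ^ m) = 1) : χ = 1 := by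
  haveI : Fact p.Prime := ⟨hp'⟩
  have h1 : (χ - 1) ^ (p ^ m) = 0 := by
    rw [sub_pow_char_pow, h, one_pow, sub_self]
  have h2 := pow_eq_zero_iff (pow_ne_zero m hp'.ne_zero) |>.1 h1
  exact sub_eq_zero.1 h2

/-- A `p`-element fixes a nonzero vector. -/
theorem fix_of_pow (g : GL (Fin 2) F) (m : ℕ) (h : g ^ (p ^ m) = 1) : ∃ w : Fin 2 → F, w ≠ 0 ∧ act g w = w := by
  haveI : CharP (Matrix (Fin 2) (Fin 2) F) p := Matrix.charP p
  have h1 : ((g : Matrix (Fin 2) (Fin 2) F) - 1) ^ (p ^ m) = 0 := by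
    rw [sub_pow_char_pow_of_commute (p := p) (n := m) (h := Commute.one_right _), one_pow]
    have : ((g : Matrix (Fin 2) (Fin 2) F)) ^ (p ^ m) = ((g ^ (p ^ m) : GL (Fin 2) F) : Matrix (Fin 2) (Fin 2) F) := by
      simp
    rw [this, h]
    simp
  have h2 : ((g : Matrix (Fin 2) (Fin 2) F) - 1).det = 0 := by
    have h3 := congrArg Matrix.det h1
    rw [Matrix.det_pow, Matrix.det_zero] at h3
    exact (pow_eq_zero_iff (pow_ne_zero m hpp.out.ne_zero)).1 h3
  obtain ⟨w, hw0, hw⟩ := Matrix.exists_mulVec_eq_zero_iff.2 h2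
  refine ⟨w, hw0, ?_⟩
  rw [Matrix.sub_mulVec, Matrix.one_mulVec, sub_eq_zero] at hw
  exact hw

/-- A `p`-group in `GL₂` has a common fixed vector. -/
theorem fixed_vec {R : Type*} [Group R] [Finite R] (ρ : R →* GL (Fin 2) F) (hρ : Function.Injective ρ)
    (hR : IsPGroup p R) : ∃ w : Fin 2 → F, w ≠ 0 ∧ ∀ r, act (ρ r) w = w := by
  by_cases hn : Nontrivial R
  · haveI := hn
    haveI := hR.center_nontrivial
    obtain ⟨ζ, hζ⟩ := exists_ne (1 : Subgroup.center R)
    have hζ1 : ρ (ζ : R) ≠ 1 := by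
      intro h
      apply hζ
      apply Subtype.ext
      exact hρ (h.trans (map_one ρ).symm)
    obtain ⟨m, hm⟩ := IsPGroup.iff_orderOf.1 hR (ζ : R)
    have hζm : ρ (ζ : R) ^ (p ^ m) = 1 := by
      rw [← map_pow, ← hm, pow_orderOf_eq_one, map_one]
    obtain ⟨e, he0, he⟩ := fix_of_pow (ρ (ζ : R)) m hζm
    refine ⟨e, he0, ?_⟩
    intro r
    have hw : act (ρ (ζ : R)) (act (ρ r) e) = act (ρ r) e := by
      rw [← act_mul, ← map_mul, (Subgroup.mem_center_iff.1 ζ.2 r).symm, map_mul, act_mul, he]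
    have hD : dt e (act (ρ r) e) = 0 := by
      by_contra hD
      apply hζ1
      apply gl_ext hD
      · rw [he, act_one]
      · rw [hw, act_one]
    obtain ⟨χ, hχ⟩ := dt_zero he0 hD
    have hpow : ∀ n : ℕ, act (ρ r ^ n) e = χ ^ n • e := by
      intro n
      induction n with
      | zero => simp [act_one]
      | succ n ih =>
        rw [pow_succ, act_mul, hχ, act_smul, ih, smul_smul, pow_succ, mul_comm]
    obtain ⟨s, hs⟩ := IsPGroup.iff_orderOf.1 hR r
    have h1 := hpow (p ^ s)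
    rw [← map_pow, ← hs, pow_orderOf_eq_one, map_one, act_one, hs] at h1
    have h2 : (χ ^ (p ^ s) - 1) • e = 0 := by
      rw [sub_smul, one_smul, ← h1, sub_self]
    have h3 : χ ^ (p ^ s) = 1 := by
      rcases smul_eq_zero.1 h2 with h4 | h4
      · exact sub_eq_zero.1 h4
      · exact absurd h4 he0
    have h4 := scalar_one hpp.out h3
    rw [hχ, h4, one_smul]
  · rw [not_nontrivial_iff_subsingleton] at hn
    refine ⟨![1, 0], ?_, ?_⟩
    · intro h
      have := congrFun h 0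
      simp at this
    · intro r
      have : r = 1 := Subsingleton.elim _ _
      rw [this, map_one, act_one]

/-- The transvection form. -/
theorem transv {u v : Fin 2 → F} (hD : dt u v ≠ 0) (z : GL (Fin 2) F) (hz : z ^ p = 1) (hz1 : z ≠ 1)
    (hu : act z u = u) : ∃ a : F, a ≠ 0 ∧ act z v = v + a • u := by
  obtain ⟨a, l, hal⟩ := span_of_dt hD (act z v)
  have hpow : ∀ n : ℕ, ∃ a' : F, act (z ^ n) v = a' • u + l ^ n • v := by
    intro n
    induction n with
    | zero => exact ⟨0, by simp [act_one]⟩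
    | succ n ih =>
      obtain ⟨a', ha'⟩ := ih
      refine ⟨a' + l ^ n * a, ?_⟩
      rw [pow_succ', act_mul, ha', act_add, act_smul, act_smul, hu, hal, smul_add, smul_smul, smul_smul, add_smul,
        pow_succ, add_assoc]
  obtain ⟨a', ha'⟩ := hpow p
  rw [hz, act_one] at ha'
  have h1 : a' • u + (l ^ p - 1) • v = 0 := by
    have : a' • u + (l ^ p - 1) • v = (a' • u + l ^ p • v) - v := by
      rw [sub_smul, one_smul]
      abel
    rw [this, ← ha', sub_self]
  have h2 := (ind_of_dt hD h1).2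
  have h3 : l = 1 := by
    apply scalar_one (m := 1) hpp.out
    rw [pow_one]
    exact sub_eq_zero.1 h2
  rw [h3, one_smul] at hal
  refine ⟨a, ?_, by rw [hal, add_comm]⟩
  rintro rfl
  apply hz1
  apply gl_ext hD
  · rw [hu, act_one]
  · rw [hal, act_one]
    simp

theorem fix_line {u v w : Fin 2 → F} (hD : dt u v ≠ 0) (z : GL (Fin 2) F) {a : F} (ha : a ≠ 0) (hu : act z u = u)
    (hv : act z v = v + a • u) (hw : act z w = w) : ∃ α : F, w = α • u := by
  obtain ⟨α, β, rfl⟩ := span_of_dt hD w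
  rw [act_add, act_smul, act_smul, hu, hv] at hw
  have h1 : (β * a) • u + (0 : F) • v = 0 := by
    have : (β * a) • u + (0 : F) • v = (α • u + β • (v + a • u)) - (α • u + β • v) := by
      rw [smul_add, smul_smul, zero_smul]
      abel
    rw [this, hw, sub_self]
  have h2 := (ind_of_dt hD h1).1
  have h3 : β = 0 := (mul_eq_zero.1 h2).resolve_right ha
  exact ⟨α, by rw [h3, zero_smul, add_zero]⟩

theorem decomp {Γ : Type*} [Group Γ] (σ : Γ →* Γ) (hσ : ∀ x, σ (σ x) = x) (k : Γ) (N : ℕ)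
    (hN : (k * (σ k)⁻¹) ^ (2 * N + 1) = 1) :
    ∃ i c : Γ, k = i * c ∧ σ i = i⁻¹ ∧ σ c = c ∧ ∃ n : ℕ, i = (k * (σ k)⁻¹) ^ n := by
  set w := k * (σ k)⁻¹ with hw
  have h1 : σ w = w⁻¹ := by
    rw [hw, map_mul, map_inv, hσ, mul_inv_rev, inv_inv]
  have hii : w ^ (N + 1) * w ^ (N + 1) = w := by
    rw [← pow_add, show N + 1 + (N + 1) = (2 * N + 1) + 1 by ring, pow_succ, hN, one_mul]
  refine ⟨w ^ (N + 1), (w ^ (N + 1))⁻¹ * k, by group, ?_, ?_, N + 1, rfl⟩
  · rw [map_pow, h1, inv_pow]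
  · have h2 : σ (w ^ (N + 1)) = (w ^ (N + 1))⁻¹ := by rw [map_pow, h1, inv_pow]
    rw [map_mul, map_inv, h2, inv_inv]
    have h3 : w ^ (N + 1) * σ k = (w ^ (N + 1))⁻¹ * (w ^ (N + 1) * w ^ (N + 1) * σ k) := by group
    rw [h3, hii, hw]
    group

theorem inv_conj {u v : Fin 2 → F} (hD : dt u v ≠ 0) (τ z : GL (Fin 2) F) {a ε : F} (hε : ε * ε = 1)
    (h1 : act τ u = ε • u) (h2 : act τ v = (-ε) • v) (hu : act z u = u) (hv : act z v = v + a • u) :
    τ * z * τ * z = 1 := by
  apply gl_ext hD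
  · rw [act_mul, act_mul, act_mul, hu, h1, act_smul, hu, act_smul, h1, smul_smul, hε, one_smul, act_one]
  · have e2 : act τ (v + a • u) = (-ε) • v + (a * ε) • u := by
      rw [act_add, act_smul, h1, h2, smul_smul]
    have e3 : act z ((-ε) • v + (a * ε) • u) = (-ε) • v := by
      rw [act_add, act_smul, act_smul, hu, hv, smul_add, smul_smul]
      have : -ε * a = -(a * ε) := by ring
      rw [this, neg_smul (a * ε) u]
      abel
    have e4 : act τ ((-ε) • v) = v := by
      rw [act_smul, h2, smul_smul]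
      have : -ε * -ε = 1 := by linear_combination hε
      rw [this, one_smul]
    rw [act_mul, act_mul, act_mul, hv, e2, e3, e4, act_one]

/-- Let F be a field of odd characteristic p and H a finite subgroup of odd order of GL(2, F) that leaves no 1-dimensional subspace of F² invariant. Then p does not divide the order of H. -/
theorem result {F : Type*} [Field F] (p : ℕ) [Fact p.Prime] [CharP F p] (hp : p ≠ 2)
    (H : Subgroup (GL (Fin 2) F)) [Finite H] (hodd : Odd (Nat.card H))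
    (hirr : ∀ v : Fin 2 → F, v ≠ 0 → ∃ g ∈ H, (g : Matrix (Fin 2) (Fin 2) F).mulVec v ∉ Submodule.span F {v}) :
    ¬ p ∣ Nat.card H := by

  classical
  intro hdvd
  have hpp' : p.Prime := Fact.out
  -- Cauchy
  obtain ⟨z0, hz0⟩ := exists_prime_orderOf_dvd_card' p hdvd
  obtain ⟨z, hzH⟩ := z0
  have hzp : z ^ p = 1 := by
    have : (⟨z, hzH⟩ : H) ^ p = 1 := by rw [← hz0, pow_orderOf_eq_one]
    exact congrArg Subtype.val this
  have hz1 : z ≠ 1 := by
    intro h
    have : (⟨z, hzH⟩ : H) = 1 := Subtype.ext h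
    rw [this, orderOf_one] at hz0
    exact hpp'.one_lt.ne hz0
  obtain ⟨v₁, hv₁0, hv₁⟩ := fix_of_pow (p := p) z 1 (by rwa [pow_one])
  obtain ⟨g, hgH, hg⟩ := hirr v₁ hv₁0
  obtain ⟨v₂, hv₂⟩ : ∃ v₂, v₂ = act g v₁ := ⟨_, rfl⟩
  have hg' : v₂ ∉ Submodule.span F {v₁} := by rw [hv₂]; exact hg
  have hD : dt v₁ v₂ ≠ 0 := by
    intro hD
    obtain ⟨χ, hχ⟩ := dt_zero hv₁0 hD
    apply hg'
    rw [Submodule.mem_span_singleton]
    exact ⟨χ, hχ.symm⟩
  obtain ⟨z', hz'⟩ : ∃ z', z' = g * z * g⁻¹ := ⟨_, rfl⟩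
  have hz'H : z' ∈ H := by
    rw [hz']
    exact mul_mem (mul_mem hgH hzH) (inv_mem hgH)
  have hz'p : z' ^ p = 1 := by
    rw [hz', conj_pow, hzp]
    group
  have hz'1 : z' ≠ 1 := by
    intro h
    apply hz1
    rw [hz'] at h
    have h2 : g * z = g := by rwa [mul_inv_eq_one] at h
    simpa using h2
  have hz'v : act z' v₂ = v₂ := by
    rw [hz', act_mul, act_mul, hv₂, act_inv_act, hv₁]
  have hD' : dt v₂ v₁ ≠ 0 := by
    intro h
    apply hD
    have : dt v₁ v₂ = -dt v₂ v₁ := by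
      simp only [dt]
      ring
    rw [this, h, neg_zero]
  obtain ⟨a, ha, hza⟩ := transv (p := p) hD z hzp hz1 hv₁
  obtain ⟨b, hb, hzb⟩ := transv (p := p) hD' z' hz'p hz'1 hz'v
  obtain ⟨τ, hτ1, hτ2⟩ := exists_tau hD
  have hττ : τ * τ = 1 := by
    apply gl_ext hD
    · rw [act_mul, hτ1, hτ1, act_one]
    · rw [act_mul, hτ2, act_neg, hτ2, neg_neg, act_one]
  have hτinv : τ⁻¹ = τ := inv_eq_of_mul_eq_one_left hττ
  have hτz : τ * z * τ * z = 1 :=
    inv_conj hD τ z (ε := 1) (by simp) (by simpa using hτ1) (by simpa using hτ2) hv₁ hza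
  have hτz' : τ * z' * τ * z' = 1 :=
    inv_conj hD' τ z' (ε := -1) (by simp) (by simpa using hτ2) (by simpa using hτ1) hz'v hzb
  let σ : GL (Fin 2) F →* GL (Fin 2) F := (MulAut.conj τ).toMonoidHom
  have hσa : ∀ x, σ x = τ * x * τ := by
    intro x
    change τ * x * τ⁻¹ = τ * x * τ
    rw [hτinv]
  have hσ : ∀ x, σ (σ x) = x := by
    intro x
    rw [hσa, hσa]
    calc τ * (τ * x * τ) * τ = (τ * τ) * x * (τ * τ) := by group
      _ = x := by rw [hττ]; group
  let K : Subgroup (GL (Fin 2) F) := closure {z, z'}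
  have hzK : z ∈ K := subset_closure (by simp)
  have hz'K : z' ∈ K := subset_closure (by simp)
  have hKH : K ≤ H := by
    rw [closure_le]
    rintro y (rfl | rfl)
    · exact hzH
    · exact hz'H
  have hσK : K ≤ K.comap σ := by
    rw [closure_le]
    rintro y (rfl | rfl)
    · change σ y ∈ K
      rw [hσa, eq_inv_of_mul_eq_one_left hτz]
      exact inv_mem hzK
    · change σ y ∈ K
      rw [hσa, eq_inv_of_mul_eq_one_left hτz']
      exact inv_mem hz'K
  haveI : Finite K := Finite.of_injective (Subgroup.inclusion hKH) (Subgroup.inclusion_injective hKH)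
  have hpg : ∀ y : K, y ^ p = 1 → IsPGroup p (zpowers y) := by
    intro y hy
    rw [IsPGroup.iff_card, Nat.card_zpowers]
    have h1 : orderOf y ∣ p ^ 1 := by
      rw [pow_one]
      exact orderOf_dvd_of_pow_eq_one hy
    obtain ⟨s, -, hs⟩ := (Nat.dvd_prime_pow hpp').1 h1
    exact ⟨s, hs⟩
  obtain ⟨Q, hQ⟩ := (hpg ⟨z, hzK⟩ (Subtype.ext hzp)).exists_le_sylow
  obtain ⟨Q', hQ'⟩ := (hpg ⟨z', hz'K⟩ (Subtype.ext hz'p)).exists_le_sylow
  obtain ⟨c, hc⟩ := MulAction.exists_smul_eq K Q' Q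
  have hcz : c * ⟨z', hz'K⟩ * c⁻¹ ∈ (Q : Subgroup K) := by
    have h5 : ((c • Q' : Sylow p K) : Subgroup K) = MulAut.conj c • (Q' : Subgroup K) := rfl
    rw [← hc, h5]
    exact Subgroup.smul_mem_pointwise_smul _ (MulAut.conj c) _ (hQ' (mem_zpowers _))
  obtain ⟨w, hw0, hw⟩ := fixed_vec (p := p) (K.subtype.comp (Q : Subgroup K).subtype)
    (fun x y h => Subtype.ext (Subtype.ext h)) Q.isPGroup'
  have hwz : act z w = w := hw ⟨⟨z, hzK⟩, hQ (mem_zpowers _)⟩
  have hwc : act ((c : GL (Fin 2) F) * z' * (c : GL (Fin 2) F)⁻¹) w = w := hw ⟨_, hcz⟩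
  obtain ⟨α, hα⟩ := fix_line hD z ha hv₁ hza hwz
  have hw' : act z' (act (c : GL (Fin 2) F)⁻¹ w) = act (c : GL (Fin 2) F)⁻¹ w := by
    have h1 := congrArg (act (c : GL (Fin 2) F)⁻¹) hwc
    rwa [act_mul, act_mul, act_inv_act] at h1
  obtain ⟨α', hα'⟩ := fix_line hD' z' hb hz'v hzb hw'
  have hα0 : α ≠ 0 := by
    rintro rfl
    exact hw0 (by rw [hα, zero_smul])
  have hα'0 : α' ≠ 0 := by
    rintro rfl
    rw [zero_smul] at hα'
    apply hw0
    have h1 := congrArg (act (c : GL (Fin 2) F)) hα'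
    rwa [act_act_inv, act_zero] at h1
  have hks : act (c : GL (Fin 2) F) v₂ = (α / α') • v₁ := by
    have h1 := congrArg (act (c : GL (Fin 2) F)) hα'
    rw [act_act_inv, act_smul, hα] at h1
    have h2 : α' • act (c : GL (Fin 2) F) v₂ = α • v₁ := h1.symm
    calc act (c : GL (Fin 2) F) v₂ = α'⁻¹ • (α' • act (c : GL (Fin 2) F) v₂) := by
          rw [smul_smul, inv_mul_cancel₀ hα'0, one_smul]
      _ = (α / α') • v₁ := by
          rw [h2, smul_smul, div_eq_inv_mul]
  -- the decomposition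
  obtain ⟨N, hN⟩ := hodd
  have hpowH : ∀ y ∈ H, y ^ (2 * N + 1) = 1 := by
    intro y hy
    have h1 : (⟨y, hy⟩ : H) ^ (Nat.card H) = 1 := pow_card_eq_one'
    rw [hN] at h1
    exact congrArg Subtype.val h1
  have hσc : σ (c : GL (Fin 2) F) ∈ K := hσK c.2
  have hwH : (c : GL (Fin 2) F) * (σ (c : GL (Fin 2) F))⁻¹ ∈ H := hKH (mul_mem c.2 (inv_mem hσc))
  obtain ⟨i, c₁, hk, hσi, hσc₁, n, hn⟩ := decomp σ hσ (c : GL (Fin 2) F) N (hpowH _ hwH)
  have hiH : i ∈ H := by
    rw [hn]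
    exact pow_mem hwH _
  have hτc₁ : τ * c₁ = c₁ * τ := by
    rw [hσa] at hσc₁
    calc τ * c₁ = (τ * c₁ * τ) * τ := by rw [mul_assoc, hττ, mul_one]
      _ = c₁ * τ := by rw [hσc₁]
  have h2F : (2 : F) ≠ 0 := by
    intro h
    have h1 : ((2 : ℕ) : F) = 0 := by exact_mod_cast h
    rw [CharP.cast_eq_zero_iff F p] at h1
    exact hp ((Nat.prime_dvd_prime_iff_eq hpp' Nat.prime_two).1 h1)
  -- `c₁` preserves the line of `v₂`
  obtain ⟨α₁, β₁, hc₁⟩ := span_of_dt hD (act c₁ v₂)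
  have hα₁ : α₁ = 0 := by
    have h1 : act (τ * c₁) v₂ = act (c₁ * τ) v₂ := by rw [hτc₁]
    rw [act_mul, act_mul, hc₁, act_add, act_smul, act_smul, hτ1, hτ2, act_neg, hc₁] at h1
    have h3 : (2 * α₁) • v₁ + (0 : F) • v₂ = 0 := by
      have : (2 * α₁) • v₁ + (0 : F) • v₂ =
          (α₁ • v₁ + β₁ • -v₂) - (-(α₁ • v₁ + β₁ • v₂)) := by
        rw [zero_smul, two_mul, add_smul, smul_neg]
        abel
      rw [this, h1, sub_self]
    have h4 := (ind_of_dt hD h3).1
    exact (mul_eq_zero.1 h4).resolve_left h2F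
  rw [hα₁, zero_smul, zero_add] at hc₁
  have hβ₁ : β₁ ≠ 0 := by
    rintro rfl
    rw [zero_smul] at hc₁
    have h1 := congrArg (act c₁⁻¹) hc₁
    rw [act_inv_act, act_zero] at h1
    rw [h1] at hD
    apply hD
    simp [dt]
  obtain ⟨s, hs, his⟩ : ∃ s : F, s ≠ 0 ∧ act i v₂ = s • v₁ := by
    refine ⟨(α / α') / β₁, div_ne_zero (div_ne_zero hα0 hα'0) hβ₁, ?_⟩
    have h1 : act (i * c₁) v₂ = (α / α') • v₁ := by rw [← hk]; exact hks
    rw [act_mul, hc₁, act_smul] at h1
    calc act i v₂ = β₁⁻¹ • (β₁ • act i v₂) := by rw [smul_smul, inv_mul_cancel₀ hβ₁, one_smul]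
      _ = ((α / α') / β₁) • v₁ := by rw [h1, smul_smul, div_eq_inv_mul (α / α')]
  have hτi : τ * i * τ * i = 1 := by
    rw [hσa] at hσi
    rw [hσi, inv_mul_cancel]
  have hi1 : act i v₁ = (-s⁻¹) • v₂ := by
    have h1 : act (τ * i * τ * i) v₂ = v₂ := by rw [hτi, act_one]
    rw [act_mul, act_mul, act_mul, his, act_smul, hτ1, act_smul, act_smul] at h1
    have h3 : act τ (act i v₁) = s⁻¹ • v₂ := by
      calc act τ (act i v₁) = s⁻¹ • (s • act τ (act i v₁)) := by rw [smul_smul, inv_mul_cancel₀ hs, one_smul]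
        _ = s⁻¹ • v₂ := by rw [h1]
    have h4 := congrArg (act τ) h3
    rw [← act_mul, hττ, act_one, act_smul, hτ2, smul_neg, ← neg_smul] at h4
    exact h4
  have hii1 : act (i * i) v₁ = -v₁ := by
    rw [act_mul, hi1, act_smul, his, smul_smul, neg_mul, inv_mul_cancel₀ hs, neg_smul, one_smul]
  have hii2 : act (i * i) v₂ = -v₂ := by
    rw [act_mul, his, act_smul, hi1, smul_smul, mul_neg, mul_inv_cancel₀ hs, neg_smul, one_smul]
  have hi4 : i ^ 4 = 1 := by
    have h1 : i ^ 4 = (i * i) * (i * i) := by simp only [pow_succ, pow_zero, one_mul, mul_assoc]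
    rw [h1]
    apply gl_ext hD
    · rw [act_mul, hii1, act_neg, hii1, neg_neg, act_one]
    · rw [act_mul, hii2, act_neg, hii2, neg_neg, act_one]
  have hi_odd := hpowH i hiH
  have hord : orderOf i = 1 := by
    have h1 := orderOf_dvd_of_pow_eq_one hi4
    have h3 := orderOf_dvd_of_pow_eq_one hi_odd
    have hcop : Nat.Coprime 4 (2 * N + 1) := by
      rw [show 4 = 2 ^ 2 by norm_num]
      exact Nat.Coprime.pow_left _ (by simp)
    exact Nat.eq_one_of_dvd_coprimes hcop h1 h3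
  rw [orderOf_eq_one_iff] at hord
  rw [hord, act_one] at hi1
  have h5 : (1 : F) • v₁ + (s⁻¹) • v₂ = 0 := by
    rw [one_smul]
    nth_rewrite 1 [hi1]
    rw [neg_smul]
    abel
  exact one_ne_zero (ind_of_dt hD h5).1

end Cfsg.Agent.S1463
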