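import Cfsg.Statements.S1466
import Cfsg.Agent.Lib.H1Puig

set_option autoImplicit false
open Cfsg

namespace Cfsg.Agent.S1466

/-- Let p be a prime and R a nontrivial finite p-group. Then for every i > 0, Z(R) ≤ C_R(L_i(R)) ≤ L_i(R); likewise Z(R) ≤ C_R(L_*(R)) ≤ L_*(R) and Z(R) ≤ C_R(L(R)) ≤ L(R); and L(R) ≠ 1, L_*(R) ≠ 1. -/
theorem result {R : Type*} [Group R] [Finite R] (p : ℕ) [Fact p.Prime] (hR : IsPGroup p R) [Nontrivial R] :
    (∀ i : ℕ, 0 < i → Subgroup.center R ≤ Subgroup.centralizer ((Cfsg.puigSeq R i : Subgroup R) : Set R) ∧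
        Subgroup.centralizer ((Cfsg.puigSeq R i : Subgroup R) : Set R) ≤ Cfsg.puigSeq R i) ∧
      (Subgroup.center R ≤ Subgroup.centralizer ((Cfsg.puigLower R : Subgroup R) : Set R) ∧ Subgroup.centralizer ((Cfsg.puigLower R : Subgroup R) : Set R) ≤ Cfsg.puigLower R) ∧
      (Subgroup.center R ≤ Subgroup.centralizer ((Cfsg.puigSubgroup R : Subgroup R) : Set R) ∧ Subgroup.centralizer ((Cfsg.puigSubgroup R : Subgroup R) : Set R) ≤ Cfsg.puigSubgroup R) ∧
      Cfsg.puigSubgroup R ≠ ⊥ ∧ Cfsg.puigLower R ≠ ⊥ := by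
  open Cfsg.Agent.Lib.H1Puig in
  obtain ⟨k, hk⟩ := exists_stable (G := R)
  have hcen : ∀ X : Subgroup R, Subgroup.center R ≤ Subgroup.centralizer (X : Set R) := fun X =>
    Subgroup.center_le_centralizer _
  have hlow : Subgroup.centralizer ((Cfsg.puigLower R : Subgroup R) : Set R) ≤ Cfsg.puigLower R := by
    rw [← (hk (k + 1) (Nat.le_succ k)).1]
    exact centralizer_le_of_pgroup hR _ (by omega)
  have hup : Subgroup.centralizer ((Cfsg.puigSubgroup R : Subgroup R) : Set R) ≤ Cfsg.puigSubgroup R := by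
    rw [← (hk k le_rfl).2]
    exact centralizer_le_of_pgroup hR _ (by omega)
  have hbot : ∀ X : Subgroup R, Subgroup.centralizer (X : Set R) ≤ X → X ≠ ⊥ := by
    intro X hX h
    rw [h] at hX
    obtain ⟨x, hx⟩ := exists_ne (1 : R)
    have : x ∈ (⊥ : Subgroup R) := hX (by
      rw [Subgroup.mem_centralizer_iff]
      intro y hy
      simp only [Subgroup.coe_bot, Set.mem_singleton_iff] at hy
      simp [hy])
    exact hx (Subgroup.mem_bot.mp this)
  exact ⟨fun i hi => ⟨hcen _, centralizer_le_of_pgroup hR i hi⟩, ⟨hcen _, hlow⟩, ⟨hcen _, hup⟩,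
    hbot _ hup, hbot _ hlow⟩

end Cfsg.Agent.S1466
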