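import Cfsg.Statements.S1475
import Cfsg.Agent.Lib.H1FH
import Cfsg.Agent.Lib.H1Trace
import Cfsg.Agent.Lib.H1Hall

set_option autoImplicit false
open Cfsg

namespace Cfsg.Agent.S1475

theorem not_isPrimePow_mul {a p : ℕ} (hp : p.Prime) (ha : a ≠ 1) (hcop : a.Coprime p) :
    ¬ IsPrimePow (a * p) := by
  rw [isPrimePow_nat_iff]
  rintro ⟨s, k, hs, hk, e⟩
  have h1 : p ∣ s ^ k := by rw [e]; exact Dvd.intro_left a rfl
  have h2 : p = s := (Nat.prime_dvd_prime_iff_eq hp hs).mp (hp.dvd_of_dvd_pow h1)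
  subst h2
  have h3 : a ∣ p ^ k := by rw [e]; exact Dvd.intro p rfl
  have h4 : a.Coprime (p ^ k) := Nat.Coprime.pow_right k hcop
  exact ha (h4.eq_one_of_dvd h3)

/-- Let G be a finite solvable group such that the order of every element is a prime power (1 included). Then at most two distinct primes divide the order of G. -/
theorem result {G : Type*} [Group G] [Finite G] [Group.IsSolvable G] (h : ∀ g : G, IsPrimePow (orderOf g) ∨ g = 1) :
    (Nat.card G).primeFactors.card ≤ 2 := by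

  classical
  by_contra hcard
  rw [not_le] at hcard
  have hG1 : Nat.card G ≠ 1 := by
    intro h
    rw [h] at hcard
    simp at hcard
  haveI : Nontrivial G := by
    rw [← Finite.one_lt_card_iff_nontrivial]
    have := Nat.card_pos (α := G)
    omega
  -- a minimal normal subgroup
  obtain ⟨N, hNn, hNbot, hNmin⟩ := Cfsg.Agent.Lib.H1SZ.exists_minimal_normal (X := G)
  haveI := hNn
  obtain ⟨hNab, p, hp, hNexp⟩ := Cfsg.Agent.Lib.H1SZ.minimal_normal_elementary N hNbot hNmin
  haveI := hNab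
  haveI : Fact p.Prime := ⟨hp⟩
  -- a Hall `p'`-subgroup
  have hGpos : Nat.card G ≠ 0 := Nat.card_pos.ne'
  set v := (Nat.card G).factorization p with hv
  set m := (Nat.card G) / p ^ v with hm
  have hmul : Nat.card G = m * p ^ v := by
    have := Nat.ordProj_mul_ordCompl_eq_self (Nat.card G) p
    rw [mul_comm]; exact this.symm
  have hmcop : m.Coprime p := (Nat.coprime_ordCompl hp hGpos).symm
  obtain ⟨K, hK⟩ := Cfsg.Agent.Lib.H1Hall.hall_exists m (p ^ v) hmul (Nat.Coprime.pow_right v hmcop)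
  have hKcop : (Nat.card K).Coprime p := by rw [hK]; exact hmcop
  have hordK : ∀ a ∈ K, (orderOf a).Coprime p := by
    intro a ha
    have h1 : orderOf a ∣ Nat.card K := by
      have := orderOf_dvd_natCard (⟨a, ha⟩ : K)
      simpa using this
    exact Nat.Coprime.coprime_dvd_left h1 hKcop
  -- `K` acts fixed point freely
  have hfpf : ∀ a ∈ K, a ≠ 1 → N ⊓ Subgroup.centralizer {a} = ⊥ := by
    intro a ha ha1
    rw [eq_bot_iff]
    intro y hy
    obtain ⟨hyN, hyC⟩ := Subgroup.mem_inf.mp hy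
    rw [Subgroup.mem_bot]
    by_contra hy1
    have hyo : orderOf y = p := orderOf_eq_prime (hNexp y hyN) hy1
    have hc : Commute a y := (Subgroup.mem_centralizer_iff.mp hyC a rfl)
    have ho : orderOf (a * y) = orderOf a * orderOf y :=
      hc.orderOf_mul_eq_mul_orderOf_of_coprime (by rw [hyo]; exact hordK a ha)
    have ha' : orderOf a ≠ 1 := fun h => ha1 (orderOf_eq_one_iff.mp h)
    rcases h (a * y) with h1 | h1
    · rw [ho, hyo] at h1
      exact not_isPrimePow_mul hp ha' (hordK a ha) h1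
    · have : orderOf (a * y) = 1 := orderOf_eq_one_iff.mpr h1
      rw [ho, hyo] at this
      have h2 : p = 1 := Nat.eq_one_of_mul_eq_one_left this
      exact hp.one_lt.ne' h2
  -- primes of `K`
  have hprimes : ∀ r : ℕ, r.Prime → r ∣ Nat.card G → r ≠ p → r ∣ Nat.card K := by
    intro r hr hrG hrp
    rw [hK]
    rw [hmul] at hrG
    rcases (Nat.Prime.dvd_mul hr).mp hrG with h1 | h1
    · exact h1
    · exact absurd ((Nat.prime_dvd_prime_iff_eq hr hp).mp (hr.dvd_of_dvd_pow h1)) hrp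
  obtain ⟨a, b, hab⟩ : ∃ a b : ℕ, a ∈ (Nat.card G).primeFactors.erase p ∧
      b ∈ (Nat.card G).primeFactors.erase p ∧ a ≠ b := by
    have h1 : 1 < ((Nat.card G).primeFactors.erase p).card := by
      have h2 := Finset.pred_card_le_card_erase (s := (Nat.card G).primeFactors) (a := p)
      omega
    obtain ⟨a, ha, b, hb, hab⟩ := Finset.one_lt_card.mp h1
    exact ⟨a, b, ha, hb, hab⟩
  obtain ⟨hapr, hbpr, habne⟩ := hab
  obtain ⟨hap, hapG⟩ := Finset.mem_erase.mp hapr
  obtain ⟨hbp, hbpG⟩ := Finset.mem_erase.mp hbpr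
  have hapri : a.Prime := Nat.prime_of_mem_primeFactors hapG
  have hbpri : b.Prime := Nat.prime_of_mem_primeFactors hbpG
  have haK : a ∣ Nat.card K := hprimes a hapri (Nat.dvd_of_mem_primeFactors hapG) hap
  have hbK : b ∣ Nat.card K := hprimes b hbpri (Nat.dvd_of_mem_primeFactors hbpG) hbp
  -- a minimal normal subgroup of `K`
  haveI hKnt : Nontrivial K := by
    rw [← Finite.one_lt_card_iff_nontrivial]
    exact Nat.one_lt_iff_ne_zero_and_ne_one.mpr ⟨Nat.card_pos.ne', fun h => by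
      rw [h] at haK
      exact hapri.one_lt.ne' (Nat.dvd_one.mp haK)⟩
  obtain ⟨A₀, hA₀n, hA₀bot, hA₀min⟩ := Cfsg.Agent.Lib.H1SZ.exists_minimal_normal (X := K)
  haveI := hA₀n
  obtain ⟨hA₀ab, q, hq, hA₀exp⟩ := Cfsg.Agent.Lib.H1SZ.minimal_normal_elementary A₀ hA₀bot hA₀min
  set A : Subgroup G := A₀.map K.subtype with hA
  have hAK : A ≤ K := Subgroup.map_subtype_le A₀
  have hAab : IsMulCommutative A := by
    refine ⟨⟨?_⟩⟩
    rintro ⟨_, x, hx, rfl⟩ ⟨_, y, hy, rfl⟩
    apply Subtype.ext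
    have := congrArg Subtype.val (hA₀ab.is_comm.comm (⟨x, hx⟩ : A₀) ⟨y, hy⟩)
    show (x : G) * y = y * x
    exact congrArg Subtype.val this
  have hAexp : ∀ x ∈ A, x ^ q = 1 := by
    rintro _ ⟨x, hx, rfl⟩
    have := hA₀exp x hx
    have h2 := congrArg Subtype.val this
    simpa using h2
  have hAbot : A ≠ ⊥ := by
    intro h
    apply hA₀bot
    exact (Subgroup.map_eq_bot_iff_of_injective _ K.subtype_injective).mp h
  have hNK : K ≤ Subgroup.normalizer (N : Set G) := by
    rw [Subgroup.normalizer_eq_top_iff.mpr hNn]; exact le_top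
  -- `A` is cyclic of order `q`
  have hAcyc : IsCyclic A := Cfsg.Agent.Lib.H1Trace.cyclic_of_fpf A N hNbot (hAK.trans hNK)
    (fun x hx hx1 => hfpf x (hAK hx) hx1) (Or.inl hAab)
  have hAcard : Nat.card A = q := by
    obtain ⟨g, hg⟩ := hAcyc.exists_generator
    have h1 : Nat.card A = orderOf g := (orderOf_eq_card_of_forall_mem_zpowers hg).symm
    have h2 : g ^ q = 1 := by
      apply Subtype.ext
      have := hAexp g g.2
      simpa using this
    have h3 : orderOf g = q ∨ orderOf g = 1 := by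
      have := (Nat.dvd_prime hq).mp (orderOf_dvd_of_pow_eq_one h2)
      tauto
    rcases h3 with h3 | h3
    · rw [h1, h3]
    · exfalso
      apply hAbot
      rw [h3] at h1
      exact Subgroup.eq_bot_of_card_eq A h1
  -- choose `r ≠ q`
  obtain ⟨r, hr, hrK, hrq⟩ : ∃ r : ℕ, r.Prime ∧ r ∣ Nat.card K ∧ r ≠ q := by
    by_cases haq : a = q
    · refine ⟨b, hbpri, hbK, ?_⟩
      rw [← haq]
      exact fun h => habne h.symm
    · exact ⟨a, hapri, haK, haq⟩
  haveI : Fact r.Prime := ⟨hr⟩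
  obtain ⟨x₀, hx₀⟩ := exists_prime_orderOf_dvd_card' (G := K) r hrK
  set x : G := x₀.1 with hx
  have hxK : x ∈ K := x₀.2
  have hxo : orderOf x = r := by
    rw [← hx₀, hx]
    simp [Subgroup.orderOf_coe]
  set Z : Subgroup G := Subgroup.zpowers x with hZ
  have hZK : Z ≤ K := Subgroup.zpowers_le.mpr hxK
  have hZcard : Nat.card Z = r := by rw [hZ, Nat.card_zpowers, hxo]
  have hZA : Z ≤ Subgroup.normalizer (A : Set G) := by
    rw [hZ, Subgroup.zpowers_le]
    rw [Subgroup.mem_normalizer_iff]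
    intro y
    constructor
    · rintro ⟨y₀, hy₀, rfl⟩
      exact ⟨x₀ * y₀ * x₀⁻¹, hA₀n.conj_mem y₀ hy₀ x₀, by simp [hx]⟩
    · rintro ⟨y₀, hy₀, hye⟩
      have hyK : y ∈ K := by
        have h1 : x * y * x⁻¹ ∈ K := by rw [← hye]; exact y₀.2
        have h2 := K.mul_mem (K.mul_mem (K.inv_mem hxK) h1) hxK
        have e : x⁻¹ * (x * y * x⁻¹) * x = y := by group
        rwa [e] at h2
      have h3 : (⟨y, hyK⟩ : K) = x₀⁻¹ * y₀ * x₀ := by
        apply Subtype.ext
        simp only [Subgroup.coe_mul, Subgroup.coe_inv]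
        have hye' : (y₀ : G) = x * y * x⁻¹ := hye
        rw [hye', ← hx]
        group
      refine ⟨⟨y, hyK⟩, ?_, rfl⟩
      rw [h3]
      have := hA₀n.conj_mem y₀ hy₀ x₀⁻¹
      simpa using this
  have hcopZA : (Nat.card Z).Coprime (Nat.card A) := by
    rw [hZcard, hAcard]
    exact (Nat.coprime_primes hr hq).mpr hrq
  have hTcard : Nat.card (A ⊔ Z : Subgroup G) = Nat.card A * Nat.card Z :=
    Cfsg.Agent.Lib.H1Cop.card_sup_of_coprime hZA hcopZA
  set T : Subgroup G := A ⊔ Z with hT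
  have hTK : T ≤ K := sup_le hAK hZK
  have hTcyc : IsCyclic T := Cfsg.Agent.Lib.H1Trace.cyclic_of_fpf T N hNbot (hTK.trans hNK)
    (fun y hy hy1 => hfpf y (hTK hy) hy1)
    (Or.inr ⟨q, r, hq, hr, by rw [hTcard, hAcard, hZcard]⟩)
  obtain ⟨g, hg⟩ := hTcyc.exists_generator
  have hgo : orderOf g = q * r := by
    rw [orderOf_eq_card_of_forall_mem_zpowers hg, hTcard, hAcard, hZcard]
  have hgo' : orderOf (g : G) = q * r := by
    rw [← hgo, Subgroup.orderOf_coe]
  rcases h (g : G) with h1 | h1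
  · rw [hgo'] at h1
    exact not_isPrimePow_mul hr (fun h2 => hq.one_lt.ne' h2) ((Nat.coprime_primes hq hr).mpr hrq.symm) h1
  · have : orderOf (g : G) = 1 := orderOf_eq_one_iff.mpr h1
    rw [hgo'] at this
    have h2 : q = 1 := Nat.eq_one_of_mul_eq_one_right this
    exact hq.one_lt.ne' h2

end Cfsg.Agent.S1475
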