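import Cfsg.Statements.S1491
import Cfsg.Agent.Lib.CharAbQ

set_option autoImplicit false
open Cfsg

namespace Cfsg.Agent.S1491

/-- Let H be a normal subgroup of the finite group G and θ an irreducible character of H with inertia group T, where T/H is abelian (commutators of T lie in H) and the index of H in T is coprime to the order of H. Then the function induced from θ is the sum of a set of exactly [T:H] irreducible characters of G, each of degree [G:T] * θ(1). -/
theorem result {G : Type*} [Group G] [Fintype G] (H T : Subgroup G) [hN : H.Normal] (θ : H → ℂ) (hθ : Cfsg.IsIrrCharacter H θ) (hT : ∀ g : G, g ∈ T ↔ ∀ h : H, θ ⟨g * h * g⁻¹, hN.conj_mem h h.2 g⟩ = θ h) (hab : ∀ x ∈ T, ∀ y ∈ T, x * y * x⁻¹ * y⁻¹ ∈ H) (hcop : Nat.Coprime (Nat.card H) (H.relIndex T)) : ∃ C : Finset (G → ℂ), (∀ χ ∈ C, Cfsg.IsIrrCharacter G χ) ∧ C.card = H.relIndex T ∧ Cfsg.indFun H θ = ∑ χ ∈ C, χ ∧ ∀ χ ∈ C, χ 1 = (T.index : ℂ) * θ 1 := by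
  classical
  open Cfsg.Agent.Lib.CharAbQ Cfsg.Agent.Lib.CharOrth Cfsg.Agent.Lib.CharAlg in
  obtain ⟨e, C, h0, h1, h2, h3, h4, h5⟩ := abq_G H T hθ hT hab
  have hHT : H ≤ T := by
    intro x hx
    rw [hT]
    intro h
    exact classFunction_of_isIrrCharacter hθ h ⟨x, hx⟩
  have := Fintype.ofFinite T
  let L : Subgroup T := H.subgroupOf T
  haveI hL : L.Normal := Subgroup.normal_subgroupOf
  let eqv : L ≃* H := Subgroup.subgroupOfEquivOfLe hHT
  let θ' : L → ℂ := θ ∘ eqv
  have := Fintype.ofFinite L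
  have hθ' : Cfsg.IsIrrCharacter L θ' :=
    Cfsg.Agent.Lib.CharAlg.IsIrrCharacter.comp_surjective hθ eqv.toMonoidHom eqv.surjective
  have hinv' : ∀ (g : T) (n : L), θ' ⟨g * n * g⁻¹, hL.conj_mem n n.2 g⟩ = θ' n := by
    intro g n
    exact (hT g).1 g.2 (eqv n)
  have hLc : Nat.card L = Nat.card H := Nat.card_congr eqv.toEquiv
  have hc : Nat.Coprime (Nat.card L) L.index := by
    rw [hLc]
    exact hcop
  obtain ⟨ψ, hψ, hψe⟩ := exists_ext_coprime L hθ' hinv' hc
  have he1 : e = 1 := h5 hHT ψ hψ (fun n => hψe (eqv.symm n) |>.trans (by simp [θ']))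
  subst he1
  refine ⟨C, h1, ?_, ?_, ?_⟩
  · have h6 : Nat.card L * L.index = Nat.card T := by
      rw [mul_comm]
      exact L.index_mul_card
    rw [hLc] at h6
    have h7 : C.card * Nat.card H = L.index * Nat.card H := by
      rw [mul_comm L.index, h6]
      simpa using h2
    exact Nat.eq_of_mul_eq_mul_right Nat.card_pos h7
  · simpa using h3
  · intro χ hχ
    simpa using h4 χ hχ

end Cfsg.Agent.S1491
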