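import Cfsg.Statements.S1524
import Cfsg.Agent.Lib.CharCoh8

set_option autoImplicit false
open Cfsg

namespace Cfsg.Agent.S1524

/-- Let G be a finite group and H ≤ L subgroups with L of odd order, H ≠ ⊥ nilpotent and normal in L with a nontrivial complement W₁ in L (H ⊓ W₁ = ⊥, H ⊔ W₁ = L) acting on H without non-identity fixed points (L is a Frobenius group with kernel H), and suppose the underlying set of H is a TI-subset of G whose normaliser is L. Let S be the set of functions on L induced from the non-principal irreducible characters of H. Then (S, L minus 1, induction to G) is coherent. -/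
theorem result {G : Type*} [Group G] [Fintype G] (H L W₁ : Subgroup G) [Fintype L] (hodd : Odd (Nat.card L)) (hHL : H ≤ L) (hW₁L : W₁ ≤ L) (hH1 : H ≠ ⊥) (hW1 : W₁ ≠ ⊥) (hnil : Group.IsNilpotent H) (hHn : ∀ x ∈ L, ∀ h ∈ H, x * h * x⁻¹ ∈ H) (hinf : H ⊓ W₁ = ⊥) (hsup : H ⊔ W₁ = L) (hfpf : ∀ w ∈ W₁, w ≠ 1 → ∀ h ∈ H, w * h = h * w → h = 1) (hTI : Cfsg.IsTISubset (H : Set G)) (hN : Subgroup.normalizer (H : Set G) = L) : Cfsg.IsCoherent (Cfsg.inducedIrrAbove (H.subgroupOf L) ⊥) {1}ᶜ (fun α : L → ℂ => Cfsg.indFun L α) := by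
  classical
  subst hN
  have hsup' : H.subgroupOf (Subgroup.normalizer (H : Set G)) ⊔ W₁.subgroupOf (Subgroup.normalizer (H : Set G)) = ⊤ := by
    rw [← Subgroup.subgroupOf_sup hHL hW₁L, hsup, Subgroup.subgroupOf_self]
  haveI hKn : (H.subgroupOf (Subgroup.normalizer (H : Set G))).Normal := Subgroup.normal_in_normalizer
  have hF := Cfsg.Agent.Lib.CharCoh8.frob_of_complement (H.subgroupOf (Subgroup.normalizer (H : Set G))) (W₁.subgroupOf (Subgroup.normalizer (H : Set G))) hsup' (by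
    intro w hw hw1 h hh hc
    have h1 := hfpf (w : G) (Subgroup.mem_subgroupOf.mp hw) (fun h2 => hw1 (Subtype.ext h2)) (h : G) (Subgroup.mem_subgroupOf.mp hh) (congrArg Subtype.val hc)
    exact Subtype.ext h1)
  refine Cfsg.Agent.Lib.CharCoh8.s1524_main H W₁ hodd hH1 hF ?_ hTI
  intro h
  apply hW1
  rw [eq_bot_iff]
  intro w hw
  have h1 : (⟨w, hW₁L hw⟩ : ↥(Subgroup.normalizer (H : Set G))) ∈ H.subgroupOf (Subgroup.normalizer (H : Set G)) := by
    rw [h]; trivial
  have h2 : w ∈ H ⊓ W₁ := ⟨Subgroup.mem_subgroupOf.mp h1, hw⟩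
  rw [hinf] at h2
  exact h2

end Cfsg.Agent.S1524
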