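import Cfsg.Statements.S1552
import Cfsg.Agent.Lib.H7Sx

set_option autoImplicit false
open scoped Pointwise
open Cfsg

namespace Cfsg.Agent.S1552
open Cfsg.Agent.Lib Cfsg.Agent.Lib.H7Sx Cfsg.Agent.Lib.GolayFam Cfsg.Agent.Lib.GolayCount

/-- A sextet stabiliser has four orbits on the 1771 sextets, of sizes 1, 90, 240, 1440; and the stabiliser is a maximal proper subgroup. -/
theorem result (S : Finset (Finset Cfsg.GolayPt)) (hS : S ∈ Cfsg.sextets) : ∃ X₁ ∈ Cfsg.sextets, ∃ X₂ ∈ Cfsg.sextets, ∃ X₃ ∈ Cfsg.sextets, (MulAction.orbit ↥(MulAction.stabilizer Cfsg.M24 S) X₁).ncard = 90 ∧ (MulAction.orbit ↥(MulAction.stabilizer Cfsg.M24 S) X₂).ncard = 240 ∧ (MulAction.orbit ↥(MulAction.stabilizer Cfsg.M24 S) X₃).ncard = 1440 ∧ Cfsg.sextets = {S} ∪ MulAction.orbit ↥(MulAction.stabilizer Cfsg.M24 S) X₁ ∪ MulAction.orbit ↥(MulAction.stabilizer Cfsg.M24 S) X₂ ∪ MulAction.orbit ↥(MulAction.stabilizer Cfsg.M24 S) X₃ ∧ IsCoatom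 (MulAction.stabilizer Cfsg.M24 S) := by
  classical
  obtain ⟨a1, ha1, k1⟩ := fam.exists_rep hS (i := 1) (by norm_num)
  obtain ⟨a2, ha2, k2⟩ := fam.exists_rep hS (i := 5) (by norm_num)
  obtain ⟨a3, ha3, k3⟩ := fam.exists_rep hS (i := 7) (by norm_num)
  rw [hkv.1] at k1
  rw [hkv.2.1] at k2
  rw [hkv.2.2.1] at k3
  refine ⟨a1, ha1, a2, ha2, a3, ha3, (fam.orbit_ncard hS ha1 k1).trans c1, (fam.orbit_ncard hS ha2 k2).trans c2,
    (fam.orbit_ncard hS ha3 k3).trans c3, ?_, ?_⟩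
  · ext x
    rw [Set.mem_union, Set.mem_union, Set.mem_union, fam.orbit_eq hS ha1, fam.orbit_eq hS ha2, fam.orbit_eq hS ha3, k1, k2, k3]
    simp only [Set.mem_singleton_iff, Set.mem_ofPred_eq]
    constructor
    · intro hx
      obtain ⟨i, hi, h1⟩ := fam.exists_key hS hx
      rcases vals i hi with h | h | h | h
      · exact Or.inr ⟨hx, h1.trans h⟩
      · exact Or.inl (Or.inr ⟨hx, h1.trans h⟩)
      · exact Or.inl (Or.inl (Or.inr ⟨hx, h1.trans h⟩))
      · refine Or.inl (Or.inl (Or.inl ?_))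
        exact fam.eq_of_key hself hS hx (by rw [h1, h, hkv.2.2.2])
    · rintro (((rfl | ⟨h, -⟩) | ⟨h, -⟩) | ⟨h, -⟩)
      · exact hS
      · exact h
      · exact h
      · exact h
  · refine fam.coatom hself hS ({32, 36, 48, 96} : Finset ℕ) ?_ ?_ ?_ ⟨1, by norm_num, by norm_num⟩
    · intro i hi
      rcases vals i hi with h | h | h | h <;> rw [h] <;> decide
    · intro t ht
      have ht' : t = 32 ∨ t = 36 ∨ t = 48 ∨ t = 96 := by simpa using ht
      rcases ht' with rfl | rfl | rfl | rfl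
      · exact ⟨7, by norm_num, hkv.2.2.1⟩
      · exact ⟨5, by norm_num, hkv.2.1⟩
      · exact ⟨1, by norm_num, hkv.1⟩
      · exact ⟨0, by norm_num, hkv.2.2.2⟩
    · intro U hU h0 hd
      rw [hkv.2.2.2] at h0 ⊢
      rw [Finset.sum_congr rfl (fun t ht => hcnt t (hU ht))] at hd
      exact hdiv_check U hU h0 hd


end Cfsg.Agent.S1552
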