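import Cfsg.Statements.S1555
import Cfsg.Agent.Lib.GolayKit

set_option autoImplicit false
set_option linter.unusedSimpArgs false
set_option linter.unusedVariables false
open scoped Pointwise
open Cfsg

namespace Cfsg.Agent.S1555
open Cfsg.Agent.Lib
open scoped Pointwise
open Cfsg.Agent.Lib.GolayBasic Cfsg.Agent.Lib.GolayCode Cfsg.Agent.Lib.GolayPerm Cfsg.Agent.Lib.GolayOrder Cfsg.Agent.Lib.GolayFacts Cfsg.Agent.Lib.GolayM23 Cfsg.Agent.Lib.GolayChain Cfsg.Agent.Lib.GolayM12 Cfsg.Agent.Lib.GolayCount Cfsg.Agent.Lib.GolayTools Cfsg.Agent.Lib.GolayOctad Cfsg.Agent.Lib.GolayForest Cfsg.Agent.Lib.GolayKit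



/-- Bottom row of the Leech triangle: an octad is met in a prescribed pair of its points by exactly 16 octads and in a prescribed 4-subset by exactly 4 octads. -/
theorem result (o : Finset Cfsg.GolayPt) (ho : o ∈ Cfsg.octads) (s : Finset Cfsg.GolayPt) (hs : s ⊆ o) : (s.card = 2 → {o' : Finset Cfsg.GolayPt | o' ∈ Cfsg.octads ∧ o ∩ o' = s}.ncard = 16) ∧ (s.card = 4 → {o' : Finset Cfsg.GolayPt | o' ∈ Cfsg.octads ∧ o ∩ o' = s}.ncard = 4) := by
  classical
  have key : ∀ k, k ≤ 5 → s.card = k → {o' : Finset GolayPt | o' ∈ octads ∧ o ∩ o' = s}.ncard = countBelow (fun i => Nat.beq (Nat.land O0 (octAt i)) (maskB k)) 759 := by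
    intro k hk hc
    obtain ⟨y, h1, h2, h3⟩ := exists_enum s
    rw [hc] at h1 h2 h3
    obtain ⟨w, hw, hwo, hwy⟩ := exists_octad_flag ho y hk (fun i hi => hs (h1 i hi)) h2
    have hwm : w • GolayBasic.setOf (maskB k) = s := by
      rw [setOf_maskB (by omega)]
      ext p
      rw [Finset.mem_smul_finset]
      constructor
      · rintro ⟨z, hz, rfl⟩
        obtain ⟨i, hi, rfl⟩ := Finset.mem_image.1 hz
        rw [Finset.mem_range] at hi
        rw [Equiv.Perm.smul_def, hwy i hi]
        exact h1 i hi
      · intro hp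
        obtain ⟨i, hi, rfl⟩ := h3 p hp
        exact ⟨ptOf (b i), Finset.mem_image.2 ⟨i, Finset.mem_range.2 hi, rfl⟩, by rw [Equiv.Perm.smul_def, hwy i hi]⟩
    subst hwo
    subst hwm
    apply ncard_oct_transport hw (fun a => GolayBasic.setOf O0 ∩ a = GolayBasic.setOf (maskB k))
    · intro a
      rw [← Finset.smul_finset_inter]
      exact (MulAction.injective w).eq_iff
    · intro i hi
      rw [← setOf_land, Nat.beq_eq]
      constructor
      · intro h
        exact setOf_injOn (land_lt (by decide +kernel)) (by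
          have : maskB k < 2 ^ 24 := by
            have h5 : ∀ k ≤ 5, maskB k < 2 ^ 24 := by decide +kernel
            exact h5 k hk
          exact this) h
      · intro h
        have h2 : O0 &&& octAt i = maskB k := h
        rw [h2]
  constructor
  · intro hc
    exact (key 2 (by norm_num) hc).trans (by decide +kernel)
  · intro hc
    exact (key 4 (by norm_num) hc).trans (by decide +kernel)

end Cfsg.Agent.S1555
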