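import Cfsg.Statements.S1557
import Cfsg.Agent.Lib.GolayKit

set_option autoImplicit false
set_option linter.unusedSimpArgs false
set_option linter.unusedVariables false
open scoped Pointwise
open Cfsg

namespace Cfsg.Agent.S1557
open Cfsg.Agent.Lib
open scoped Pointwise
open Cfsg.Agent.Lib.GolayBasic Cfsg.Agent.Lib.GolayCode Cfsg.Agent.Lib.GolayPerm Cfsg.Agent.Lib.GolayOrder Cfsg.Agent.Lib.GolayFacts Cfsg.Agent.Lib.GolayM23 Cfsg.Agent.Lib.GolayChain Cfsg.Agent.Lib.GolayM12 Cfsg.Agent.Lib.GolayCount Cfsg.Agent.Lib.GolayTools Cfsg.Agent.Lib.GolayOctad Cfsg.Agent.Lib.GolayForest Cfsg.Agent.Lib.GolayKit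

/-- points are 24 -/
theorem card_pts : Fintype.card GolayPt = 24 := by decide

theorem part1 (o o' : Finset GolayPt) (ho : o ∈ octads) (ho' : o' ∈ octads) (hd : Disjoint o o') : (o ∪ o')ᶜ ∈ octads := by
  classical
  obtain ⟨i, hi, rfl⟩ := mem_octads_iff.1 ho
  obtain ⟨j, hj, rfl⟩ := mem_octads_iff.1 ho'
  have hc1 : InCode (octAt i ^^^ octAt j) := (octAt_inCode hi).xor (octAt_inCode hj)
  have hall : InCode allMask := by decide +kernel
  have hc2 : InCode (allMask ^^^ (octAt i ^^^ octAt j)) := hall.xor hc1
  have hu : GolayBasic.setOf (octAt i) ∪ GolayBasic.setOf (octAt j) = GolayBasic.setOf (octAt i ^^^ octAt j) := by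
    rw [setOf_xor, hd.symmDiff_eq_sup]
    rfl
  have hcc : (GolayBasic.setOf (octAt i) ∪ GolayBasic.setOf (octAt j))ᶜ = GolayBasic.setOf (allMask ^^^ (octAt i ^^^ octAt j)) := by
    rw [hu, setOf_compl hc1.1]
  rw [hcc, setOf_mem_octads hc2.1]
  refine ⟨hc2, ?_⟩
  rw [← card_setOf, ← hcc, Finset.card_compl, card_pts, Finset.card_union_of_disjoint hd, card_setOf, card_setOf, octAt_pc hi, octAt_pc hj]

/-- the pair count -/
def sumBelow (f : ℕ → ℕ) : ℕ → ℕ
  | 0 => 0
  | n + 1 => Nat.add (sumBelow f n) (f n)

theorem sumBelow_eq (f : ℕ → ℕ) (n : ℕ) : sumBelow f n = ∑ i ∈ Finset.range n, f i := by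
  induction n with
  | zero => rfl
  | succ n ih => rw [Finset.sum_range_succ, ← ih]; rfl

/-- condition on a pair of indices -/
def fP (i j : ℕ) : Bool :=
  cond (tb (octAt i) 0) (Nat.beq (Nat.land (octAt i) (octAt j)) 0 && Nat.blt (octAt j) (Nat.xor allMask (Nat.xor (octAt i) (octAt j)))) false

theorem count_check : sumBelow (fun i => countBelow (fP i) 759) 759 = 3795 := by decide +kernel

/-- the pairs of indices -/
@[irreducible] noncomputable def PP : Finset (Σ _ : ℕ, ℕ) := (Finset.range 759).sigma (fun i => (Finset.range 759).filter (fun j => fP i j = true))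

theorem hPcard : PP.card = 3795 := by
  unfold PP
  rw [Finset.card_sigma, ← count_check, sumBelow_eq]
  apply Finset.sum_congr rfl
  intro i _
  rw [countBelow_eq]

theorem hPmem {i j : ℕ} : (⟨i, j⟩ : Σ _ : ℕ, ℕ) ∈ PP ↔ i < 759 ∧ j < 759 ∧ fP i j = true := by
  unfold PP
  simp only [Finset.mem_sigma, Finset.mem_range, Finset.mem_filter]

theorem perm_a {α : Type*} [DecidableEq α] (a b c : α) : ({a, c, b} : Finset α) = {a, b, c} := by
  ext t
  simp only [Finset.mem_insert, Finset.mem_singleton]
  tauto

theorem perm_b {α : Type*} [DecidableEq α] (a b c : α) : ({b, a, c} : Finset α) = {a, b, c} := by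
  ext t
  simp only [Finset.mem_insert, Finset.mem_singleton]
  tauto

theorem perm_c {α : Type*} [DecidableEq α] (a b c : α) : ({c, a, b} : Finset α) = {a, b, c} := by
  ext t
  simp only [Finset.mem_insert, Finset.mem_singleton]
  tauto

/-- the three octads -/
noncomputable def phi (i j : ℕ) : Finset (Finset GolayPt) :=
  {GolayBasic.setOf (octAt i), GolayBasic.setOf (octAt j), GolayBasic.setOf (allMask ^^^ (octAt i ^^^ octAt j))}



/-- The complement of the union of two disjoint octads is an octad, and the code has exactly 3795 trios of pairwise disjoint octads. -/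
theorem result : (∀ o o' : Finset Cfsg.GolayPt, o ∈ Cfsg.octads → o' ∈ Cfsg.octads → Disjoint o o' → (o ∪ o')ᶜ ∈ Cfsg.octads) ∧ Cfsg.trios.ncard = 3795 := by
  classical
  refine ⟨part1, ?_⟩
  have hdisj : ∀ {i j : ℕ}, Nat.land (octAt i) (octAt j) = 0 → Disjoint (GolayBasic.setOf (octAt i)) (GolayBasic.setOf (octAt j)) := by
    intro i j h
    rw [Finset.disjoint_iff_inter_eq_empty, ← setOf_land]
    have h2 : octAt i &&& octAt j = 0 := h
    rw [h2]
    ext p
    simp
  have hl24 : ∀ {i : ℕ}, i < 759 → octAt i < 2 ^ 24 := fun hi => (octAt_inCode hi).1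
  have hdisj' : ∀ {i j : ℕ}, i < 759 → Disjoint (GolayBasic.setOf (octAt i)) (GolayBasic.setOf (octAt j)) → Nat.land (octAt i) (octAt j) = 0 := by
    intro i j hi h
    have h3 := (disjoint_setOf (hl24 hi)).1 h
    exact Nat.eq_of_beq_eq_true h3
  -- complement facts
  have hthird : ∀ {i j : ℕ}, i < 759 → j < 759 → Nat.land (octAt i) (octAt j) = 0 →
      GolayBasic.setOf (allMask ^^^ (octAt i ^^^ octAt j)) = (GolayBasic.setOf (octAt i) ∪ GolayBasic.setOf (octAt j))ᶜ := by
    intro i j hi hj h
    have hc1 : InCode (octAt i ^^^ octAt j) := (octAt_inCode hi).xor (octAt_inCode hj)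
    rw [← setOf_compl hc1.1, setOf_xor, (hdisj h).symmDiff_eq_sup]
    rfl
  have hfP : ∀ {i j : ℕ}, fP i j = true → (octAt i).testBit 0 = true ∧ Nat.land (octAt i) (octAt j) = 0 ∧ octAt j < allMask ^^^ (octAt i ^^^ octAt j) := by
    intro i j h
    unfold fP at h
    cases h1 : tb (octAt i) 0 with
    | false =>
      rw [h1] at h
      simp at h
    | true =>
      rw [h1, cond_true, Bool.and_eq_true] at h
      refine ⟨by rw [← tb_eq]; exact h1, Nat.eq_of_beq_eq_true h.1, ?_⟩
      have h3 : Nat.ble (octAt j + 1) _ = true := h.2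
      exact Nat.le_of_ble_eq_true h3
  have hfP' : ∀ {i j : ℕ}, (octAt i).testBit 0 = true → Nat.land (octAt i) (octAt j) = 0 → octAt j < allMask ^^^ (octAt i ^^^ octAt j) → fP i j = true := by
    intro i j h1 h2 h3
    unfold fP
    rw [tb_eq, h1, cond_true, Bool.and_eq_true, h2]
    refine ⟨Nat.beq_refl 0, ?_⟩
    exact Nat.ble_eq_true_of_le h3
  have hzero : ∀ {i j : ℕ}, i < 759 → j < 759 → fP i j = true →
      ptOf 0 ∉ GolayBasic.setOf (octAt j) ∧ ptOf 0 ∉ GolayBasic.setOf (allMask ^^^ (octAt i ^^^ octAt j)) := by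
    intro i j hi hj h
    obtain ⟨h1, h2, h3⟩ := hfP h
    have h0 : ptOf 0 ∈ GolayBasic.setOf (octAt i) := (mem_setOf_pt (by norm_num)).2 h1
    have hd := hdisj h2
    constructor
    · exact fun h' => (Finset.disjoint_left.1 hd) h0 h'
    · rw [hthird hi hj h2]
      simp only [Finset.mem_compl, Finset.mem_union, not_or]
      exact fun h' => h'.1 h0
  have hthirdOct : ∀ {i j : ℕ}, i < 759 → j < 759 → Nat.land (octAt i) (octAt j) = 0 → GolayBasic.setOf (allMask ^^^ (octAt i ^^^ octAt j)) ∈ octads := by
    intro i j hi hj h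
    rw [hthird hi hj h]
    exact part1 _ _ (mem_octads_iff.2 ⟨i, hi, rfl⟩) (mem_octads_iff.2 ⟨j, hj, rfl⟩) (hdisj h)
  have hinj : Set.InjOn (fun x : Σ _ : ℕ, ℕ => phi x.1 x.2) (PP : Set (Σ _ : ℕ, ℕ)) := by
    rintro ⟨i, j⟩ hx ⟨i', j'⟩ hx' he
    have hx1 := hPmem.1 (Finset.mem_coe.1 hx)
    have hx2 := hPmem.1 (Finset.mem_coe.1 hx')
    simp only at he
    obtain ⟨hi, hj, hf⟩ := hx1
    obtain ⟨hi', hj', hf'⟩ := hx2
    obtain ⟨z1, z2⟩ := hzero hi hj hf
    obtain ⟨z1', z2'⟩ := hzero hi' hj' hf'
    obtain ⟨h1, h2, h3⟩ := hfP hf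
    obtain ⟨h1', h2', h3'⟩ := hfP hf'
    have h0 : ptOf 0 ∈ GolayBasic.setOf (octAt i) := (mem_setOf_pt (by norm_num)).2 h1
    have h0' : ptOf 0 ∈ GolayBasic.setOf (octAt i') := (mem_setOf_pt (by norm_num)).2 h1'
    -- first octad agrees
    have ha : GolayBasic.setOf (octAt i) ∈ phi i' j' := by
      rw [← he]; simp [phi]
    have hii : GolayBasic.setOf (octAt i) = GolayBasic.setOf (octAt i') := by
      simp only [phi, Finset.mem_insert, Finset.mem_singleton] at ha
      rcases ha with ha | ha | ha
      · exact ha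
      · rw [ha] at h0; exact absurd h0 z1'
      · rw [ha] at h0; exact absurd h0 z2'
    have hi2 : i = i' := setOf_octAt_inj hi hi' hii
    subst hi2
    have hb : GolayBasic.setOf (octAt j) ∈ phi i j' := by
      rw [← he]; simp [phi]
    have hb2 : GolayBasic.setOf (allMask ^^^ (octAt i ^^^ octAt j)) ∈ phi i j' := by
      rw [← he]; simp [phi]
    have hjlt : octAt j < 2 ^ 24 := hl24 hj
    have hjlt' : octAt j' < 2 ^ 24 := hl24 hj'
    have hclt : ∀ {j : ℕ}, j < 759 → (allMask ^^^ (octAt i ^^^ octAt j)) < 2 ^ 24 := fun {j} hj => by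
      have hall : InCode allMask := by decide +kernel
      exact (hall.xor ((octAt_inCode hi).xor (octAt_inCode hj))).1
    -- the two others
    have hne : GolayBasic.setOf (octAt j) ≠ GolayBasic.setOf (octAt i) := fun h => by
      rw [← h] at h0; exact z1 h0
    have hne2 : GolayBasic.setOf (allMask ^^^ (octAt i ^^^ octAt j)) ≠ GolayBasic.setOf (octAt i) := fun h => by
      rw [← h] at h0; exact z2 h0
    simp only [phi, Finset.mem_insert, Finset.mem_singleton] at hb hb2
    rcases hb with hb | hb | hb
    · exact absurd hb hne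
    · have := setOf_octAt_inj hj hj' hb
      subst this
      rfl
    · -- then the third equals the second
      rcases hb2 with hb2 | hb2 | hb2
      · exact absurd hb2 hne2
      · have e1 := setOf_injOn hjlt (hclt hj') hb
        have e2 := setOf_injOn (hclt hj) hjlt' hb2
        have h3a : octAt j < octAt j' := by rw [e2] at h3; exact h3
        have h3b : octAt j' < octAt j := by rw [← e1] at h3'; exact h3'
        exact absurd h3a (not_lt.2 h3b.le)
      · -- both equal the same octad: contradiction with disjointness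
        exfalso
        have hd1 : Disjoint (GolayBasic.setOf (octAt j)) (GolayBasic.setOf (allMask ^^^ (octAt i ^^^ octAt j))) := by
          rw [hthird hi hj h2, Finset.disjoint_left]
          intro p hp
          simp only [Finset.mem_compl, Finset.mem_union, not_or, not_not]
          exact fun h' => h'.2 hp
        rw [hb, hb2, disjoint_self] at hd1
        have hj8 : (GolayBasic.setOf (octAt j)).card = 8 := by rw [card_setOf, octAt_pc hj]
        rw [hb] at hj8
        rw [show GolayBasic.setOf (allMask ^^^ (octAt i ^^^ octAt j')) = ⊥ from hd1] at hj8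
        simp at hj8
  have hset : trios = ((PP.image (fun x : Σ _ : ℕ, ℕ => phi x.1 x.2) : Finset _) : Set (Finset (Finset GolayPt))) := by
    ext T
    simp only [Finset.coe_image, Set.mem_image, Finset.mem_coe]
    constructor
    · rintro ⟨h1, h2, h3⟩
      obtain ⟨x, y, z, hxy, hxz, hyz, rfl⟩ := Finset.card_eq_three.1 h1
      have hx : x ∈ octads := h2 x (by simp)
      have hy : y ∈ octads := h2 y (by simp)
      have hz : z ∈ octads := h2 z (by simp)
      have dxy : Disjoint x y := h3 x (by simp) y (by simp) hxy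
      have dxz : Disjoint x z := h3 x (by simp) z (by simp) hxz
      have dyz : Disjoint y z := h3 y (by simp) z (by simp) hyz
      -- normal form
      have norm : ∀ {x y z : Finset GolayPt}, x ∈ octads → y ∈ octads → z ∈ octads → Disjoint x y → Disjoint x z → Disjoint y z → ptOf 0 ∈ x →
          ∃ X ∈ PP, phi X.1 X.2 = ({x, y, z} : Finset (Finset GolayPt)) := by
        intro x y z hx hy hz dxy dxz dyz h0
        obtain ⟨i, hi, rfl⟩ := mem_octads_iff.1 hx
        have hcomp : z = (GolayBasic.setOf (octAt i) ∪ y)ᶜ := by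
          apply Finset.eq_of_subset_of_card_le
          · intro p hp
            simp only [Finset.mem_compl, Finset.mem_union, not_or]
            exact ⟨fun h' => (Finset.disjoint_left.1 dxz) h' hp, fun h' => (Finset.disjoint_left.1 dyz) h' hp⟩
          · rw [Finset.card_compl, card_pts, Finset.card_union_of_disjoint dxy, steiner.1 _ hx, steiner.1 _ hy, steiner.1 _ hz]
        obtain ⟨j, hj, rfl⟩ := mem_octads_iff.1 hy
        obtain ⟨l, hl, rfl⟩ := mem_octads_iff.1 hz
        have hl1 := hdisj' hi dxy
        have hl2 := hdisj' hi dxz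
        have hl3 := hdisj' hj dyz
        have h01 : (octAt i).testBit 0 = true := (mem_setOf_pt (by norm_num)).1 h0
        have hth1 : GolayBasic.setOf (allMask ^^^ (octAt i ^^^ octAt j)) = GolayBasic.setOf (octAt l) := by
          rw [hthird hi hj hl1, hcomp]
        have hth2 : GolayBasic.setOf (allMask ^^^ (octAt i ^^^ octAt l)) = GolayBasic.setOf (octAt j) := by
          rw [hthird hi hl hl2]
          apply Finset.eq_of_subset_of_card_le
          · intro p hp
            simp only [Finset.mem_compl, Finset.mem_union, not_or] at hp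
            by_contra hne
            have : p ∈ (GolayBasic.setOf (octAt i) ∪ GolayBasic.setOf (octAt j))ᶜ := by
              simp only [Finset.mem_compl, Finset.mem_union, not_or]
              exact ⟨hp.1, hne⟩
            rw [← hcomp] at this
            exact hp.2 this
          · rw [Finset.card_compl, card_pts, Finset.card_union_of_disjoint dxz, card_setOf, card_setOf, card_setOf, octAt_pc hi, octAt_pc hj, octAt_pc hl]
        have hlt1 : allMask ^^^ (octAt i ^^^ octAt j) < 2 ^ 24 := ((show InCode allMask by decide +kernel).xor ((octAt_inCode hi).xor (octAt_inCode hj))).1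
        have hlt2 : allMask ^^^ (octAt i ^^^ octAt l) < 2 ^ 24 := ((show InCode allMask by decide +kernel).xor ((octAt_inCode hi).xor (octAt_inCode hl))).1
        have he1 := setOf_injOn hlt1 (hl24 hl) hth1
        have he2 := setOf_injOn hlt2 (hl24 hj) hth2
        rcases lt_trichotomy (octAt j) (octAt l) with hlt | heq | hgt
        · refine ⟨⟨i, j⟩, hPmem.2 ⟨hi, hj, hfP' h01 hl1 (by rw [he1]; exact hlt)⟩, ?_⟩
          simp only [phi, hth1]
        · exfalso
          have hjl : j = l := octAt_inj hj hl heq
          subst hjl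
          have := disjoint_self.1 dyz
          have h8 : (GolayBasic.setOf (octAt j)).card = 8 := by rw [card_setOf, octAt_pc hj]
          rw [show GolayBasic.setOf (octAt j) = ⊥ from this] at h8
          simp at h8
        · refine ⟨⟨i, l⟩, hPmem.2 ⟨hi, hl, hfP' h01 hl2 (by rw [he2]; exact hgt)⟩, ?_⟩
          simp only [phi, hth2]
          exact perm_a _ _ _
      -- point zero is in one of them
      have h0 : ptOf 0 ∈ x ∨ ptOf 0 ∈ y ∨ ptOf 0 ∈ z := by
        by_contra hn
        simp only [not_or] at hn
        have hcz : z = (x ∪ y)ᶜ := by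
          apply Finset.eq_of_subset_of_card_le
          · intro p hp
            simp only [Finset.mem_compl, Finset.mem_union, not_or]
            exact ⟨fun h' => (Finset.disjoint_left.1 dxz) h' hp, fun h' => (Finset.disjoint_left.1 dyz) h' hp⟩
          · rw [Finset.card_compl, card_pts, Finset.card_union_of_disjoint dxy, steiner.1 _ hx, steiner.1 _ hy, steiner.1 _ hz]
        apply hn.2.2
        rw [hcz]
        simp only [Finset.mem_compl, Finset.mem_union, not_or]
        exact ⟨hn.1, hn.2.1⟩
      rcases h0 with h0 | h0 | h0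
      · obtain ⟨X, hX, he⟩ := norm hx hy hz dxy dxz dyz h0
        exact ⟨X, hX, he⟩
      · obtain ⟨X, hX, he⟩ := norm hy hx hz dxy.symm dyz dxz h0
        exact ⟨X, hX, he.trans (perm_b _ _ _)⟩
      · obtain ⟨X, hX, he⟩ := norm hz hx hy dxz.symm dyz.symm dxy h0
        exact ⟨X, hX, he.trans (perm_c _ _ _)⟩
    · rintro ⟨⟨i, j⟩, hX, rfl⟩
      obtain ⟨hi, hj, hf⟩ := hPmem.1 hX
      obtain ⟨h1, h2, h3⟩ := hfP hf
      have hd := hdisj h2
      have ho1 : GolayBasic.setOf (octAt i) ∈ octads := mem_octads_iff.2 ⟨i, hi, rfl⟩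
      have ho2 : GolayBasic.setOf (octAt j) ∈ octads := mem_octads_iff.2 ⟨j, hj, rfl⟩
      have ho3 := hthirdOct hi hj h2
      have hthi := hthird hi hj h2
      have d13 : Disjoint (GolayBasic.setOf (octAt i)) (GolayBasic.setOf (allMask ^^^ (octAt i ^^^ octAt j))) := by
        rw [hthi, Finset.disjoint_left]
        intro p hp
        simp only [Finset.mem_compl, Finset.mem_union, not_or, not_not]
        exact fun h' => h'.1 hp
      have d23 : Disjoint (GolayBasic.setOf (octAt j)) (GolayBasic.setOf (allMask ^^^ (octAt i ^^^ octAt j))) := by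
        rw [hthi, Finset.disjoint_left]
        intro p hp
        simp only [Finset.mem_compl, Finset.mem_union, not_or, not_not]
        exact fun h' => h'.2 hp
      have hne : ∀ {u v : Finset GolayPt}, u ∈ octads → Disjoint u v → u ≠ v := by
        intro u v hu hdv he
        subst he
        have h8 := steiner.1 u hu
        rw [show u = ⊥ from disjoint_self.1 hdv] at h8
        simp at h8
      refine ⟨?_, ?_, ?_⟩
      · exact Finset.card_eq_three.2 ⟨_, _, _, hne ho1 hd, hne ho1 d13, hne ho2 d23, rfl⟩
      · intro o ho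
        simp only [phi, Finset.mem_insert, Finset.mem_singleton] at ho
        rcases ho with rfl | rfl | rfl
        · exact ho1
        · exact ho2
        · exact ho3
      · intro o ho o' ho' hne'
        simp only [phi, Finset.mem_insert, Finset.mem_singleton] at ho ho'
        rcases ho with rfl | rfl | rfl <;> rcases ho' with rfl | rfl | rfl
        · exact absurd rfl hne'
        · exact hd
        · exact d13
        · exact hd.symm
        · exact absurd rfl hne'
        · exact d23
        · exact d13.symm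
        · exact d23.symm
        · exact absurd rfl hne'
  rw [hset, Set.ncard_coe_finset, Finset.card_image_of_injOn hinj, hPcard]

end Cfsg.Agent.S1557
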