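import Cfsg.Statements.S1559
import Cfsg.Agent.Lib.H7Tr

set_option autoImplicit false
open scoped Pointwise
open Cfsg

namespace Cfsg.Agent.S1559
open Cfsg.Agent.Lib Cfsg.Agent.Lib.H7Tr Cfsg.Agent.Lib.GolayFam Cfsg.Agent.Lib.GolayCount

/-- A trio stabiliser has five orbits on the 3795 trios, of sizes 1, 42, 56, 1008, 2688; and the stabiliser is a maximal proper subgroup. -/
theorem result (T : Finset (Finset Cfsg.GolayPt)) (hT : T ∈ Cfsg.trios) : ∃ X₁ ∈ Cfsg.trios, ∃ X₂ ∈ Cfsg.trios, ∃ X₃ ∈ Cfsg.trios, ∃ X₄ ∈ Cfsg.trios, (MulAction.orbit ↥(MulAction.stabilizer Cfsg.M24 T) X₁).ncard = 42 ∧ (MulAction.orbit ↥(MulAction.stabilizer Cfsg.M24 T) X₂).ncard = 56 ∧ (MulAction.orbit ↥(MulAction.stabilizer Cfsg.M24 T) X₃).ncard = 1008 ∧ (MulAction.orbit ↥(MulAction.stabilizer Cfsg.M24 T) X₄).ncard = 2688 ∧ Cfsg.trios = {T} ∪ MulAction.orbit ↥(MulAction.stabilizer Cfsg.M24 T) X₁ ∪ MulAction.orbit ↥(MulAction.stabilizer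 Cfsg.M24 T) X₂ ∪ MulAction.orbit ↥(MulAction.stabilizer Cfsg.M24 T) X₃ ∪ MulAction.orbit ↥(MulAction.stabilizer Cfsg.M24 T) X₄ ∧ IsCoatom (MulAction.stabilizer Cfsg.M24 T) := by
  classical
  obtain ⟨a1, ha1, k1⟩ := fam.exists_rep hT (i := 1) (by norm_num)
  obtain ⟨a2, ha2, k2⟩ := fam.exists_rep hT (i := 12) (by norm_num)
  obtain ⟨a3, ha3, k3⟩ := fam.exists_rep hT (i := 4) (by norm_num)
  obtain ⟨a4, ha4, k4⟩ := fam.exists_rep hT (i := 3) (by norm_num)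
  rw [hkv.1] at k1
  rw [hkv.2.1] at k2
  rw [hkv.2.2.1] at k3
  rw [hkv.2.2.2.1] at k4
  refine ⟨a1, ha1, a2, ha2, a3, ha3, a4, ha4, (fam.orbit_ncard hT ha1 k1).trans c1, (fam.orbit_ncard hT ha2 k2).trans c2,
    (fam.orbit_ncard hT ha3 k3).trans c3, (fam.orbit_ncard hT ha4 k4).trans c4, ?_, ?_⟩
  · ext x
    rw [Set.mem_union, Set.mem_union, Set.mem_union, Set.mem_union, fam.orbit_eq hT ha1, fam.orbit_eq hT ha2, fam.orbit_eq hT ha3, fam.orbit_eq hT ha4, k1, k2, k3, k4]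
    simp only [Set.mem_singleton_iff, Set.mem_ofPred_eq]
    constructor
    · intro hx
      obtain ⟨i, hi, h1⟩ := fam.exists_key hT hx
      rcases vals i hi with h | h | h | h | h
      · exact Or.inl (Or.inl (Or.inl (Or.inr ⟨hx, h1.trans h⟩)))
      · exact Or.inl (Or.inl (Or.inr ⟨hx, h1.trans h⟩))
      · exact Or.inl (Or.inr ⟨hx, h1.trans h⟩)
      · exact Or.inr ⟨hx, h1.trans h⟩
      · refine Or.inl (Or.inl (Or.inl (Or.inl ?_)))
        exact fam.eq_of_key hself hT hx (by rw [h1, h, hkv.2.2.2.2])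
    · rintro ((((rfl | ⟨h, -⟩) | ⟨h, -⟩) | ⟨h, -⟩) | ⟨h, -⟩)
      · exact hT
      · exact h
      · exact h
      · exact h
      · exact h
  · refine fam.coatom hself hT ({128, 96, 80, 72, 192} : Finset ℕ) ?_ ?_ ?_ ⟨1, by norm_num, by norm_num⟩
    · intro i hi
      rcases vals i hi with h | h | h | h | h <;> rw [h] <;> decide
    · intro t ht
      have ht' : t = 128 ∨ t = 96 ∨ t = 80 ∨ t = 72 ∨ t = 192 := by simpa using ht
      rcases ht' with rfl | rfl | rfl | rfl | rfl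
      · exact ⟨1, by norm_num, hkv.1⟩
      · exact ⟨12, by norm_num, hkv.2.1⟩
      · exact ⟨4, by norm_num, hkv.2.2.1⟩
      · exact ⟨3, by norm_num, hkv.2.2.2.1⟩
      · exact ⟨0, by norm_num, hkv.2.2.2.2⟩
    · intro U hU h0 hd
      rw [hkv.2.2.2.2] at h0 ⊢
      rw [Finset.sum_congr rfl (fun t ht => hcnt t (hU ht))] at hd
      exact hdiv_check U hU h0 hd


end Cfsg.Agent.S1559
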