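import Cfsg.Statements.S1560
import Cfsg.Agent.Lib.GolayCount

set_option autoImplicit false
set_option linter.unusedSimpArgs false
set_option linter.unusedVariables false
open scoped Pointwise
open Cfsg

namespace Cfsg.Agent.S1560
open Cfsg.Agent.Lib
open scoped Pointwise
open Cfsg.Agent.Lib.GolayBasic Cfsg.Agent.Lib.GolayCode Cfsg.Agent.Lib.GolayPerm Cfsg.Agent.Lib.GolayOrder Cfsg.Agent.Lib.GolayFacts Cfsg.Agent.Lib.GolayM23 Cfsg.Agent.Lib.GolayChain Cfsg.Agent.Lib.GolayM12 Cfsg.Agent.Lib.GolayCount Cfsg.Agent.Lib.GolayTools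



/-- Intersection numbers of dodecads: a dodecad meets every other dodecad in 0, 4, 6 or 8 points, meeting 495 of them in 4 points, 1584 in 6 points and 495 in 8 points. -/
theorem result (d : Finset Cfsg.GolayPt) (hd : d ∈ Cfsg.dodecads) : (∀ d' ∈ Cfsg.dodecads, d' ≠ d → (d ∩ d').card = 0 ∨ (d ∩ d').card = 4 ∨ (d ∩ d').card = 6 ∨ (d ∩ d').card = 8) ∧ {d' : Finset Cfsg.GolayPt | d' ∈ Cfsg.dodecads ∧ (d ∩ d').card = 4}.ncard = 495 ∧ {d' : Finset Cfsg.GolayPt | d' ∈ Cfsg.dodecads ∧ (d ∩ d').card = 6}.ncard = 1584 ∧ {d' : Finset Cfsg.GolayPt | d' ∈ Cfsg.dodecads ∧ (d ∩ d').card = 8}.ncard = 495 := by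
  obtain ⟨w, hw, rfl⟩ := exists_smul_D0 hd
  have key : ∀ k, {o : Finset GolayPt | o ∈ dodecads ∧ (w • GolayBasic.setOf D0 ∩ o).card = k}.ncard =
      countBelow (fun i => Nat.beq (pc (Nat.land D0 (dodAt i))) k) 2576 := by
    intro k
    rw [ncard_sep_smul w (dodecads_smul hw) (dodecads_smul' hw)
      (fun o => (GolayBasic.setOf D0 ∩ o).card = k) (fun o => (w • GolayBasic.setOf D0 ∩ o).card = k)
      (fun o => by rw [card_smul_inter])]
    apply ncard_dodecads_sep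
    intro i hi
    rw [card_setOf_inter]
    exact ⟨fun h => by rw [← h]; exact Nat.beq_refl _, fun h => Nat.eq_of_beq_eq_true h⟩
  refine ⟨fun d' hd' hne => dodecad_dodecad_inter hd hd' hne, ?_, ?_, ?_⟩
  · rw [key]; decide +kernel
  · rw [key]; decide +kernel
  · rw [key]; decide +kernel

end Cfsg.Agent.S1560
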