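import Cfsg.Statements.S1563
import Cfsg.Agent.Lib.GolayKit

set_option autoImplicit false
set_option linter.unusedSimpArgs false
set_option linter.unusedVariables false
open scoped Pointwise
open Cfsg

namespace Cfsg.Agent.S1563
open Cfsg.Agent.Lib
open scoped Pointwise
open Cfsg.Agent.Lib.GolayBasic Cfsg.Agent.Lib.GolayCode Cfsg.Agent.Lib.GolayPerm Cfsg.Agent.Lib.GolayOrder Cfsg.Agent.Lib.GolayFacts Cfsg.Agent.Lib.GolayM23 Cfsg.Agent.Lib.GolayChain Cfsg.Agent.Lib.GolayM12 Cfsg.Agent.Lib.GolayCount Cfsg.Agent.Lib.GolayTools Cfsg.Agent.Lib.GolayOctad Cfsg.Agent.Lib.GolayForest Cfsg.Agent.Lib.GolayKit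

/-- generators of the stabiliser -/
def hR : ℕ := 975862620322392465992398070138123503904873088530235979567421184909570276191156888248485101623703153800848385
/-- forest: parent -/
def parR : ℕ := 2667095659929170308365369429190289382263647063608845216660710459803259322431687301121338859013068044730792321515417140465055044697068955163773498382290367028299439172833073453119212331721378906186270854032004487525491884255423999187931802310674352426784503727074258882556254215867206741952298146795780269059560846836211859508884666871891328887790289966611881467769645466136015644939840270549733549330277263228768826674204811951453824981618037351967339824178433570228769545713150777205253862658109978907953442455785430680381857722330107905791497816652793444379772955737250424359465941924813207660266828940995572182221201442246280633275028710266222865766638940702356709499727978158652429519094977434650072058478077321574008024391199330675090403885056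
/-- forest: parent -/
def par (i : ℕ) : ℕ := rom parR 9 i
/-- forest: generator -/
def giR : ℕ := 4671679340859535870887979983837782126078301343813203850461879818018287196050123177945319973550509806107835412786368113968981165925585031233498890194935495339840541088
/-- forest: generator -/
def gi (i : ℕ) : ℕ := rom giR 2 i
/-- forest: depth -/
def depR : ℕ := 86022478418444670353864584157838012711262722404056260796176542622243203801292458933350718891111549867643883245880222037187458079913940977777262365032847428150482983352009545168248441987594972139544109282261643360878154155919990747608636403826265844399474483874409900442060626729970069806133671969637720821140739910987745620438168576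
/-- forest: depth -/
def dep (i : ℕ) : ℕ := rom depR 4 i
/-- forest: root -/
def rtR : ℕ := 56112333988973718883322164303712267025424867956121736150415447399358885168176766319449932459887796817384138412768850532669043283601057398588520137780880780062509648719099008804213414748851635912161798810015930114608239355816932455209652820238682479869699807614798025965980816014531866026994913571478674266980779079494011474858776909070425255069772021103817029339056703137126851628055389477872116375051045677028462846331318759617505003819935619068384594967544350756383335757026822590383710892530815842268317451737660481876631678228285492014385138284750676246065215459150173422864620383346974845544399262691214837841510524827623054619825474215638624612902382955845558001841763126718316796891691690885898897122226144157585221872294937320486074581504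
/-- forest: root -/
def rt (i : ℕ) : ℕ := rom rtR 9 i
/-- forest: root of a class -/
def ktR : ℕ := 517
/-- forest: root of a class -/
def kt (i : ℕ) : ℕ := rom ktR 9 i

/-- the stabiliser -/
abbrev HH : Subgroup (Equiv.Perm GolayPt) := StabMP [maskB 2] []

theorem hgens : ∀ j < 3, ∃ g ∈ HH, Rep g (rom hR 120 j) :=
  gens_of_check (mem_StabMP_of_check (by decide +kernel)) (by decide +kernel)

theorem hforest : forestOK 276 rt par dep (maskStep 3 (fun j => rom hR 120 j) prAt gi) = true := by
  decide +kernel

theorem hkey : keyOK 276 rt (fun i => kt (pc (Nat.land (maskB 2) (prAt i)))) (fun i => true) = true := by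
  decide +kernel

theorem orb {i j : ℕ} (hi : i < 276) (hj : j < 276) (hsi : (fun i => true) i = true) (hsj : (fun i => true) j = true)
    (hij : (fun i => pc (Nat.land (maskB 2) (prAt i))) i = (fun i => pc (Nat.land (maskB 2) (prAt i))) j) : ∃ g ∈ HH, g • GolayBasic.setOf (prAt i) = GolayBasic.setOf (prAt j) :=
  forest_key hgens hforest hkey hi hj hsi hsj (congrArg kt hij)


/-- sizes of the suborbits -/
def cc (t : ℕ) : ℕ := if t = 0 then 231 else if t = 1 then 44 else 1

theorem hdiv_check : ∀ S ⊆ ({0, 1, 2} : Finset ℕ), 2 ∈ S → (∑ t ∈ S, cc t) ∣ 276 → S = {2} ∨ S = {0, 1, 2} := by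
  decide +revert

/-- all pairs -/
noncomputable def FF : Finset (Finset GolayPt) := Finset.powersetCard 2 Finset.univ

theorem mem_FF {a : Finset GolayPt} : a ∈ FF ↔ a.card = 2 := by
  simp [FF, Finset.mem_powersetCard]

theorem count_check : ∀ t ∈ ({0, 1, 2} : Finset ℕ), countBelow (fun i => Nat.beq (pc (Nat.land (maskB 2) (prAt i))) t) 276 = cc t := by
  decide +kernel

theorem key_range : ∀ i < 276, pc (Nat.land (maskB 2) (prAt i)) ∈ ({0, 1, 2} : Finset ℕ) := by
  decide +kernel



/-- The stabiliser of a pair of points (setwise) is a maximal proper subgroup of the group of the length-24 code. -/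
theorem result (s : Finset Cfsg.GolayPt) (hs : s.card = 2) : IsCoatom (MulAction.stabilizer Cfsg.M24 s) := by
  classical
  obtain ⟨w, hw, rfl⟩ := exists_smul_maskB (k := 2) (by norm_num) hs
  have hcnt : ∀ t ∈ ({0, 1, 2} : Finset ℕ), (FF.filter (fun a => (w • GolayBasic.setOf (maskB 2) ∩ a).card = t)).card = cc t := by
    intro t ht
    rw [← count_check t ht, ← Set.ncard_coe_finset]
    have := ncard_k_transport prAt prE w (fun a => (GolayBasic.setOf (maskB 2) ∩ a).card = t)
      (fun a => (w • GolayBasic.setOf (maskB 2) ∩ a).card = t)
      (fun a => by simp only [card_smul_inter])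
      (fun i => Nat.beq (pc (Nat.land (maskB 2) (prAt i))) t)
      (fun i hi => by
        rw [card_setOf_inter, Nat.beq_eq]
        rfl)
    rw [← this]
    congr 1
    ext a
    simp only [Finset.coe_filter, mem_FF, Set.mem_ofPred_eq]
  have hself : (w • GolayBasic.setOf (maskB 2) ∩ w • GolayBasic.setOf (maskB 2)).card = 2 := by
    rw [Finset.inter_self, Finset.card_smul_finset, card_setOf]
    decide +kernel
  refine BlockCrit.isCoatom_stabilizer (G := M24) (w • GolayBasic.setOf (maskB 2)) FF (mem_FF.2 (by
      rw [Finset.card_smul_finset, card_setOf]; decide +kernel))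
    (fun g a ha => mem_FF.2 (by
      have h1 := mem_FF.1 ha
      show ((g : Equiv.Perm GolayPt) • a).card = 2
      rw [Finset.card_smul_finset, h1]))
    (fun a ha => by
      obtain ⟨v, hv, rfl⟩ := exists_smul_maskB (k := 2) (by norm_num) (mem_FF.1 ha)
      refine ⟨⟨v * w⁻¹, M24.mul_mem hv (M24.inv_mem hw)⟩, ?_⟩
      show (v * w⁻¹) • (w • GolayBasic.setOf (maskB 2)) = _
      rw [mul_smul, inv_smul_smul])
    (fun a => (w • GolayBasic.setOf (maskB 2) ∩ a).card) {0, 1, 2} ?_ ?_ ?_ ?_ cc hcnt ?_ ?_
  · intro a ha
    obtain ⟨i, hi, hie⟩ := prE.2.2.2 (w⁻¹ • a) (by rw [card_inv_smul]; exact mem_FF.1 ha)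
    have e1 := card_inv_smul_inter w (GolayBasic.setOf (maskB 2)) a
    rw [hie, card_setOf_inter] at e1
    show (w • GolayBasic.setOf (maskB 2) ∩ a).card ∈ _
    rw [← e1]
    exact key_range i hi
  · intro a ha c hc h
    obtain ⟨i, hi, hie⟩ := prE.2.2.2 (w⁻¹ • a) (by rw [card_inv_smul]; exact mem_FF.1 ha)
    obtain ⟨j, hj, hje⟩ := prE.2.2.2 (w⁻¹ • c) (by rw [card_inv_smul]; exact mem_FF.1 hc)
    have hk : pc (Nat.land (maskB 2) (prAt i)) = pc (Nat.land (maskB 2) (prAt j)) := by
      have e1 := card_inv_smul_inter w (GolayBasic.setOf (maskB 2)) a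
      have e2 := card_inv_smul_inter w (GolayBasic.setOf (maskB 2)) c
      rw [hie, card_setOf_inter] at e1
      rw [hje, card_setOf_inter] at e2
      exact e1.trans (h.trans e2.symm)
    obtain ⟨g, hg, hga⟩ := orb hi hj rfl rfl hk
    obtain ⟨c1, c2, c3⟩ := stab_conj hw hg
    refine ⟨⟨w * g * w⁻¹, c1⟩, c2 _ (by simp), ?_⟩
    rw [← hie, ← hje] at hga
    have := conj_smul w g (w⁻¹ • a)
    rw [smul_inv_smul, hga, smul_inv_smul] at this
    exact this
  · intro t ht
    have h1 := hcnt t ht
    have h2 : 0 < (FF.filter (fun a => (w • GolayBasic.setOf (maskB 2) ∩ a).card = t)).card := by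
      rw [h1]
      have ht' : t = 0 ∨ t = 1 ∨ t = 2 := by simpa using ht
      rcases ht' with rfl | rfl | rfl <;> decide
    obtain ⟨a, ha⟩ := Finset.card_pos.1 h2
    exact ⟨a, (Finset.mem_filter.1 ha).1, (Finset.mem_filter.1 ha).2⟩
  · intro a ha h
    have h2 : (w • GolayBasic.setOf (maskB 2) ∩ a).card = 2 := h.trans hself
    have h3 := mem_FF.1 ha
    have h4 : (w • GolayBasic.setOf (maskB 2)).card = 2 := by
      rw [Finset.card_smul_finset, card_setOf]; decide +kernel
    have h5 : w • GolayBasic.setOf (maskB 2) ∩ a = a :=
      Finset.eq_of_subset_of_card_le Finset.inter_subset_right (by rw [h2, h3])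
    have h6 : w • GolayBasic.setOf (maskB 2) ∩ a = w • GolayBasic.setOf (maskB 2) :=
      Finset.eq_of_subset_of_card_le Finset.inter_subset_left (by rw [h2, h4])
    rw [← h5, h6]
  · intro S hS hx hd
    have hFF : FF.card = 276 := by
      rw [FF, Finset.card_powersetCard, Finset.card_univ]
      decide
    have h2 : (w • GolayBasic.setOf (maskB 2) ∩ w • GolayBasic.setOf (maskB 2)).card = 2 := hself
    rw [hself] at hx ⊢
    rw [hFF] at hd
    exact hdiv_check S hS hx hd
  · have h0 := hcnt 0 (by simp)
    have h2 : 0 < (FF.filter (fun a => (w • GolayBasic.setOf (maskB 2) ∩ a).card = 0)).card := by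
      rw [h0]; decide
    obtain ⟨a, ha⟩ := Finset.card_pos.1 h2
    refine ⟨a, (Finset.mem_filter.1 ha).1, ?_⟩
    rintro rfl
    have := (Finset.mem_filter.1 ha).2
    omega

end Cfsg.Agent.S1563
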