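import Cfsg.Statements.S1566
import Cfsg.Agent.Lib.GolayKit
import Cfsg.Agent.S1561
import Cfsg.Agent.S1639

set_option autoImplicit false
set_option linter.unusedSimpArgs false
set_option linter.unusedVariables false
open scoped Pointwise
open Cfsg

namespace Cfsg.Agent.S1566
open Cfsg.Agent.Lib
open scoped Pointwise
open Cfsg.Agent.Lib.GolayBasic Cfsg.Agent.Lib.GolayCode Cfsg.Agent.Lib.GolayPerm Cfsg.Agent.Lib.GolayOrder Cfsg.Agent.Lib.GolayFacts Cfsg.Agent.Lib.GolayM23 Cfsg.Agent.Lib.GolayChain Cfsg.Agent.Lib.GolayM12 Cfsg.Agent.Lib.GolayCount Cfsg.Agent.Lib.GolayTools Cfsg.Agent.Lib.GolayOctad Cfsg.Agent.Lib.GolayForest Cfsg.Agent.Lib.GolayKit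

/-- a dodecad with its complement -/
def pairOf (a : Finset GolayPt) : Finset (Finset GolayPt) := {a, aᶜ}

theorem smul_compl' (g : Equiv.Perm GolayPt) (a : Finset GolayPt) : g • aᶜ = (g • a)ᶜ := by
  ext p
  simp only [Finset.mem_smul_finset, Finset.mem_compl, Equiv.Perm.smul_def]
  constructor
  · rintro ⟨y, hy, rfl⟩ ⟨z, hz, he⟩
    have := g.injective he
    subst this
    exact hy hz
  · intro h
    exact ⟨g⁻¹ p, fun h' => h ⟨_, h', by simp⟩, by simp⟩

theorem smul_pairOf (g : Equiv.Perm GolayPt) (a : Finset GolayPt) : g • pairOf a = pairOf (g • a) := by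
  unfold pairOf
  rw [Finset.smul_finset_insert, Finset.smul_finset_singleton, smul_compl']

theorem pairOf_compl (a : Finset GolayPt) : pairOf aᶜ = pairOf a := by
  unfold pairOf
  rw [compl_compl, Finset.pair_comm]

theorem card_pts : Fintype.card GolayPt = 24 := by decide

theorem card_inter_compl {d a : Finset GolayPt} (hd : d.card = 12) : (d ∩ aᶜ).card = 12 - (d ∩ a).card := by
  classical
  have : (d ∩ a).card + (d ∩ aᶜ).card = d.card := by
    rw [← Finset.card_union_of_disjoint]
    · congr 1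
      ext p
      simp only [Finset.mem_union, Finset.mem_inter, Finset.mem_compl]
      tauto
    · rw [Finset.disjoint_left]
      intro p hp hp'
      exact (Finset.mem_compl.1 (Finset.mem_inter.1 hp').2) (Finset.mem_inter.1 hp).2
  omega

/-- the invariant -/
noncomputable def ff (d : Finset GolayPt) (b : Finset (Finset GolayPt)) : ℕ := b.sup (fun a => (d ∩ a).card)

theorem ff_pairOf {d : Finset GolayPt} (hd : d.card = 12) (a : Finset GolayPt) :
    ff d (pairOf a) = max (d ∩ a).card (12 - (d ∩ a).card) := by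
  unfold ff pairOf
  rw [Finset.sup_insert, Finset.sup_singleton, card_inter_compl hd]

theorem hdiv_check : ∀ S ⊆ ({6, 8, 12} : Finset ℕ), 12 ∈ S →
    (∑ t ∈ S, (if t = 6 then 792 else if t = 8 then 495 else 1)) ∣ 1288 → S = {12} ∨ S = {6, 8, 12} := by
  decide +revert

theorem dod_card {a : Finset GolayPt} (h : a ∈ dodecads) : a.card = 12 := by
  obtain ⟨i, hi, rfl⟩ := mem_dodecads_iff.1 h
  rw [card_setOf, dodAt_pc hi]

theorem dod_compl {a : Finset GolayPt} (h : a ∈ dodecads) : aᶜ ∈ dodecads := by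
  obtain ⟨i, hi, rfl⟩ := mem_dodecads_iff.1 h
  have hc := dodAt_inCode hi
  have hall : InCode allMask := by decide +kernel
  rw [setOf_compl hc.1]
  have hc2 := hall.xor hc
  rw [setOf_mem_dodecads hc2.1]
  refine ⟨hc2, ?_⟩
  rw [← card_setOf, ← setOf_compl hc.1, Finset.card_compl, card_pts, card_setOf, dodAt_pc hi]

theorem inter_cases {d a : Finset GolayPt} (hd : d ∈ dodecads) (ha : a ∈ dodecads) :
    (d ∩ a).card = 0 ∨ (d ∩ a).card = 4 ∨ (d ∩ a).card = 6 ∨ (d ∩ a).card = 8 ∨ (d ∩ a).card = 12 := by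
  by_cases h : a = d
  · subst h
    rw [Finset.inter_self, dod_card hd]
    simp
  · rcases dodecad_dodecad_inter hd ha h with h1 | h1 | h1 | h1 <;> simp [h1]

theorem eq_of_inter12 {d a : Finset GolayPt} (hd : d ∈ dodecads) (ha : a ∈ dodecads) (h : (d ∩ a).card = 12) : a = d := by
  have h5 : d ∩ a = a := Finset.eq_of_subset_of_card_le Finset.inter_subset_right (by rw [h, dod_card ha])
  have h6 : d ∩ a = d := Finset.eq_of_subset_of_card_le Finset.inter_subset_left (by rw [h, dod_card hd])
  rw [← h5, h6]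



/-- The setwise stabiliser of a dodecad together with its complement is a maximal proper subgroup of the group of the length-24 code. -/
theorem result (d : Finset Cfsg.GolayPt) (hd : d ∈ Cfsg.dodecads) : IsCoatom (MulAction.stabilizer Cfsg.M24 ({d, dᶜ} : Finset (Finset Cfsg.GolayPt))) := by
  classical
  have hd12 := dod_card hd
  obtain ⟨p, hp⟩ : d.Nonempty := by
    rw [← Finset.card_pos, hd12]; norm_num
  -- the counts
  obtain ⟨c4, c8, c6, -⟩ := Cfsg.Agent.S1639.result p d hd hp
  let Gp : Finset (Finset GolayPt) := dodF.filter (fun a => p ∈ a)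
  have mem_Gp : ∀ {a}, a ∈ Gp ↔ a ∈ dodecads ∧ p ∈ a := by
    intro a
    simp only [Gp, Finset.mem_filter, mem_dodF]
  have hGcount : ∀ t, (Gp.filter (fun a => (d ∩ a).card = t)).card = {d' : Finset GolayPt | d' ∈ dodecads ∧ p ∈ d' ∧ (d ∩ d').card = t}.ncard := by
    intro t
    rw [← Set.ncard_coe_finset]
    refine congrArg Set.ncard (Set.ext fun a => ?_)
    simp only [Finset.coe_filter, mem_Gp, Set.mem_ofPred_eq, and_assoc]
  let F : Finset (Finset (Finset GolayPt)) := Gp.image pairOf
  have hinj : Set.InjOn pairOf (Gp : Set (Finset GolayPt)) := by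
    intro a ha e he h
    have ha' := mem_Gp.1 ha
    have he' := mem_Gp.1 he
    have : e ∈ pairOf a := by rw [h]; simp [pairOf]
    simp only [pairOf, Finset.mem_insert, Finset.mem_singleton] at this
    rcases this with h1 | h1
    · exact h1.symm
    · exfalso
      have := he'.2
      rw [h1] at this
      exact (Finset.mem_compl.1 this) ha'.2
  have mem_F : ∀ {b}, b ∈ F ↔ ∃ a ∈ dodecads, b = pairOf a := by
    intro b
    simp only [F, Finset.mem_image]
    constructor
    · rintro ⟨a, ha, rfl⟩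
      exact ⟨a, (mem_Gp.1 ha).1, rfl⟩
    · rintro ⟨a, ha, rfl⟩
      by_cases h : p ∈ a
      · exact ⟨a, mem_Gp.2 ⟨ha, h⟩, rfl⟩
      · exact ⟨aᶜ, mem_Gp.2 ⟨dod_compl ha, Finset.mem_compl.2 h⟩, pairOf_compl a⟩
  have hfilter : ∀ t, (F.filter (fun b => ff d b = t)).card = (Gp.filter (fun a => max (d ∩ a).card (12 - (d ∩ a).card) = t)).card := by
    intro t
    rw [Finset.filter_image, Finset.card_image_of_injOn]
    · refine congrArg Finset.card (Finset.ext fun a => ?_)
      simp only [Finset.mem_filter, ff_pairOf hd12]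
    · intro a ha e he h
      exact hinj (Finset.mem_coe.2 (Finset.mem_filter.1 ha).1) (Finset.mem_coe.2 (Finset.mem_filter.1 he).1) h
  have hf6 : (F.filter (fun b => ff d b = 6)).card = 792 := by
    rw [hfilter, ← c6, ← hGcount]
    refine congrArg Finset.card (Finset.ext fun a => ?_)
    simp only [Finset.mem_filter]
    constructor
    · rintro ⟨h1, h2⟩
      refine ⟨h1, ?_⟩
      have h3 := Nat.le_max_left (d ∩ a).card (12 - (d ∩ a).card)
      have h4 := Nat.le_max_right (d ∩ a).card (12 - (d ∩ a).card)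
      omega
    · rintro ⟨h1, h2⟩
      refine ⟨h1, ?_⟩
      rw [h2]
      rfl
  have hf8 : (F.filter (fun b => ff d b = 8)).card = 495 := by
    rw [hfilter]
    have : Gp.filter (fun a => max (d ∩ a).card (12 - (d ∩ a).card) = 8) = Gp.filter (fun a => (d ∩ a).card = 4) ∪ Gp.filter (fun a => (d ∩ a).card = 8) := by
      ext a
      simp only [Finset.mem_filter, Finset.mem_union]
      constructor
      · rintro ⟨h1, h2⟩
        have h3 := Nat.le_max_left (d ∩ a).card (12 - (d ∩ a).card)
        have h4 := Nat.le_max_right (d ∩ a).card (12 - (d ∩ a).card)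
        rcases inter_cases hd (mem_Gp.1 h1).1 with h | h | h | h | h
        · rw [h] at h2; simp at h2
        · exact Or.inl ⟨h1, h⟩
        · rw [h] at h2; simp at h2
        · exact Or.inr ⟨h1, h⟩
        · rw [h] at h2; simp at h2
      · rintro (⟨h1, h2⟩ | ⟨h1, h2⟩)
        · exact ⟨h1, by rw [h2]; rfl⟩
        · exact ⟨h1, by rw [h2]; rfl⟩
    rw [this, Finset.card_union_of_disjoint, hGcount, hGcount, c4, c8]
    rw [Finset.disjoint_left]
    intro a h1 h2
    have h3 := (Finset.mem_filter.1 h1).2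
    have h4 := (Finset.mem_filter.1 h2).2
    omega
  have hf12 : (F.filter (fun b => ff d b = 12)).card = 1 := by
    rw [hfilter, Finset.card_eq_one]
    refine ⟨d, ?_⟩
    ext a
    simp only [Finset.mem_filter, Finset.mem_singleton]
    constructor
    · rintro ⟨h1, h2⟩
      have hGa := mem_Gp.1 h1
      rcases inter_cases hd hGa.1 with h | h | h | h | h
      · exfalso
        have : p ∈ d ∩ a := Finset.mem_inter.2 ⟨hp, hGa.2⟩
        rw [Finset.card_eq_zero.1 h] at this
        simp at this
      · rw [h] at h2; simp at h2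
      · rw [h] at h2; simp at h2
      · rw [h] at h2; simp at h2
      · exact eq_of_inter12 hd hGa.1 h
    · rintro rfl
      exact ⟨mem_Gp.2 ⟨hd, hp⟩, by rw [Finset.inter_self, hd12]; rfl⟩
  have hT : ∀ a ∈ F, ff d a ∈ ({6, 8, 12} : Finset ℕ) := by
    intro b hb
    obtain ⟨a, ha, rfl⟩ := mem_F.1 hb
    rw [ff_pairOf hd12]
    rcases inter_cases hd ha with h | h | h | h | h <;> rw [h] <;> decide
  have hFcard : F.card = 1288 := by
    rw [Finset.card_eq_sum_card_fiberwise (f := ff d) (t := ({6, 8, 12} : Finset ℕ)) (fun b hb => hT b hb)]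
    rw [Finset.sum_insert (by decide), Finset.sum_insert (by decide), Finset.sum_singleton, hf6, hf8, hf12]
    norm_num
  have hself : ff d (pairOf d) = 12 := by
    rw [ff_pairOf hd12, Finset.inter_self, hd12]
    rfl
  have hpd : pairOf d ∈ F := mem_F.2 ⟨d, hd, rfl⟩
  have hc : ∀ t ∈ ({6, 8, 12} : Finset ℕ), (F.filter (fun a => ff d a = t)).card = (if t = 6 then 792 else if t = 8 then 495 else 1) := by
    intro t ht
    have ht' : t = 6 ∨ t = 8 ∨ t = 12 := by simpa using ht
    rcases ht' with rfl | rfl | rfl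
    · exact hf6
    · exact hf8
    · exact hf12
  show IsCoatom (MulAction.stabilizer M24 (pairOf d))
  refine BlockCrit.isCoatom_stabilizer (G := M24) (pairOf d) F hpd ?_ ?_ (ff d) {6, 8, 12} hT ?_ ?_ ?_ _ hc ?_ ?_
  · intro g b hb
    obtain ⟨a, ha, rfl⟩ := mem_F.1 hb
    refine mem_F.2 ⟨(g : Equiv.Perm GolayPt) • a, M24_smul_dodecad g.2 ha, ?_⟩
    exact smul_pairOf (g : Equiv.Perm GolayPt) a
  · intro b hb
    obtain ⟨a, ha, rfl⟩ := mem_F.1 hb
    obtain ⟨g, hg, h⟩ := transitive_dodecads hd ha
    refine ⟨⟨g, hg⟩, ?_⟩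
    show g • pairOf d = pairOf a
    rw [smul_pairOf, h]
  · intro b hb b' hb' hff
    obtain ⟨a, ha, rfl⟩ := mem_F.1 hb
    obtain ⟨e, he, rfl⟩ := mem_F.1 hb'
    rw [ff_pairOf hd12, ff_pairOf hd12] at hff
    -- reduce to equal intersections
    have key : ∀ {a e : Finset GolayPt}, a ∈ dodecads → e ∈ dodecads → (d ∩ a).card = (d ∩ e).card →
        ∃ h ∈ MulAction.stabilizer M24 (pairOf d), h • pairOf a = pairOf e := by
      intro a e ha he h
      obtain ⟨g, hg, h1, h2⟩ := Cfsg.Agent.S1561.result d a e hd ha he h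
      refine ⟨⟨g, hg⟩, ?_, ?_⟩
      · show g • pairOf d = pairOf d
        rw [smul_pairOf, h1]
      · show g • pairOf a = pairOf e
        rw [smul_pairOf, h2]
    have hle : (d ∩ a).card ≤ 12 ∧ (d ∩ e).card ≤ 12 := by
      constructor
      · rw [← hd12]; exact Finset.card_le_card Finset.inter_subset_left
      · rw [← hd12]; exact Finset.card_le_card Finset.inter_subset_left
    have hcases : (d ∩ a).card = (d ∩ e).card ∨ (d ∩ a).card = 12 - (d ∩ e).card := by
      rcases le_total (d ∩ a).card (12 - (d ∩ a).card) with h1 | h1 <;> rcases le_total (d ∩ e).card (12 - (d ∩ e).card) with h2 | h2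
      · rw [max_eq_right h1, max_eq_right h2] at hff; omega
      · rw [max_eq_right h1, max_eq_left h2] at hff; omega
      · rw [max_eq_left h1, max_eq_right h2] at hff; omega
      · rw [max_eq_left h1, max_eq_left h2] at hff; omega
    rcases hcases with h | h
    · exact key ha he h
    · obtain ⟨g, hg1, hg2⟩ := key ha (dod_compl he) (by rw [card_inter_compl hd12]; exact h)
      exact ⟨g, hg1, by rw [hg2, pairOf_compl]⟩
  · intro t ht
    have h2 : 0 < (F.filter (fun a => ff d a = t)).card := by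
      rw [hc t ht]
      split_ifs <;> norm_num
    obtain ⟨a, ha⟩ := Finset.card_pos.1 h2
    exact ⟨a, (Finset.mem_filter.1 ha).1, (Finset.mem_filter.1 ha).2⟩
  · intro b hb h
    rw [hself] at h
    have h3 : (F.filter (fun b => ff d b = 12)) = {pairOf d} := by
      obtain ⟨y, hy⟩ := Finset.card_eq_one.1 hf12
      rw [hy]
      have : pairOf d ∈ F.filter (fun b => ff d b = 12) := Finset.mem_filter.2 ⟨hpd, hself⟩
      rw [hy, Finset.mem_singleton] at this
      rw [this]
    have : b ∈ F.filter (fun b => ff d b = 12) := Finset.mem_filter.2 ⟨hb, h⟩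
    rw [h3, Finset.mem_singleton] at this
    exact this
  · intro S hS hx hdv
    rw [hself] at hx ⊢
    rw [hFcard] at hdv
    exact hdiv_check S hS hx hdv
  · obtain ⟨a, ha⟩ := Finset.card_pos.1 (by rw [hf6]; norm_num : 0 < (F.filter (fun b => ff d b = 6)).card)
    refine ⟨a, (Finset.mem_filter.1 ha).1, ?_⟩
    rintro rfl
    have := (Finset.mem_filter.1 ha).2
    rw [hself] at this
    omega

end Cfsg.Agent.S1566
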