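import Cfsg.Statements.S1567
import Cfsg.Agent.Lib.LeechBasic
import Cfsg.Agent.S0363
import Cfsg.Agent.S0354
-- import your own Cfsg.Agent.* helpers here

set_option autoImplicit false
open Cfsg

namespace Cfsg.Agent.S1567


open LeechBasic

/-- The group generated by the shortest vectors. -/
abbrev MM : AddSubgroup (GolayPt → ℤ) :=
  AddSubgroup.closure {x : GolayPt → ℤ | x ∈ leechLattice ∧ sqNorm x = 32}

theorem short_mem {x : GolayPt → ℤ} (hx : x ∈ leechSet) (h : sqNorm x = 32) : x ∈ MM :=
  AddSubgroup.subset_closure ⟨AddSubgroup.subset_closure hx, h⟩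

/-- `4 e_i ± 4 e_j`. -/
def pp (i j : GolayPt) (s : ℤ) (k : GolayPt) : ℤ :=
  (if k = i then 4 else 0) + (if k = j then s else 0)

theorem pp_mem {i j : GolayPt} (hij : i ≠ j) {s : ℤ} (hs : s = 4 ∨ s = -4) : pp i j s ∈ MM := by
  apply short_mem
  · refine mk _ 0 ∅ cd_empty ?_ ?_
    · intro k
      unfold pp ind
      unfold Int.ModEq
      rcases hs with rfl | rfl <;> split_ifs <;> simp_all
    · unfold pp
      simp only [Finset.sum_add_distrib, Finset.sum_ite_eq', Finset.mem_univ, if_true]
      unfold Int.ModEq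
      rcases hs with rfl | rfl <;> decide
  · unfold sqNorm pp
    have h1 : ∀ k, ((if k = i then (4 : ℤ) else 0) + (if k = j then s else 0)) ^ 2 =
        (if k = i then 16 else 0) + (if k = j then s ^ 2 else 0) := by
      intro k
      by_cases h1 : k = i
      · subst h1
        simp [hij]
      · simp [h1]
    simp only [h1, Finset.sum_add_distrib, Finset.sum_ite_eq', Finset.mem_univ, if_true]
    rcases hs with rfl | rfl <;> norm_num

/-- `8 e_i`. -/
theorem eight_mem (i : GolayPt) : (Pi.single i 8 : GolayPt → ℤ) ∈ MM := by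
  obtain ⟨j, hj⟩ : ∃ j : GolayPt, i ≠ j := by
    by_cases h : i = none
    · exact ⟨some 0, by simp [h]⟩
    · exact ⟨none, h⟩
  have h1 := AddSubgroup.add_mem _ (pp_mem hj (s := 4) (Or.inl rfl)) (pp_mem hj (s := -4) (Or.inr rfl))
  convert h1 using 1
  ext k
  simp only [Pi.single_apply, Pi.add_apply, pp]
  split_ifs <;> norm_num

theorem four_even (z : GolayPt → ℤ) (hz : (∑ i, z i) % 2 = 0) :
    (fun k => 4 * z k) ∈ MM := by
  obtain ⟨n, hn⟩ : ∃ n, ∑ i, z i = 2 * n := ⟨(∑ i, z i) / 2, by omega⟩
  have h0 : ∀ i : GolayPt, z i • pp i none (-4) ∈ MM ∨ i = none := by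
    intro i
    by_cases h : i = none
    · exact Or.inr h
    · exact Or.inl (AddSubgroup.zsmul_mem _ (pp_mem h (Or.inr rfl)) _)
  have h1 : (∑ i ∈ Finset.univ.erase (none : GolayPt), z i • pp i none (-4)) ∈ MM := by
    apply AddSubgroup.sum_mem
    intro i hi
    rcases h0 i with h | h
    · exact h
    · exact absurd h (Finset.ne_of_mem_erase hi)
  have h2 := AddSubgroup.add_mem _ h1 (AddSubgroup.zsmul_mem _ (eight_mem none) n)
  convert h2 using 1
  ext k
  simp only [Pi.add_apply, Finset.sum_apply, Pi.smul_apply, smul_eq_mul, pp, Pi.single_apply]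
  have h3 : ∑ i ∈ Finset.univ.erase (none : GolayPt), z i * ((if k = i then (4 : ℤ) else 0) + (if k = none then -4 else 0))
      = ∑ i ∈ Finset.univ.erase (none : GolayPt), (4 * (if k = i then z i else 0) + z i * (if k = none then -4 else 0)) := by
    apply Finset.sum_congr rfl
    intro i _
    split_ifs <;> ring
  rw [h3, Finset.sum_add_distrib, ← Finset.mul_sum, ← Finset.sum_mul]
  have h4 : ∑ i ∈ Finset.univ.erase (none : GolayPt), z i = 2 * n - z none := by
    rw [← hn, ← Finset.add_sum_erase _ _ (Finset.mem_univ (none : GolayPt))]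
    ring
  rw [h4]
  by_cases hk : k = none
  · subst hk
    have : ∑ i ∈ Finset.univ.erase (none : GolayPt), (if (none : GolayPt) = i then z i else 0) = 0 := by
      apply Finset.sum_eq_zero
      intro i hi
      rw [if_neg (Finset.ne_of_mem_erase hi).symm]
    rw [this]
    simp only [if_true]
    ring
  · have : ∑ i ∈ Finset.univ.erase (none : GolayPt), (if k = i then z i else 0) = z k := by
      rw [Finset.sum_ite_eq]
      simp [hk]
    rw [this]
    simp [hk]

/-- Twice an octad. -/
def oc (o : Finset GolayPt) (k : GolayPt) : ℤ := 2 * ind o k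

theorem oc_sum (o : Finset GolayPt) : ∑ k, oc o k = 2 * (o.card : ℤ) := by
  unfold oc ind
  rw [← Finset.mul_sum, Finset.sum_boole]
  simp

/-- The property of code words we are after. -/
def TT (A : Finset GolayPt) : Prop :=
  ∃ y ∈ MM, (∀ i, y i ≡ 2 * ind A i [ZMOD 4]) ∧ ∑ i, y i ≡ 0 [ZMOD 8]

theorem tt_octad {o : Finset GolayPt} (ho : o ∈ octads) : TT o := by
  have hc : o.card = 8 := ho.2
  have hC : Cd o := ho.1
  refine ⟨oc o, ?_, ?_, ?_⟩
  · apply short_mem
    · refine mk _ 0 o hC ?_ ?_
      · intro i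
        simp [oc]
      · rw [oc_sum, hc]
        decide
    · unfold sqNorm oc ind
      have h1 : ∀ k, (2 * (if k ∈ o then (1 : ℤ) else 0)) ^ 2 = 4 * (if k ∈ o then 1 else 0) := by
        intro k; split_ifs <;> norm_num
      simp only [h1]
      rw [← Finset.mul_sum, Finset.sum_boole]
      simp [hc]
  · intro i
    rfl
  · rw [oc_sum, hc]
    decide

theorem tt_symm {A C : Finset GolayPt} (hA : TT A) (hC : TT C) : TT (symmDiff A C) := by
  obtain ⟨y, hy, h1, h2⟩ := hA
  obtain ⟨y', hy', h1', h2'⟩ := hC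
  refine ⟨y + y', AddSubgroup.add_mem _ hy hy', ?_, ?_⟩
  · intro i
    have h3 := h1 i
    have h4 := h1' i
    unfold Int.ModEq at h3 h4 ⊢
    unfold ind at h3 h4 ⊢
    simp only [Pi.add_apply, Finset.mem_symmDiff]
    by_cases ha : i ∈ A <;> by_cases hc : i ∈ C <;> simp only [ha, hc, if_true, if_false] at h3 h4 ⊢ <;>
        simp <;> omega
  · simp only [Pi.add_apply, Finset.sum_add_distrib]
    unfold Int.ModEq at h2 h2' ⊢
    omega

theorem tt_empty : TT ∅ := by
  refine ⟨0, AddSubgroup.zero_mem _, ?_, ?_⟩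
  · intro i
    simp [ind, Int.ModEq]
  · simp [Int.ModEq]

theorem cd_weights {A : Finset GolayPt} (hA : Cd A) :
    A.card = 0 ∨ A.card = 8 ∨ A.card = 12 ∨ A.card = 16 ∨ A.card = 24 := by
  obtain ⟨u, hu, rfl⟩ := hA
  exact Cfsg.Agent.S0359.result u hu

theorem exists_octad : ∃ o, o ∈ octads := by
  obtain ⟨P, -, hP⟩ := Finset.exists_subset_card_eq (s := (Finset.univ : Finset GolayPt)) (n := 5)
    (by simp)
  obtain ⟨o, ⟨ho, -⟩, -⟩ := Cfsg.Agent.S0363.result.2 P hP
  exact ⟨o, ho⟩

theorem tt_univ : TT Finset.univ := by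
  obtain ⟨o, ho⟩ := exists_octad
  have hcard : Fintype.card GolayPt = 24 := by decide
  have h30 := Cfsg.Agent.S0354.result hcard Cfsg.Agent.S0363.result ho
  have hne : {c : Finset GolayPt | c ∈ octads ∧ Disjoint o c}.Nonempty := by
    rw [← Set.ncard_pos (Set.toFinite _), h30]
    norm_num
  obtain ⟨o', ho', hd⟩ := hne
  have hoc : o.card = 8 := ho.2
  have hoc' : o'.card = 8 := ho'.2
  have h1 : Cd (symmDiff o o') := cd_symmDiff ho.1 ho'.1
  have h1c : (symmDiff o o').card = 16 := by
    rw [Finset.disjoint_iff_inter_eq_empty] at hd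
    have := Cfsg.Agent.SteinerCount.card_symmDiff_eq o o'
    rw [hd, hoc, hoc'] at this
    simpa using this
  have h2 : (symmDiff o o')ᶜ ∈ octads := by
    refine ⟨cd_compl h1, ?_⟩
    rw [Finset.card_compl, h1c]
    rfl
  have h3 := tt_symm (tt_symm (tt_octad ho) (tt_octad ho')) (tt_octad h2)
  have h4 : symmDiff (symmDiff o o') (symmDiff o o')ᶜ = Finset.univ := by
    ext a
    simp only [Finset.mem_symmDiff (s := symmDiff o o'), Finset.mem_compl, Finset.mem_univ, iff_true]
    tauto
  rwa [h4] at h3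

theorem tt_dodecad {A : Finset GolayPt} (hA : Cd A) (h12 : A.card = 12) : TT A := by
  obtain ⟨P, hPA, hP⟩ := Finset.exists_subset_card_eq (s := A) (n := 5) (by omega)
  obtain ⟨o, ⟨ho, hPo⟩, -⟩ := Cfsg.Agent.S0363.result.2 P hP
  have hoc : o.card = 8 := ho.2
  have h5 : 5 ≤ (o ∩ A).card := by
    rw [← hP]
    exact Finset.card_le_card (Finset.subset_inter hPo hPA)
  have h8 : (o ∩ A).card ≤ 8 := by
    rw [← hoc]; exact Finset.card_le_card Finset.inter_subset_left
  have hev := cd_inter ho.1 hA
  have hsy := Cfsg.Agent.SteinerCount.card_symmDiff_eq o A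
  rw [hoc, h12] at hsy
  have hw := cd_weights (cd_symmDiff ho.1 hA)
  have h6 : (symmDiff o A).card = 8 := by omega
  have ho' : symmDiff o A ∈ octads := ⟨cd_symmDiff ho.1 hA, h6⟩
  have h7 := tt_symm (tt_octad ho) (tt_octad ho')
  have h9 : symmDiff o (symmDiff o A) = A := by
    simp
  rwa [h9] at h7

theorem tt_all {A : Finset GolayPt} (hA : Cd A) : TT A := by
  rcases cd_weights hA with h | h | h | h | h
  · rw [Finset.card_eq_zero.1 h]
    exact tt_empty
  · exact tt_octad ⟨hA, h⟩
  · exact tt_dodecad hA h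
  · have h1 : Aᶜ ∈ octads := by
      refine ⟨cd_compl hA, ?_⟩
      rw [Finset.card_compl, h]
      rfl
    have h2 := tt_symm tt_univ (tt_octad h1)
    have h3 : symmDiff Finset.univ Aᶜ = A := by
      ext a
      simp [Finset.mem_symmDiff]
    rwa [h3] at h2
  · have h1 : A = Finset.univ := by
      apply Finset.eq_univ_of_card
      rw [h]
      rfl
    rw [h1]
    exact tt_univ

theorem even_mem {x : GolayPt → ℤ} (hx : x ∈ leechSet) (hev : ∀ i, x i % 2 = 0) : x ∈ MM := by
  obtain ⟨m, hm, hs, hk⟩ := hx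
  obtain ⟨y, hy, h1, h2⟩ := tt_all (hk 2)
  have hm2 : m % 2 = 0 := by
    have h3 := hm none
    have h4 := hev none
    unfold Int.ModEq at h3
    omega
  have h3 : ∀ i, (x i - y i) % 4 = 0 := by
    intro i
    have h4 := h1 i
    have h5 := hev i
    unfold ind at h4
    by_cases h6 : i ∈ Finset.univ.filter fun i => x i ≡ 2 [ZMOD 4]
    · rw [if_pos h6] at h4
      simp only [Finset.mem_filter, Finset.mem_univ, true_and] at h6
      unfold Int.ModEq at h4 h6
      omega
    · rw [if_neg h6] at h4
      simp only [Finset.mem_filter, Finset.mem_univ, true_and] at h6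
      unfold Int.ModEq at h4 h6
      omega
  set z : GolayPt → ℤ := fun i => (x i - y i) / 4 with hz
  have hxz : ∀ i, x i = y i + 4 * z i := by
    intro i
    have := h3 i
    simp only [hz]
    omega
  have hsum : ∑ i, x i = ∑ i, y i + 4 * ∑ i, z i := by
    rw [Finset.mul_sum, ← Finset.sum_add_distrib]
    exact Finset.sum_congr rfl (fun i _ => hxz i)
  have hzs : (∑ i, z i) % 2 = 0 := by
    unfold Int.ModEq at h2 hs
    omega
  have h4 := AddSubgroup.add_mem _ hy (four_even z hzs)
  convert h4 using 1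
  ext i
  exact hxz i

/-- The vector `(-3, 1^23)`. -/
def vv : GolayPt → ℤ := fun k => if k = none then -3 else 1

theorem vv_set : vv ∈ leechSet := by
  refine mk _ 1 ∅ cd_empty ?_ (by decide)
  intro i
  unfold vv ind
  simp only [Finset.notMem_empty, if_false]
  unfold Int.ModEq
  split_ifs <;> simp

theorem vv_norm : sqNorm vv = 32 := by decide

theorem mem_M {x : GolayPt → ℤ} (hx : x ∈ leechSet) : x ∈ MM := by
  obtain ⟨m, hm, _, _⟩ := id hx
  by_cases hm2 : m % 2 = 0
  · apply even_mem hx
    intro i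
    have := hm i
    unfold Int.ModEq at this
    omega
  · have hxv : x - vv ∈ leechSet := by
      have : x - vv = x + -vv := sub_eq_add_neg _ _
      rw [this]
      exact L.add_mem hx (L.neg_mem vv_set)
    have h1 : x - vv ∈ MM := by
      apply even_mem hxv
      intro i
      have := hm i
      simp only [Pi.sub_apply, vv]
      unfold Int.ModEq at this
      split_ifs <;> omega
    have h2 := AddSubgroup.add_mem _ h1 (short_mem vv_set vv_norm)
    simpa using h2


/-- The rank-24 lattice is the additive subgroup generated by its 196560 minimal vectors. -/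
theorem result : AddSubgroup.closure {x : Cfsg.GolayPt → ℤ | x ∈ Cfsg.leechLattice ∧ Cfsg.sqNorm x = 32} = Cfsg.leechLattice := by
  apply le_antisymm
  · rw [AddSubgroup.closure_le]
    rintro x ⟨h, _⟩
    exact h
  · intro x hx
    rw [LeechBasic.mem_lattice] at hx
    exact mem_M hx

end Cfsg.Agent.S1567
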