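import Cfsg.Statements.S1568
import Cfsg.Agent.Lib.LeechTots

set_option autoImplicit false
open Cfsg

namespace Cfsg.Agent.S1568
open Cfsg Cfsg.Agent.Lib.LeechCount

theorem three_iff {x : GolayPt → ℤ} (hL : x ∈ leechLattice) (hn : sqNorm x = 48) :
    (∃ i j k, i ≠ j ∧ j ≠ k ∧ i ≠ k ∧ |x i| = 3 ∧ |x j| = 3 ∧ |x k| = 3) ↔ ∀ i, x i % 2 = 1 ∧ |x i| ≠ 5 := by
  classical
  obtain ⟨m, A, hA, h4, hs⟩ := Cfsg.Agent.LeechBasic.dec (Cfsg.Agent.LeechBasic.mem_lattice.1 hL)
  have hpar : ∀ i j, (x i - x j) % 2 = 0 := by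
    intro i j
    have a1 := h4 i
    have a2 := h4 j
    unfold Int.ModEq at a1 a2
    omega
  have hsq : ∀ a : ℤ, ∀ c : ℤ, 0 ≤ c → |a| = c → a ^ 2 = c ^ 2 := by
    intro a c _ h
    rw [← sq_abs, h]
  constructor
  · rintro ⟨i, j, k, hij, hjk, hik, a1, a2, a3⟩ l
    have hi : x i % 2 = 1 := by
      rcases abs_cases (x i) with ⟨h, -⟩ | ⟨h, -⟩ <;> omega
    refine ⟨?_, ?_⟩
    · have := hpar l i
      omega
    · intro a4
      have h1 : l ≠ i := fun h => by rw [h, a1] at a4; omega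
      have h2 : l ≠ j := fun h => by rw [h, a2] at a4; omega
      have h3 : l ≠ k := fun h => by rw [h, a3] at a4; omega
      have hsub : ∑ t ∈ ({i, j, k, l} : Finset GolayPt), x t ^ 2 ≤ sqNorm x :=
        Finset.sum_le_sum_of_subset_of_nonneg (Finset.subset_univ _) (fun _ _ _ => sq_nonneg _)
      rw [Finset.sum_insert (by simp [hij, hik, h1.symm]), Finset.sum_insert (by simp [hjk, h2.symm]),
        Finset.sum_insert (by simp [h3.symm]), Finset.sum_singleton, hn,
        hsq _ 3 (by norm_num) a1, hsq _ 3 (by norm_num) a2, hsq _ 3 (by norm_num) a3, hsq _ 5 (by norm_num) a4] at hsub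
      norm_num at hsub
  · intro hall
    have hvals : ∀ t, |x t| = 1 ∨ |x t| = 3 := by
      intro t
      obtain ⟨h1, h2⟩ := hall t
      have h3 : x t ^ 2 ≤ sqNorm x :=
        Finset.single_le_sum (f := fun i => x i ^ 2) (fun i _ => sq_nonneg _) (Finset.mem_univ t)
      rw [hn] at h3
      have h5 : -6 ≤ x t ∧ x t ≤ 6 := by
        constructor <;> nlinarith
      rcases abs_cases (x t) with ⟨h, h'⟩ | ⟨h, h'⟩ <;> rw [h] at h2 ⊢ <;> omega
    set Th := Finset.univ.filter (fun t => |x t| = 3) with hTh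
    have hcard : Th.card = 3 := by
      have h1 : ∑ t, x t ^ 2 = ∑ t : GolayPt, (if t ∈ Th then (9 : ℤ) else 1) := by
        refine Finset.sum_congr rfl fun t _ => ?_
        rw [hTh]
        simp only [Finset.mem_filter, Finset.mem_univ, true_and]
        rcases hvals t with h | h
        · rw [if_neg (by omega), hsq _ 1 (by norm_num) h]
          norm_num
        · rw [if_pos h, hsq _ 3 (by norm_num) h]
          norm_num
      have h2 : ∑ t : GolayPt, (if t ∈ Th then (9 : ℤ) else 1) = 9 * Th.card + (24 - Th.card) := by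
        rw [Finset.sum_ite, Finset.sum_const, Finset.sum_const]
        have e1 : (Finset.univ.filter fun t => t ∈ Th) = Th := by
          ext t
          simp
        have e2 : (Finset.univ.filter fun t => ¬ t ∈ Th).card = 24 - Th.card := by
          have : (Finset.univ.filter fun t => ¬ t ∈ Th) = Thᶜ := by
            ext t
            simp
          rw [this, Finset.card_compl, card_golayPt]
        have e3 : Th.card ≤ 24 := by
          have := Finset.card_le_univ Th
          rwa [card_golayPt] at this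
        rw [e1, e2]
        simp only [nsmul_eq_mul, mul_one]
        push_cast [Nat.cast_sub e3]
        ring
      have h3 : sqNorm x = ∑ t, x t ^ 2 := rfl
      rw [h3, h1, h2] at hn
      omega
    obtain ⟨a, b, c, hab, hac, hbc, he⟩ := Finset.card_eq_three.1 hcard
    have mem : ∀ t ∈ Th, |x t| = 3 := fun t ht => (Finset.mem_filter.1 ht).2
    exact ⟨a, b, c, hab, hbc, hac, mem a (by rw [he]; simp), mem b (by rw [he]; simp), mem c (by rw [he]; simp)⟩

/-- Shape census of the lattice vectors of sum of squares 48 (customary norm 6): the four families (2^12, 0^12), (±3^3, ±1^21), (±4, ±2^8, 0^15) and (±5, ±1^23) have 5275648, 8290304, 3108864 and 98304 members. -/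
theorem result : {x : Cfsg.GolayPt → ℤ | x ∈ Cfsg.leechLattice ∧ Cfsg.sqNorm x = 48 ∧ ∀ i, x i = 0 ∨ x i = 2 ∨ x i = -2}.ncard = 5275648 ∧ {x : Cfsg.GolayPt → ℤ | x ∈ Cfsg.leechLattice ∧ Cfsg.sqNorm x = 48 ∧ ∃ i j k, i ≠ j ∧ j ≠ k ∧ i ≠ k ∧ |x i| = 3 ∧ |x j| = 3 ∧ |x k| = 3}.ncard = 8290304 ∧ {x : Cfsg.GolayPt → ℤ | x ∈ Cfsg.leechLattice ∧ Cfsg.sqNorm x = 48 ∧ ∃ i, |x i| = 4}.ncard = 3108864 ∧ {x : Cfsg.GolayPt → ℤ | x ∈ Cfsg.leechLattice ∧ Cfsg.sqNorm x = 48 ∧ ∃ i, |x i| = 5}.ncard = 98304 := by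
  classical
  have hW : {x : GolayPt → ℤ | x ∈ leechLattice ∧ sqNorm x = 48}.Finite := by
    have h := W_eq qAll (N := 48) (by norm_num)
    have e : {x : GolayPt → ℤ | x ∈ leechLattice ∧ sqNorm x = 48} =
        {x : GolayPt → ℤ | x ∈ leechLattice ∧ sqNorm x = ((48 : ℕ) : ℤ) ∧ ∀ i, qAll (x i) = true} := by
      ext x
      simp [qAll]
    rw [e, h]
    exact Finset.finite_toSet _
  have hW48 : {x : GolayPt → ℤ | x ∈ leechLattice ∧ sqNorm x = 48}.ncard = 16773120 := by
    have h := count_all (N := 48) (by norm_num)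
    rw [t48] at h
    exact h
  -- complement of a restriction
  have comp : ∀ (Q : ℤ → Bool) (v : ℕ), v ≤ 16773120 → tot Q 48 = 16773120 - v →
      {x : GolayPt → ℤ | x ∈ leechLattice ∧ sqNorm x = 48 ∧ ∃ i, Q (x i) = false}.ncard = v := by
    intro Q v hv ht
    have h1 := count Q (N := 48) (by norm_num)
    rw [ht] at h1
    have e : {x : GolayPt → ℤ | x ∈ leechLattice ∧ sqNorm x = 48 ∧ ∃ i, Q (x i) = false} =
        {x : GolayPt → ℤ | x ∈ leechLattice ∧ sqNorm x = 48} \
          {x : GolayPt → ℤ | x ∈ leechLattice ∧ sqNorm x = ((48 : ℕ) : ℤ) ∧ ∀ i, Q (x i) = true} := by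
      ext x
      simp only [Set.mem_ofPred_eq, Set.mem_sdiff, Nat.cast_ofNat]
      constructor
      · rintro ⟨a, b, i, hi⟩
        refine ⟨⟨a, b⟩, fun h => ?_⟩
        have := h.2.2 i
        rw [hi] at this
        exact absurd this (by decide)
      · rintro ⟨⟨a, b⟩, c⟩
        refine ⟨a, b, ?_⟩
        by_contra hc
        push Not at hc
        exact c ⟨a, b, fun i => by simpa using hc i⟩
    have hsub : {x : GolayPt → ℤ | x ∈ leechLattice ∧ sqNorm x = ((48 : ℕ) : ℤ) ∧ ∀ i, Q (x i) = true} ⊆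
        {x : GolayPt → ℤ | x ∈ leechLattice ∧ sqNorm x = 48} := by
      rintro x ⟨a, b, -⟩
      exact ⟨a, by simpa using b⟩
    rw [e, Set.ncard_sdiff hsub (hW.subset hsub), h1, hW48]
    omega
  refine ⟨?_, ?_, ?_, ?_⟩
  · have h := count q2 (N := 48) (by norm_num)
    rw [t2] at h
    rw [← h]
    congr 1
    ext x
    simp only [Set.mem_ofPred_eq, q2, decide_eq_true_eq, Nat.cast_ofNat]
  · have h := count q3 (N := 48) (by norm_num)
    rw [t3] at h
    rw [← h]
    congr 1
    ext x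
    simp only [Set.mem_ofPred_eq, q3, decide_eq_true_eq, Nat.cast_ofNat]
    constructor
    · rintro ⟨a, b, c⟩
      exact ⟨a, b, (three_iff a b).1 c⟩
    · rintro ⟨a, b, c⟩
      exact ⟨a, b, (three_iff a b).2 c⟩
  · have h := comp q4 3108864 (by norm_num) t4
    rw [← h]
    congr 1
    ext x
    simp [q4]
  · have h := comp q5 98304 (by norm_num) t5
    rw [← h]
    congr 1
    ext x
    simp [q5]

end Cfsg.Agent.S1568
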