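import Cfsg.Statements.S1587

-- import your own Cfsg.Agent.* helpers here

set_option autoImplicit false
open Matrix
open Cfsg

namespace Cfsg.Agent.S1587

/-- First step of the characterisation of the rank-24 lattice: in an even lattice without roots, norm-8 vectors congruent modulo 2 are equal, opposite or orthogonal. -/
theorem result (B : Matrix (Fin 24) (Fin 24) ℤ) (hsymm : B.IsSymm) (hpos : ∀ x : Fin 24 → ℤ, x ≠ 0 → 0 < x ⬝ᵥ (B *ᵥ x)) (heven : ∀ x : Fin 24 → ℤ, (2 : ℤ) ∣ x ⬝ᵥ (B *ᵥ x)) (h2 : ∀ x : Fin 24 → ℤ, x ⬝ᵥ (B *ᵥ x) ≠ 2) (x y : Fin 24 → ℤ) (hx : x ⬝ᵥ (B *ᵥ x) = 8) (hy : y ⬝ᵥ (B *ᵥ y) = 8) (hc : ∀ i, (2 : ℤ) ∣ (x - y) i) : y = x ∨ y = -x ∨ x ⬝ᵥ (B *ᵥ y) = 0 := by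
  -- halves
  have hdiv : ∀ i, (x - y) i = 2 * ((x - y) i / 2) := fun i => (Int.mul_ediv_cancel' (hc i)).symm
  set z : Fin 24 → ℤ := fun i => (x - y) i / 2 with hz
  set w : Fin 24 → ℤ := y + z with hw
  have hxw : x = w + z := by
    ext i
    have := hdiv i
    simp only [hw, Pi.add_apply, hz]
    simp only [Pi.sub_apply] at this ⊢
    omega
  have hyw : y = w - z := by
    simp [hw]
  set Q : (Fin 24 → ℤ) → (Fin 24 → ℤ) → ℤ := fun u v => u ⬝ᵥ (B *ᵥ v) with hQ
  have hsym : ∀ u v, Q u v = Q v u := by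
    intro u v
    simp only [hQ]
    have h3 : Matrix.vecMul u B = B *ᵥ u := by
      conv_lhs => rw [← hsymm]
      exact Matrix.vecMul_transpose B u
    rw [Matrix.dotProduct_mulVec, h3, dotProduct_comm]
  have hadd : ∀ u v t, Q (u + v) t = Q u t + Q v t := by
    intro u v t
    simp only [hQ, add_dotProduct]
  have hadd' : ∀ u v t, Q t (u + v) = Q t u + Q t v := by
    intro u v t
    simp only [hQ, Matrix.mulVec_add, dotProduct_add]
  have hsub : ∀ u v t, Q (u - v) t = Q u t - Q v t := by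
    intro u v t
    simp only [hQ, sub_dotProduct]
  have hsub' : ∀ u v t, Q t (u - v) = Q t u - Q t v := by
    intro u v t
    simp only [hQ, Matrix.mulVec_sub, dotProduct_sub]
  have e1 : Q x x = 8 := hx
  have e2 : Q y y = 8 := hy
  rw [hxw] at e1
  rw [hyw] at e2
  simp only [hadd, hadd', hsub, hsub'] at e1 e2
  have hwz := hsym w z
  have hzw2 : Q w w + Q z z = 8 := by linarith
  have hwz0 : Q z w = 0 := by linarith
  have hev1 : (2 : ℤ) ∣ Q w w := heven w
  have hev2 : (2 : ℤ) ∣ Q z z := heven z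
  have hne1 : Q w w ≠ 2 := h2 w
  have hne2 : Q z z ≠ 2 := h2 z
  by_cases hz0 : z = 0
  · left
    rw [hyw, hxw, hz0]; simp
  by_cases hw0 : w = 0
  · right; left
    rw [hyw, hxw, hw0]; simp
  right; right
  have hp1 : 0 < Q w w := hpos w hw0
  have hp2 : 0 < Q z z := hpos z hz0
  have hxy : Q x y = 0 := by
    rw [hxw, hyw]
    simp only [hadd, hadd', hsub, hsub']
    have : Q w w = 4 := by omega
    have h3 : Q z z = 4 := by omega
    rw [this, h3, hwz, hwz0]
    ring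
  exact hxy

end Cfsg.Agent.S1587
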