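import Cfsg.Statements.S1593
import Cfsg.Agent.Lib.TernaryCode
-- import your own Cfsg.Agent.* helpers here

set_option autoImplicit false
open Cfsg

namespace Cfsg.Agent.S1593

/-- The only sign changes preserving the length-12 ternary code are the identity and negation of all coordinates. -/
theorem result (c : Cfsg.ArrayPt → (ZMod 3)ˣ) (h : (∀ x ∈ Cfsg.ternaryGolayCode, Cfsg.monomialMap 1 c x ∈ Cfsg.ternaryGolayCode)) : (∀ p, c p = 1) ∨ (∀ p, c p = -1) := by
  have hu : ∀ u : (ZMod 3)ˣ, u = 1 ∨ u = -1 := by decide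
  by_contra hcon
  push Not at hcon
  obtain ⟨⟨p, hp⟩, ⟨q, hq⟩⟩ := hcon
  have hp' : c p = -1 := (hu _).resolve_left hp
  have hq' : c q = 1 := (hu _).resolve_right hq
  have hpq : p ≠ q := by
    rintro rfl
    rw [hp'] at hq
    exact hq rfl
  -- a hexad through `p` and `q`
  have hcard : ({p, q} : Finset ArrayPt).card ≤ 5 := by
    rw [Finset.card_pair hpq]
    norm_num
  have hU : 5 ≤ (Finset.univ : Finset ArrayPt).card := by
    rw [Finset.card_univ, Fintype.card_prod, Fintype.card_fin, ZMod.card]
    norm_num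
  obtain ⟨s, hs1, _, hs⟩ := Finset.exists_subsuperset_card_eq (Finset.subset_univ _) hcard hU
  obtain ⟨b, ⟨hb, hsb⟩, -⟩ := TernaryCode.steiner.2 s hs
  have hb' : b ∈ {h : Finset ArrayPt | ∃ x ∈ ternaryGolayCode, ternarySupport x = h ∧ h.card = 6} := by
    rw [TernaryCode.blocks_eq]
    exact hb
  obtain ⟨x, hx, rfl, h6⟩ := hb'
  have hpb : p ∈ ternarySupport x := hsb (hs1 (by simp))
  have hqb : q ∈ ternarySupport x := hsb (hs1 (by simp))
  have hy := Submodule.sub_mem _ (h x hx) hx
  set y := Cfsg.monomialMap 1 c x - x with hy'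
  have hm : ∀ a, Cfsg.monomialMap 1 c x a = (c a : ZMod 3) * x a := fun a => rfl
  have hyq : y q = 0 := by
    simp [hy', hm, hq']
  have hyp : y p = x p := by
    have hxp : ∀ a : ZMod 3, (-1) * a - a = a := by decide
    simp only [hy', hm, Pi.sub_apply, hp']
    exact hxp _
  have hxp0 : x p ≠ 0 := by
    simpa [ternarySupport] using hpb
  have hy0 : y ≠ 0 := by
    intro h0
    apply hxp0
    rw [← hyp, h0]
    rfl
  have hsub : ternarySupport y ⊆ (ternarySupport x).erase q := by
    intro a ha
    rw [Finset.mem_erase]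
    simp only [ternarySupport, Finset.mem_filter, Finset.mem_univ, true_and] at ha ⊢
    refine ⟨?_, ?_⟩
    · rintro rfl
      exact ha hyq
    · intro h1
      apply ha
      simp [hy', hm, h1]
  have hle := Finset.card_le_card hsub
  rw [Finset.card_erase_of_mem hqb, h6] at hle
  have := TernaryCode.weights hy hy0
  omega

end Cfsg.Agent.S1593
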