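import Cfsg.Statements.S1595
import Cfsg.Agent.Lib.SteinerCases
-- import your own Cfsg.Agent.* helpers here

set_option autoImplicit false
open Cfsg

namespace Cfsg.Agent.S1595

/-- Leech triangle of S(5, 6, 12): blocks meet in 0, 2, 3 or 4 points, and a block is met exactly in a given 2-, 3- or 4-subset by 3, 2, 3 blocks respectively. -/
theorem result {α : Type*} [Fintype α] [DecidableEq α] (hα : Fintype.card α = 12) {B : Set (Finset α)} (hB : Cfsg.IsSteinerSystem 5 6 B) (b : Finset α) (hb : b ∈ B) : (∀ c ∈ B, c ≠ b → (b ∩ c).card = 0 ∨ (b ∩ c).card = 2 ∨ (b ∩ c).card = 3 ∨ (b ∩ c).card = 4) ∧ ∀ s ⊆ b, (s.card = 2 → {c : Finset α | c ∈ B ∧ b ∩ c = s}.ncard = 3) ∧ (s.card = 3 → {c : Finset α | c ∈ B ∧ b ∩ c = s}.ncard = 2) ∧ (s.card = 4 → {c : Finset α | c ∈ B ∧ b ∩ c = s}.ncard = 3) := by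
  have hf := SteinerCount.hf12 hα hB hb
  constructor
  · intro c hc hbc
    have hle := SteinerCount.inter_le hB (c := c) hb
    have h8 : (b ∩ c).card ≠ 6 := fun h => hbc (SteinerCount.eq_of_inter_card hB hb hc h).symm
    have hno := fun h0 => SteinerCount.no_meet b _ hf hc h0
    rw [hB.1 b hb] at hno
    generalize (b ∩ c).card = i at *
    interval_cases i
    · simp
    · exact (hno (by decide)).elim
    · simp
    · simp
    · simp
    · exact (hno (by decide)).elim
    · exact absurd rfl h8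
  · intro s hs
    have h := SteinerCount.exact_count_g (B := B) b _ hf hs
    rw [hB.1 b hb] at h
    rw [h]
    refine ⟨fun h2 => ?_, fun h3 => ?_, fun h4 => ?_⟩
    · rw [h2]; decide
    · rw [h3]; decide
    · rw [h4]; decide

end Cfsg.Agent.S1595
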