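import Cfsg.Statements.S1610
import Cfsg.Agent.Lib.HexaCode
-- import your own Cfsg.Agent.* helpers here

set_option autoImplicit false
open Cfsg

namespace Cfsg.Agent.S1610

/-- The hexacode has 64 words, minimum weight 4, and weight distribution 0^1 4^45 6^18. -/
theorem result (F : Type*) [Field F] [Fintype F] [DecidableEq F] (hF : Fintype.card F = 4) (ω : F) (hω : ω ^ 2 + ω + 1 = 0) : Nat.card ↥(Cfsg.hexacode F ω) = 64 ∧ (∀ x ∈ Cfsg.hexacode F ω, x ≠ 0 → (Finset.univ.filter fun i => x i ≠ 0).card = 4 ∨ (Finset.univ.filter fun i => x i ≠ 0).card = 6) ∧ {x : Fin 6 → F | x ∈ Cfsg.hexacode F ω ∧ (Finset.univ.filter fun i => x i ≠ 0).card = 4}.ncard = 45 ∧ {x : Fin 6 → F | x ∈ Cfsg.hexacode F ω ∧ (Finset.univ.filter fun i => x i ≠ 0).card = 6}.ncard = 18 := by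
  obtain ⟨e, he⟩ := F4Iso.exists_iso hF ω hω
  have hr : hexacode F ω = (hexacode F ω) := rfl
  have hset : (hexacode F ω : Set (Fin 6 → F)) = Set.range (HexaCode.hwF e) := by
    ext x
    exact HexaCode.mem_iff e ω he x
  have hcount : ∀ k : ℕ, {x : Fin 6 → F | x ∈ hexacode F ω ∧ (Finset.univ.filter fun i => x i ≠ 0).card = k}.ncard = (Finset.univ.filter fun a => HexaCode.wtH a = k).card := by
    intro k
    have h : {x : Fin 6 → F | x ∈ hexacode F ω ∧ (Finset.univ.filter fun i => x i ≠ 0).card = k} =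
        HexaCode.hwF e '' ((Finset.univ.filter fun a => HexaCode.wtH a = k : Finset _) : Set _) := by
      ext x
      simp only [Set.mem_ofPred_eq, Set.mem_image, Finset.coe_filter, Finset.mem_univ, true_and]
      constructor
      · rintro ⟨h1, h2⟩
        obtain ⟨a, rfl⟩ := (HexaCode.mem_iff e ω he x).1 h1
        exact ⟨a, by rw [← HexaCode.wt_eq e a]; exact h2, rfl⟩
      · rintro ⟨a, h1, rfl⟩
        exact ⟨(HexaCode.mem_iff e ω he _).2 ⟨a, rfl⟩, by rw [HexaCode.wt_eq e a]; exact h1⟩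
    rw [h, Set.ncard_image_of_injective _ (HexaCode.hwF_inj e), Set.ncard_coe_finset]
  refine ⟨?_, ?_, ?_, ?_⟩
  · have e1 : (Lib.F4Sp.F4 × Lib.F4Sp.F4 × Lib.F4Sp.F4) ≃ ↥(hexacode F ω) :=
      Equiv.ofBijective (fun a => ⟨HexaCode.hwF e a, (HexaCode.mem_iff e ω he _).2 ⟨a, rfl⟩⟩)
        ⟨fun a b h => HexaCode.hwF_inj e (congrArg Subtype.val h), fun x => by
          obtain ⟨a, ha⟩ := (HexaCode.mem_iff e ω he x).1 x.2
          exact ⟨a, Subtype.ext ha⟩⟩
    rw [← Nat.card_congr e1, Nat.card_eq_fintype_card, Fintype.card_prod, Fintype.card_prod, Lib.F4Sp.card_F4]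
  · intro x hx h0
    obtain ⟨a, rfl⟩ := (HexaCode.mem_iff e ω he x).1 hx
    rw [HexaCode.wt_eq e a]
    apply HexaCode.wt_cases
    rintro rfl
    apply h0
    funext i
    have : HexaCode.hw (0, 0, 0) i = 0 := by
      revert i
      decide
    simp [HexaCode.hwF, this]
  · rw [hcount, HexaCode.count4]
  · rw [hcount, HexaCode.count6]

end Cfsg.Agent.S1610
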