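import Cfsg.Statements.S1638
import Cfsg.Agent.Lib.GolayKit

set_option autoImplicit false
set_option linter.unusedSimpArgs false
set_option linter.unusedVariables false
open scoped Pointwise
open Cfsg

namespace Cfsg.Agent.S1638
open Cfsg.Agent.Lib
open scoped Pointwise
open Cfsg.Agent.Lib.GolayBasic Cfsg.Agent.Lib.GolayCode Cfsg.Agent.Lib.GolayPerm Cfsg.Agent.Lib.GolayOrder Cfsg.Agent.Lib.GolayFacts Cfsg.Agent.Lib.GolayM23 Cfsg.Agent.Lib.GolayChain Cfsg.Agent.Lib.GolayM12 Cfsg.Agent.Lib.GolayCount Cfsg.Agent.Lib.GolayTools Cfsg.Agent.Lib.GolayOctad Cfsg.Agent.Lib.GolayForest Cfsg.Agent.Lib.GolayKit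

/-- the second pair of base points -/
def S0 : ℕ := 12

/-- octads over the base -/
def oLR : ℕ := 332516082092033659796421615748915215
/-- octads over the base -/
def oL (i : ℕ) : ℕ := rom oLR 24 i

theorem hL : OctsOver oL 5 (maskB 4) := ⟨by decide +kernel, by decide +kernel⟩

/-- generators of the stabiliser -/
def hR : ℕ := 971400513831970896609138555519501002118996888394082558578146002156601665006963636558011532221053533897690144
/-- forest: parent -/
def parR : ℕ := 2346384656298157589034469552509668097815705552905355035254018685367920093194731522305839172051695320133702986335421233300448918311447201301949720257114806119402782741105266868426715277977989682991385469222690553659999775667718731146898600046855215923321884815849140625148624110192773581764682105748065078374243041294799058201210274756255488665297961006557602838720535418264858029927762067893827944994703103254360350856810447733199884400397310554074082947527483179017880922975424863556117934653142141808111821086170968965857260503370369810356164632768311217644773820186089669243911288712038348180390494011390686935677702644710069924072890912431311110653529512798604306023851039359616692651025919517100046386660632165689259592341196247073968208478208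
/-- forest: parent -/
def par (i : ℕ) : ℕ := rom parR 9 i
/-- forest: generator -/
def giR : ℕ := 361403657360995052428923870140225870231103017795961575191008575760174606359062957516309039976599648381471632275350822910306097066070564037234766848127895062373728256
/-- forest: generator -/
def gi (i : ℕ) : ℕ := rom giR 2 i
/-- forest: depth -/
def depR : ℕ := 606798751462928709600624548349416253056433355869353123713536131807929035025612238152243568239571930915292926007680013711079489666365956864961363998928249646968653843363843731165835447119589813951295837057666276636376447404586691368421933409839878656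
/-- forest: depth -/
def dep (i : ℕ) : ℕ := rom depR 3 i
/-- forest: root -/
def rtR : ℕ := 157114535169129914599230194405821026737447269683679212676883013215391810730095024226356656063518344924089786767694586648946959458287859177197759539951044264698904185148215506776553196842296543423779709518144984101112479731281415566977100570163148912629768103619390085294172612984901398069465032623135833105759014500047529766685995549150577572355959495999033512755018292938902871298675364760542576936837609476857080164868033230360753512037811610672257322296154541329927825895661357904658659539171665366234803873676609781147060365780633990079580416018777501528420159088849113547268363391334877907587727240168163026578526423070623780364450757388147128623459002398081108275417130410805159793956151309609844297997068185801210540161602597259205392466432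
/-- forest: root -/
def rt (i : ℕ) : ℕ := rom rtR 9 i
/-- forest: root of a class -/
def ktR : ℕ := 1073754638
/-- forest: root of a class -/
def kt (i : ℕ) : ℕ := rom ktR 9 i

/-- the stabiliser -/
abbrev HH : Subgroup (Equiv.Perm GolayPt) := StabMP [S0] [b 0,b 1]

theorem hgens : ∀ j < 3, ∃ g ∈ HH, Rep g (rom hR 120 j) :=
  gens_of_check (mem_StabMP_of_check (by decide +kernel)) (by decide +kernel)

theorem hforest : forestOK 276 rt par dep (maskStep 3 (fun j => rom hR 120 j) prAt gi) = true := by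
  decide +kernel

theorem hkey : keyOK 276 rt (fun i => kt (Nat.add (Nat.mul 2 (pc (Nat.land S0 (prAt i)))) (cond (inOctL oL 5 (Nat.lor (Nat.lor (maskB 2) S0) (prAt i))) 1 0))) (fun i => (!tb (prAt i) (b 0) && !tb (prAt i) (b 1) && !Nat.beq (prAt i) S0)) = true := by
  decide +kernel

theorem orb {i j : ℕ} (hi : i < 276) (hj : j < 276) (hsi : (fun i => (!tb (prAt i) (b 0) && !tb (prAt i) (b 1) && !Nat.beq (prAt i) S0)) i = true) (hsj : (fun i => (!tb (prAt i) (b 0) && !tb (prAt i) (b 1) && !Nat.beq (prAt i) S0)) j = true)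
    (hij : (fun i => Nat.add (Nat.mul 2 (pc (Nat.land S0 (prAt i)))) (cond (inOctL oL 5 (Nat.lor (Nat.lor (maskB 2) S0) (prAt i))) 1 0)) i = (fun i => Nat.add (Nat.mul 2 (pc (Nat.land S0 (prAt i)))) (cond (inOctL oL 5 (Nat.lor (Nat.lor (maskB 2) S0) (prAt i))) 1 0)) j) : ∃ g ∈ HH, g • GolayBasic.setOf (prAt i) = GolayBasic.setOf (prAt j) :=
  forest_key hgens hforest hkey hi hj hsi hsj (congrArg kt hij)


theorem setOf_S0 : GolayBasic.setOf S0 = {ptOf (b 2), ptOf (b 3)} := by
  have : S0 = 2 ^ b 2 ||| 2 ^ b 3 := by decide +kernel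
  rw [this, setOf_lor, setOf_two_pow (b_lt (by norm_num)), setOf_two_pow (b_lt (by norm_num))]
  rfl

theorem setOf_m2 : GolayBasic.setOf (maskB 2) = {ptOf (b 0), ptOf (b 1)} := by
  have : maskB 2 = 2 ^ b 0 ||| 2 ^ b 1 := by decide +kernel
  rw [this, setOf_lor, setOf_two_pow (b_lt (by norm_num)), setOf_two_pow (b_lt (by norm_num))]
  rfl

theorem hP0 (t : ℕ) (o : Finset GolayPt) : (ptOf (b 0) ∈ o ∧ ptOf (b 1) ∈ o ∧ GolayBasic.setOf S0 ∪ GolayBasic.setOf t ⊆ o) ↔
    GolayBasic.setOf (Nat.lor (Nat.lor (maskB 2) S0) t) ⊆ o := by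
  show _ ↔ GolayBasic.setOf ((maskB 2 ||| S0) ||| t) ⊆ o
  rw [setOf_lor, setOf_lor, setOf_m2]
  simp only [Finset.union_subset_iff, Finset.insert_subset_iff, Finset.singleton_subset_iff]
  tauto

theorem hlor : ∀ i < 276, Nat.lor (Nat.lor (maskB 2) S0) (prAt i) < 2 ^ 24 := by decide +kernel
theorem hand : ∀ i < 276, Nat.land (Nat.lor (Nat.lor (maskB 2) S0) (prAt i)) (maskB 4) = maskB 4 := by decide +kernel

theorem hPe : ∀ i < 276, (∃ o ∈ octads, ptOf (b 0) ∈ o ∧ ptOf (b 1) ∈ o ∧ GolayBasic.setOf S0 ∪ GolayBasic.setOf (prAt i) ⊆ o) ↔ inOctL oL 5 (Nat.lor (Nat.lor (maskB 2) S0) (prAt i)) = true := by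
  intro i hi
  rw [← exists_octad_iff_L hL (hlor i hi) (hand i hi)]
  simp only [hP0]

theorem hPw {w : Equiv.Perm GolayPt} (hw : w ∈ M24) (a : Finset GolayPt) :
    (∃ o ∈ octads, w (ptOf (b 0)) ∈ o ∧ w (ptOf (b 1)) ∈ o ∧ w • GolayBasic.setOf S0 ∪ w • a ⊆ o) ↔
      ∃ o ∈ octads, ptOf (b 0) ∈ o ∧ ptOf (b 1) ∈ o ∧ GolayBasic.setOf S0 ∪ a ⊆ o := by
  apply exists_octad_smul hw
  intro o
  simp only [← Equiv.Perm.smul_def w, Finset.smul_mem_smul_finset_iff, ← Finset.smul_finset_union, Finset.smul_finset_subset_smul_finset_iff]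

theorem hm0 : S0 < 2 ^ 24 := by decide +kernel



/-- Fix two points p ≠ q and a pair s of two further points. Among the pairs avoiding p, q and disjoint from s, exactly 30 lie in an octad together with p, q and s and exactly 160 do not; and any two pairs other than s that meet s in equally many points and agree on that octad property are carried to one another by an element of the group of the length-24 code fixing p, q and s. -/
theorem result (p q : Cfsg.GolayPt) (hpq : p ≠ q) (s : Finset Cfsg.GolayPt) (hs : (s.card = 2 ∧ p ∉ s ∧ q ∉ s)) : {t : Finset Cfsg.GolayPt | (t.card = 2 ∧ p ∉ t ∧ q ∉ t) ∧ Disjoint s t ∧ (∃ o ∈ Cfsg.octads, p ∈ o ∧ q ∈ o ∧ s ∪ t ⊆ o)}.ncard = 30 ∧ {t : Finset Cfsg.GolayPt | (t.card = 2 ∧ p ∉ t ∧ q ∉ t) ∧ Disjoint s t ∧ ¬ (∃ o ∈ Cfsg.octads, p ∈ o ∧ q ∈ o ∧ s ∪ t ⊆ o)}.ncard = 160 ∧ ∀ t t' : Finset Cfsg.GolayPt, (t.card = 2 ∧ p ∉ t ∧ q ∉ t) → (t'.card = 2 ∧ p ∉ t' ∧ q ∉ t') → t ≠ s → t' ≠ s → (s ∩ t).card = (s ∩ t').card → ((∃ o ∈ Cfsg.octads,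 p ∈ o ∧ q ∈ o ∧ s ∪ t ⊆ o) ↔ (∃ o ∈ Cfsg.octads, p ∈ o ∧ q ∈ o ∧ s ∪ t' ⊆ o)) → ∃ g : Equiv.Perm Cfsg.GolayPt, g ∈ Cfsg.M24 ∧ g p = p ∧ g q = q ∧ g • s = s ∧ g • t = t' := by
  classical
  obtain ⟨hs1, hs2, hs3⟩ := hs
  obtain ⟨x, y, hxy, rfl⟩ := Finset.card_eq_two.1 hs1
  have hx : x ≠ p ∧ y ≠ p ∧ x ≠ q ∧ y ≠ q := by
    simp only [Finset.mem_insert, Finset.mem_singleton, not_or] at hs2 hs3
    exact ⟨fun h => hs2.1 h.symm, fun h => hs2.2 h.symm, fun h => hs3.1 h.symm, fun h => hs3.2 h.symm⟩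
  obtain ⟨w, hw, hwt⟩ := exists_base_tuple (fun i => if i = 0 then p else if i = 1 then q else if i = 2 then x else y) 4 (by norm_num) (by
    intro i hi j hj
    interval_cases i <;> interval_cases j <;> simp [hpq, hpq.symm, hx.1, hx.2.1, hx.2.2.1, hx.2.2.2, hxy, hxy.symm, Ne.symm hx.1, Ne.symm hx.2.1, Ne.symm hx.2.2.1, Ne.symm hx.2.2.2])
  have h0 : w (ptOf (b 0)) = p := by simpa using hwt 0 (by norm_num)
  have h1 : w (ptOf (b 1)) = q := by simpa using hwt 1 (by norm_num)
  have h2 : w (ptOf (b 2)) = x := by simpa using hwt 2 (by norm_num)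
  have h3 : w (ptOf (b 3)) = y := by simpa using hwt 3 (by norm_num)
  have hs0 : w • GolayBasic.setOf S0 = {x, y} := by
    rw [setOf_S0, Finset.smul_finset_insert, Finset.smul_finset_singleton, Equiv.Perm.smul_def, Equiv.Perm.smul_def, h2, h3]
  rw [← hs0, ← h0, ← h1]
  clear hs2 hs3 hx hs1
  clear hs0 h2 h3 hwt
  subst h0
  subst h1
  have cnt1 : {t : Finset GolayPt | (t.card = 2 ∧ w (ptOf (b 0)) ∉ t ∧ w (ptOf (b 1)) ∉ t) ∧ Disjoint (w • GolayBasic.setOf S0) t ∧ (∃ o ∈ octads, w (ptOf (b 0)) ∈ o ∧ w (ptOf (b 1)) ∈ o ∧ w • GolayBasic.setOf S0 ∪ t ⊆ o)}.ncard =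
      countBelow (fun i => !tb (prAt i) (b 0) && !tb (prAt i) (b 1) && Nat.beq (Nat.land S0 (prAt i)) 0 && inOctL oL 5 (Nat.lor (Nat.lor (maskB 2) S0) (prAt i))) 276 := by
    simp only [and_assoc]
    apply ncard_k_transport prAt prE w (fun a => ptOf (b 0) ∉ a ∧ ptOf (b 1) ∉ a ∧ Disjoint (GolayBasic.setOf S0) a ∧ ∃ o ∈ octads, ptOf (b 0) ∈ o ∧ ptOf (b 1) ∈ o ∧ GolayBasic.setOf S0 ∪ a ⊆ o)
    · intro a
      rw [disjoint_smul, hPw hw]
      simp only [← Equiv.Perm.smul_def w, Finset.smul_mem_smul_finset_iff]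
    · intro i hi
      rw [hPe i hi, disjoint_setOf hm0, mem_setOf_pt (b_lt (by norm_num)), mem_setOf_pt (b_lt (by norm_num))]
      simp only [Bool.and_eq_true, Bool.not_eq_true', tb_eq, and_assoc, Bool.not_eq_true]
  have cnt2 : {t : Finset GolayPt | (t.card = 2 ∧ w (ptOf (b 0)) ∉ t ∧ w (ptOf (b 1)) ∉ t) ∧ Disjoint (w • GolayBasic.setOf S0) t ∧ ¬ (∃ o ∈ octads, w (ptOf (b 0)) ∈ o ∧ w (ptOf (b 1)) ∈ o ∧ w • GolayBasic.setOf S0 ∪ t ⊆ o)}.ncard =
      countBelow (fun i => !tb (prAt i) (b 0) && !tb (prAt i) (b 1) && Nat.beq (Nat.land S0 (prAt i)) 0 && !inOctL oL 5 (Nat.lor (Nat.lor (maskB 2) S0) (prAt i))) 276 := by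
    simp only [and_assoc]
    apply ncard_k_transport prAt prE w (fun a => ptOf (b 0) ∉ a ∧ ptOf (b 1) ∉ a ∧ Disjoint (GolayBasic.setOf S0) a ∧ ¬ ∃ o ∈ octads, ptOf (b 0) ∈ o ∧ ptOf (b 1) ∈ o ∧ GolayBasic.setOf S0 ∪ a ⊆ o)
    · intro a
      rw [disjoint_smul, hPw hw]
      simp only [← Equiv.Perm.smul_def w, Finset.smul_mem_smul_finset_iff]
    · intro i hi
      rw [hPe i hi, disjoint_setOf hm0, mem_setOf_pt (b_lt (by norm_num)), mem_setOf_pt (b_lt (by norm_num))]
      simp only [Bool.and_eq_true, Bool.not_eq_true', tb_eq, and_assoc, Bool.not_eq_true]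
  refine ⟨cnt1.trans (by decide +kernel), cnt2.trans (by decide +kernel), ?_⟩
  rintro t t' ⟨h1, h2, h3⟩ ⟨h4, h5, h6⟩ h7 h8 h9 h10
  obtain ⟨i, hi, hie⟩ := prE.2.2.2 (w⁻¹ • t) (by rw [card_inv_smul]; exact h1)
  obtain ⟨j, hj, hje⟩ := prE.2.2.2 (w⁻¹ • t') (by rw [card_inv_smul]; exact h4)
  have hU : w • GolayBasic.setOf (prAt i) = t := by rw [← hie, smul_inv_smul]
  have hU' : w • GolayBasic.setOf (prAt j) = t' := by rw [← hje, smul_inv_smul]
  subst hU
  subst hU'
  clear h1 h4 hie hje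
  rw [card_smul_inter, card_smul_inter, card_setOf_inter, card_setOf_inter] at h9
  rw [hPw hw, hPw hw, hPe i hi, hPe j hj] at h10
  have hsel : ∀ {k : ℕ}, w (ptOf (b 0)) ∉ w • GolayBasic.setOf (prAt k) → w (ptOf (b 1)) ∉ w • GolayBasic.setOf (prAt k) → w • GolayBasic.setOf (prAt k) ≠ w • GolayBasic.setOf S0 →
      (!tb (prAt k) (b 0) && !tb (prAt k) (b 1) && !Nat.beq (prAt k) S0) = true := by
    intro k h1 h2 h3
    simp only [← Equiv.Perm.smul_def w, Finset.smul_mem_smul_finset_iff] at h1 h2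
    rw [mem_setOf_pt (b_lt (by norm_num))] at h1 h2
    simp only [Bool.and_eq_true, Bool.not_eq_true', tb_eq]
    refine ⟨⟨by simpa using h1, by simpa using h2⟩, ?_⟩
    apply Bool.eq_false_iff.2
    intro h
    apply h3
    rw [Nat.eq_of_beq_eq_true h]
  have hkey : (fun i => Nat.add (Nat.mul 2 (pc (Nat.land S0 (prAt i)))) (cond (inOctL oL 5 (Nat.lor (Nat.lor (maskB 2) S0) (prAt i))) 1 0)) i = (fun i => Nat.add (Nat.mul 2 (pc (Nat.land S0 (prAt i)))) (cond (inOctL oL 5 (Nat.lor (Nat.lor (maskB 2) S0) (prAt i))) 1 0)) j := by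
    show Nat.add (Nat.mul 2 (pc (Nat.land S0 (prAt i)))) (cond _ 1 0) = Nat.add (Nat.mul 2 (pc (Nat.land S0 (prAt j)))) (cond _ 1 0)
    have h9' : pc (Nat.land S0 (prAt i)) = pc (Nat.land S0 (prAt j)) := h9
    rw [h9', Bool.eq_iff_iff.2 h10]
  obtain ⟨g, hg, hga⟩ := orb hi hj (hsel h2 h3 h7) (hsel h5 h6 h8) hkey
  obtain ⟨c1, c2, c3⟩ := stab_conj hw hg
  refine ⟨w * g * w⁻¹, c1, c3 _ (by simp), c3 _ (by simp), c2 _ (by simp), ?_⟩
  rw [conj_smul, hga]

end Cfsg.Agent.S1638
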