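import Cfsg.Statements.S1640
import Cfsg.Agent.Lib.CoU

set_option autoImplicit false
open Cfsg

namespace Cfsg.Agent.S1640

open Cfsg.Agent.LeechBasic Cfsg.Agent.Lib.LeechAut Cfsg.Agent.Lib.CoTree Cfsg.Agent.Lib.CoChain Cfsg.Agent.Lib.CoCensus Cfsg.Agent.Lib.CoU

theorem neg_mem (u : LL) (x : LL) (h : sqNorm (x : GolayPt → ℤ) = 32 ∧ dotInt (u : GolayPt → ℤ) (x : GolayPt → ℤ) = -16) :
    sqNorm ((-x : LL) : GolayPt → ℤ) = 32 ∧ dotInt (u : GolayPt → ℤ) ((-x : LL) : GolayPt → ℤ) = 16 := by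
  refine ⟨?_, ?_⟩
  · show sqNorm (-(x : GolayPt → ℤ)) = 32
    rw [norm_neg']
    exact h.1
  · show dotInt (u : GolayPt → ℤ) (-(x : GolayPt → ℤ)) = 16
    rw [dot_neg_right, h.2]
    norm_num


/-- The stabiliser of a vector of customary norm 6 is transitive on the 11178 minimal vectors of customary inner product −2 with it. -/
theorem result (u : ↥Cfsg.leechLattice) (hu : Cfsg.sqNorm (u : Cfsg.GolayPt → ℤ) = 48) : {x : ↥Cfsg.leechLattice | Cfsg.sqNorm (x : Cfsg.GolayPt → ℤ) = 32 ∧ Cfsg.dotInt (u : Cfsg.GolayPt → ℤ) (x : Cfsg.GolayPt → ℤ) = -16}.ncard = 11178 ∧ ∀ x ∈ {x : ↥Cfsg.leechLattice | Cfsg.sqNorm (x : Cfsg.GolayPt → ℤ) = 32 ∧ Cfsg.dotInt (u : Cfsg.GolayPt → ℤ) (x : Cfsg.GolayPt → ℤ) = -16}, ∀ x' ∈ {x : ↥Cfsg.leechLattice | Cfsg.sqNorm (x : Cfsg.GolayPt → ℤ) = 32 ∧ Cfsg.dotInt (u : Cfsg.GolayPt → ℤ) (x : Cfsg.GolayPt → ℤ) = -16}, ∃ g : ↥Cfsg.Co0, g • u = u ∧ g • x = x' := by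
  obtain ⟨k, rfl⟩ := exists_u0 u hu
  constructor
  · have h1 : {x : LL | sqNorm (x : GolayPt → ℤ) = 32 ∧ dotInt ((k • u0 : LL) : GolayPt → ℤ) (x : GolayPt → ℤ) = -16} =
        (fun y : LL => -y) '' {x : LL | sqNorm (x : GolayPt → ℤ) = 32 ∧ dotInt ((k • u0 : LL) : GolayPt → ℤ) (x : GolayPt → ℤ) = 16} := by
      ext x
      constructor
      · intro h
        exact ⟨-x, neg_mem _ x h, neg_neg x⟩
      · rintro ⟨y, hy, rfl⟩
        refine ⟨?_, ?_⟩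
        · show sqNorm (-(y : GolayPt → ℤ)) = 32
          rw [norm_neg']
          exact hy.1
        · show dotInt _ (-(y : GolayPt → ℤ)) = -16
          rw [dot_neg_right, hy.2]
    have h2 : Function.Injective (fun y : LL => -y) := neg_injective
    refine Eq.trans (congrArg Set.ncard h1) ?_
    rw [Set.ncard_image_of_injective _ h2, ← ncard_val, ← fg_eq_image, fg_smul, fg16]
  · intro x hx x' hx'
    have a1 := neg_mem _ x hx
    have a2 := neg_mem _ x' hx'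
    obtain ⟨c, hc, e⟩ := move (K := A) (z := t0) (S := Fg u0 16) (orb4 ▸ subset_refl _) k (fg_inv' a1.1 a1.2) (fg_inv' a2.1 a2.2)
    refine ⟨k * c * k⁻¹, conj_fix hc, ?_⟩
    rw [co_neg] at e
    exact neg_injective e

end Cfsg.Agent.S1640
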