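import Cfsg.Statements.S1642
import Cfsg.Agent.Lib.CoInvL

set_option autoImplicit false
open Cfsg

namespace Cfsg.Agent.S1642

open Cfsg.Agent.LeechBasic Cfsg.Agent.Lib.LeechAut Cfsg.Agent.Lib.CoTree Cfsg.Agent.Lib.CoChain Cfsg.Agent.Lib.CoCensus Cfsg.Agent.Lib.CoU Cfsg.Agent.Lib.CoHS Cfsg.Agent.Lib.CoInvL

theorem conj_order (h n : Co0) : orderOf (h * n * h⁻¹) = orderOf n := by
  have := orderOf_injective (MulAut.conj h).toMonoidHom (MulAut.conj h).injective n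
  simpa using this


/-- Some involution of the Higman–Sims group acts without fixed points on its 100 points. -/
theorem result (v w : ↥Cfsg.leechLattice) (hv : Cfsg.sqNorm (v : Cfsg.GolayPt → ℤ) = 48) (hw : Cfsg.sqNorm (w : Cfsg.GolayPt → ℤ) = 48) (hvw : Cfsg.dotInt (v : Cfsg.GolayPt → ℤ) (w : Cfsg.GolayPt → ℤ) = -32) : ∃ g : ↥Cfsg.Co0, g • v = v ∧ g • w = w ∧ orderOf g = 2 ∧ ∀ x ∈ {x : ↥Cfsg.leechLattice | Cfsg.sqNorm (x : Cfsg.GolayPt → ℤ) = 32 ∧ Cfsg.dotInt (v : Cfsg.GolayPt → ℤ) (x : Cfsg.GolayPt → ℤ) = 24 ∧ Cfsg.dotInt (w : Cfsg.GolayPt → ℤ) (x : Cfsg.GolayPt → ℤ) = -24}, g • x ≠ x := by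
  obtain ⟨k, e1, e2⟩ := exists_hs v w hv hw hvw
  have f1 : (k * g0 * k⁻¹) • v = v := by
    rw [← e1]
    exact conj_fix g0_mem.1
  have f2 : (k * g0 * k⁻¹) • (v + w) = v + w := by
    rw [← e2]
    exact conj_fix g0_mem.2
  refine ⟨k * g0 * k⁻¹, f1, fix_w f1 f2, by rw [conj_order, g0_order], ?_⟩
  intro x hx e
  have h1 := (mem_set100 e1 e2 x).1 hx
  apply no_fix (k⁻¹ • x) h1
  have h2 : k • (g0 • (k⁻¹ • x)) = x := by
    have h3 : (k * g0 * k⁻¹) • x = k • (g0 • (k⁻¹ • x)) := by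
      simp only [mul_smul]
    rw [← h3]
    exact e
  conv_rhs => rw [← h2]
  rw [inv_smul_smul]

end Cfsg.Agent.S1642
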