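import Cfsg.Statements.S1717
import Cfsg.Agent.Lib.LdS1717

set_option autoImplicit false
open Cfsg

namespace Cfsg.Agent.S1717

open Cfsg.Agent.LdS1717

theorem aux {G : Type*} [Group G] [Finite G] (s : SL5)
    (hs : (s : Matrix (Fin 5) (Fin 5) (ZMod 2)) = Matrix.transvection 0 1 1) (z : G)
    (hz : orderOf z = 2) (C : Subgroup G) (hC : C = Subgroup.centralizer ({z} : Set G))
    (C' : Subgroup SL5) (hC' : C' = Subgroup.centralizer ({s} : Set SL5))
    (e : C ≃* C') (T : Sylow 2 C) : ¬ 2 ∣ ((T : Subgroup C).map C.subtype).index := by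
  classical
  haveI : Fact (Nat.Prime 2) := ⟨Nat.prime_two⟩
  have memC : ∀ x : G, x ∈ C ↔ x * z = z * x := by
    intro x
    rw [hC, Subgroup.mem_centralizer_singleton_iff]
  have memC' : ∀ x : SL5, x ∈ C' ↔ x * s = s * x := by
    intro x
    rw [hC', Subgroup.mem_centralizer_singleton_iff]
  have hz1 : z ≠ 1 := by
    rintro rfl
    simp at hz
  have hzsq : z ^ 2 = 1 := by rw [← hz]; exact pow_orderOf_eq_one z
  let z' : C := ⟨z, (memC z).mpr rfl⟩
  have hz'c : ∀ w : C, z' * w = w * z' := by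
    intro w
    apply Subtype.ext
    exact ((memC w.1).mp w.2).symm
  have hz'1 : z' ≠ 1 := fun h => hz1 (congrArg Subtype.val h)
  -- z' lies in T
  have hz'T : z' ∈ (T : Subgroup C) := by
    have hP : IsPGroup 2 (Subgroup.zpowers z') := by
      apply IsPGroup.of_card (n := 1)
      rw [Nat.card_zpowers]
      have : orderOf z' = orderOf z := by
        rw [← Subgroup.orderOf_mk z ((memC z).mpr rfl)]
      rw [this, hz, pow_one]
    have hN : z' ∈ Subgroup.normalizer ((T : Subgroup C) : Set C) := by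
      rw [Subgroup.mem_normalizer_iff]
      intro h
      rw [hz'c h]
      simp
    have hmem : z' ∈ Subgroup.zpowers z' ⊓ Subgroup.normalizer (T : Set C) :=
      Subgroup.mem_inf.mpr ⟨Subgroup.mem_zpowers z', hN⟩
    rw [hP.inf_normalizer_sylow T] at hmem
    exact (Subgroup.mem_inf.mp hmem).2
  -- the 2-subgroup Q₀
  let Q₀ : Subgroup C := (QQ.comap C'.subtype).comap e.toMonoidHom
  have memQ₀ : ∀ q : C, q ∈ Q₀ ↔ ((e q : C') : SL5) ∈ QQ := fun q => Iff.rfl
  have hQ₀ : IsPGroup 2 Q₀ := by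
    intro q
    refine ⟨2, ?_⟩
    have h4 := QQ_four ((e q.1 : C') : SL5) ((memQ₀ q.1).mp q.2)
    have h5 : e (q.1 * q.1 * q.1 * q.1) = 1 := by
      apply Subtype.ext
      simpa [map_mul] using h4
    have h6 : q.1 * q.1 * q.1 * q.1 = 1 := e.injective (by rw [h5, map_one])
    apply Subtype.ext
    show (q.1) ^ (2 ^ 2) = 1
    rw [show (2 : ℕ) ^ 2 = 4 from rfl, pow_succ, pow_succ, pow_succ, pow_one]
    exact h6
  obtain ⟨R, hR⟩ := hQ₀.exists_le_sylow
  obtain ⟨c, hc⟩ := MulAction.exists_smul_eq C T R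
  let ŝ : C' := ⟨s, (memC' s).mpr rfl⟩
  have hŝc : ∀ w : C', ŝ * w = w * ŝ := by
    intro w
    apply Subtype.ext
    exact ((memC' w.1).mp w.2).symm
  have step1 : ∀ t : C, t ∈ (T : Subgroup C) → (∀ v ∈ (T : Subgroup C), t * v = v * t) →
      (t = 1 ∨ e t = ŝ) := by
    intro t ht hcomm
    have hrc : ∀ r ∈ (R : Subgroup C), (c * t * c⁻¹) * r = r * (c * t * c⁻¹) := by
      intro r hr
      rw [← hc, Sylow.coe_subgroup_smul] at hr
      obtain ⟨v, hv, rfl⟩ := (Subgroup.mem_smul_pointwise_iff_exists _ _ _).mp hr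
      rw [MulAut.smul_def, MulAut.conj_apply]
      have := hcomm v hv
      calc c * t * c⁻¹ * (c * v * c⁻¹) = c * (t * v) * c⁻¹ := by group
        _ = c * (v * t) * c⁻¹ := by rw [this]
        _ = _ := by group
    have hq : ∀ q ∈ QQ, ((e (c * t * c⁻¹) : C') : SL5) * q = q * ((e (c * t * c⁻¹) : C') : SL5) := by
      intro q hq
      have hqC' : q ∈ C' := (memC' q).mpr (QQ_comm_s s hs q hq)
      have hq₀ : e.symm ⟨q, hqC'⟩ ∈ Q₀ := by
        rw [memQ₀]
        simpa using hq
      have h1 := hrc _ (hR hq₀)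
      have h2 := congrArg e h1
      rw [map_mul e, map_mul e (e.symm _) _, MulEquiv.apply_symm_apply] at h2
      exact congrArg Subtype.val h2
    rcases centralizer_QQ _ hq with h | h
    · left
      have h0 : e (c * t * c⁻¹) = 1 := Subtype.ext (Subtype.ext h)
      have h1 : c * t * c⁻¹ = 1 := e.injective (by rw [h0, map_one])
      exact conj_eq_one_iff.mp h1
    · right
      have h1 : e (c * t * c⁻¹) = ŝ := Subtype.ext (Subtype.ext (h.trans hs.symm))
      have h2 : e c * e t * (e c)⁻¹ = ŝ := by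
        rw [← h1]; simp only [map_mul, map_inv]
      have h3 := hŝc (e c)
      calc e t = (e c)⁻¹ * (e c * e t * (e c)⁻¹) * e c := by group
        _ = (e c)⁻¹ * ŝ * e c := by rw [h2]
        _ = (e c)⁻¹ * (ŝ * e c) := by group
        _ = (e c)⁻¹ * (e c * ŝ) := by rw [h3]
        _ = ŝ := by group
  have hez' : e z' = ŝ := by
    rcases step1 z' hz'T (fun v _ => hz'c v) with h | h
    · exact absurd h hz'1
    · exact h
  have step2 : ∀ t : C, t ∈ (T : Subgroup C) → (∀ v ∈ (T : Subgroup C), t * v = v * t) →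
      (t = 1 ∨ t = z') := by
    intro t ht hcomm
    rcases step1 t ht hcomm with h | h
    · exact Or.inl h
    · exact Or.inr (e.injective (by rw [h, hez']))
  intro hdvd
  set T' : Subgroup G := (T : Subgroup C).map C.subtype with hT'
  have memT' : ∀ h : C, h.1 ∈ T' ↔ h ∈ (T : Subgroup C) := by
    intro h
    constructor
    · rintro ⟨t, ht, h'⟩
      have : t = h := Subtype.ext h'
      rwa [← this]
    · intro hh
      exact ⟨h, hh, rfl⟩
  have hT'C : T' ≤ C := by
    rintro g ⟨t, _, rfl⟩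
    exact t.2
  have hT'p : IsPGroup 2 T' := T.isPGroup'.map C.subtype
  obtain ⟨P, hP⟩ := hT'p.exists_le_sylow
  have hne : T' ≠ (P : Subgroup G) := by
    intro h
    rw [h] at hdvd
    exact P.not_dvd_index hdvd
  have hPnil : Group.IsNilpotent (P : Subgroup G) := P.isPGroup'.isNilpotent
  have hcond := normalizerCondition_of_isNilpotent (G := (P : Subgroup G))
  have hlt : T'.subgroupOf (P : Subgroup G) < ⊤ := by
    refine lt_top_iff_ne_top.mpr ?_
    intro htop
    apply hne
    apply le_antisymm hP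
    intro g hg
    have : (⟨g, hg⟩ : (P : Subgroup G)) ∈ T'.subgroupOf (P : Subgroup G) := by rw [htop]; trivial
    exact Subgroup.mem_subgroupOf.mp this
  obtain ⟨x, hxN, hxH⟩ := SetLike.exists_of_lt (hcond _ hlt)
  have hxN' := Subgroup.mem_normalizer_iff.mp hxN
  have hconj : ∀ g ∈ T', (x : G) * g * (x : G)⁻¹ ∈ T' := by
    intro g hg
    have hgP := hP hg
    have := (hxN' ⟨g, hgP⟩).mp (Subgroup.mem_subgroupOf.mpr hg)
    exact Subgroup.mem_subgroupOf.mp this
  have hconj' : ∀ g ∈ T', (x : G)⁻¹ * g * (x : G) ∈ T' := by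
    intro g hg
    have hgP := hP hg
    have hh : x⁻¹ * ⟨g, hgP⟩ * x ∈ T'.subgroupOf (P : Subgroup G) := by
      rw [hxN']
      have : x * (x⁻¹ * ⟨g, hgP⟩ * x) * x⁻¹ = ⟨g, hgP⟩ := by group
      rw [this]
      exact Subgroup.mem_subgroupOf.mpr hg
    exact Subgroup.mem_subgroupOf.mp hh
  have hzT' : z ∈ T' := (memT' z').mpr hz'T
  have hy : (x : G) * z * (x : G)⁻¹ ∈ T' := hconj z hzT'
  let y' : C := ⟨(x : G) * z * (x : G)⁻¹, hT'C hy⟩
  have hy'T : y' ∈ (T : Subgroup C) := (memT' y').mp hy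
  have hy'comm : ∀ v ∈ (T : Subgroup C), y' * v = v * y' := by
    intro v hv
    apply Subtype.ext
    show (x : G) * z * (x : G)⁻¹ * v.1 = v.1 * ((x : G) * z * (x : G)⁻¹)
    have h1 : (x : G)⁻¹ * v.1 * (x : G) ∈ T' := hconj' v.1 ((memT' v).mpr hv)
    have h2 := (memC _).mp (hT'C h1)
    calc (x : G) * z * (x : G)⁻¹ * v.1
        = (x : G) * (z * ((x : G)⁻¹ * v.1 * (x : G))) * (x : G)⁻¹ := by group
      _ = (x : G) * (((x : G)⁻¹ * v.1 * (x : G)) * z) * (x : G)⁻¹ := by rw [h2]
      _ = _ := by group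
  have hxC : (x : G) ∈ C := by
    rw [memC]
    rcases step2 y' hy'T hy'comm with h | h
    · have h1 : (x : G) * z * (x : G)⁻¹ = 1 := congrArg Subtype.val h
      exact absurd (conj_eq_one_iff.mp h1) hz1
    · have h1 : (x : G) * z * (x : G)⁻¹ = z := congrArg Subtype.val h
      calc (x : G) * z = (x : G) * z * (x : G)⁻¹ * (x : G) := by group
        _ = z * (x : G) := by rw [h1]
  let x' : C := ⟨(x : G), hxC⟩
  have hPc : IsPGroup 2 ((P : Subgroup G).comap C.subtype) :=
    P.isPGroup'.comap_of_injective C.subtype C.subtype_injective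
  have hxNT : x' ∈ Subgroup.normalizer ((T : Subgroup C) : Set C) := by
    rw [Subgroup.mem_normalizer_iff]
    intro h
    constructor
    · intro hh
      have h1 := hconj h.1 ((memT' h).mpr hh)
      exact (memT' _).mp h1
    · intro hh
      have h1 : (x' * h * x'⁻¹).1 ∈ T' := (memT' _).mpr hh
      have h2 := hconj' _ h1
      have h3 : (x : G)⁻¹ * (x' * h * x'⁻¹).1 * (x : G) = h.1 := by
        show (x : G)⁻¹ * ((x : G) * h.1 * (x : G)⁻¹) * (x : G) = h.1
        group
      rw [h3] at h2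
      exact (memT' _).mp h2
  have hmemx : x' ∈ ((P : Subgroup G).comap C.subtype) ⊓ Subgroup.normalizer (T : Set C) :=
    Subgroup.mem_inf.mpr ⟨x.2, hxNT⟩
  rw [hPc.inf_normalizer_sylow T] at hmemx
  have hxT : x' ∈ (T : Subgroup C) := (Subgroup.mem_inf.mp hmemx).2
  exact hxH (Subgroup.mem_subgroupOf.mpr ((memT' x').mpr hxT))

/-- Let G be a finite group with an involution z whose centraliser C is isomorphic to the centraliser of a transvection of SL(5, 2). Then a Sylow 2-subgroup of C, viewed in G, is a Sylow 2-subgroup of G (its index in G is odd). -/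
theorem result {G : Type*} [Group G] [Finite G] (s : Matrix.SpecialLinearGroup (Fin 5) (ZMod 2)) (hs : (s : Matrix (Fin 5) (Fin 5) (ZMod 2)) = Matrix.transvection 0 1 1) (z : G) (hz : orderOf z = 2) (e : (Subgroup.centralizer ({z} : Set G)) ≃* Subgroup.centralizer ({s} : Set (Matrix.SpecialLinearGroup (Fin 5) (ZMod 2)))) (T : Sylow 2 (Subgroup.centralizer ({z} : Set G))) : ¬ 2 ∣ ((T : Subgroup (Subgroup.centralizer ({z} : Set G))).map (Subgroup.subtype (Subgroup.centralizer ({z} : Set G)))).index :=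
  aux s hs z hz _ rfl _ rfl e T

end Cfsg.Agent.S1717
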