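import Cfsg.Statements.S1753
import Mathlib

set_option autoImplicit false
universe u
open Cfsg

namespace Cfsg.Agent.S1753

/-- Let K be any property of groups. (1) If G is a minimal counterexample relative to K — a finite non-abelian simple group not satisfying K such that every finite non-abelian simple group of smaller order satisfies K — then every proper subgroup of G is a K-group (all its non-abelian simple sections satisfy K), since such sections have smaller order than G. (2) Consequently (induction on the order), if every finite non-abelian simple group all of whose proper subgroups are K-groups satisfies K, then every finite non-abelian simple group satisfies K. -/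
theorem result (K : ∀ (X : Type u) [Group X], Prop) :
    (∀ (G : Type u) [Group G], Cfsg.IsMinCounterexampleWith K G → Cfsg.IsKProperWith K G) ∧
      ((∀ (X : Type u) [Group X] [Finite X], IsSimpleGroup X → ¬ IsMulCommutative X → Cfsg.IsKProperWith K X → K X) →
        ∀ (G : Type u) [Group G] [Finite G], IsSimpleGroup G → ¬ IsMulCommutative G → K G) := by
  have hsec : ∀ (G : Type u) [Group G] [Finite G] (H : Subgroup G), H ≠ ⊤ → ∀ (L : Subgroup H) (N : Subgroup L) [N.Normal],
      Nat.card (L ⧸ N) < Nat.card G := by
    intro G _ _ H hH L N _
    have h1 : Nat.card (L ⧸ N) ≤ Nat.card L := by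
      have := N.index_mul_card
      have h2 : 0 < Nat.card N := Nat.card_pos
      rw [← this]
      exact Nat.le_mul_of_pos_right _ h2
    have h2 : Nat.card L ≤ Nat.card H := Subgroup.card_le_card_group L
    have h3 : Nat.card H < Nat.card G := by
      have hle : Nat.card H ≤ Nat.card G := Subgroup.card_le_card_group H
      refine lt_of_le_of_ne hle ?_
      intro he
      exact hH (Subgroup.eq_top_of_card_eq H he)
    omega
  constructor
  · rintro G _ ⟨hfin, hs, hc, hnot, hmin⟩
    intro H hH L N _ hsimple hnc
    haveI := hfin
    exact hmin _ hsimple hnc (hsec G H hH L N)
  · intro hyp G _ _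
    induction' hn : Nat.card G using Nat.strong_induction_on with n ih generalizing G
    intro hs hnc
    apply hyp G hs hnc
    intro H hH L N _ hsimple hnc'
    exact ih _ (by rw [← hn]; exact hsec G H hH L N) _ rfl hsimple hnc'

end Cfsg.Agent.S1753
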