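import Cfsg.Statements.S1958
import Mathlib
import Cfsg.Agent.Lib.LBal3

set_option autoImplicit false
open Cfsg

namespace Cfsg.Agent.S1958

open Cfsg.Agent.Lib.LBal Cfsg.Agent.Lib.LBal3 Cfsg.Agent.Lib.H1Core Cfsg.Agent.Lib.Comp Cfsg.Agent.Lib.Comp2 Cfsg.Agent.Lib.Comp3 Cfsg.Agent.Lib.H1Fit Cfsg.Agent.Lib.H1Cop

theorem half {G : Type*} [Group G] [Finite G]
    (p : ℕ) [Fact p.Prime] (x y : G) (hx : orderOf x = p) (hxy : x * y = y * x)
    (hCy : Group.IsSolvable ↥(Subgroup.centralizer ({y} : Set G))) :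
    Cfsg.centralizerPPrimeCore p x ⊓ Subgroup.centralizer {y} ≤ Cfsg.centralizerPPrimeCore p y := by
  classical
  set C := Subgroup.centralizer ({y} : Set G) with hC
  haveI := hCy
  set O := Cfsg.pPrimeCore p ↥C with hO
  haveI hOn : O.Normal := pPrimeCore_normal p _
  have hOc : (Nat.card O).Coprime p := pPrimeCore_coprime p
  let π : ↥C →* ↥C ⧸ O := QuotientGroup.mk' O
  have hOq : Cfsg.pPrimeCore p (↥C ⧸ O) = ⊥ := pPrimeCore_quotient p
  haveI hQs : Group.IsSolvable (↥C ⧸ O) := inferInstance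
  set V := Cfsg.pCore p (↥C ⧸ O) with hV
  have hVp : IsPGroup p V := pCore_isPGroup p
  have hVn : V.Normal := pCore_normal p _
  have hF : Cfsg.fittingSubgroup (↥C ⧸ O) = V := fitting_eq_pCore_of_pPrimeCore_eq_bot p hOq
  have hCV := centralizer_fitting_le (G := ↥C ⧸ O)
  rw [hF] at hCV
  have hxC : x ∈ C := by
    rw [hC, Subgroup.mem_centralizer_iff]
    intro w hw
    rw [Set.mem_singleton_iff] at hw
    rw [hw]
    exact hxy.symm
  let x₁ : ↥C := ⟨x, hxC⟩
  have hx₁ : x₁ ^ p = 1 := by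
    apply Subtype.ext
    show x ^ p = 1
    rw [← hx]; exact pow_orderOf_eq_one x
  set Dg := Cfsg.centralizerPPrimeCore p x ⊓ C with hDg
  have hDc : (Nat.card Dg).Coprime p := by
    refine Nat.Coprime.coprime_dvd_left (Subgroup.card_dvd_of_le inf_le_left) ?_
    have hcard : Nat.card (Cfsg.centralizerPPrimeCore p x) =
        Nat.card (Cfsg.pPrimeCore p ↥(Subgroup.centralizer ({x} : Set G))) :=
      Subgroup.card_map_of_injective (Subgroup.subtype_injective _)
    rw [hcard]
    exact pPrimeCore_coprime p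
  set D₀ := Dg.subgroupOf C with hD₀
  set Db := D₀.map π with hDb
  have hDbc : (Nat.card Db).Coprime p :=
    Nat.Coprime.coprime_dvd_left ((Subgroup.card_map_dvd D₀ π).trans (card_subgroupOf_dvd Dg C)) hDc
  intro d hd
  have hdC : d ∈ C := (Subgroup.mem_inf.mp hd).2
  let d₁ : ↥C := ⟨d, hdC⟩
  have hdDb : π d₁ ∈ Db := ⟨d₁, Subgroup.mem_subgroupOf.mpr hd, rfl⟩
  have hnormal : ∀ g : ↥C ⧸ O, g ∈ Subgroup.normalizer ((V : Subgroup _) : Set (↥C ⧸ O)) := by
    intro g
    rw [Subgroup.mem_normalizer_iff]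
    intro h
    exact ⟨fun hh => hVn.conj_mem h hh g, fun hh => by
      have := hVn.conj_mem _ hh g⁻¹
      simpa [mul_assoc] using this⟩
  have hdx : d * x = x * d := by
    have h1 : d ∈ Cfsg.centralizerPPrimeCore p x := (Subgroup.mem_inf.mp hd).1
    obtain ⟨d', -, rfl⟩ := h1
    exact (Subgroup.mem_centralizer_iff.mp d'.2 x rfl).symm
  have hπx : (π x₁) ^ p = 1 := by rw [← map_pow, hx₁, map_one]
  have hcomm : ∀ v ∈ V, π d₁ * v = v * π d₁ := by
    refine ab_lemma (B := Subgroup.zpowers (π x₁)) hVp (zpowers_pgroup hπx) (fun g _ => hnormal g) ?_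
      (hnormal _) ?_ ?_
    · exact orderOf_coprime_of_mem hDbc hdDb
    · intro b hb
      obtain ⟨j, rfl⟩ := Subgroup.mem_zpowers_iff.mp hb
      have h1 : Commute (π d₁) (π x₁) := by
        show π d₁ * π x₁ = π x₁ * π d₁
        rw [← map_mul, ← map_mul]
        congr 1
        exact Subtype.ext hdx
      exact (h1.zpow_right j).eq
    · intro v hv hvb
      obtain ⟨k, rfl⟩ := QuotientGroup.mk'_surjective O v
      set A := Subgroup.zpowers x₁ with hA
      have hAp : IsPGroup p A := zpowers_pgroup hx₁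
      have hAN : A ≤ Subgroup.normalizer ((O : Subgroup ↥C) : Set ↥C) := by
        intro a _
        rw [Subgroup.mem_normalizer_iff]
        intro h
        exact ⟨fun hh => hOn.conj_mem h hh a, fun hh => by
          have := hOn.conj_mem _ hh a⁻¹
          simpa [mul_assoc] using this⟩
      have hAcard : Nat.card A ∣ p := by
        rw [Nat.card_zpowers]
        exact orderOf_dvd_of_pow_eq_one hx₁
      have hcop : (Nat.card A).Coprime (Nat.card O) :=
        Nat.Coprime.coprime_dvd_left hAcard hOc.symm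
      have hkπ : ∀ a ∈ A, π (a * k * a⁻¹ * k⁻¹) = 1 := by
        intro a ha
        have h1 : π a ∈ Subgroup.zpowers (π x₁) := by
          obtain ⟨j, rfl⟩ := Subgroup.mem_zpowers_iff.mp ha
          rw [map_zpow]
          exact Subgroup.zpow_mem_zpowers _ j
        have h2 := hvb _ h1
        change π k * π a = π a * π k at h2
        simp only [map_mul, map_inv]
        rw [← h2]
        group
      have hk : ∀ a ∈ A, a * k * a⁻¹ * k⁻¹ ∈ O := fun a ha => (QuotientGroup.eq_one_iff _).mp (hkπ a ha)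
      obtain ⟨n, hn, hu⟩ := coset_fixed hAN hcop (Or.inl (Group.isSolvable_of_comm (fun a b => by
        obtain ⟨i, hi⟩ := Subgroup.mem_zpowers_iff.mp a.2
        obtain ⟨j, hj⟩ := Subgroup.mem_zpowers_iff.mp b.2
        apply Subtype.ext
        show (a : ↥C) * b = b * a
        rw [← hi, ← hj]
        exact (Commute.refl x₁).zpow_zpow i j))) hk
      set u := n * k with hu'
      have hπn : π n = 1 := (QuotientGroup.eq_one_iff n).mpr hn
      have hπu : π u = π k := by rw [hu', map_mul, hπn, one_mul]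
      have hux : u * x₁ * u⁻¹ * x₁⁻¹ = 1 := by
        have h1 : u * x₁ * u⁻¹ * x₁⁻¹ ∈ A :=
          A.mul_mem ((Subgroup.le_normalizer_iff.mp le_rfl) u hu x₁ (Subgroup.mem_zpowers x₁))
            (A.inv_mem (Subgroup.mem_zpowers x₁))
        have h2 : u * x₁ * u⁻¹ * x₁⁻¹ ∈ O := by
          apply (QuotientGroup.eq_one_iff _).mp
          show π (u * x₁ * u⁻¹ * x₁⁻¹) = 1
          have h3 := hvb (π x₁) (Subgroup.mem_zpowers _)
          change π k * π x₁ = π x₁ * π k at h3
          simp only [map_mul, map_inv, hπu]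
          rw [h3]
          group
        exact eq_one_of_mem_pgroup_coprime hAp hOc h1 h2
      have hux' : (u : G) * x = x * u := by
        have h1 : u * x₁ = x₁ * u := by
          have h2 : u * x₁ * u⁻¹ = x₁ := mul_inv_eq_one.mp hux
          exact (mul_inv_eq_iff_eq_mul.mp h2)
        exact congrArg Subtype.val h1
      have huCx : (u : G) ∈ Subgroup.centralizer ({x} : Set G) := by
        rw [Subgroup.mem_centralizer_iff]
        intro w hw
        rw [Set.mem_singleton_iff] at hw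
        rw [hw]
        exact hux'.symm
      have hw1 : (u : G) * d * (u : G)⁻¹ ∈ Dg := by
        refine Subgroup.mem_inf.mpr ⟨?_, C.mul_mem (C.mul_mem u.2 hdC) (C.inv_mem u.2)⟩
        exact pPrimeCore_conj (Subgroup.centralizer ({x} : Set G)) p (Subgroup.le_normalizer huCx)
          (Subgroup.mem_inf.mp hd).1
      have hw2 : u * d₁ * u⁻¹ * d₁⁻¹ ∈ D₀ := by
        apply Subgroup.mem_subgroupOf.mpr
        exact Dg.mul_mem hw1 (Dg.inv_mem hd)
      have hw3 : π (u * d₁ * u⁻¹ * d₁⁻¹) ∈ Db := ⟨_, hw2, rfl⟩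
      have hw4 : π (u * d₁ * u⁻¹ * d₁⁻¹) ∈ V := by
        simp only [map_mul, map_inv, hπu]
        have e : π k * π d₁ * (π k)⁻¹ * (π d₁)⁻¹ = π k * (π d₁ * (π k)⁻¹ * (π d₁)⁻¹) := by group
        rw [e]
        have hv' : π k ∈ V := hv
        exact V.mul_mem hv' (hVn.conj_mem _ (V.inv_mem hv') _)
      have hw5 := eq_one_of_mem_pgroup_coprime hVp hDbc hw4 hw3
      simp only [map_mul, map_inv, hπu] at hw5
      have hw6 : π k * π d₁ * (π k)⁻¹ = π d₁ := mul_inv_eq_one.mp hw5
      have hw7 : π k * π d₁ = π d₁ * π k := mul_inv_eq_iff_eq_mul.mp hw6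
      exact hw7.symm
  have hmem : π d₁ ∈ V := by
    apply hCV
    rw [Subgroup.mem_centralizer_iff]
    intro v hv
    exact (hcomm v hv).symm
  have h1 := eq_one_of_mem_pgroup_coprime hVp hDbc hmem hdDb
  exact ⟨d₁, (QuotientGroup.eq_one_iff d₁).mp h1, rfl⟩

/-- Let `G` be a finite group, `p` a prime, and `x, y` commuting elements of order `p` whose centralizers `C_G(x)` and `C_G(y)` are both solvable. Then `O_{p'}(C_G(x)) ∩ C_G(y) = O_{p'}(C_G(y)) ∩ C_G(x)` (balance). -/
theorem result {G : Type*} [Group G] [Finite G]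
    (p : ℕ) [Fact p.Prime] (x y : G) (hx : orderOf x = p) (hy : orderOf y = p) (hxy : x * y = y * x)
    (hCx : Group.IsSolvable ↥(Subgroup.centralizer ({x} : Set G))) (hCy : Group.IsSolvable ↥(Subgroup.centralizer ({y} : Set G))) :
    Cfsg.centralizerPPrimeCore p x ⊓ Subgroup.centralizer {y} = Cfsg.centralizerPPrimeCore p y ⊓ Subgroup.centralizer {x} := by
  apply le_antisymm
  · refine le_inf (half p x y hx hxy hCy) ?_
    intro d hd
    obtain ⟨d', -, rfl⟩ := (Subgroup.mem_inf.mp hd).1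
    exact d'.2
  · refine le_inf (half p y x hy hxy.symm hCx) ?_
    intro d hd
    obtain ⟨d', -, rfl⟩ := (Subgroup.mem_inf.mp hd).1
    exact d'.2

end Cfsg.Agent.S1958
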