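import Cfsg.Statements.S1966
import Mathlib
import Cfsg.Agent.Lib.H1Core

set_option autoImplicit false
open Cfsg

namespace Cfsg.Agent.S1966

open Cfsg.Agent.Lib.H1Core

/-- Let p be a prime, G a finite group with Sylow p-subgroup S and 𝓕 a conjugation family for S in G. Then the members of 𝓕 containing O_p(G) still form a conjugation family for S in G. -/
theorem result {G : Type*} [Group G] [Finite G] {p : ℕ} [Fact p.Prime] (S : Sylow p G) (𝓕 : Set (Subgroup G)) (h : Cfsg.IsConjugationFamily 𝓕 (S : Subgroup G)) : Cfsg.IsConjugationFamily {T : Subgroup G | T ∈ 𝓕 ∧ Cfsg.pCore p G ≤ T} (S : Subgroup G) := by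
  classical
  obtain ⟨h1, h2⟩ := h
  refine ⟨fun T hT => h1 T hT.1, ?_⟩
  intro A g hA hAS hAg
  have hpS : Cfsg.pCore p G ≤ (S : Subgroup G) := pCore_le_sylow p S
  have hpn : (Cfsg.pCore p G).Normal := pCore_normal p G
  set A' : Set G := A ∪ (Cfsg.pCore p G : Set G) with hA'
  have hA'S : A' ⊆ (S : Subgroup G) := Set.union_subset hAS hpS
  have hconj : ∀ (u y : G), y ∈ Cfsg.pCore p G → u⁻¹ * y * u ∈ Cfsg.pCore p G := by
    intro u y hy
    have := hpn.conj_mem y hy u⁻¹
    simpa using this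
  have hA'g : (fun a => g⁻¹ * a * g) '' A' ⊆ ((S : Subgroup G) : Set G) := by
    rintro _ ⟨a, ha, rfl⟩
    rcases ha with ha | ha
    · exact hAg ⟨a, ha, rfl⟩
    · exact hpS (hconj g a ha)
  obtain ⟨n, T, x, hprod, hT, hx, h0, hstep⟩ := h2 A' g (hA.mono Set.subset_union_left) hA'S hA'g
  refine ⟨n, T, x, hprod, ?_, hx, fun h => Set.subset_union_left.trans (h0 h), fun i h => ?_⟩
  · intro i
    refine ⟨hT i, ?_⟩
    obtain ⟨i, hi⟩ := i
    cases i with
    | zero =>
      intro y hy
      exact h0 hi (Or.inr hy)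
    | succ j =>
      intro y hy
      have hj : j < n := by omega
      have := hstep ⟨j, hj⟩ hi
      set u := ((List.ofFn x).take (j + 1)).prod with hu
      have h3 : u * y * u⁻¹ ∈ Cfsg.pCore p G := hpn.conj_mem y hy u
      have hmem : y ∈ (fun a => u⁻¹ * a * u) '' A' := ⟨u * y * u⁻¹, Or.inr h3, by simp [mul_assoc]⟩
      exact this hmem
  · exact (Set.image_mono Set.subset_union_left).trans (hstep i h)

end Cfsg.Agent.S1966
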