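import Cfsg.Statements.S1967
import Mathlib

set_option autoImplicit false
open Cfsg

namespace Cfsg.Agent.S1967



/-- Let p be a prime, G a finite group with Sylow p-subgroup S and W a conjugacy functor for p on G. Then W controls strong fusion in G if and only if, whenever T ≤ S and g ∈ G satisfy gTg⁻¹ ≤ S, one can write g = n c with n ∈ N_G(W(S)) and c ∈ C_G(T). -/
theorem result {G : Type*} [Group G] [Finite G] {p : ℕ} [Fact p.Prime] (S : Sylow p G) (W : Subgroup G → Subgroup G) (hW : Cfsg.IsConjugacyFunctor p W) : Cfsg.ControlsStrongFusionIn p W ⊤ ↔ ∀ (T : Subgroup G) (g : G), T ≤ (S : Subgroup G) → T.map (MulAut.conj g).toMonoidHom ≤ (S : Subgroup G) → ∃ n ∈ Subgroup.normalizer ((W (S : Subgroup G) : Subgroup G) : Set G), ∃ c ∈ Subgroup.centralizer (T : Set G), g = n * c := by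
  classical
  constructor
  · rintro ⟨T, -, hT1, hT2, hT3⟩ Q g hQ hQg
    have hidx : ¬ p ∣ T.index := by rwa [Subgroup.relIndex_top_right] at hT2
    let T' : Sylow p G := hT1.toSylow hidx
    obtain ⟨y, hy⟩ := MulAction.exists_smul_eq G T' S
    have hSy : (S : Subgroup G) = T.map (MulAut.conj y).toMonoidHom := by
      rw [← hy]; rfl
    have hmemS : ∀ s : G, s ∈ (S : Subgroup G) → y⁻¹ * s * y ∈ T := by
      intro s hs
      rw [hSy] at hs
      obtain ⟨t, ht, rfl⟩ := hs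
      have : y⁻¹ * ((MulAut.conj y).toMonoidHom t) * y = t := by
        simp [mul_assoc]
      rw [this]
      exact ht
    let A : Set G := (fun q => y⁻¹ * q * y) '' (Q : Set G)
    have hA : A ⊆ T := by
      rintro _ ⟨q, hq, rfl⟩
      exact hmemS q (hQ hq)
    have hAh : (fun a => (y⁻¹ * g * y) * a * (y⁻¹ * g * y)⁻¹) '' A ⊆ T := by
      rintro _ ⟨_, ⟨q, hq, rfl⟩, rfl⟩
      have h1 : g * q * g⁻¹ ∈ (S : Subgroup G) := hQg ⟨q, hq, rfl⟩
      have h2 := hmemS _ h1
      have h3 : (y⁻¹ * g * y) * (y⁻¹ * q * y) * (y⁻¹ * g * y)⁻¹ = y⁻¹ * (g * q * g⁻¹) * y := by group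
      show (y⁻¹ * g * y) * (y⁻¹ * q * y) * (y⁻¹ * g * y)⁻¹ ∈ T
      rw [h3]; exact h2
    obtain ⟨x, hx, hxa⟩ := hT3 A (y⁻¹ * g * y) (Subgroup.mem_top _) hA hAh
    have hxN : x ∈ Subgroup.normalizer ((W T : Subgroup G) : Set G) := (Subgroup.mem_inf.mp hx).2
    have hW' : W (S : Subgroup G) = (W T).map (MulAut.conj y).toMonoidHom := by
      rw [hSy]
      exact (hW T hT1).2.2 y
    have hnN : y * x * y⁻¹ ∈ Subgroup.normalizer ((W (S : Subgroup G) : Subgroup G) : Set G) := by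
      rw [hW']
      rw [Subgroup.mem_normalizer_iff]
      intro w
      constructor
      · rintro ⟨v, hv, rfl⟩
        refine ⟨x * v * x⁻¹, (Subgroup.mem_normalizer_iff.mp hxN v).mp hv, ?_⟩
        simp [mul_assoc]
      · rintro ⟨v, hv, hvw⟩
        refine ⟨x⁻¹ * v * x, ?_, ?_⟩
        · have := (Subgroup.mem_normalizer_iff.mp (Subgroup.inv_mem _ hxN) v).mp hv
          simpa using this
        · have h5 : w = y * x⁻¹ * y⁻¹ * (y * v * y⁻¹) * (y * x⁻¹ * y⁻¹)⁻¹ := by
            have h6 : y * v * y⁻¹ = y * x * y⁻¹ * w * (y * x * y⁻¹)⁻¹ := by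
              have : (MulAut.conj y).toMonoidHom v = y * v * y⁻¹ := rfl
              rw [← this]; exact hvw
            rw [h6]; group
          rw [h5]
          simp [mul_assoc]
    refine ⟨y * x * y⁻¹, hnN, (y * x * y⁻¹)⁻¹ * g, ?_, by group⟩
    rw [Subgroup.mem_centralizer_iff]
    intro q hq
    have h7 := hxa (y⁻¹ * q * y) ⟨q, hq, rfl⟩
    have h8 : y * (x * (y⁻¹ * q * y) * x⁻¹) * y⁻¹ = g * q * g⁻¹ := by
      rw [h7]; group
    have h9 : g * q * g⁻¹ = y * x * y⁻¹ * q * (y * x * y⁻¹)⁻¹ := by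
      rw [← h8]; group
    have h10 : (y * x * y⁻¹)⁻¹ * (g * q * g⁻¹) * (y * x * y⁻¹) = q := by
      rw [h9]; group
    calc q * ((y * x * y⁻¹)⁻¹ * g) = (y * x * y⁻¹)⁻¹ * (g * q * g⁻¹) * (y * x * y⁻¹) * ((y * x * y⁻¹)⁻¹ * g) := by rw [h10]
      _ = (y * x * y⁻¹)⁻¹ * g * q := by group
  · intro h
    refine ⟨S, le_top, S.2, ?_, ?_⟩
    · rw [Subgroup.relIndex_top_right]
      exact S.not_dvd_index
    · intro A k _ hA hAk
      have hclo : Subgroup.closure A ≤ (S : Subgroup G) := (Subgroup.closure_le _).mpr hA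
      have hmap : (Subgroup.closure A).map (MulAut.conj k).toMonoidHom ≤ (S : Subgroup G) := by
        rw [MonoidHom.map_closure, Subgroup.closure_le]
        rintro _ ⟨a, ha, rfl⟩
        exact hAk ⟨a, ha, rfl⟩
      obtain ⟨n, hn, c, hc, rfl⟩ := h _ k hclo hmap
      refine ⟨n, Subgroup.mem_inf.mpr ⟨Subgroup.mem_top _, hn⟩, ?_⟩
      intro a ha
      have h1 : c * a = a * c := (Subgroup.mem_centralizer_iff.mp hc a (Subgroup.subset_closure ha)).symm
      calc n * a * n⁻¹ = n * (a * c) * c⁻¹ * n⁻¹ := by group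
        _ = n * (c * a) * c⁻¹ * n⁻¹ := by rw [h1]
        _ = n * c * a * (n * c)⁻¹ := by group

end Cfsg.Agent.S1967
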