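import Cfsg.Statements.S1968
import Mathlib
import Cfsg.Agent.Lib.H9CF

set_option autoImplicit false
open Cfsg

namespace Cfsg.Agent.S1968

open Cfsg Subgroup Cfsg.Agent.Lib.PNilp Cfsg.Agent.Lib.H9CF

variable {G : Type*} [Group G] [Finite G] {p : ℕ} [hp : Fact p.Prime]

theorem mem_NN_of_cg {x : G} {A : Subgroup G} (h : cg x A = A) : x ∈ NN A := by
  rw [mem_normalizer_iff]
  intro y
  have h1 : x * y * x⁻¹ ∈ cg x A ↔ y ∈ A := by
    rw [mem_cg, show x⁻¹ * (x * y * x⁻¹) * x = y by group]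
  rw [h] at h1
  exact h1.symm

theorem wp_next (W : Subgroup G → Subgroup G) {S T : Subgroup G} (h : IsWellPlaced p W S T) (hS : IsPGroup p S)
    (hW : IsConjugacyFunctor p W) : IsWellPlaced p W S (W (S ⊓ NN T)) := by
  refine ⟨(functor_le W hW (hS.to_le inf_le_left)).trans inf_le_left, ?_⟩
  have hshift : ∀ i, functorTower W S (W (S ⊓ NN T)) i = functorTower W S T (i + 1) := by
    intro i
    induction i with
    | zero => rfl
    | succ i ih =>
      show W (S ⊓ NN (functorTower W S (W (S ⊓ NN T)) i)) = W (S ⊓ NN (functorTower W S T (i + 1)))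
      rw [ih]
  intro i
  rw [hshift]
  exact h.2 (i + 1)

theorem extract {𝓕 : Set (Subgroup G)} : ∀ (A' : Set G) (g : G), SChain (FStep 𝓕) A' g → ∀ B : Subgroup G, A' = B →
    cj g (B : Set G) ≠ B → ∃ T ∈ 𝓕, B ≤ T ∧ ∃ x ∈ NN T, cg x B ≠ B := by
  intro A' g hc
  induction hc with
  | nil A =>
    intro B _ hne
    exact absurd (by rw [cj_one]) hne
  | cons A x y hs hy ih =>
    intro B hAB hne
    obtain ⟨T, hT, hxT, hAT⟩ := hs
    by_cases h : cj x (B : Set G) = B
    · rw [cj_mul, h] at hne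
      exact ih B (by rw [hAB, h]) hne
    · refine ⟨T, hT, ?_, x⁻¹, inv_mem hxT, ?_⟩
      · rw [hAB] at hAT
        exact hAT
      · intro e
        apply h
        rw [cj_eq_cg, e]

/-- Let p be a prime, G a finite group with Sylow p-subgroup S and W a conjugacy functor for p on G with Z(P) ≤ W(P) for every p-subgroup P. Let A be a subgroup of Z(S) normalized by N_G(W(S)) that is not weakly closed in S with respect to G. Then there is a subgroup T of S, well placed in S with respect to W, such that: A ≤ T; N_G(W(N_S(T))) normalizes A; N_S(T) is a Sylow p-subgroup of N_G(T); A ≤ Z(N_S(T)); and A is not weakly closed in N_S(T) with respect to N_G(T), that is, some N_G(T)-conjugate of A other than A lies in N_S(T). -/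
theorem result {G : Type*} [Group G] [Finite G] {p : ℕ} [Fact p.Prime] (S : Sylow p G) (W : Subgroup G → Subgroup G) (hW : Cfsg.IsConjugacyFunctor p W) (hWZ : ∀ P : Subgroup G, IsPGroup p ↥P → P ⊓ Subgroup.centralizer (P : Set G) ≤ W P) (A : Subgroup G) (hAZ : A ≤ (S : Subgroup G) ⊓ Subgroup.centralizer ((S : Subgroup G) : Set G)) (hAN : Subgroup.normalizer ((W (S : Subgroup G) : Subgroup G) : Set G) ≤ Subgroup.normalizer ((A : Subgroup G) : Set G)) (hnwc : ¬ Cfsg.IsWeaklyClosed A (S : Subgroup G)) : ∃ T : Subgroup G, Cfsg.IsWellPlaced p W (S : Subgroup G) T ∧ A ≤ T ∧ Subgroup.normalizer ((W ((S : Subgroup G) ⊓ Subgroup.normalizer ((T : Subgroup G) : Set G)) : Subgroup G) : Set G) ≤ Subgroup.normalizer ((A : Subgroup G) : Set G) ∧ ¬ p ∣ ((S : Subgroup G) ⊓ Subgroup.normalizer ((T : Subgroup G) : Set G)).relIndex (Subgroup.normalizer ((T : Subgroup G) : Set G)) ∧ A ≤ Subgroup.centralizer (((S : Subgroup G) ⊓ Subgroup.normalizer ((T : Subgroup G) : Set G) : Subgroup G)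 : Set G) ∧ ∃ g ∈ Subgroup.normalizer ((T : Subgroup G) : Set G), A.map (MulAut.conj g).toMonoidHom ≤ (S : Subgroup G) ⊓ Subgroup.normalizer ((T : Subgroup G) : Set G) ∧ A.map (MulAut.conj g).toMonoidHom ≠ A := by
  classical
  have hAS : A ≤ (S : Subgroup G) := hAZ.trans inf_le_left
  have hAC : A ≤ Subgroup.centralizer ((S : Subgroup G) : Set G) := hAZ.trans inf_le_right
  let Pair : Subgroup G → Prop := fun T => IsWellPlaced p W (S : Subgroup G) T ∧ A ≤ T ∧
    ∃ g ∈ NN T, cg g A ≠ A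
  have hPair : ∃ T, Pair T := by
    obtain ⟨g, hg1, hg2⟩ : ∃ g : G, cg g A ≤ (S : Subgroup G) ∧ cg g A ≠ A := by
      by_contra hcon
      push Not at hcon
      exact hnwc ⟨hAS, hcon⟩
    have hcj : cj g⁻¹ (A : Set G) ⊆ ((S : Subgroup G) : Set G) := by
      rw [cj_eq_cg, inv_inv]
      exact hg1
    have hchain := fam_chain S {T : Subgroup G | IsWellPlaced p W (S : Subgroup G) T} (fun U hU => hU.1)
      (by
        intro T hT
        obtain ⟨g, hg⟩ := exists_wellPlaced W S hW T hT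
        exact ⟨_, hg, ⟨g, rfl⟩, hg.2 0⟩) A hAS g⁻¹ hcj
    obtain ⟨T, hT, hAT, x, hx, hne⟩ := extract _ _ hchain A rfl (by
      rw [cj_eq_cg, inv_inv]
      exact_mod_cast hg2)
    exact ⟨T, hT, hAT, x, hx, hne⟩
  have hclimb : ∀ (n : ℕ) (T : Subgroup G), Nat.card (S : Subgroup G) - Nat.card ((S : Subgroup G) ⊓ NN T : Subgroup G) = n → Pair T →
      ∃ T', Pair T' ∧ NN (W ((S : Subgroup G) ⊓ NN T')) ≤ NN A := by
    intro n
    induction n using Nat.strong_induction_on with
    | _ n ih =>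
      intro T hn hT
      by_cases hN : NN (W ((S : Subgroup G) ⊓ NN T)) ≤ NN A
      · exact ⟨T, hT, hN⟩
      obtain ⟨y, hy, hyA⟩ := SetLike.not_le_iff_exists.1 hN
      set R : Subgroup G := (S : Subgroup G) ⊓ NN T with hR
      have hRS : R ≤ (S : Subgroup G) := inf_le_left
      have hRp : IsPGroup p R := S.2.to_le hRS
      have hTS : T ≤ (S : Subgroup G) := hT.1.1
      have hAR : A ≤ R := hT.2.1.trans (le_inf hTS Subgroup.le_normalizer)
      have hAU : A ≤ W R := by
        refine le_trans (le_inf hAR ?_) (hWZ R hRp)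
        intro a ha
        rw [mem_centralizer_iff]
        intro r hr
        exact (mem_centralizer_iff.1 (hAC ha)) r (hRS hr)
      have hyne : cg y A ≠ A := fun e => hyA (mem_NN_of_cg e)
      have hPU : Pair (W R) := ⟨wp_next W hT.1 S.2 hW, hAU, y, hy, hyne⟩
      have hRle : R ≤ (S : Subgroup G) ⊓ NN (W R) := le_inf hRS (le_normalizer_functor W hW hRp)
      by_cases he : (S : Subgroup G) ⊓ NN (W R) = R
      · have h1 := eq_top_of_stable W S hW R hRS he
        rw [h1] at hy
        exact absurd (hAN hy) hyA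
      · have hlt : R < (S : Subgroup G) ⊓ NN (W R) := lt_of_le_of_ne hRle (Ne.symm he)
        have h2 := card_lt_of_lt' hlt
        have h3 : Nat.card ((S : Subgroup G) ⊓ NN (W R) : Subgroup G) ≤ Nat.card (S : Subgroup G) :=
          Subgroup.card_le_of_le inf_le_left
        exact ih _ (by omega) (W R) rfl hPU
  obtain ⟨T₀, hT₀⟩ := hPair
  obtain ⟨T, ⟨hT1, hT2, g, hg1, hg2⟩, hT3⟩ := hclimb _ T₀ rfl hT₀
  refine ⟨T, hT1, hT2, hT3, hT1.2 0, ?_, g, hg1, ?_, hg2⟩
  · intro a ha
    rw [mem_centralizer_iff]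
    intro r hr
    exact (mem_centralizer_iff.1 (hAC ha)) r hr.1
  · have h1 : cg g A ≤ T := by
      rw [← cg_eq_self_of_mem hg1]
      exact cg_mono g hT2
    exact h1.trans (le_inf hT1.1 Subgroup.le_normalizer)

end Cfsg.Agent.S1968
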