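import Cfsg.Statements.S1978
import Mathlib
import Cfsg.Agent.Lib.KInf

set_option autoImplicit false
open Cfsg

namespace Cfsg.Agent.S1978

open Cfsg.Agent.Lib.KInf

/-- Let P be a finite p-group. Each of the two K-infinity subgroups of P contains its own centralizer in P, which in turn contains Z(P); in particular both are nontrivial when P is. -/
theorem result {P : Type*} [Group P] [Finite P] {p : ℕ} [Fact p.Prime] (hP : IsPGroup p P) : Subgroup.centralizer (Cfsg.kInfLower P : Set P) ≤ Cfsg.kInfLower P ∧ Subgroup.center P ≤ Subgroup.centralizer (Cfsg.kInfLower P : Set P) ∧ Subgroup.centralizer (Cfsg.kInfUpper P : Set P) ≤ Cfsg.kInfUpper P ∧ Subgroup.center P ≤ Subgroup.centralizer (Cfsg.kInfUpper P : Set P) := by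
  haveI : Group.IsNilpotent P := hP.isNilpotent
  obtain ⟨n, hn⟩ := kSeq_stable (P := P)
  have hL : Cfsg.kInfLower P = sSup (Cfsg.kLowerStarFamily (Cfsg.kSeqOdd P n)) := (hn n le_rfl).1.symm
  have hU : Cfsg.kInfUpper P = sSup (Cfsg.kUpperStarFamily (Cfsg.kSeqEven P n)) :=
    (hn (n + 1) (Nat.le_succ n)).2.symm
  have hcen : ∀ K : Subgroup P, Subgroup.center P ≤ Subgroup.centralizer (K : Set P) := by
    intro K z hz
    rw [Subgroup.mem_centralizer_iff]
    intro g _
    exact (Subgroup.mem_center_iff.mp hz g)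
  refine ⟨?_, hcen _, ?_, hcen _⟩
  · rw [hL]; exact centralizer_sSup_lower_le _
  · rw [hU]; exact centralizer_sSup_upper_le _

end Cfsg.Agent.S1978
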