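import Cfsg.Statements.S1980
import Mathlib
import Cfsg.Agent.Lib.KInf

set_option autoImplicit false
open Cfsg

namespace Cfsg.Agent.S1980

open Cfsg.Agent.Lib.KInf

/-- Let P be a finite p-group and A an abelian normal subgroup of P. Then A belongs to every family used to build the K-sequence of P: the class-two family, every lower-star family relative to an odd-indexed term, and every upper-star family relative to an even-indexed term. In particular A lies in every term of the K-sequence. -/
theorem result {P : Type*} [Group P] [Finite P] {p : ℕ} [Fact p.Prime] (hP : IsPGroup p P) (A : Subgroup P) [A.Normal] (hA : IsMulCommutative ↥A) : A ∈ Cfsg.classTwoSubgroups P ∧ ∀ n : ℕ, A ∈ Cfsg.kLowerStarFamily (Cfsg.kSeqOdd P n) ∧ A ∈ Cfsg.kUpperStarFamily (Cfsg.kSeqEven P n) := by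
  have hle : ∀ X : Subgroup P, ⁅A, X⁆ ≤ A ⊓ Subgroup.centralizer (A : Set P) := by
    intro X
    have h1 : ⁅A, X⁆ ≤ A := Subgroup.commutator_le_left A X
    refine le_inf h1 ?_
    intro c hc
    rw [Subgroup.mem_centralizer_iff]
    intro a ha
    have := hA.is_comm.comm ⟨a, ha⟩ ⟨c, h1 hc⟩
    exact congrArg Subtype.val this
  have hcl : A ∈ Cfsg.classTwoSubgroups P := by
    show ⁅A, A⁆ ≤ _
    exact (hle A).trans inf_le_right
  refine ⟨hcl, fun n => ⟨⟨hcl, ?_, ?_⟩, ⟨hcl, hle _⟩⟩⟩
  · intro q _
    exact Subgroup.mem_normalizer_iff.mpr (fun x => by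
      constructor
      · intro hx; exact Subgroup.Normal.conj_mem inferInstance x hx q
      · intro hx
        have := Subgroup.Normal.conj_mem (inferInstance : A.Normal) _ hx q⁻¹
        simpa [mul_assoc] using this)
  · intro C _ _ _ _ _
    exact hle C

end Cfsg.Agent.S1980
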