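import Cfsg.Statements.S1981
import Mathlib
import Cfsg.Agent.Lib.KInf
import Cfsg.Agent.S1980

set_option autoImplicit false
open Cfsg

namespace Cfsg.Agent.S1981

open Cfsg.Agent.Lib.KInf

/-- Let P be a finite p-group generated by its abelian normal subgroups. Then both K-infinity subgroups of P equal P. -/
theorem result {P : Type*} [Group P] [Finite P] {p : ℕ} [Fact p.Prime] (hP : IsPGroup p P) (hgen : ⨆ A ∈ {A : Subgroup P | A.Normal ∧ IsMulCommutative ↥A}, A = ⊤) : Cfsg.kInfLower P = ⊤ ∧ Cfsg.kInfUpper P = ⊤ := by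
  have hall : ∀ A : Subgroup P, A.Normal → IsMulCommutative ↥A →
      A ≤ Cfsg.kInfLower P ∧ ∀ n, A ≤ Cfsg.kSeqOdd P n := by
    intro A hn hc
    haveI := hn
    have h := Cfsg.Agent.S1980.result hP A hc
    refine ⟨(le_sSup (h.2 0).1).trans (le_iSup (Cfsg.kSeqEven P) 0), ?_⟩
    intro n
    cases n with
    | zero => exact le_top
    | succ n => exact le_sSup (h.2 n).2
  have hgen' : ∀ A ∈ {A : Subgroup P | A.Normal ∧ IsMulCommutative ↥A}, A ≤ Cfsg.kInfLower P := by
    rintro A ⟨h1, h2⟩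
    exact (hall A h1 h2).1
  have hgen'' : ∀ n, ∀ A ∈ {A : Subgroup P | A.Normal ∧ IsMulCommutative ↥A}, A ≤ Cfsg.kSeqOdd P n := by
    rintro n A ⟨h1, h2⟩
    exact (hall A h1 h2).2 n
  constructor
  · rw [eq_top_iff, ← hgen]
    exact iSup₂_le hgen'
  · rw [eq_top_iff, ← hgen]
    refine le_iInf fun n => ?_
    exact iSup₂_le (hgen'' n)

end Cfsg.Agent.S1981
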