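import Cfsg.Statements.S2007
import Mathlib
import Cfsg.Agent.Lib.PNilp

set_option autoImplicit false
open Cfsg

namespace Cfsg.Agent.S2007

open Cfsg.Agent.Lib.PNilp

/-- Let p be a prime, G a finite group with Sylow p-subgroup S, and T a normal subgroup of S containing C_S(T). If N_G(T)/C_G(T) is a p-group (every element of N_G(T) of order prime to p centralizes T), then N_G(T) has a normal p-complement. -/
theorem result {G : Type*} [Group G] [Finite G] {p : ℕ} [Fact p.Prime] (S : Sylow p G) (T : Subgroup G) (hTS : T ≤ (S : Subgroup G)) (hTn : (S : Subgroup G) ≤ Subgroup.normalizer ((T : Subgroup G) : Set G)) (hC : (S : Subgroup G) ⊓ Subgroup.centralizer ((T : Subgroup G) : Set G) ≤ T) (hN : ∀ g ∈ Subgroup.normalizer ((T : Subgroup G) : Set G), (orderOf g).Coprime p → g ∈ Subgroup.centralizer ((T : Subgroup G) : Set G)) : Cfsg.HasNormalPComplement p ↥(Subgroup.normalizer ((T : Subgroup G) : Set G)) := by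
  classical
  set N := Subgroup.normalizer ((T : Subgroup G) : Set G) with hNdef
  let SN : Sylow p ↥N := S.subtype hTn
  set D := Cfsg.pResidual p ↥N with hD
  have hDC : ∀ d ∈ D, (d : G) ∈ Subgroup.centralizer ((T : Subgroup G) : Set G) := by
    have hle : D ≤ (Subgroup.centralizer ((T : Subgroup G) : Set G)).subgroupOf N := by
      rw [hD, Cfsg.pResidual, Subgroup.closure_le]
      intro g hg
      apply Subgroup.mem_subgroupOf.mpr
      apply hN g.1 g.2
      have hg' : Nat.Coprime (orderOf g) p := hg
      rw [Subgroup.orderOf_coe]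
      exact hg'
    intro d hd
    exact Subgroup.mem_subgroupOf.mp (hle hd)
  let P₀ : Sylow p ↥D := sylowOfNormal SN D
  have hcen : ∀ x ∈ (P₀ : Subgroup ↥D), ∀ y : ↥D, y * x = x * y := by
    intro x hx y
    have hxS : (((x : ↥N) : G)) ∈ (S : Subgroup G) := by
      have h1 : (x : ↥N) ∈ (SN : Subgroup ↥N) := hx
      exact h1
    have hxC := hDC x x.2
    have hxT : ((x : ↥N) : G) ∈ (T : Subgroup G) := hC (Subgroup.mem_inf.mpr ⟨hxS, hxC⟩)
    have hyC := hDC y y.2
    have := Subgroup.mem_centralizer_iff.mp hyC _ hxT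
    apply Subtype.ext
    apply Subtype.ext
    exact this.symm
  have hP : Subgroup.normalizer ((P₀ : Subgroup ↥D) : Set ↥D) ≤
      Subgroup.centralizer ((P₀ : Subgroup ↥D) : Set ↥D) := by
    intro g _
    rw [Subgroup.mem_centralizer_iff]
    intro x hx
    exact (hcen x hx g).symm
  have hc := MonoidHom.ker_transferSylow_isComplement' P₀ hP
  have hHas : Cfsg.HasNormalPComplement p ↥D := ⟨P₀, _, inferInstance, hc⟩
  have h1 := hasNormalPComplement_iff_pResidual.mp hHas
  rw [hD, pResidual_pResidual, Subgroup.card_top] at h1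
  exact hasNormalPComplement_iff_pResidual.mpr h1

end Cfsg.Agent.S2007
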