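import Cfsg.Statements.S2008
import Mathlib

set_option autoImplicit false
open Cfsg

namespace Cfsg.Agent.S2008

/-- a fixed-point-free involution inverts. -/
theorem inverts {H : Type*} [Group H] [Finite H] (z : H) (hz : z * z = 1) (N : Subgroup H) [N.Normal]
    (hN : N ⊓ Subgroup.centralizer ({z} : Set H) = ⊥) : ∀ x ∈ N, z * x * z⁻¹ = x⁻¹ := by
  have hzi : z⁻¹ = z := by
    rw [inv_eq_iff_mul_eq_one]; exact hz
  let f : ↥N → ↥N := fun x => ⟨(x : H)⁻¹ * (z * x * z⁻¹),
    N.mul_mem (N.inv_mem x.2) (Subgroup.Normal.conj_mem inferInstance _ x.2 z)⟩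
  have hf : Function.Injective f := by
    intro x y hxy
    have h1 : (x : H)⁻¹ * (z * x * z⁻¹) = (y : H)⁻¹ * (z * y * z⁻¹) := congrArg Subtype.val hxy
    have h2 : (y : H) * (x : H)⁻¹ ∈ N ⊓ Subgroup.centralizer ({z} : Set H) := by
      refine Subgroup.mem_inf.mpr ⟨N.mul_mem y.2 (N.inv_mem x.2), ?_⟩
      rw [Subgroup.mem_centralizer_iff]
      intro w hw
      rw [Set.mem_singleton_iff] at hw
      rw [hw]
      generalize (x : H) = X at h1
      generalize (y : H) = Y at h1
      calc z * (Y * X⁻¹) = Y * (Y⁻¹ * (z * Y * z⁻¹)) * (z * X⁻¹) := by group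
        _ = Y * (X⁻¹ * (z * X * z⁻¹)) * (z * X⁻¹) := by rw [h1]
        _ = Y * X⁻¹ * z := by group
    rw [hN, Subgroup.mem_bot] at h2
    apply Subtype.ext
    exact (mul_inv_eq_one.mp h2).symm
  have hs : Function.Surjective f := (Finite.injective_iff_surjective).mp hf
  intro y hy
  obtain ⟨x, hx⟩ := hs ⟨y, hy⟩
  have h1 : (x : H)⁻¹ * (z * x * z⁻¹) = y := congrArg Subtype.val hx
  rw [← h1, hzi]
  calc z * ((x : H)⁻¹ * (z * x * z)) * z = z * (x : H)⁻¹ * (z * x) * (z * z) := by group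
    _ = z * (x : H)⁻¹ * (z * x) := by rw [hz, mul_one]
    _ = ((x : H)⁻¹ * (z * x * z))⁻¹ := by
        rw [mul_inv_rev, mul_inv_rev, mul_inv_rev, inv_inv, hzi]
        group

theorem core {H : Type*} [Group H] [Finite H] (z : H) (hz : orderOf z = 2) (hN : ∀ N : Subgroup H, N.Normal → N ≠ ⊤ → N ⊓ Subgroup.centralizer ({z} : Set H) = ⊥) (E : Subgroup H) (hE : IsKleinFour ↥E) (hzE : z ∈ E) (hc : ∀ e ∈ E, e ≠ 1 → IsConj z e) :
    ∃ e ∈ E, e ≠ 1 ∧ e ≠ z ∧ ∀ N : Subgroup H, N.Normal → N ≠ ⊤ → N = ⊥ := by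
  classical
  have hz1 : z * z = 1 := by rw [← pow_two, ← hz]; exact pow_orderOf_eq_one z
  have hzi : z⁻¹ = z := by
    rw [inv_eq_iff_mul_eq_one]; exact hz1
  haveI : Fintype ↥E := Fintype.ofFinite _
  have hcard : Fintype.card ↥E = 4 := by
    exact hE.card_four'
  obtain ⟨e, -, he⟩ := Finset.exists_mem_notMem_of_card_lt_card
    (s := ({1, ⟨z, hzE⟩} : Finset ↥E)) (t := Finset.univ) (by
      rw [Finset.card_univ, hcard]
      exact lt_of_le_of_lt (Finset.card_le_two) (by norm_num))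
  simp only [Finset.mem_insert, Finset.mem_singleton, not_or] at he
  obtain ⟨he1, he2⟩ := he
  have he1' : (e : H) ≠ 1 := fun h => he1 (Subtype.ext h)
  have he2' : (e : H) ≠ z := fun h => he2 (Subtype.ext h)
  refine ⟨e, e.2, he1', he2', ?_⟩
  intro N hNn hNt
  haveI := hNn
  -- conjugates
  have hconj : ∀ w ∈ E, w ≠ 1 → w * w = 1 ∧ N ⊓ Subgroup.centralizer ({w} : Set H) = ⊥ := by
    intro w hw hw1
    obtain ⟨c, rfl⟩ := isConj_iff.mp (hc w hw hw1)
    constructor
    · calc c * z * c⁻¹ * (c * z * c⁻¹) = c * (z * z) * c⁻¹ := by group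
        _ = 1 := by rw [hz1]; group
    · rw [eq_bot_iff]
      intro x hx
      obtain ⟨hx1, hx2⟩ := Subgroup.mem_inf.mp hx
      have hxc : x * (c * z * c⁻¹) = (c * z * c⁻¹) * x :=
        (Subgroup.mem_centralizer_iff.mp hx2 _ rfl).symm
      have h3 : c⁻¹ * x * c ∈ N ⊓ Subgroup.centralizer ({z} : Set H) := by
        refine Subgroup.mem_inf.mpr ⟨?_, ?_⟩
        · have := hNn.conj_mem x hx1 c⁻¹
          simpa using this
        · rw [Subgroup.mem_centralizer_iff]
          intro w hw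
          rw [Set.mem_singleton_iff] at hw
          rw [hw]
          calc z * (c⁻¹ * x * c) = c⁻¹ * ((c * z * c⁻¹) * x) * c := by group
            _ = c⁻¹ * (x * (c * z * c⁻¹)) * c := by rw [hxc]
            _ = c⁻¹ * x * c * z := by group
      rw [hN N hNn hNt, Subgroup.mem_bot] at h3
      rw [Subgroup.mem_bot]
      have : x = c * (c⁻¹ * x * c) * c⁻¹ := by group
      rw [this, h3]; group
  have hz' := hconj z hzE (by
    intro h
    rw [h, orderOf_one] at hz
    omega)
  have he' := hconj e e.2 he1'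
  have h3 : z * e ∈ E := E.mul_mem hzE e.2
  have h3' : z * (e : H) ≠ 1 := by
    intro h
    apply he2'
    have : (e : H) = z⁻¹ := (eq_inv_of_mul_eq_one_right h)
    rw [this, hzi]
  have hz3 := hconj _ h3 h3'
  have hinvz := inverts z hz'.1 N hz'.2
  have hinve := inverts (e : H) he'.1 N he'.2
  rw [eq_bot_iff]
  intro x hx
  have hmem : x ∈ N ⊓ Subgroup.centralizer ({z * (e : H)} : Set H) := by
    refine Subgroup.mem_inf.mpr ⟨hx, ?_⟩
    rw [Subgroup.mem_centralizer_iff]
    intro w hw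
    rw [Set.mem_singleton_iff] at hw
    rw [hw]
    have h1 := hinve x hx
    have h2 := hinvz x⁻¹ (N.inv_mem hx)
    rw [inv_inv] at h2
    have h4 : (z * (e : H)) * x * (z * (e : H))⁻¹ = x := by
      calc (z * (e : H)) * x * (z * (e : H))⁻¹ = z * ((e : H) * x * (e : H)⁻¹) * z⁻¹ := by group
        _ = x := by rw [h1, h2]
    calc (z * (e : H)) * x = (z * (e : H)) * x * (z * (e : H))⁻¹ * (z * (e : H)) := by group
      _ = x * (z * (e : H)) := by rw [h4]
  rw [hz3.2] at hmem
  exact hmem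

/-- Let H be a finite group and z an involution such that every proper normal subgroup of H meets the centralizer of z trivially, and suppose z lies in a Klein four-subgroup E of H all three of whose involutions are conjugate to z in H. Then H has no non-trivial abelian normal subgroup. -/
theorem result {H : Type*} [Group H] [Finite H] (z : H) (hz : orderOf z = 2) (hN : ∀ N : Subgroup H, N.Normal → N ≠ ⊤ → N ⊓ Subgroup.centralizer ({z} : Set H) = ⊥) (E : Subgroup H) (hE : IsKleinFour ↥E) (hzE : z ∈ E) (hc : ∀ e ∈ E, e ≠ 1 → IsConj z e) (N : Subgroup H) [N.Normal] (hab : IsMulCommutative ↥N) : N = ⊥ := by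
  obtain ⟨e, heE, he1, hez, hcore⟩ := core z hz hN E hE hzE hc
  by_cases hN' : N = ⊤
  · exfalso
    have hcomm : ∀ a b : H, a * b = b * a := by
      intro a b
      have ha : a ∈ N := by rw [hN']; trivial
      have hb : b ∈ N := by rw [hN']; trivial
      have := hab.is_comm.comm ⟨a, ha⟩ ⟨b, hb⟩
      exact congrArg Subtype.val this
    obtain ⟨c, hc'⟩ := isConj_iff.mp (hc e heE he1)
    apply hez
    rw [← hc', hcomm c z, mul_assoc, mul_inv_cancel, mul_one]
  · exact hcore N inferInstance hN'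

end Cfsg.Agent.S2008
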