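import Cfsg.Statements.S2298
import Cfsg.Agent.Lib.LdGL6

set_option autoImplicit false
open Cfsg

namespace Cfsg.Agent.S2298

open Cfsg.Agent.Lib.LdGL1 Cfsg.Agent.Lib.LdGL2 Cfsg.Agent.Lib.LdGL3 Cfsg.Agent.Lib.LdGL4 Cfsg.Agent.Lib.LdGL5 Cfsg.Agent.Lib.LdGL6 Cfsg.Agent.Lib.H1GL2

/-- Over a finite field F with q elements, every irreducible complex character of GL₂ has degree 1, q − 1, q or q + 1; and when q ≥ 3 (so that these four numbers are distinct) there are exactly q − 1 irreducible characters of degree 1, exactly q − 1 of degree q, exactly (q − 1)(q − 2)/2 of degree q + 1 and exactly q(q − 1)/2 of degree q − 1. -/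
theorem result {F : Type*} [Field F] [Fintype F] :
    (∀ χ : Matrix.GeneralLinearGroup (Fin 2) F → ℂ, Cfsg.IsIrrCharacter (Matrix.GeneralLinearGroup (Fin 2) F) χ →
      χ 1 = 1 ∨ χ 1 = (Fintype.card F : ℂ) - 1 ∨ χ 1 = (Fintype.card F : ℂ) ∨ χ 1 = (Fintype.card F : ℂ) + 1) ∧
    (3 ≤ Fintype.card F →
      Nat.card {χ : Cfsg.IrrCharacter (Matrix.GeneralLinearGroup (Fin 2) F) // (χ : Matrix.GeneralLinearGroup (Fin 2) F → ℂ) 1 = 1} = Fintype.card F - 1 ∧
      Nat.card {χ : Cfsg.IrrCharacter (Matrix.GeneralLinearGroup (Fin 2) F) // (χ : Matrix.GeneralLinearGroup (Fin 2) F → ℂ) 1 = (Fintype.card F : ℂ)} = Fintype.card F - 1 ∧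
      Nat.card {χ : Cfsg.IrrCharacter (Matrix.GeneralLinearGroup (Fin 2) F) // (χ : Matrix.GeneralLinearGroup (Fin 2) F → ℂ) 1 = (Fintype.card F : ℂ) + 1} = (Fintype.card F - 1) * (Fintype.card F - 2) / 2 ∧
      Nat.card {χ : Cfsg.IrrCharacter (Matrix.GeneralLinearGroup (Fin 2) F) // (χ : Matrix.GeneralLinearGroup (Fin 2) F → ℂ) 1 = (Fintype.card F : ℂ) - 1} = Fintype.card F * (Fintype.card F - 1) / 2) := by
  classical
  have hq2 := q_two_le (F := F)
  refine ⟨?_, ?_⟩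
  · intro χ hχ
    rcases mem_parts (⟨χ, hχ⟩ : Irr2 F) with h | h | h | h
    · exact Or.inl (detF_val h)
    · exact Or.inr (Or.inr (Or.inl (stF_val h)))
    · exact Or.inr (Or.inr (Or.inr (indF_val h)))
    · exact Or.inr (Or.inl (cusp_deg h))
  · intro hq
    have c1 : Nat.card {χ : Irr2 F // (χ : GL2 F → ℂ) 1 = 1} = (detF (F := F)).card :=
      Nat.subtype_card _ (fun χ => ⟨detF_val, mem_det_of_deg hq⟩)
    have c2 : Nat.card {χ : Irr2 F // (χ : GL2 F → ℂ) 1 = (Fintype.card F : ℂ)} = (stF (F := F)).card :=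
      Nat.subtype_card _ (fun χ => ⟨stF_val, mem_st_of_deg⟩)
    have c3 : Nat.card {χ : Irr2 F // (χ : GL2 F → ℂ) 1 = (Fintype.card F : ℂ) + 1} = (indF (F := F)).card :=
      Nat.subtype_card _ (fun χ => ⟨indF_val, mem_ind_of_deg⟩)
    have c4 : Nat.card {χ : Irr2 F // (χ : GL2 F → ℂ) 1 = (Fintype.card F : ℂ) - 1} = (cuspF (F := F)).card :=
      Nat.subtype_card _ (fun χ => ⟨cusp_deg, mem_cusp_of_deg hq⟩)
    refine ⟨c1.trans card_detF, c2.trans card_stF, c3.trans ?_, c4.trans ?_⟩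
    · rw [← two_card_indF]
      simp
    · rw [← two_card_cuspF]
      simp

end Cfsg.Agent.S2298
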