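import Cfsg.Statements.S2299
import Cfsg.Agent.Lib.LdSL5

set_option autoImplicit false
open Cfsg

namespace Cfsg.Agent.S2299

open Cfsg.Agent.Lib.LdGL1 Cfsg.Agent.Lib.LdGL2 Cfsg.Agent.Lib.LdGL3 Cfsg.Agent.Lib.LdGL4 Cfsg.Agent.Lib.LdSL1 Cfsg.Agent.Lib.LdSL2 Cfsg.Agent.Lib.LdSL3 Cfsg.Agent.Lib.LdSL4 Cfsg.Agent.Lib.LdSL5 Cfsg.Agent.Lib.H1GL2 Cfsg.Agent.Lib.H1SL2 Cfsg.Agent.Lib.CharAlg Cfsg.Agent.Lib.CharOrth

/-- Over a finite field F with q elements, q odd, every irreducible complex character of SL₂ has degree 1, q, q + 1, q − 1, (q + 1)/2 or (q − 1)/2; and when q ≥ 5 (so that these six numbers are distinct) there are exactly one irreducible character of degree 1, one of degree q, (q − 3)/2 of degree q + 1, (q − 1)/2 of degree q − 1, two of degree (q + 1)/2 and two of degree (q − 1)/2. -/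
theorem result {F : Type*} [Field F] [Fintype F] (hodd : Odd (Fintype.card F)) :
    (∀ χ : Matrix.SpecialLinearGroup (Fin 2) F → ℂ, Cfsg.IsIrrCharacter (Matrix.SpecialLinearGroup (Fin 2) F) χ →
      χ 1 = 1 ∨ χ 1 = (Fintype.card F : ℂ) ∨ χ 1 = (Fintype.card F : ℂ) + 1 ∨ χ 1 = (Fintype.card F : ℂ) - 1 ∨
        χ 1 = (((Fintype.card F + 1) / 2 : ℕ) : ℂ) ∨ χ 1 = (((Fintype.card F - 1) / 2 : ℕ) : ℂ)) ∧
    (5 ≤ Fintype.card F →
      Nat.card {χ : Cfsg.IrrCharacter (Matrix.SpecialLinearGroup (Fin 2) F) // (χ : Matrix.SpecialLinearGroup (Fin 2) F → ℂ) 1 = 1} = 1 ∧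
      Nat.card {χ : Cfsg.IrrCharacter (Matrix.SpecialLinearGroup (Fin 2) F) // (χ : Matrix.SpecialLinearGroup (Fin 2) F → ℂ) 1 = (Fintype.card F : ℂ)} = 1 ∧
      Nat.card {χ : Cfsg.IrrCharacter (Matrix.SpecialLinearGroup (Fin 2) F) // (χ : Matrix.SpecialLinearGroup (Fin 2) F → ℂ) 1 = (Fintype.card F : ℂ) + 1} = (Fintype.card F - 3) / 2 ∧
      Nat.card {χ : Cfsg.IrrCharacter (Matrix.SpecialLinearGroup (Fin 2) F) // (χ : Matrix.SpecialLinearGroup (Fin 2) F → ℂ) 1 = (Fintype.card F : ℂ) - 1} = (Fintype.card F - 1) / 2 ∧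
      Nat.card {χ : Cfsg.IrrCharacter (Matrix.SpecialLinearGroup (Fin 2) F) // (χ : Matrix.SpecialLinearGroup (Fin 2) F → ℂ) 1 = (((Fintype.card F + 1) / 2 : ℕ) : ℂ)} = 2 ∧
      Nat.card {χ : Cfsg.IrrCharacter (Matrix.SpecialLinearGroup (Fin 2) F) // (χ : Matrix.SpecialLinearGroup (Fin 2) F → ℂ) 1 = (((Fintype.card F - 1) / 2 : ℕ) : ℂ)} = 2) := by
  classical
  obtain ⟨k, hk⟩ := hodd
  have hodd : Odd (Fintype.card F) := ⟨k, hk⟩
  have hq2 := q_two_le (F := F)
  obtain ⟨e, he⟩ := exists_nonsq hodd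
  obtain ⟨D⟩ := exists_quadData he hk
  have hQ : (Fintype.card F : ℂ) = ((2 * k + 1 : ℕ) : ℂ) := by rw [hk]
  have hQ1 : (Fintype.card F : ℂ) + 1 = ((2 * k + 2 : ℕ) : ℂ) := by rw [hk]; push_cast; ring
  have hQ2 : (Fintype.card F : ℂ) - 1 = ((2 * k : ℕ) : ℂ) := by rw [hk]; push_cast; ring
  have hQ3 : (Fintype.card F + 1) / 2 = k + 1 := by omega
  have hQ4 : (Fintype.card F - 1) / 2 = k := by omega
  have hQ5 : (Fintype.card F - 3) / 2 = k - 1 := by omega
  have cases : ∀ χ : IrrS F,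
      (χ = trivI ∧ (χ : SL2 F → ℂ) 1 = ((1 : ℕ) : ℂ)) ∨ (χ = stIS ∧ (χ : SL2 F → ℂ) 1 = ((2 * k + 1 : ℕ) : ℂ)) ∨
      (χ ∈ psF (F := F) ∧ (χ : SL2 F → ℂ) 1 = ((2 * k + 2 : ℕ) : ℂ)) ∨
      (χ ∈ cuspB (F := F) k ∧ (χ : SL2 F → ℂ) 1 = ((2 * k : ℕ) : ℂ)) ∨
      (χ ∈ quadF (F := F) ∧ (χ : SL2 F → ℂ) 1 = ((k + 1 : ℕ) : ℂ)) ∨
      (χ ∈ cuspA (F := F) k ∧ (χ : SL2 F → ℂ) 1 = ((k : ℕ) : ℂ)) := by
    intro χ
    rcases classifyS χ with h | h | h | h | h
    · left
      refine ⟨h, ?_⟩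
      rw [h]
      simp [trivI]
    · right; left
      refine ⟨h, ?_⟩
      rw [h, ← hQ]
      exact stS_one
    · right; right; left
      refine ⟨h, ?_⟩
      rw [← hQ1]
      exact psF_val h
    · right; right; right; right; left
      refine ⟨h, ?_⟩
      rw [D.hquad] at h
      simp only [Finset.mem_insert, Finset.mem_singleton] at h
      rcases h with rfl | rfl
      · exact D.ha1
      · exact D.hb1
    · rcases Cfsg.Agent.Lib.LdSL5.cusp_deg_odd hk h with h1 | h1
      · right; right; right; right; right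
        exact ⟨(mem_cuspA χ).mpr ⟨h, h1⟩, h1⟩
      · right; right; right; left
        exact ⟨(mem_cuspB χ).mpr ⟨h, h1⟩, h1⟩
  constructor
  · intro χ hχ
    rw [hQ3, hQ4]
    rcases cases ⟨χ, hχ⟩ with h | h | h | h | h | h
    · left
      simpa using h.2
    · right; left
      rw [hQ]
      exact h.2
    · right; right; left
      rw [hQ1]
      exact h.2
    · right; right; right; left
      rw [hQ2]
      exact h.2
    · right; right; right; right; left
      exact h.2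
    · right; right; right; right; right
      exact h.2
  · intro hq5
    have hk2 : 2 ≤ k := by omega
    have hv : ∀ (χ : IrrS F) {d m : ℕ}, (χ : SL2 F → ℂ) 1 = (d : ℂ) → (χ : SL2 F → ℂ) 1 = (m : ℂ) → d = m := by
      intro χ d m h1 h2
      rw [h1] at h2
      exact_mod_cast h2
    have gen : ∀ (S : Finset (IrrS F)) (d : ℕ), (∀ χ ∈ S, (χ : SL2 F → ℂ) 1 = (d : ℂ)) →
        (∀ χ : IrrS F, (χ : SL2 F → ℂ) 1 = (d : ℂ) → χ ∈ S) →
        Nat.card {χ : IrrS F // (χ : SL2 F → ℂ) 1 = (d : ℂ)} = S.card := by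
      intro S d h1 h2
      exact Nat.subtype_card S (fun χ => ⟨h1 χ, h2 χ⟩)
    rw [hQ1, hQ2, hQ, hQ3, hQ4, hQ5]
    have hone : (1 : ℂ) = ((1 : ℕ) : ℂ) := by simp
    rw [hone]
    have htv : (trivI : IrrS F).1 1 = ((1 : ℕ) : ℂ) := by simp [trivI]
    have hst : (stIS : IrrS F).1 1 = ((2 * k + 1 : ℕ) : ℂ) := by rw [← hQ]; exact stS_one
    have hps : ∀ χ ∈ psF (F := F), (χ : SL2 F → ℂ) 1 = ((2 * k + 2 : ℕ) : ℂ) := fun χ h => by
      rw [← hQ1]; exact psF_val h
    have hcA := card_cusp_AB (F := F) hk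
    have hp : (psF (F := F)).card = k - 1 := by
      have := two_card_psF (F := F)
      rw [card_OffS_odd hodd] at this
      omega
    have hqq : (quadF (F := F)).card = 2 := by
      rw [D.hquad]
      exact Finset.card_pair D.hne
    refine ⟨?_, ?_, ?_, ?_, ?_, ?_⟩
    · rw [gen {trivI} 1 ?_ ?_, Finset.card_singleton]
      · intro χ h
        rw [Finset.mem_singleton.mp h]
        exact htv
      · intro χ h
        rcases cases χ with h1 | h1 | h1 | h1 | h1 | h1
        · exact Finset.mem_singleton.mpr h1.1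
        all_goals (have h3 := hv χ h h1.2; omega)
    · rw [gen {stIS} (2 * k + 1) ?_ ?_, Finset.card_singleton]
      · intro χ h
        rw [Finset.mem_singleton.mp h]
        exact hst
      · intro χ h
        rcases cases χ with h1 | h1 | h1 | h1 | h1 | h1
        · have h3 := hv χ h h1.2; omega
        · exact Finset.mem_singleton.mpr h1.1
        all_goals (have h3 := hv χ h h1.2; omega)
    · rw [gen (psF (F := F)) (2 * k + 2) hps ?_, hp]
      intro χ h
      rcases cases χ with h1 | h1 | h1 | h1 | h1 | h1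
      · have h3 := hv χ h h1.2; omega
      · have h3 := hv χ h h1.2; omega
      · exact h1.1
      all_goals (have h3 := hv χ h h1.2; omega)
    · rw [gen (cuspB (F := F) k) (2 * k) (fun χ h => ((mem_cuspB χ).mp h).2) ?_, hcA.2]
      intro χ h
      rcases cases χ with h1 | h1 | h1 | h1 | h1 | h1
      · have h3 := hv χ h h1.2; omega
      · have h3 := hv χ h h1.2; omega
      · have h3 := hv χ h h1.2; omega
      · exact h1.1
      all_goals (have h3 := hv χ h h1.2; omega)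
    · rw [gen (quadF (F := F)) (k + 1) ?_ ?_, hqq]
      · intro χ h
        rw [D.hquad] at h
        simp only [Finset.mem_insert, Finset.mem_singleton] at h
        rcases h with rfl | rfl
        · exact D.ha1
        · exact D.hb1
      · intro χ h
        rcases cases χ with h1 | h1 | h1 | h1 | h1 | h1
        · have h3 := hv χ h h1.2; omega
        · have h3 := hv χ h h1.2; omega
        · have h3 := hv χ h h1.2; omega
        · have h3 := hv χ h h1.2; omega
        · exact h1.1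
        · have h3 := hv χ h h1.2; omega
    · rw [gen (cuspA (F := F) k) k (fun χ h => ((mem_cuspA χ).mp h).2) ?_, hcA.1]
      intro χ h
      rcases cases χ with h1 | h1 | h1 | h1 | h1 | h1
      · have h3 := hv χ h h1.2; omega
      · have h3 := hv χ h h1.2; omega
      · have h3 := hv χ h h1.2; omega
      · have h3 := hv χ h h1.2; omega
      · have h3 := hv χ h h1.2; omega
      · exact h1.1

end Cfsg.Agent.S2299
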