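import Cfsg.Statements.S2300
import Cfsg.Agent.Lib.LdSL3

set_option autoImplicit false
open Cfsg

namespace Cfsg.Agent.S2300

open Cfsg.Agent.Lib.LdGL1 Cfsg.Agent.Lib.LdGL2 Cfsg.Agent.Lib.LdGL3 Cfsg.Agent.Lib.LdGL4 Cfsg.Agent.Lib.LdSL1 Cfsg.Agent.Lib.LdSL2 Cfsg.Agent.Lib.LdSL3 Cfsg.Agent.Lib.H1GL2 Cfsg.Agent.Lib.CharAlg Cfsg.Agent.Lib.CharOrth

/-- Over a finite field F with q elements, q even, every irreducible complex character of SL₂ has degree 1, q − 1, q or q + 1; and when q ≥ 4 (so that these four numbers are distinct) there are exactly one irreducible character of degree 1, one of degree q, (q − 2)/2 of degree q + 1 and q/2 of degree q − 1. -/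
theorem result {F : Type*} [Field F] [Fintype F] [CharP F 2] :
    (∀ χ : Matrix.SpecialLinearGroup (Fin 2) F → ℂ, Cfsg.IsIrrCharacter (Matrix.SpecialLinearGroup (Fin 2) F) χ →
      χ 1 = 1 ∨ χ 1 = (Fintype.card F : ℂ) - 1 ∨ χ 1 = (Fintype.card F : ℂ) ∨ χ 1 = (Fintype.card F : ℂ) + 1) ∧
    (4 ≤ Fintype.card F →
      Nat.card {χ : Cfsg.IrrCharacter (Matrix.SpecialLinearGroup (Fin 2) F) // (χ : Matrix.SpecialLinearGroup (Fin 2) F → ℂ) 1 = 1} = 1 ∧
      Nat.card {χ : Cfsg.IrrCharacter (Matrix.SpecialLinearGroup (Fin 2) F) // (χ : Matrix.SpecialLinearGroup (Fin 2) F → ℂ) 1 = (Fintype.card F : ℂ)} = 1 ∧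
      Nat.card {χ : Cfsg.IrrCharacter (Matrix.SpecialLinearGroup (Fin 2) F) // (χ : Matrix.SpecialLinearGroup (Fin 2) F → ℂ) 1 = (Fintype.card F : ℂ) + 1} = (Fintype.card F - 2) / 2 ∧
      Nat.card {χ : Cfsg.IrrCharacter (Matrix.SpecialLinearGroup (Fin 2) F) // (χ : Matrix.SpecialLinearGroup (Fin 2) F → ℂ) 1 = (Fintype.card F : ℂ) - 1} = Fintype.card F / 2) := by
  classical
  have hq2 := q_two_le (F := F)
  have hqe := q_even (F := F)
  have hqC : (Fintype.card F : ℂ) ≠ 0 := q_ne_zero
  have hmem : ∀ χ : IrrS F, χ = trivI ∨ χ = stIS ∨ χ ∈ psF (F := F) ∨ χ ∈ cuspSF (F := F) := by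
    intro χ
    rcases classifyS χ with h | h | h | h | h
    · exact Or.inl h
    · exact Or.inr (Or.inl h)
    · exact Or.inr (Or.inr (Or.inl h))
    · rw [quadF_even] at h
      simp at h
    · exact Or.inr (Or.inr (Or.inr h))
  refine ⟨?_, ?_⟩
  · intro χ hχ
    rcases hmem ⟨χ, hχ⟩ with h | h | h | h
    · left
      have := congrFun (congrArg Subtype.val h) 1
      simpa [trivI, trivS] using this
    · right; right; left
      have := congrFun (congrArg Subtype.val h) 1
      rw [show ((stIS (F := F) : IrrS F) : SL2 F → ℂ) = stS from rfl, stS_one] at this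
      exact this
    · right; right; right
      exact psF_val h
    · right; left
      exact cuspS_deg_even h
  · intro hq4
    have hv : ∀ (χ : IrrS F), (χ = trivI → (χ : SL2 F → ℂ) 1 = 1) ∧ (χ = stIS → (χ : SL2 F → ℂ) 1 = (Fintype.card F : ℂ)) := by
      intro χ
      constructor
      · rintro rfl
        rfl
      · rintro rfl
        exact stS_one
    have hnat : ∀ {a b : ℕ}, (a : ℂ) = b → a = b := fun h => by exact_mod_cast h
    have ne1 : ∀ k : ℕ, (Fintype.card F : ℂ) = (k : ℂ) → k = Fintype.card F := fun k h => (hnat h).symm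
    have hq1 : ((Fintype.card F : ℂ) - 1) = ((Fintype.card F - 1 : ℕ) : ℂ) := by
      rw [Nat.cast_sub (by omega)]; simp
    have c1 : Nat.card {χ : IrrS F // (χ : SL2 F → ℂ) 1 = 1} = 1 := by
      rw [Nat.card_eq_one_iff_unique]
      refine ⟨⟨?_⟩, ⟨⟨trivI, rfl⟩⟩⟩
      rintro ⟨a, ha⟩ ⟨b, hb⟩
      have key : ∀ χ : IrrS F, (χ : SL2 F → ℂ) 1 = 1 → χ = trivI := by
        intro χ hχ
        rcases hmem χ with h | h | h | h
        · exact h
        · exfalso
          rw [(hv χ).2 h] at hχ
          have : Fintype.card F = 1 := by exact_mod_cast hχ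
          omega
        · exfalso
          rw [psF_val h] at hχ
          apply hqC
          linear_combination hχ
        · exfalso
          rw [cuspS_deg_even h] at hχ
          have : Fintype.card F = 2 := by
            have h3 : ((Fintype.card F : ℕ) : ℂ) = ((2 : ℕ) : ℂ) := by
              push_cast
              linear_combination hχ
            exact_mod_cast h3
          omega
      exact Subtype.ext ((key a ha).trans (key b hb).symm)
    have c2 : Nat.card {χ : IrrS F // (χ : SL2 F → ℂ) 1 = (Fintype.card F : ℂ)} = 1 := by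
      rw [Nat.card_eq_one_iff_unique]
      refine ⟨⟨?_⟩, ⟨⟨stIS, stS_one⟩⟩⟩
      rintro ⟨a, ha⟩ ⟨b, hb⟩
      have key : ∀ χ : IrrS F, (χ : SL2 F → ℂ) 1 = (Fintype.card F : ℂ) → χ = stIS := by
        intro χ hχ
        rcases hmem χ with h | h | h | h
        · exfalso
          rw [(hv χ).1 h] at hχ
          have : Fintype.card F = 1 := by exact_mod_cast hχ.symm
          omega
        · exact h
        · exfalso
          rw [psF_val h] at hχ
          norm_num at hχ
        · exfalso
          rw [cuspS_deg_even h] at hχ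
          norm_num at hχ
      exact Subtype.ext ((key a ha).trans (key b hb).symm)
    have c3 : Nat.card {χ : IrrS F // (χ : SL2 F → ℂ) 1 = (Fintype.card F : ℂ) + 1} = (psF (F := F)).card := by
      apply Nat.subtype_card
      intro χ
      constructor
      · exact psF_val
      · intro hχ
        rcases hmem χ with h | h | h | h
        · exfalso
          rw [(hv χ).1 h] at hχ
          apply hqC
          linear_combination -hχ
        · exfalso
          rw [(hv χ).2 h] at hχ
          norm_num at hχ
        · exact h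
        · exfalso
          rw [cuspS_deg_even h] at hχ
          have h5 : (2 : ℂ) = 0 := by linear_combination -hχ
          norm_num at h5
    have c4 : Nat.card {χ : IrrS F // (χ : SL2 F → ℂ) 1 = (Fintype.card F : ℂ) - 1} = (cuspSF (F := F)).card := by
      apply Nat.subtype_card
      intro χ
      constructor
      · exact cuspS_deg_even
      · intro hχ
        rcases hmem χ with h | h | h | h
        · exfalso
          rw [(hv χ).1 h] at hχ
          have : Fintype.card F = 2 := by
            have h3 : ((Fintype.card F : ℕ) : ℂ) = ((2 : ℕ) : ℂ) := by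
              push_cast
              linear_combination -hχ
            exact_mod_cast h3
          omega
        · exfalso
          rw [(hv χ).2 h] at hχ
          have h5 : (1 : ℂ) = 0 := by linear_combination hχ
          norm_num at h5
        · exfalso
          rw [psF_val h] at hχ
          have h5 : (2 : ℂ) = 0 := by linear_combination hχ
          norm_num at h5
        · exact h
    refine ⟨c1, c2, ?_, ?_⟩
    · rw [c3]
      have h2 := two_card_psF (F := F)
      rw [card_OffS_even] at h2
      omega
    · rw [c4]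
      have h2 := two_card_cusp_even (F := F)
      omega

end Cfsg.Agent.S2300
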