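import Cfsg.Statements.S2306
import Cfsg.Agent.Lib.LdSL3

set_option autoImplicit false
open Cfsg

namespace Cfsg.Agent.S2306

open Cfsg.Agent.Lib.LdGL1 Cfsg.Agent.Lib.LdGL2 Cfsg.Agent.Lib.LdGL3 Cfsg.Agent.Lib.LdGL4 Cfsg.Agent.Lib.LdSL1 Cfsg.Agent.Lib.LdSL2 Cfsg.Agent.Lib.LdSL3 Cfsg.Agent.Lib.H1GL2 Cfsg.Agent.Lib.CharAlg Cfsg.Agent.Lib.CharOrth

/-- Over a finite field F, for a multiplicative character α of F, the function induced to SL₂ from the linear character b ↦ α(b₁₁) of the upper triangular subgroup is an irreducible character if and only if α² ≠ 1. -/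
theorem result {F : Type*} [Field F] [Fintype F] [DecidableEq F] (α : MulChar F ℂ) :
    Cfsg.IsIrrCharacter (Matrix.SpecialLinearGroup (Fin 2) F) (Cfsg.indFun ((Cfsg.upperTriangularGL 2 F).comap Matrix.SpecialLinearGroup.toGL) (fun b => α (((b : Matrix.SpecialLinearGroup (Fin 2) F) : Matrix (Fin 2) (Fin 2) F) 0 0))) ↔ α ^ 2 ≠ 1 := by
  constructor
  · intro h hsq
    have hα : α = α⁻¹ := by
      rw [eq_inv_iff_mul_eq_one, ← pow_two, hsq]
    have h1 : classInner (indS α) (indS α) = 1 := classInner_irr_self h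
    rw [inner_indS'] at h1
    rw [if_pos rfl, if_pos hα] at h1
    norm_num at h1
  · intro h
    exact indS_irr h

end Cfsg.Agent.S2306
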