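import Cfsg.Statements.S2307
import Cfsg.Agent.Lib.LdSL4

set_option autoImplicit false
open Cfsg

namespace Cfsg.Agent.S2307

open Cfsg.Agent.Lib.LdGL1 Cfsg.Agent.Lib.LdGL2 Cfsg.Agent.Lib.LdGL3 Cfsg.Agent.Lib.LdGL4 Cfsg.Agent.Lib.LdSL1 Cfsg.Agent.Lib.LdSL2 Cfsg.Agent.Lib.LdSL3 Cfsg.Agent.Lib.H1GL2 Cfsg.Agent.Lib.CharAlg Cfsg.Agent.Lib.CharOrth
open Cfsg.Agent.Lib.LdSL4 Cfsg.Agent.Lib.H1SL2

/-- Over a finite field F with q elements, q odd, let α be the multiplicative character of F of order 2. The character of SL₂ induced from the linear character b ↦ α(b₁₁) of the upper triangular subgroup is the sum of two distinct irreducible characters, each of degree (q + 1)/2, which are conjugate under GL₂: some fixed element of GL₂ conjugates the one into the other. -/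
theorem result {F : Type*} [Field F] [Fintype F] [DecidableEq F] (hodd : Odd (Fintype.card F)) (α : MulChar F ℂ)
    (hα : α ^ 2 = 1) (hα1 : α ≠ 1) :
    ∃ χ₁ χ₂ : Matrix.SpecialLinearGroup (Fin 2) F → ℂ, Cfsg.IsIrrCharacter (Matrix.SpecialLinearGroup (Fin 2) F) χ₁ ∧ Cfsg.IsIrrCharacter (Matrix.SpecialLinearGroup (Fin 2) F) χ₂ ∧ χ₁ ≠ χ₂ ∧
      Cfsg.indFun ((Cfsg.upperTriangularGL 2 F).comap Matrix.SpecialLinearGroup.toGL) (fun b => α (((b : Matrix.SpecialLinearGroup (Fin 2) F) : Matrix (Fin 2) (Fin 2) F) 0 0)) = χ₁ + χ₂ ∧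
      χ₁ 1 = (((Fintype.card F + 1) / 2 : ℕ) : ℂ) ∧ χ₂ 1 = (((Fintype.card F + 1) / 2 : ℕ) : ℂ) ∧
      ∃ x : Matrix.GeneralLinearGroup (Fin 2) F, ∀ g h : Matrix.SpecialLinearGroup (Fin 2) F,
        Matrix.SpecialLinearGroup.toGL h = x * Matrix.SpecialLinearGroup.toGL g * x⁻¹ → χ₂ h = χ₁ g := by
  obtain ⟨e, he⟩ := exists_nonsq hodd
  obtain ⟨χ₁, χ₂, h1, h3, hne, hsum, hσ⟩ := quad_split hodd hα hα1 he
  refine ⟨χ₁, χ₂, h1, h3, hne, hsum, ?_⟩
  have h12 : χ₂ 1 = χ₁ 1 := by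
    rw [← hσ]
    show χ₁ (sig e 1) = χ₁ 1
    rw [map_one]
  have hs : χ₁ 1 + χ₂ 1 = (Fintype.card F : ℂ) + 1 := by
    have := indS_one α
    rw [hsum] at this
    exact this
  obtain ⟨k, hk⟩ := hodd
  have hk2 : ((Fintype.card F + 1) / 2 : ℕ) = k + 1 := by omega
  have hv : χ₁ 1 = (((Fintype.card F + 1) / 2 : ℕ) : ℂ) := by
    rw [hk2]
    have h5 : (Fintype.card F : ℂ) = 2 * (k : ℂ) + 1 := by rw [hk]; push_cast; ring
    rw [h5, h12] at hs
    push_cast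
    have h6 : (2 : ℂ) * (χ₁ 1 - ((k : ℂ) + 1)) = 0 := by linear_combination hs
    have h7 := (mul_eq_zero.mp h6).resolve_left (by norm_num)
    linear_combination h7
  refine ⟨hv, h12.trans hv, (tri e 1 0)⁻¹, ?_⟩
  intro g h hgh
  have h5 : Matrix.SpecialLinearGroup.toGL (sig e h) = Matrix.SpecialLinearGroup.toGL g := by
    rw [toGL_sig, hgh]
    group
  have h6 : sig e h = g := toGL_inj h5
  rw [← hσ, ← h6]
  rfl

end Cfsg.Agent.S2307
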