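import Cfsg.Statements.S2309
import Cfsg.Agent.Lib.LdGL6

set_option autoImplicit false
open Cfsg

namespace Cfsg.Agent.S2309

open Cfsg.Agent.Lib.LdGL1 Cfsg.Agent.Lib.LdGL2 Cfsg.Agent.Lib.LdGL3 Cfsg.Agent.Lib.LdGL4 Cfsg.Agent.Lib.LdGL5 Cfsg.Agent.Lib.LdGL6 Cfsg.Agent.Lib.H1GL2

/-- Over a finite field F with q elements: every irreducible complex character of GL₂ of degree q − 1 vanishes at every diagonal matrix with two distinct entries, and every irreducible complex character of degree q + 1 vanishes at every element with no eigenvector in F². -/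
theorem result {F : Type*} [Field F] [Fintype F] (χ : Matrix.GeneralLinearGroup (Fin 2) F → ℂ) (hχ : Cfsg.IsIrrCharacter (Matrix.GeneralLinearGroup (Fin 2) F) χ) (g : Matrix.GeneralLinearGroup (Fin 2) F) :
    (χ 1 = (Fintype.card F : ℂ) - 1 → (g : Matrix (Fin 2) (Fin 2) F) 0 1 = 0 → (g : Matrix (Fin 2) (Fin 2) F) 1 0 = 0 → (g : Matrix (Fin 2) (Fin 2) F) 0 0 ≠ (g : Matrix (Fin 2) (Fin 2) F) 1 1 → χ g = 0) ∧
    (χ 1 = (Fintype.card F : ℂ) + 1 → (∀ (c : F) (v : Fin 2 → F), v ≠ 0 → (g : Matrix (Fin 2) (Fin 2) F).mulVec v ≠ c • v) → χ g = 0) := by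
  classical
  refine ⟨?_, ?_⟩
  · intro hdeg h01 h10 hne
    obtain ⟨ha, hd⟩ := gl_diag_ne g h01 h10
    have hq : 3 ≤ Fintype.card F := by
      have h3 : ({0, (g : Matrix (Fin 2) (Fin 2) F) 0 0, (g : Matrix (Fin 2) (Fin 2) F) 1 1} : Finset F).card = 3 := by
        rw [Finset.card_eq_three]
        exact ⟨_, _, _, ha.symm, hd.symm, hne, rfl⟩
      rw [← h3]
      exact Finset.card_le_univ _
    exact cusp_zero_diag (mem_cusp_of_deg hq (χ := ⟨χ, hχ⟩) hdeg) g h01 h10 hne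
  · intro hdeg hg
    have h := mem_ind_of_deg (χ := ⟨χ, hχ⟩) hdeg
    simp only [indF, Finset.mem_image] at h
    obtain ⟨p, _, hp⟩ := h
    have h2 : χ = indL p.1.1 p.1.2 := (congrArg Subtype.val hp).symm
    rw [h2]
    exact ind_noeig _ _ g hg

end Cfsg.Agent.S2309
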