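import Cfsg.Statements.S2310
import Cfsg.Agent.Lib.LdGL6

set_option autoImplicit false
open Cfsg

namespace Cfsg.Agent.S2310

open Cfsg.Agent.Lib.LdGL1 Cfsg.Agent.Lib.LdGL2 Cfsg.Agent.Lib.LdGL3 Cfsg.Agent.Lib.LdGL4 Cfsg.Agent.Lib.LdGL5 Cfsg.Agent.Lib.LdGL6 Cfsg.Agent.Lib.H1GL2

/-- Over a finite field F with q ≥ 3 elements, let u be the upper unitriangular matrix of GL₂ with off-diagonal entry 1. An irreducible complex character χ of GL₂ takes at u the value 1 if χ has degree 1 or q + 1, the value −1 if χ has degree q − 1, and the value 0 if χ has degree q. -/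
theorem result {F : Type*} [Field F] [Fintype F] (hq : 3 ≤ Fintype.card F) (χ : Matrix.GeneralLinearGroup (Fin 2) F → ℂ) (hχ : Cfsg.IsIrrCharacter (Matrix.GeneralLinearGroup (Fin 2) F) χ)
    (u : Matrix.GeneralLinearGroup (Fin 2) F) (hu : (u : Matrix (Fin 2) (Fin 2) F) = !![1, 1; 0, 1]) :
    (χ 1 = 1 → χ u = 1) ∧ (χ 1 = (Fintype.card F : ℂ) + 1 → χ u = 1) ∧
    (χ 1 = (Fintype.card F : ℂ) - 1 → χ u = -1) ∧ (χ 1 = (Fintype.card F : ℂ) → χ u = 0) := by
  classical
  have hut : u = tri (1 : Fˣ) 1 1 := by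
    apply gl_ext <;> simp [hu]
  subst hut
  refine ⟨?_, ?_, ?_, ?_⟩
  · intro hdeg
    have h := mem_det_of_deg hq (χ := ⟨χ, hχ⟩) hdeg
    simp only [detF, Finset.mem_image] at h
    obtain ⟨γ, _, hp⟩ := h
    have h2 : χ = detChar γ := (congrArg Subtype.val hp).symm
    rw [h2, detChar_tri]
    simp
  · intro hdeg
    have h := mem_ind_of_deg (χ := ⟨χ, hχ⟩) hdeg
    simp only [indF, Finset.mem_image] at h
    obtain ⟨p, _, hp⟩ := h
    have h2 : χ = indL p.1.1 p.1.2 := (congrArg Subtype.val hp).symm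
    rw [h2, indL, ind_tri_eq _ _ _ rfl rfl (by simp)]
    simp
  · intro hdeg
    have h := cusp_val (mem_cusp_of_deg hq (χ := ⟨χ, hχ⟩) hdeg)
    have h4 := q_sub_one_ne_zero (F := F)
    simp only at h
    rw [hdeg] at h
    have h5 : ((Fintype.card F : ℂ) - 1) * (χ (tri (1 : Fˣ) 1 1) + 1) = 0 := by
      linear_combination h
    have h6 := (mul_eq_zero.mp h5).resolve_left h4
    linear_combination h6
  · intro hdeg
    have h := mem_st_of_deg (χ := ⟨χ, hχ⟩) hdeg
    simp only [stF, Finset.mem_image] at h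
    obtain ⟨γ, _, hp⟩ := h
    have h2 : χ = stChar γ := (congrArg Subtype.val hp).symm
    rw [h2]
    simp only [stChar, Pi.sub_apply, indL]
    rw [ind_tri_eq _ _ _ rfl rfl (by simp), detChar_tri]
    simp

end Cfsg.Agent.S2310
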