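import Cfsg.Statements.S2320
import Cfsg.Agent.Lib.LdGL6

set_option autoImplicit false
open Cfsg

namespace Cfsg.Agent.S2320

open Cfsg.Agent.Lib.LdGL1 Cfsg.Agent.Lib.LdGL2 Cfsg.Agent.Lib.LdGL3 Cfsg.Agent.Lib.LdGL4 Cfsg.Agent.Lib.LdGL5 Cfsg.Agent.Lib.LdGL6 Cfsg.Agent.Lib.H1GL2

/-- Over a finite field F with q elements, every irreducible complex character of GL₂ of degree q takes a value of absolute value 1 at every diagonal matrix with two different diagonal entries and at every element with no eigenvector in F². -/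
theorem result {F : Type*} [Field F] [Fintype F] (χ : Matrix.GeneralLinearGroup (Fin 2) F → ℂ) (hχ : Cfsg.IsIrrCharacter (Matrix.GeneralLinearGroup (Fin 2) F) χ) (hdeg : χ 1 = (Fintype.card F : ℂ)) (g : Matrix.GeneralLinearGroup (Fin 2) F) :
    ((g : Matrix (Fin 2) (Fin 2) F) 0 1 = 0 → (g : Matrix (Fin 2) (Fin 2) F) 1 0 = 0 → (g : Matrix (Fin 2) (Fin 2) F) 0 0 ≠ (g : Matrix (Fin 2) (Fin 2) F) 1 1 → ‖χ g‖ = 1) ∧
    ((∀ (c : F) (v : Fin 2 → F), v ≠ 0 → (g : Matrix (Fin 2) (Fin 2) F).mulVec v ≠ c • v) → ‖χ g‖ = 1) := by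
  classical
  have h := mem_st_of_deg (χ := ⟨χ, hχ⟩) hdeg
  simp only [stF, Finset.mem_image] at h
  obtain ⟨γ, _, hp⟩ := h
  have h2 : χ = stChar γ := (congrArg Subtype.val hp).symm
  have hnorm : ∀ a : F, a ≠ 0 → ‖γ a‖ = 1 := by
    intro a ha
    have h3 := mc_mul_conj γ ha
    rw [Complex.mul_conj] at h3
    have h4 : Complex.normSq (γ a) = 1 := by exact_mod_cast h3
    rw [Complex.normSq_eq_norm_sq] at h4
    have := norm_nonneg (γ a)
    nlinarith
  rw [h2]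
  refine ⟨?_, ?_⟩
  · intro h01 h10 hne
    obtain ⟨ha, hd⟩ := gl_diag_ne g h01 h10
    rw [st_val_ne γ g h10 hne, ← map_mul]
    exact hnorm _ (mul_ne_zero ha hd)
  · intro hg
    rw [st_val_noeig γ g hg, norm_neg]
    exact hnorm _ (Cfsg.Agent.Lib.H1GL2C.gl_det_ne g)

end Cfsg.Agent.S2320
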