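import Cfsg.Statements.S2322
import Cfsg.Agent.Lib.LdSL7

set_option autoImplicit false
open Cfsg

namespace Cfsg.Agent.S2322

open Cfsg.Agent.Lib.LdGL1 Cfsg.Agent.Lib.LdGL2 Cfsg.Agent.Lib.LdGL3 Cfsg.Agent.Lib.LdGL4 Cfsg.Agent.Lib.LdGL5 Cfsg.Agent.Lib.LdSL1 Cfsg.Agent.Lib.LdSL2 Cfsg.Agent.Lib.LdSL3 Cfsg.Agent.Lib.LdSL4 Cfsg.Agent.Lib.LdSL5 Cfsg.Agent.Lib.LdSL6 Cfsg.Agent.Lib.LdSL7 Cfsg.Agent.Lib.H1GL2 Cfsg.Agent.Lib.H1SL2 Cfsg.Agent.Lib.CharBasic Cfsg.Agent.Lib.CharAlg Cfsg.Agent.Lib.CharOrth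
open scoped ComplexConjugate

/-- Over a finite field F with q elements, q odd: every irreducible complex character of SL₂ of degree q − 1 or (q − 1)/2 vanishes at every diagonal matrix whose diagonal entry a has a² ≠ 1, and every irreducible complex character of degree q + 1 or (q + 1)/2 vanishes at every element with no eigenvector in F². -/
theorem result {F : Type*} [Field F] [Fintype F] (hodd : Odd (Fintype.card F)) (χ : Matrix.SpecialLinearGroup (Fin 2) F → ℂ) (hχ : Cfsg.IsIrrCharacter (Matrix.SpecialLinearGroup (Fin 2) F) χ) (g : Matrix.SpecialLinearGroup (Fin 2) F) :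
    ((χ 1 = (Fintype.card F : ℂ) - 1 ∨ χ 1 = (((Fintype.card F - 1) / 2 : ℕ) : ℂ)) →
      (g : Matrix (Fin 2) (Fin 2) F) 0 1 = 0 → (g : Matrix (Fin 2) (Fin 2) F) 1 0 = 0 → (g : Matrix (Fin 2) (Fin 2) F) 0 0 ^ 2 ≠ 1 → χ g = 0) ∧
    ((χ 1 = (Fintype.card F : ℂ) + 1 ∨ χ 1 = (((Fintype.card F + 1) / 2 : ℕ) : ℂ)) →
      (∀ (c : F) (v : Fin 2 → F), v ≠ 0 → (g : Matrix (Fin 2) (Fin 2) F).mulVec v ≠ c • v) → χ g = 0) := by
  classical
  obtain ⟨k, hk⟩ := id hodd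
  have hQ1 : (Fintype.card F : ℂ) + 1 = ((2 * k + 2 : ℕ) : ℂ) := by rw [hk]; push_cast; ring
  have hQ2 : (Fintype.card F : ℂ) - 1 = ((2 * k : ℕ) : ℂ) := by rw [hk]; push_cast; ring
  have hq1 : (Fintype.card F - 1) / 2 = k := by omega
  have hq2 : (Fintype.card F + 1) / 2 = k + 1 := by omega
  rw [hQ1, hQ2, hq1, hq2]
  constructor
  · intro hdeg h01 h10 ha
    obtain ⟨e, he⟩ := exists_nonsq hodd
    obtain ⟨D⟩ := exists_quadData he hk
    have hk2 : 2 ≤ k := by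
      by_contra hlt
      have hq2 : 2 ≤ Fintype.card F := q_two_le
      have hk1 : k = 1 := by omega
      apply ha
      have hd := sl_det g
      rw [h01, zero_mul, sub_zero] at hd
      have ha0 : (g : M2 F) 0 0 ≠ 0 := left_ne_zero_of_mul (by rw [hd]; exact one_ne_zero)
      have h3 := FiniteField.pow_card_sub_one_eq_one _ ha0
      rw [hk, hk1] at h3
      simpa using h3
    apply cuspS_zero_diag h01 h10 ha hodd (χ := ⟨χ, hχ⟩)
    rcases odd_cases hk D ⟨χ, hχ⟩ with h3 | h3 | h3 | h3 | h3 | h3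
    · rcases hdeg with h4 | h4
      · have := nat_of_two (χ := ⟨χ, hχ⟩) h4 h3.2; omega
      · have := nat_of_two (χ := ⟨χ, hχ⟩) h4 h3.2; omega
    · rcases hdeg with h4 | h4
      · have := nat_of_two (χ := ⟨χ, hχ⟩) h4 h3.2; omega
      · have := nat_of_two (χ := ⟨χ, hχ⟩) h4 h3.2; omega
    · rcases hdeg with h4 | h4
      · have := nat_of_two (χ := ⟨χ, hχ⟩) h4 h3.2; omega
      · have := nat_of_two (χ := ⟨χ, hχ⟩) h4 h3.2; omega
    · exact ((mem_cuspB _).mp h3.1).1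
    · rcases hdeg with h4 | h4
      · have := nat_of_two (χ := ⟨χ, hχ⟩) h4 h3.2; omega
      · have := nat_of_two (χ := ⟨χ, hχ⟩) h4 h3.2; omega
    · exact ((mem_cuspA _).mp h3.1).1
  · intro hdeg hg
    exact noeig_zero hk (χ := ⟨χ, hχ⟩) hdeg hg

end Cfsg.Agent.S2322
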