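import Cfsg.Statements.S2323
import Cfsg.Agent.Lib.LdSL6

set_option autoImplicit false
open Cfsg

namespace Cfsg.Agent.S2323

open Cfsg.Agent.Lib.LdGL1 Cfsg.Agent.Lib.LdGL2 Cfsg.Agent.Lib.LdGL3 Cfsg.Agent.Lib.LdGL4 Cfsg.Agent.Lib.LdGL5 Cfsg.Agent.Lib.LdSL1 Cfsg.Agent.Lib.LdSL2 Cfsg.Agent.Lib.LdSL3 Cfsg.Agent.Lib.LdSL4 Cfsg.Agent.Lib.LdSL5 Cfsg.Agent.Lib.LdSL6 Cfsg.Agent.Lib.H1GL2 Cfsg.Agent.Lib.H1SL2 Cfsg.Agent.Lib.CharBasic Cfsg.Agent.Lib.CharAlg Cfsg.Agent.Lib.CharOrth
open scoped ComplexConjugate

/-- Over a finite field F with q ≥ 4 elements, let u be the upper unitriangular matrix of SL₂ with off-diagonal entry 1. An irreducible complex character of SL₂ takes at u the value 1 if its degree is q + 1 and the value −1 if its degree is q − 1. -/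
theorem result {F : Type*} [Field F] [Fintype F] (hq : 4 ≤ Fintype.card F) (χ : Matrix.SpecialLinearGroup (Fin 2) F → ℂ) (hχ : Cfsg.IsIrrCharacter (Matrix.SpecialLinearGroup (Fin 2) F) χ)
    (u : Matrix.SpecialLinearGroup (Fin 2) F) (hu : (u : Matrix (Fin 2) (Fin 2) F) = !![1, 1; 0, 1]) :
    (χ 1 = (Fintype.card F : ℂ) + 1 → χ u = 1) ∧ (χ 1 = (Fintype.card F : ℂ) - 1 → χ u = -1) := by
  classical
  have hu1 : u = tv 1 := by
    apply Subtype.ext
    rw [hu]
    ext i j
    fin_cases i <;> fin_cases j <;> rfl
  subst hu1
  have h1F : (1 : F) ≠ 0 := one_ne_zero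
  have hcases : ∀ χ : IrrS F, ((χ : SL2 F → ℂ) 1 = (Fintype.card F : ℂ) + 1 → χ ∈ psF (F := F)) ∧
      ((χ : SL2 F → ℂ) 1 = (Fintype.card F : ℂ) - 1 → χ ∈ cuspSF (F := F)) := by
    intro χ
    by_cases h2 : ringChar F = 2
    · haveI : CharP F 2 := ringChar.of_eq h2
      have hval : (trivI : IrrS F).1 1 = 1 := rfl
      rcases classifyS χ with h3 | h3 | h3 | h3 | h3
      · constructor
        · intro h
          exfalso
          rw [h3] at h
          have h5 : (Fintype.card F : ℂ) = ((0 : ℕ) : ℂ) := by
            push_cast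
            have h6 : (1 : ℂ) = (Fintype.card F : ℂ) + 1 := h
            linear_combination -h6
          have h7 : Fintype.card F = 0 := by exact_mod_cast h5
          omega
        · intro h
          exfalso
          rw [h3] at h
          have h5 : (Fintype.card F : ℂ) = ((2 : ℕ) : ℂ) := by
            push_cast
            have h6 : (1 : ℂ) = (Fintype.card F : ℂ) - 1 := h
            linear_combination -h6
          have h7 : Fintype.card F = 2 := by exact_mod_cast h5
          omega
      · constructor
        · intro h
          exfalso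
          rw [h3] at h
          have h6 : stS (F := F) 1 = (Fintype.card F : ℂ) + 1 := h
          rw [stS_one] at h6
          have h7 : (1 : ℂ) = 0 := by linear_combination -h6
          norm_num at h7
        · intro h
          exfalso
          rw [h3] at h
          have h6 : stS (F := F) 1 = (Fintype.card F : ℂ) - 1 := h
          rw [stS_one] at h6
          have h7 : (1 : ℂ) = 0 := by linear_combination h6
          norm_num at h7
      · constructor
        · exact fun _ => h3
        · intro h
          exfalso
          rw [psF_val h3] at h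
          have h5 : (2 : ℂ) = 0 := by linear_combination h
          norm_num at h5
      · rw [quadF_even] at h3
        simp at h3
      · constructor
        · intro h
          exfalso
          rw [cuspS_deg_even h3] at h
          have h5 : (2 : ℂ) = 0 := by linear_combination -h
          norm_num at h5
        · exact fun _ => h3
    · have hm := FiniteField.odd_card_of_char_ne_two h2
      obtain ⟨k, hk⟩ : ∃ k, Fintype.card F = 2 * k + 1 := ⟨Fintype.card F / 2, by omega⟩
      have hodd : Odd (Fintype.card F) := ⟨k, hk⟩
      obtain ⟨e, he⟩ := exists_nonsq hodd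
      obtain ⟨D⟩ := exists_quadData he hk
      have hQ1 : (Fintype.card F : ℂ) + 1 = ((2 * k + 2 : ℕ) : ℂ) := by rw [hk]; push_cast; ring
      have hQ2 : (Fintype.card F : ℂ) - 1 = ((2 * k : ℕ) : ℂ) := by rw [hk]; push_cast; ring
      rw [hQ1, hQ2]
      constructor
      · intro h
        rcases odd_cases hk D χ with h3 | h3 | h3 | h3 | h3 | h3
        · have := nat_of_two h h3.2; omega
        · have := nat_of_two h h3.2; omega
        · exact h3.1
        · have := nat_of_two h h3.2; omega
        · have := nat_of_two h h3.2; omega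
        · have := nat_of_two h h3.2; omega
      · intro h
        rcases odd_cases hk D χ with h3 | h3 | h3 | h3 | h3 | h3
        · have := nat_of_two h h3.2; omega
        · have := nat_of_two h h3.2; omega
        · have := nat_of_two h h3.2; omega
        · exact ((mem_cuspB χ).mp h3.1).1
        · have := nat_of_two h h3.2; omega
        · exact ((mem_cuspA χ).mp h3.1).1
  constructor
  · intro h
    exact ps_tv ((hcases ⟨χ, hχ⟩).1 h) h1F
  · intro h
    exact cusp_top_val ((hcases ⟨χ, hχ⟩).2 h) h h1F

end Cfsg.Agent.S2323
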