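import Cfsg.Statements.S2324
import Cfsg.Agent.Lib.LdSL6

set_option autoImplicit false
open Cfsg

namespace Cfsg.Agent.S2324

open Cfsg.Agent.Lib.LdGL1 Cfsg.Agent.Lib.LdGL2 Cfsg.Agent.Lib.LdGL3 Cfsg.Agent.Lib.LdGL4 Cfsg.Agent.Lib.LdGL5 Cfsg.Agent.Lib.LdSL1 Cfsg.Agent.Lib.LdSL2 Cfsg.Agent.Lib.LdSL3 Cfsg.Agent.Lib.LdSL4 Cfsg.Agent.Lib.LdSL5 Cfsg.Agent.Lib.LdSL6 Cfsg.Agent.Lib.H1GL2 Cfsg.Agent.Lib.H1SL2 Cfsg.Agent.Lib.CharBasic Cfsg.Agent.Lib.CharAlg Cfsg.Agent.Lib.CharOrth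
open scoped ComplexConjugate

/-- Over a finite field F with q elements, q odd and q ≥ 5, let u be the upper unitriangular matrix of SL₂ with off-diagonal entry 1 and let δ = (−1)^((q−1)/2). Every irreducible complex character χ of SL₂ of degree (q + 1)/2 satisfies (2χ(u) − 1)² = δq, and every irreducible complex character χ of degree (q − 1)/2 satisfies (2χ(u) + 1)² = δq; that is, χ(u) = (1 ± √(δq))/2 in the first case and χ(u) = (−1 ± √(δq))/2 in the second. Moreover two different irreducible characters of degree (q + 1)/2 take the two different values (their values at u add up to 1), and likewise for degree (q − 1)/2 (values adding up to −1). -/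
theorem result {F : Type*} [Field F] [Fintype F] (hodd : Odd (Fintype.card F)) (hq : 5 ≤ Fintype.card F)
    (u : Matrix.SpecialLinearGroup (Fin 2) F) (hu : (u : Matrix (Fin 2) (Fin 2) F) = !![1, 1; 0, 1]) :
    (∀ χ : Matrix.SpecialLinearGroup (Fin 2) F → ℂ, Cfsg.IsIrrCharacter (Matrix.SpecialLinearGroup (Fin 2) F) χ → χ 1 = (((Fintype.card F + 1) / 2 : ℕ) : ℂ) → (2 * χ u - 1) ^ 2 = (-1 : ℂ) ^ ((Fintype.card F - 1) / 2) * (Fintype.card F : ℂ)) ∧
    (∀ χ : Matrix.SpecialLinearGroup (Fin 2) F → ℂ, Cfsg.IsIrrCharacter (Matrix.SpecialLinearGroup (Fin 2) F) χ → χ 1 = (((Fintype.card F - 1) / 2 : ℕ) : ℂ) → (2 * χ u + 1) ^ 2 = (-1 : ℂ) ^ ((Fintype.card F - 1) / 2) * (Fintype.card F : ℂ)) ∧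
    (∀ χ₁ χ₂ : Matrix.SpecialLinearGroup (Fin 2) F → ℂ, Cfsg.IsIrrCharacter (Matrix.SpecialLinearGroup (Fin 2) F) χ₁ → Cfsg.IsIrrCharacter (Matrix.SpecialLinearGroup (Fin 2) F) χ₂ → χ₁ ≠ χ₂ →
      χ₁ 1 = (((Fintype.card F + 1) / 2 : ℕ) : ℂ) → χ₂ 1 = (((Fintype.card F + 1) / 2 : ℕ) : ℂ) → χ₁ u + χ₂ u = 1) ∧
    (∀ χ₁ χ₂ : Matrix.SpecialLinearGroup (Fin 2) F → ℂ, Cfsg.IsIrrCharacter (Matrix.SpecialLinearGroup (Fin 2) F) χ₁ → Cfsg.IsIrrCharacter (Matrix.SpecialLinearGroup (Fin 2) F) χ₂ → χ₁ ≠ χ₂ →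
      χ₁ 1 = (((Fintype.card F - 1) / 2 : ℕ) : ℂ) → χ₂ 1 = (((Fintype.card F - 1) / 2 : ℕ) : ℂ) → χ₁ u + χ₂ u = -1) := by
  classical
  have hu1 : u = tv 1 := by
    apply Subtype.ext
    rw [hu]
    ext i j
    fin_cases i <;> fin_cases j <;> rfl
  subst hu1
  obtain ⟨e, he⟩ := exists_nonsq hodd
  obtain ⟨k, hk⟩ := hodd
  have hodd : Odd (Fintype.card F) := ⟨k, hk⟩
  obtain ⟨D⟩ := exists_quadData he hk
  obtain ⟨C⟩ := exists_cuspData he hk
  have hq1 : (Fintype.card F - 1) / 2 = k := by omega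
  have hq2 : (Fintype.card F + 1) / 2 = k + 1 := by omega
  rw [hq1, hq2]
  obtain ⟨hxx, hyy, hA, hB⟩ := core he hk D C
  have he0 : (e : F) ≠ 0 := e.ne_zero
  have h1F : (1 : F) ≠ 0 := one_ne_zero
  set x := (D.a : SL2 F → ℂ) (tv 1) with hx
  set x' := (D.a : SL2 F → ℂ) (tv (e : F)) with hx'
  set y := (C.c1 : SL2 F → ℂ) (tv 1) with hy
  set y' := (C.c1 : SL2 F → ℂ) (tv (e : F)) with hy'
  -- the values on the second constituents
  have hb1 : (D.b : SL2 F → ℂ) (tv 1) = x' := by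
    rw [← D.hswap]
    show (D.a : SL2 F → ℂ) (sig e (tv 1)) = x'
    rw [sig_tv, mul_one]
  have hc1 : (C.c2 : SL2 F → ℂ) (tv 1) = y' := by
    rw [← C.hswap]
    show (C.c1 : SL2 F → ℂ) (sig e (tv 1)) = y'
    rw [sig_tv, mul_one]
  -- complex conjugation
  have hconj : ∀ {χ : SL2 F → ℂ}, IsIrrCharacter (SL2 F) χ →
      (χ (tv 1) - χ (tv (e : F))) * conj (χ (tv 1) - χ (tv (e : F))) = (-1 : ℂ) ^ k * (χ (tv 1) - χ (tv (e : F))) ^ 2 := by
    intro χ hχ
    have hcl := classFunction_of_isIrrCharacter hχ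
    have hc : ∀ c : F, conj (χ (tv c)) = χ (tv (-c)) := by
      intro c
      rw [← tv_inv, IsCharacter.map_inv (IsIrrCharacter.isCharacter hχ)]
    have hneg : (-1 : F) ≠ 0 := neg_ne_zero.mpr h1F
    have hnege : -(e : F) ≠ 0 := neg_ne_zero.mpr he0
    by_cases hs : IsSquare (-1 : F)
    · have hk2 : Even k := by
        have := FiniteField.isSquare_neg_one_iff.mp hs
        rw [Nat.even_iff]
        omega
      have h5 : χ (tv (-1)) = χ (tv 1) := by
        apply tv_val_sq hcl hneg h1F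
        rw [alpha0_square hneg hs, alpha0_square h1F IsSquare.one]
      have h6 : χ (tv (-(e : F))) = χ (tv (e : F)) := by
        apply tv_val_sq hcl hnege he0
        rw [show -(e : F) = -1 * e by ring, map_mul, alpha0_square hneg hs, one_mul]
      rw [map_sub, hc, hc, h5, h6, hk2.neg_one_pow]
      ring
    · have hk2 : Odd k := by
        have h7 : ¬ (Fintype.card F % 4 ≠ 3) := fun h => hs (FiniteField.isSquare_neg_one_iff.mpr h)
        rw [Nat.odd_iff]
        omega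
      have h5 : χ (tv (-1)) = χ (tv (e : F)) := by
        apply tv_val_sq hcl hneg he0
        rw [alpha0_nonsquare hs, alpha0_nonsquare he]
      have h6 : χ (tv (-(e : F))) = χ (tv 1) := by
        apply tv_val_sq hcl hnege h1F
        rw [show -(e : F) = -1 * e by ring, map_mul, alpha0_nonsquare hs, alpha0_nonsquare he,
          alpha0_square h1F IsSquare.one]
        ring
      rw [map_sub, hc, hc, h5, h6, hk2.neg_one_pow]
      ring
  have hA2 : (x - x') ^ 2 = (-1 : ℂ) ^ k * (Fintype.card F : ℂ) := by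
    have h5 := hconj D.a.2
    have h6 : ((-1 : ℂ) ^ k) ^ 2 = 1 := by
      rw [← pow_mul, mul_comm, pow_mul]
      simp
    rw [← hA, h5]
    linear_combination -(x - x') ^ 2 * h6
  have hB2 : (y - y') ^ 2 = (-1 : ℂ) ^ k * (Fintype.card F : ℂ) := by
    have h5 := hconj C.c1.2
    have h6 : ((-1 : ℂ) ^ k) ^ 2 = 1 := by
      rw [← pow_mul, mul_comm, pow_mul]
      simp
    rw [← hB, h5]
    linear_combination -(y - y') ^ 2 * h6
  have hdegA : ∀ χ : IrrS F, (χ : SL2 F → ℂ) 1 = ((k + 1 : ℕ) : ℂ) → χ = D.a ∨ χ = D.b := by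
    intro χ h
    rcases odd_cases hk D χ with h3 | h3 | h3 | h3 | h3 | h3
    · have := nat_of_two h h3.2; omega
    · have := nat_of_two h h3.2; omega
    · have := nat_of_two h h3.2; omega
    · have := nat_of_two h h3.2; omega
    · exact h3.1
    · have := nat_of_two h h3.2; omega
  have hdegB : ∀ χ : IrrS F, (χ : SL2 F → ℂ) 1 = (k : ℂ) → χ = C.c1 ∨ χ = C.c2 := by
    intro χ h
    have hcast : (χ : SL2 F → ℂ) 1 = ((k : ℕ) : ℂ) := h
    rcases odd_cases hk D χ with h3 | h3 | h3 | h3 | h3 | h3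
    · have := nat_of_two hcast h3.2; omega
    · have := nat_of_two hcast h3.2; omega
    · have := nat_of_two hcast h3.2; omega
    · have := nat_of_two hcast h3.2; omega
    · have := nat_of_two hcast h3.2; omega
    · have h7 := h3.1
      rw [C.hA] at h7
      simpa using h7
  have hxa : x' = 1 - x := by linear_combination hxx
  have hya : y' = -1 - y := by linear_combination hyy
  refine ⟨?_, ?_, ?_, ?_⟩
  · intro χ hχ h
    rcases hdegA ⟨χ, hχ⟩ h with h3 | h3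
    · have h5 : χ = D.a := congrArg Subtype.val h3
      rw [h5, ← hA2, hxa]
      ring
    · have h5 : χ = D.b := congrArg Subtype.val h3
      rw [h5, hb1, ← hA2, hxa]
      ring
  · intro χ hχ h
    rcases hdegB ⟨χ, hχ⟩ h with h3 | h3
    · have h5 : χ = C.c1 := congrArg Subtype.val h3
      rw [h5, ← hB2, hya]
      ring
    · have h5 : χ = C.c2 := congrArg Subtype.val h3
      rw [h5, hc1, ← hB2, hya]
      ring
  · intro χ₁ χ₂ h1 h2 hne d1 d2
    have hn : (⟨χ₁, h1⟩ : IrrS F) ≠ ⟨χ₂, h2⟩ := fun h => hne (congrArg Subtype.val h)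
    rcases hdegA ⟨χ₁, h1⟩ d1 with h3 | h3 <;> rcases hdegA ⟨χ₂, h2⟩ d2 with h4 | h4
    · exact absurd (h3.trans h4.symm) hn
    · have h5 : χ₁ = D.a := congrArg Subtype.val h3
      have h6 : χ₂ = D.b := congrArg Subtype.val h4
      rw [h5, h6, hb1]
      exact hxx
    · have h5 : χ₁ = D.b := congrArg Subtype.val h3
      have h6 : χ₂ = D.a := congrArg Subtype.val h4
      rw [h5, h6, hb1, add_comm]
      exact hxx
    · exact absurd (h3.trans h4.symm) hn
  · intro χ₁ χ₂ h1 h2 hne d1 d2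
    have hn : (⟨χ₁, h1⟩ : IrrS F) ≠ ⟨χ₂, h2⟩ := fun h => hne (congrArg Subtype.val h)
    rcases hdegB ⟨χ₁, h1⟩ d1 with h3 | h3 <;> rcases hdegB ⟨χ₂, h2⟩ d2 with h4 | h4
    · exact absurd (h3.trans h4.symm) hn
    · have h5 : χ₁ = C.c1 := congrArg Subtype.val h3
      have h6 : χ₂ = C.c2 := congrArg Subtype.val h4
      rw [h5, h6, hc1]
      exact hyy
    · have h5 : χ₁ = C.c2 := congrArg Subtype.val h3
      have h6 : χ₂ = C.c1 := congrArg Subtype.val h4
      rw [h5, h6, hc1, add_comm]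
      exact hyy
    · exact absurd (h3.trans h4.symm) hn

end Cfsg.Agent.S2324
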