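import Cfsg.Statements.S2364
import Cfsg.Agent.Lib.CommUnip
import Cfsg.Agent.Lib.ClassicalBasic
import Cfsg.Agent.Lib.SLGen

set_option autoImplicit false
open Cfsg

namespace Cfsg.Agent.S2364


open Matrix Cfsg.Agent.Lib.SLGen Cfsg.Agent.Lib.CommUnip
open scoped MatrixGroups

section

variable {F : Type*} [Field F]

theorem units_dvd [Fintype F] {m : ℕ} (hm : 2 ≤ m) : Nat.card Fˣ ∣ Nat.card (Matrix.SpecialLinearGroup (Fin m) F) := by
  classical
  let i : Fin m := ⟨0, by omega⟩
  let j : Fin m := ⟨1, by omega⟩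
  have hij : i ≠ j := by
    intro h
    have := congrArg Fin.val h
    simp [i, j] at this
  let f : Fˣ →* Matrix.SpecialLinearGroup (Fin m) F :=
    { toFun := fun u => Matrix.SpecialLinearGroup.diag2n hij (u : F) u.ne_zero
      map_one' := by
        apply SL_ext_mulVec
        intro x
        ext k
        rw [diag2n_mulVec_apply]
        simp
      map_mul' := by
        intro a b
        apply SL_ext_mulVec
        intro x
        ext k
        simp only [Matrix.SpecialLinearGroup.coe_mul, ← Matrix.mulVec_mulVec]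
        rw [diag2n_mulVec_apply, diag2n_mulVec_apply, diag2n_mulVec_apply]
        by_cases h1 : k = i
        · simp [h1]
          ring
        · by_cases h2 : k = j
          · simp [h2, hij.symm]
            field_simp
          · simp [h1, h2] }
  apply Subgroup.card_dvd_of_injective f
  intro a b hab
  have h1 : ((f a : Matrix.SpecialLinearGroup (Fin m) F) : Matrix (Fin m) (Fin m) F) *ᵥ (Pi.single i 1) = ((f b : Matrix.SpecialLinearGroup (Fin m) F) : Matrix (Fin m) (Fin m) F) *ᵥ (Pi.single i 1) := by rw [hab]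
  have h2 := congrFun h1 i
  simp only [f, MonoidHom.coe_mk, OneHom.coe_mk] at h2
  rw [diag2n_mulVec_apply, diag2n_mulVec_apply] at h2
  simp at h2
  exact Units.ext h2

theorem add_dvd [Fintype F] {m : ℕ} (hm : 2 ≤ m) : Fintype.card F ∣ Nat.card (Matrix.SpecialLinearGroup (Fin m) F) := by
  classical
  let i : Fin m := ⟨0, by omega⟩
  let j : Fin m := ⟨1, by omega⟩
  have hij : i ≠ j := by
    intro h
    have := congrArg Fin.val h
    simp [i, j] at this
  let f : Multiplicative F →* Matrix.SpecialLinearGroup (Fin m) F :=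
    { toFun := fun u => Matrix.SpecialLinearGroup.transvection hij (Multiplicative.toAdd u)
      map_one' := by
        apply Subtype.ext
        exact Matrix.transvection_zero _ _
      map_mul' := by
        intro a b
        apply SL_ext_mulVec
        intro x
        ext k
        simp only [Matrix.SpecialLinearGroup.coe_mul, ← Matrix.mulVec_mulVec]
        rw [T_mulVec_apply, T_mulVec_apply, T_mulVec_apply, T_mulVec_apply]
        by_cases h1 : k = i
        · subst h1
          simp [hij.symm]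
          ring
        · simp [h1] }
  have h0 := Subgroup.card_dvd_of_injective f (by
    intro a b hab
    have hab' : Matrix.SpecialLinearGroup.transvection hij (Multiplicative.toAdd a) = Matrix.SpecialLinearGroup.transvection hij (Multiplicative.toAdd b) := hab
    have h1 : ((Matrix.SpecialLinearGroup.transvection hij (Multiplicative.toAdd a) : Matrix.SpecialLinearGroup (Fin m) F) : Matrix (Fin m) (Fin m) F) *ᵥ (Pi.single j 1) = ((Matrix.SpecialLinearGroup.transvection hij (Multiplicative.toAdd b) : Matrix.SpecialLinearGroup (Fin m) F) : Matrix (Fin m) (Fin m) F) *ᵥ (Pi.single j 1) := by rw [hab']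
    have h2 := congrFun h1 i
    rw [T_mulVec_apply, T_mulVec_apply] at h2
    have h3 : Multiplicative.toAdd a = Multiplicative.toAdd b := by simpa [hij] using h2
    exact h3)
  rwa [Nat.card_congr (Multiplicative.ofAdd (α := F)).symm, Nat.card_eq_fintype_card] at h0

theorem triv_of_dim [Fintype F] {r d : ℕ} (hr : r.Prime) (hrGL : ¬ r ∣ Nat.card (GL (Fin d) F)) {U : Type*} [AddCommGroup U] [Module F U]
    [FiniteDimensional F U] (hU : Module.finrank F U = d) (T : Module.End F U) (hT : T ^ r = 1) : T = 1 := by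
  classical
  let b := Module.finBasisOfFinrankEq F U hU
  let E : Module.End F U ≃ₐ[F] Matrix (Fin d) (Fin d) F := LinearMap.toMatrixAlgEquiv b
  let u : (Module.End F U)ˣ := Units.ofPowEqOne T r hT hr.ne_zero
  let E' : (Module.End F U)ˣ ≃* GL (Fin d) F := Units.mapEquiv E.toMulEquiv
  have hu : u ^ r = 1 := by
    apply Units.ext
    exact hT
  have hcard : Nat.card (Module.End F U)ˣ = Nat.card (GL (Fin d) F) := Nat.card_congr E'.toEquiv
  haveI : Finite (GL (Fin d) F) := inferInstance
  haveI : Finite (Module.End F U)ˣ := Finite.of_equiv _ E'.symm.toEquiv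
  have h1 : orderOf u ∣ r := orderOf_dvd_of_pow_eq_one hu
  have h2 : orderOf u ∣ Nat.card (GL (Fin d) F) := hcard ▸ orderOf_dvd_natCard u
  rcases (Nat.dvd_prime hr).1 h1 with h3 | h3
  · have h4 : u = 1 := orderOf_eq_one_iff.1 h3
    exact congrArg Units.val h4
  · rw [h3] at h2
    exact absurd h2 hrGL

theorem triv_of_le [Fintype F] {r m : ℕ} (hr : r.Prime) (hrGL : ¬ r ∣ Nat.card (GL (Fin m) F)) {U : Type*} [AddCommGroup U] [Module F U]
    [FiniteDimensional F U] (hU : Module.finrank F U ≤ m) (T : Module.End F U) (hT : T ^ r = 1) : T = 1 := by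
  classical
  let U' := U × (Fin (m - Module.finrank F U) → F)
  let T' : Module.End F U' := T.prodMap LinearMap.id
  have hpow : ∀ k (x : U) (y : Fin (m - Module.finrank F U) → F), (T' ^ k) (x, y) = ((T ^ k) x, y) := by
    intro k x y
    induction k with
    | zero => rfl
    | succ k ih =>
      rw [pow_succ', pow_succ', Module.End.mul_apply, ih]
      rfl
  have hT' : T' ^ r = 1 := by
    apply LinearMap.ext
    rintro ⟨x, y⟩
    rw [hpow, hT]
    rfl
  have hdim : Module.finrank F U' = m := by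
    rw [Module.finrank_prod, Module.finrank_fin_fun]
    omega
  have h1 := triv_of_dim hr hrGL hdim T' hT'
  apply LinearMap.ext
  intro x
  have h2 := hpow 1 x 0
  rw [h1, pow_one] at h2
  have h3 := congrArg Prod.fst h2
  rw [pow_one] at h3
  exact h3.symm

end


/-- Let F be a finite field of characteristic p, n ≥ 4, and let a, b be commuting elements of PSL(n, F) with a of order p. Then every prime divisor of the order of b divides the order of SL(n − 2, F). -/
theorem result {F : Type*} [Field F] [Fintype F] (p : ℕ) [Fact p.Prime] [CharP F p] (n : ℕ) (hn : 4 ≤ n)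
    (a b : Matrix.ProjectiveSpecialLinearGroup (Fin n) F) (ha : orderOf a = p) (hab : Commute a b) :
    (orderOf b).primeFactors ⊆ (Nat.card (Matrix.SpecialLinearGroup (Fin (n - 2)) F)).primeFactors := by
  classical
  haveI : Nonempty (Fin n) := ⟨⟨0, by omega⟩⟩
  intro r hr
  rw [Nat.mem_primeFactors] at hr ⊢
  obtain ⟨hrp, hrd, hb0⟩ := hr
  refine ⟨hrp, ?_, Nat.card_pos.ne'⟩
  by_contra hnd
  have hm : 2 ≤ n - 2 := by omega
  -- the prime is good
  have hrU : ¬ r ∣ Nat.card Fˣ := fun h => hnd (h.trans (units_dvd hm))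
  have hrq : ¬ r ∣ Fintype.card F := fun h => hnd (h.trans (add_dvd hm))
  have hrp' : r ≠ p := by
    rintro rfl
    apply hrq
    obtain ⟨k, hk, h1⟩ := FiniteField.card F r
    rw [h1]
    exact dvd_pow_self _ (by
      have := Fact.out (p := r.Prime)
      exact k.2.ne')
  have hrF : (r : F) ≠ 0 := by
    intro h
    have h1 := (CharP.cast_eq_zero_iff F p r).1 h
    exact hrp' ((Nat.prime_dvd_prime_iff_eq (Fact.out) hrp).1 h1).symm
  have hrGL : ¬ r ∣ Nat.card (GL (Fin (n - 2)) F) := by
    rw [Cfsg.Agent.Lib.ClassicalBasic.card_GL_eq (n - 2) (by omega), ← Cfsg.Agent.Lib.ClassicalBasic.card_units_eq]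
    intro h
    rcases (Nat.Prime.dvd_mul hrp).1 h with h1 | h1
    · exact hrU h1
    · exact hnd h1
  -- the lifts
  obtain ⟨A, rfl⟩ := QuotientGroup.mk_surjective a
  have hb' : orderOf (b ^ (orderOf b / r)) = r := orderOf_pow_orderOf_div hb0 hrd
  have hcomm' : Commute (QuotientGroup.mk A : Matrix.ProjectiveSpecialLinearGroup (Fin n) F) (b ^ (orderOf b / r)) := hab.pow_right _
  obtain ⟨B, hB⟩ := QuotientGroup.mk_surjective (b ^ (orderOf b / r))
  rw [← hB] at hb' hcomm'
  have hpp := Fact.out (p := p.Prime)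
  -- central lemmas
  have hcen : ∀ g : Matrix.SpecialLinearGroup (Fin n) F, (QuotientGroup.mk g : Matrix.ProjectiveSpecialLinearGroup (Fin n) F) = 1 →
      ∃ c : F, c ≠ 0 ∧ (g : Matrix (Fin n) (Fin n) F) = c • 1 := by
    intro g hg
    obtain ⟨c, hc, hc2⟩ := Matrix.SpecialLinearGroup.mem_center_iff.1 ((QuotientGroup.eq_one_iff g).1 hg)
    refine ⟨c, ?_, ?_⟩
    · rintro rfl
      rw [Fintype.card_fin, zero_pow (by omega)] at hc
      exact zero_ne_one hc
    · rw [← hc2]
      ext i j
      simp [Matrix.scalar_apply, Matrix.smul_apply, Matrix.one_apply, Matrix.diagonal_apply]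
  have hcen' : ∀ (g : Matrix.SpecialLinearGroup (Fin n) F) (c : F), (g : Matrix (Fin n) (Fin n) F) = c • 1 →
      (QuotientGroup.mk g : Matrix.ProjectiveSpecialLinearGroup (Fin n) F) = 1 := by
    intro g c hg
    rw [QuotientGroup.eq_one_iff]
    apply Matrix.SpecialLinearGroup.mem_center_iff.2
    refine ⟨c, ?_, ?_⟩
    · have h1 := g.2
      rw [hg, Matrix.det_smul, Matrix.det_one, mul_one] at h1
      exact h1
    · rw [hg]
      ext i j
      simp [Matrix.scalar_apply, Matrix.smul_apply, Matrix.one_apply, Matrix.diagonal_apply]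
  -- the unipotent element
  have hAp : (QuotientGroup.mk (A ^ p) : Matrix.ProjectiveSpecialLinearGroup (Fin n) F) = 1 := by
    rw [QuotientGroup.mk_pow, ← ha, pow_orderOf_eq_one]
  obtain ⟨c, hc0, hc⟩ := hcen _ hAp
  haveI : PerfectRing F p := inferInstance
  let c₀ : F := (frobeniusEquiv F p).symm c
  have hc₀ : c₀ ^ p = c := frobeniusEquiv_symm_pow_p F p c
  have hc₀0 : c₀ ≠ 0 := by
    rintro h
    rw [h, zero_pow hpp.ne_zero] at hc₀
    exact hc0 hc₀.symm
  let A₀ : Matrix (Fin n) (Fin n) F := c₀⁻¹ • (A : Matrix (Fin n) (Fin n) F)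
  have hA₀p : A₀ ^ p = 1 := by
    simp only [A₀]
    rw [smul_pow, ← Matrix.SpecialLinearGroup.coe_pow, hc, smul_smul, inv_pow, hc₀, inv_mul_cancel₀ hc0, one_smul]
  haveI : CharP (Matrix (Fin n) (Fin n) F) p := Matrix.charP p
  let Nn : Matrix (Fin n) (Fin n) F := A₀ - 1
  have hNp : Nn ^ p = 0 := by
    simp only [Nn]
    rw [sub_pow_char_of_commute p (Commute.one_right _), hA₀p, one_pow, sub_self]
  have hNn0 : Nn ≠ 0 := by
    intro h
    have h1 : A₀ = 1 := sub_eq_zero.1 h
    have h2 : (A : Matrix (Fin n) (Fin n) F) = c₀ • 1 := by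
      rw [← h1]
      simp only [A₀]
      rw [smul_smul, mul_inv_cancel₀ hc₀0, one_smul]
    have h3 := hcen' A c₀ h2
    rw [h3, orderOf_one] at ha
    exact hpp.ne_one ha.symm
  obtain ⟨k, hk1, hk2, hk3⟩ : ∃ k, 1 ≤ k ∧ Nn ^ k ≠ 0 ∧ Nn ^ (k + 1) = 0 := by
    have hex : ∃ j, Nn ^ j = 0 := ⟨p, hNp⟩
    have h1 := Nat.find_spec hex
    have h2 : Nat.find hex ≠ 0 := by
      intro h0
      rw [h0, pow_zero] at h1
      exact one_ne_zero h1
    have h3 : Nat.find hex ≠ 1 := by
      intro h0
      rw [h0, pow_one] at h1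
      exact hNn0 h1
    refine ⟨Nat.find hex - 1, by omega, Nat.find_min hex (by omega), ?_⟩
    rw [show Nat.find hex - 1 + 1 = Nat.find hex by omega]
    exact h1
  let N : Matrix (Fin n) (Fin n) F := Nn ^ k
  have hN2 : N * N = 0 := by
    simp only [N]
    rw [← pow_add, show k + k = (k + 1) + (k - 1) by omega, pow_add, hk3, zero_mul]
  -- commutation
  have hlam : ∃ l : F, l ≠ 0 ∧ (B : Matrix (Fin n) (Fin n) F) * A = l • ((A : Matrix (Fin n) (Fin n) F) * B) := by
    have h1 : (QuotientGroup.mk (A * B) : Matrix.ProjectiveSpecialLinearGroup (Fin n) F) = QuotientGroup.mk (B * A) := by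
      rw [QuotientGroup.mk_mul, QuotientGroup.mk_mul]
      exact hcomm'
    rw [QuotientGroup.eq] at h1
    obtain ⟨l, hl, hl2⟩ := Matrix.SpecialLinearGroup.mem_center_iff.1 h1
    have hl0 : l ≠ 0 := by
      rintro rfl
      rw [Fintype.card_fin, zero_pow (by omega)] at hl
      exact zero_ne_one hl
    refine ⟨l, hl0, ?_⟩
    have h2 : ((A * B : Matrix.SpecialLinearGroup (Fin n) F) : Matrix (Fin n) (Fin n) F) * ((A * B)⁻¹ * (B * A) : Matrix.SpecialLinearGroup (Fin n) F) = ((B * A : Matrix.SpecialLinearGroup (Fin n) F) : Matrix (Fin n) (Fin n) F) := by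
      rw [← Matrix.SpecialLinearGroup.coe_mul, mul_inv_cancel_left]
    rw [← hl2] at h2
    rw [← Matrix.SpecialLinearGroup.coe_mul, ← h2, Matrix.SpecialLinearGroup.coe_mul]
    ext i j
    simp [Matrix.scalar_apply, Matrix.smul_apply, Matrix.mul_apply, Matrix.diagonal_apply, Finset.sum_ite_eq', mul_comm]
  obtain ⟨l, hl0, hl⟩ := hlam
  have hBA₀ : (B : Matrix (Fin n) (Fin n) F) * A₀ = l • (A₀ * B) := by
    simp only [A₀]
    rw [Matrix.mul_smul, hl, Matrix.smul_mul, smul_comm]
  have hpowk : ∀ j : ℕ, (B : Matrix (Fin n) (Fin n) F) * A₀ ^ j = l ^ j • (A₀ ^ j * B) := by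
    intro j
    induction j with
    | zero => simp
    | succ j ih =>
      rw [pow_succ, ← mul_assoc, ih, Matrix.smul_mul, mul_assoc, hBA₀, Matrix.mul_smul, smul_smul, pow_succ, mul_assoc]
  have hl1 : l = 1 := by
    have h1 := hpowk p
    rw [hA₀p, mul_one, one_mul] at h1
    have h2 : (l ^ p - 1) • (B : Matrix (Fin n) (Fin n) F) = 0 := by
      rw [sub_smul, ← h1, one_smul, sub_self]
    have hBne : (B : Matrix (Fin n) (Fin n) F) ≠ 0 := by
      intro h0
      have := B.2
      rw [h0, Matrix.det_zero] at this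
      exact zero_ne_one this
    have h3 : l ^ p - 1 = 0 := (smul_eq_zero.1 h2).resolve_right hBne
    have h4 : (l - 1) ^ p = 0 := by
      rw [sub_pow_char_of_commute p (Commute.all l 1), one_pow, h3]
    have h5 := pow_eq_zero_iff hpp.ne_zero |>.1 h4
    exact sub_eq_zero.1 h5
  have hBA₀' : Commute (B : Matrix (Fin n) (Fin n) F) A₀ := by
    show (B : Matrix (Fin n) (Fin n) F) * A₀ = A₀ * B
    rw [hBA₀, hl1, one_smul]
  have hBN : Commute (B : Matrix (Fin n) (Fin n) F) N := by
    simp only [N, Nn]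
    exact (hBA₀'.sub_right (Commute.one_right _)).pow_right k
  -- scaling `B`
  have hBr : (QuotientGroup.mk (B ^ r) : Matrix.ProjectiveSpecialLinearGroup (Fin n) F) = 1 := by
    rw [QuotientGroup.mk_pow, ← hb', pow_orderOf_eq_one]
  obtain ⟨μ, hμ0, hμ⟩ := hcen _ hBr
  have hcop : (Nat.card Fˣ).Coprime r := ((Nat.Prime.coprime_iff_not_dvd hrp).2 hrU).symm
  obtain ⟨ν, hν⟩ := (powCoprime hcop).surjective (Units.mk0 μ hμ0)
  have hν' : (ν : F) ^ r = μ := by
    have := congrArg Units.val hν
    simpa using this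
  have hν0 : (ν : F) ≠ 0 := ν.ne_zero
  let B₀ : Matrix (Fin n) (Fin n) F := (ν : F)⁻¹ • (B : Matrix (Fin n) (Fin n) F)
  have hB₀r : B₀ ^ r = 1 := by
    simp only [B₀]
    rw [smul_pow, ← Matrix.SpecialLinearGroup.coe_pow, hμ, smul_smul, inv_pow, hν', inv_mul_cancel₀ hμ0, one_smul]
  have hB₀N : B₀ * N = N * B₀ := by
    simp only [B₀]
    rw [Matrix.smul_mul, Matrix.mul_smul, hBN.eq]
  -- linear maps
  let E := (Matrix.toLinAlgEquiv' : Matrix (Fin n) (Fin n) F ≃ₐ[F] Module.End F (Fin n → F))
  have hL := core (F := F) (V := Fin n → F) hrF (E B₀) (E N) (by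
      intro h
      apply hk2
      exact (map_eq_zero_iff E E.injective).1 h) (by
      rw [← map_mul, hN2, map_zero]) (by
      rw [← map_mul, ← map_mul, hB₀N]) (by
      rw [← map_pow, hB₀r, map_one]) (by
      intro U _ _ _ hU T hT
      rw [Module.finrank_fin_fun] at hU
      exact triv_of_le hrp hrGL (by omega) T hT) (by
      rw [Module.finrank_fin_fun]
      exact hn)
  have hB₀1 : B₀ = 1 := by
    apply E.injective
    rw [hL, map_one]
  have hB₁ : (B : Matrix (Fin n) (Fin n) F) = (ν : F) • 1 := by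
    rw [← hB₀1]
    simp only [B₀]
    rw [smul_smul, mul_inv_cancel₀ hν0, one_smul]
  have h1 := hcen' B _ hB₁
  rw [h1, orderOf_one] at hb'
  exact hrp.ne_one hb'.symm

end Cfsg.Agent.S2364
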