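import Cfsg.Statements.S2367

set_option autoImplicit false
open Cfsg

namespace Cfsg.Agent.S2367


/-- The primes. -/
def pL : List ℕ := [2, 3, 5, 7, 11, 13, 17, 19, 23, 29, 31, 37, 41, 43, 47, 59, 67, 71]

theorem pL_prime : ∀ q ∈ pL, q.Prime := by
  intro q hq
  simp only [pL, List.mem_cons, List.not_mem_nil, or_false] at hq
  rcases hq with rfl | rfl | rfl | rfl | rfl | rfl | rfl | rfl | rfl | rfl | rfl | rfl | rfl | rfl | rfl | rfl | rfl | rfl <;> norm_num

/-- The check for a sporadic order. -/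
def okB (N e : ℕ) (fac : List (ℕ × ℕ)) : Bool :=
  (fac.map (fun a => a.1 ^ a.2)).prod == N && decide (N ≠ 0) && fac.all (fun a => a.1 ∈ pL) &&
    decide (2 ^ e ∣ N) && decide (¬ 2 ^ (e + 1) ∣ N) &&
    fac.all (fun a => decide (a.1 = 2 ∨ N % a.1 ^ 4 = 0 ∨ N % a.1 ^ 3 ≠ 0 ∨ a.1 ^ 3 < 2 ^ e))

theorem spor_check {N e : ℕ} {fac : List (ℕ × ℕ)} (h : okB N e fac = true)
    (p : ℕ) (hp : p.Prime) (hodd : p ≠ 2) (h3 : N.factorization p = 3) :
    p ^ 3 < 2 ^ N.factorization 2 := by
  simp only [okB, Bool.and_eq_true, beq_iff_eq, decide_eq_true_eq, List.all_eq_true] at h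
  obtain ⟨⟨⟨⟨⟨hprod, hN⟩, hpr⟩, h2a⟩, h2b⟩, hc⟩ := h
  have hfac2 : N.factorization 2 = e := by
    have h1 : e ≤ N.factorization 2 := (Nat.prime_two.pow_dvd_iff_le_factorization hN).mp h2a
    have h4 : ¬ e + 1 ≤ N.factorization 2 := fun h5 =>
      h2b ((Nat.prime_two.pow_dvd_iff_le_factorization hN).mpr h5)
    omega
  have hd3 : p ^ 3 ∣ N := (hp.pow_dvd_iff_le_factorization hN).mpr h3.ge
  have hd4 : ¬ p ^ 4 ∣ N := fun h5 => by
    have := (hp.pow_dvd_iff_le_factorization hN).mp h5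
    omega
  have hdp : p ∣ N := (dvd_pow_self p (by norm_num)).trans hd3
  rw [← hprod, Prime.dvd_prod_iff hp.prime] at hdp
  obtain ⟨b, hb, hdb⟩ := hdp
  obtain ⟨⟨q, k⟩, hqk, rfl⟩ := List.mem_map.mp hb
  have hq : q.Prime := pL_prime _ (hpr _ hqk)
  have hpq : p = q := (Nat.prime_dvd_prime_iff_eq hp hq).mp (hp.dvd_of_dvd_pow hdb)
  subst hpq
  rw [hfac2]
  rcases hc _ hqk with h5 | h5 | h5 | h5
  · exact absurd h5 hodd
  · exact absurd (Nat.dvd_of_mod_eq_zero h5) hd4
  · exact absurd (Nat.mod_eq_zero_of_dvd hd3) h5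
  · exact h5

/-- The sporadic case. -/
theorem sporadic_case {G : Type*} [Group G] (hG : Cfsg.IsSporadic G)
    (p : ℕ) (hp : p.Prime) (hodd : p ≠ 2) (h3 : (Nat.card G).factorization p = 3) :
    p ^ 3 < 2 ^ (Nat.card G).factorization 2 := by
  rcases hG with ⟨-, h⟩ | ⟨-, h⟩ | ⟨-, h⟩ | ⟨-, h⟩ | ⟨-, h⟩ | ⟨-, h⟩ | ⟨-, h⟩ | ⟨-, h⟩ | ⟨-, h⟩ | ⟨-, h⟩ | ⟨-, h⟩ | ⟨-, h⟩ | ⟨-, h⟩ | ⟨-, h⟩ | ⟨-, h⟩ | ⟨-, h⟩ | ⟨-, h⟩ | ⟨-, h⟩ | ⟨-, h⟩ | ⟨-, h⟩ | ⟨-, h⟩ | ⟨-, h⟩ | ⟨-, h⟩ | ⟨-, h⟩ | ⟨-, h⟩ | ⟨-, h⟩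
  · rw [h] at h3 ⊢
    exact spor_check (N := 7920) (e := 4) (fac := [(2, 4), (3, 2), (5, 1), (11, 1)]) (by decide +kernel) p hp hodd h3
  · rw [h] at h3 ⊢
    exact spor_check (N := 95040) (e := 6) (fac := [(2, 6), (3, 3), (5, 1), (11, 1)]) (by decide +kernel) p hp hodd h3
  · rw [h] at h3 ⊢
    exact spor_check (N := 443520) (e := 7) (fac := [(2, 7), (3, 2), (5, 1), (7, 1), (11, 1)]) (by decide +kernel) p hp hodd h3
  · rw [h] at h3 ⊢
    exact spor_check (N := 10200960) (e := 7) (fac := [(2, 7), (3, 2), (5, 1), (7, 1), (11, 1), (23, 1)]) (by decide +kernel) p hp hodd h3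
  · rw [h] at h3 ⊢
    exact spor_check (N := 244823040) (e := 10) (fac := [(2, 10), (3, 3), (5, 1), (7, 1), (11, 1), (23, 1)]) (by decide +kernel) p hp hodd h3
  · rw [h] at h3 ⊢
    exact spor_check (N := 175560) (e := 3) (fac := [(2, 3), (3, 1), (5, 1), (7, 1), (11, 1), (19, 1)]) (by decide +kernel) p hp hodd h3
  · rw [h] at h3 ⊢
    exact spor_check (N := 604800) (e := 7) (fac := [(2, 7), (3, 3), (5, 2), (7, 1)]) (by decide +kernel) p hp hodd h3
  · rw [h] at h3 ⊢
    exact spor_check (N := 50232960) (e := 7) (fac := [(2, 7), (3, 5), (5, 1), (17, 1), (19, 1)]) (by decide +kernel) p hp hodd h3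
  · rw [h] at h3 ⊢
    exact spor_check (N := 86775571046077562880) (e := 21) (fac := [(2, 21), (3, 3), (5, 1), (7, 1), (11, 3), (23, 1), (29, 1), (31, 1), (37, 1), (43, 1)]) (by decide +kernel) p hp hodd h3
  · rw [h] at h3 ⊢
    exact spor_check (N := 4157776806543360000) (e := 21) (fac := [(2, 21), (3, 9), (5, 4), (7, 2), (11, 1), (13, 1), (23, 1)]) (by decide +kernel) p hp hodd h3
  · rw [h] at h3 ⊢
    exact spor_check (N := 42305421312000) (e := 18) (fac := [(2, 18), (3, 6), (5, 3), (7, 1), (11, 1), (23, 1)]) (by decide +kernel) p hp hodd h3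
  · rw [h] at h3 ⊢
    exact spor_check (N := 495766656000) (e := 10) (fac := [(2, 10), (3, 7), (5, 3), (7, 1), (11, 1), (23, 1)]) (by decide +kernel) p hp hodd h3
  · rw [h] at h3 ⊢
    exact spor_check (N := 64561751654400) (e := 17) (fac := [(2, 17), (3, 9), (5, 2), (7, 1), (11, 1), (13, 1)]) (by decide +kernel) p hp hodd h3
  · rw [h] at h3 ⊢
    exact spor_check (N := 4089470473293004800) (e := 18) (fac := [(2, 18), (3, 13), (5, 2), (7, 1), (11, 1), (13, 1), (17, 1), (23, 1)]) (by decide +kernel) p hp hodd h3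
  · rw [h] at h3 ⊢
    exact spor_check (N := 1255205709190661721292800) (e := 21) (fac := [(2, 21), (3, 16), (5, 2), (7, 3), (11, 1), (13, 1), (17, 1), (23, 1), (29, 1)]) (by decide +kernel) p hp hodd h3
  · rw [h] at h3 ⊢
    exact spor_check (N := 44352000) (e := 9) (fac := [(2, 9), (3, 2), (5, 3), (7, 1), (11, 1)]) (by decide +kernel) p hp hodd h3
  · rw [h] at h3 ⊢
    exact spor_check (N := 898128000) (e := 7) (fac := [(2, 7), (3, 6), (5, 3), (7, 1), (11, 1)]) (by decide +kernel) p hp hodd h3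
  · rw [h] at h3 ⊢
    exact spor_check (N := 4030387200) (e := 10) (fac := [(2, 10), (3, 3), (5, 2), (7, 3), (17, 1)]) (by decide +kernel) p hp hodd h3
  · rw [h] at h3 ⊢
    exact spor_check (N := 145926144000) (e := 14) (fac := [(2, 14), (3, 3), (5, 3), (7, 1), (13, 1), (29, 1)]) (by decide +kernel) p hp hodd h3
  · rw [h] at h3 ⊢
    exact spor_check (N := 448345497600) (e := 13) (fac := [(2, 13), (3, 7), (5, 2), (7, 1), (11, 1), (13, 1)]) (by decide +kernel) p hp hodd h3
  · rw [h] at h3 ⊢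
    exact spor_check (N := 460815505920) (e := 9) (fac := [(2, 9), (3, 4), (5, 1), (7, 3), (11, 1), (19, 1), (31, 1)]) (by decide +kernel) p hp hodd h3
  · rw [h] at h3 ⊢
    exact spor_check (N := 273030912000000) (e := 14) (fac := [(2, 14), (3, 6), (5, 6), (7, 1), (11, 1), (19, 1)]) (by decide +kernel) p hp hodd h3
  · rw [h] at h3 ⊢
    exact spor_check (N := 51765179004000000) (e := 8) (fac := [(2, 8), (3, 7), (5, 6), (7, 1), (11, 1), (31, 1), (37, 1), (67, 1)]) (by decide +kernel) p hp hodd h3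
  · rw [h] at h3 ⊢
    exact spor_check (N := 90745943887872000) (e := 15) (fac := [(2, 15), (3, 10), (5, 3), (7, 2), (13, 1), (19, 1), (31, 1)]) (by decide +kernel) p hp hodd h3
  · rw [h] at h3 ⊢
    exact spor_check (N := 4154781481226426191177580544000000) (e := 41) (fac := [(2, 41), (3, 13), (5, 6), (7, 2), (11, 1), (13, 1), (17, 1), (19, 1), (23, 1), (31, 1), (47, 1)]) (by decide +kernel) p hp hodd h3
  · rw [h] at h3 ⊢
    exact spor_check (N := 808017424794512875886459904961710757005754368000000000) (e := 46) (fac := [(2, 46), (3, 20), (5, 9), (7, 6), (11, 2), (13, 3), (17, 1), (19, 1), (23, 1), (29, 1), (31, 1), (41, 1), (47, 1), (59, 1), (71, 1)]) (by decide +kernel) p hp hodd h3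


theorem cube_lt_two_pow (p : ℕ) (hp : 5 ≤ p) : p ^ 3 < 2 ^ (2 * p - 1) := by
  induction p, hp using Nat.le_induction with
  | base => norm_num
  | succ p hp ih =>
    have e : 2 * (p + 1) - 1 = (2 * p - 1) + 2 := by omega
    rw [e, pow_add]
    have h1 : (p + 1) ^ 3 ≤ p ^ 3 * 2 ^ 2 := by
      have : 5 ≤ p := hp
      nlinarith [sq_nonneg p, sq_nonneg (p - 5 : ℤ), Nat.pow_le_pow_left this 2]
    have h2 : p ^ 3 * 2 ^ 2 < 2 ^ (2 * p - 1) * 2 ^ 2 := by
      exact Nat.mul_lt_mul_of_pos_right ih (by norm_num)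
    omega

/-- The alternating case, arithmetic. -/
theorem alt_arith (n p : ℕ) (hn : 5 ≤ n) (hp : p.Prime) (hodd : p ≠ 2)
    (h3 : (Nat.factorial n / 2).factorization p = 3) :
    p ^ 3 < 2 ^ (Nat.factorial n / 2).factorization 2 := by
  haveI : Fact p.Prime := ⟨hp⟩
  haveI : Fact (Nat.Prime 2) := ⟨Nat.prime_two⟩
  have h2d : 2 ∣ Nat.factorial n := Nat.dvd_factorial (by norm_num) (by omega)
  obtain ⟨N, hN⟩ := h2d
  have hdiv : Nat.factorial n / 2 = N := by rw [hN]; simp
  rw [hdiv] at h3 ⊢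
  have hN0 : N ≠ 0 := by
    rintro rfl
    exact (Nat.factorial_pos n).ne' hN
  have hf : (Nat.factorial n).factorization = (2 : ℕ).factorization + N.factorization := by
    rw [hN, Nat.factorization_mul (by norm_num) hN0]
  have hfp : (Nat.factorial n).factorization p = 3 := by
    rw [hf, Finsupp.add_apply, h3, Nat.factorization_eq_zero_of_not_dvd]
    · intro h
      exact hodd ((Nat.prime_dvd_prime_iff_eq hp Nat.prime_two).mp h)
  have hf2 : (Nat.factorial n).factorization 2 = 1 + N.factorization 2 := by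
    rw [hf, Finsupp.add_apply, Nat.Prime.factorization_self Nat.prime_two]
  have h3le : 3 ≤ p := by
    have := hp.two_le
    omega
  -- `3 p ≤ n`
  have hnp : 3 * p ≤ n := by
    by_contra hlt
    push_neg at hlt
    rw [Nat.factorization_def _ hp, padicValNat_factorial (b := Nat.log p n + 1) (Nat.lt_succ_self _)] at hfp
    have hle : ∑ i ∈ Finset.Ico 1 (Nat.log p n + 1), n / p ^ i ≤ ∑ i ∈ ({1} : Finset ℕ), n / p ^ i := by
      apply Finset.sum_le_sum_of_ne_zero
      intro i hi hne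
      simp only [Finset.mem_Ico] at hi
      simp only [Finset.mem_singleton]
      by_contra h1
      apply hne
      apply Nat.div_eq_of_lt
      have h2 : p ^ 2 ≤ p ^ i := Nat.pow_le_pow_right hp.pos (by omega)
      have h3' : 3 * p ≤ p ^ 2 := by rw [pow_two]; exact Nat.mul_le_mul_right _ h3le
      omega
    simp only [Finset.sum_singleton, pow_one] at hle
    have h5 : n / p < 3 := (Nat.div_lt_iff_lt_mul hp.pos).mpr (by linarith [mul_comm 3 p])
    omega
  -- lower bound for the `2`-part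
  have h2low : n / 2 + n / 4 ≤ (Nat.factorial n).factorization 2 := by
    rw [Nat.factorization_def _ Nat.prime_two, padicValNat_factorial (b := Nat.log 2 n + 1) (Nat.lt_succ_self _)]
    have hlog : 2 ≤ Nat.log 2 n := by
      apply Nat.le_log_of_pow_le (by norm_num)
      omega
    have hsub : ({1, 2} : Finset ℕ) ⊆ Finset.Ico 1 (Nat.log 2 n + 1) := by
      intro i hi
      simp only [Finset.mem_insert, Finset.mem_singleton] at hi
      simp only [Finset.mem_Ico]
      omega
    have := Finset.sum_le_sum_of_subset (f := fun i => n / 2 ^ i) hsub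
    simpa using this
  have hv : 3 * p / 2 + 3 * p / 4 ≤ n / 2 + n / 4 := by omega
  by_cases hp3 : p = 3
  · subst hp3
    have : 5 ≤ N.factorization 2 := by omega
    calc 3 ^ 3 < 2 ^ 5 := by norm_num
      _ ≤ 2 ^ N.factorization 2 := Nat.pow_le_pow_right (by norm_num) this
  · have hp5 : 5 ≤ p := by
      have h4 : p ≠ 4 := by
        rintro rfl
        exact absurd hp (by norm_num)
      omega
    have h6 : 2 * p - 1 ≤ N.factorization 2 := by omega
    exact (cube_lt_two_pow p hp5).trans_le (Nat.pow_le_pow_right (by norm_num) h6)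

/-- Let G be an alternating group of degree at least 5 or a simple group with the order of one of the 26 sporadic groups, and let p be an odd prime such that p³ is the exact power of p dividing the order of G. Then p³ is less than the 2-part of the order of G. -/
theorem result {G : Type*} [Group G] [Finite G] (hG : Cfsg.IsAlternating G ∨ Cfsg.IsSporadic G)
    (p : ℕ) (hp : p.Prime) (hodd : p ≠ 2) (h3 : (Nat.card G).factorization p = 3) :
    p ^ 3 < 2 ^ (Nat.card G).factorization 2 := by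

  rcases hG with ⟨n, hn, ⟨e⟩⟩ | hG
  · haveI : Nontrivial (Fin n) := Fin.nontrivial_iff_two_le.mpr (by omega)
    have hc : Nat.card G = Nat.factorial n / 2 := by
      rw [Nat.card_congr e.toEquiv, nat_card_alternatingGroup]
      simp
    rw [hc] at h3 ⊢
    exact alt_arith n p hn hp hodd h3
  · exact sporadic_case hG p hp hodd h3

end Cfsg.Agent.S2367
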