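import Cfsg.Statements.S2368
import Cfsg.Agent.Lib.H1Uni

set_option autoImplicit false
open Cfsg

namespace Cfsg.Agent.S2368

/-- Let F be a finite field of characteristic p and m ≥ 1. Every element of GL(m, F) of p-power order has order less than p·m, and GL(m, F) has an element of p-power order at least m; so the largest order of a p-element of GL(m, F) is the least power of p that is at least m. -/
theorem result {F : Type*} [Field F] [Fintype F] (p : ℕ) [Fact p.Prime] [CharP F p] (m : ℕ) (hm : 1 ≤ m) :
    (∀ g : Matrix.GeneralLinearGroup (Fin m) F, (∃ j : ℕ, orderOf g = p ^ j) → orderOf g < p * m) ∧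
      ∃ g : Matrix.GeneralLinearGroup (Fin m) F, (∃ j : ℕ, orderOf g = p ^ j) ∧ m ≤ orderOf g := by
  have hpp := (Fact.out : p.Prime)
  constructor
  · rintro g ⟨j, hj⟩
    have hnil := Cfsg.Agent.Lib.H1Uni.isNilpotent_of_pow g hj
    have h1 := (Cfsg.Agent.Lib.H1Uni.unipotent_order (p := p) m g hnil).1
    refine lt_of_le_of_lt h1 ?_
    rcases Nat.lt_or_ge 1 m with hm1 | hm1
    · have h2 := Nat.pow_pred_clog_lt_self hpp.one_lt hm1
      have h3 : 0 < Nat.clog p m := Nat.clog_pos hpp.one_lt (by omega)
      have h4 : p ^ Nat.clog p m = p * p ^ (Nat.clog p m).pred := by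
        rw [← pow_succ']; congr 1; exact (Nat.succ_pred_eq_of_pos h3).symm
      rw [h4]
      exact Nat.mul_lt_mul_of_pos_left h2 hpp.pos
    · have : m = 1 := by omega
      subst this
      simpa using hpp.one_lt
  · obtain ⟨g, hnil, hne⟩ := Cfsg.Agent.Lib.H1Uni.exists_regular_unipotent (F := F) m hm
    have h1 := (Cfsg.Agent.Lib.H1Uni.unipotent_order (p := p) m g hnil).2 hne
    refine ⟨g, ⟨_, h1⟩, ?_⟩
    rw [h1]
    exact Nat.le_pow_clog hpp.one_lt m

end Cfsg.Agent.S2368
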