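import Cfsg.Statements.S2402
import Cfsg.Agent.Lib.PSLGen2

set_option autoImplicit false
open Cfsg

namespace Cfsg.Agent.S2402


open Cfsg.Agent.Lib.PSLGen2 Matrix


/-- Explicit two-element generation of `PSL_{n+1}(K)` for a finite field `K` with more than three elements: let `k` generate the multiplicative group of `K`, `h = diag(k, k⁻¹, 1, …, 1)`, `x = 1 + E₁₂` (the elementary transvection) and `w` the monomial matrix with entries `1` in positions `(i, i+1)` and `(−1)^n` in position `(n+1, 1)`. Then `h` and `x·w` generate `SL_{n+1}(K)` modulo its centre: the subgroup they generate together with the centre is everything. -/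
theorem result {K : Type*} [Field K] [Fintype K] (hK : 3 < Fintype.card K) (n : ℕ) (hn : 1 ≤ n)
    (k : Kˣ) (hk : ∀ u : Kˣ, u ∈ Subgroup.zpowers k)
    (h x w : Matrix.SpecialLinearGroup (Fin (n + 1)) K)
    (hh : (h : Matrix (Fin (n + 1)) (Fin (n + 1)) K) =
      Matrix.diagonal (fun i => if i.val = 0 then (k : K) else if i.val = 1 then ((k⁻¹ : Kˣ) : K) else 1))
    (hx : (x : Matrix (Fin (n + 1)) (Fin (n + 1)) K) = Matrix.transvection (0 : Fin (n + 1)) (1 : Fin (n + 1)) 1)
    (hw : (w : Matrix (Fin (n + 1)) (Fin (n + 1)) K) =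
      Matrix.of (fun i j => if j.val = i.val + 1 then 1 else if i.val = n ∧ j.val = 0 then (-1) ^ n else 0)) :
    Subgroup.closure ({h, x * w} : Set (Matrix.SpecialLinearGroup (Fin (n + 1)) K)) ⊔
      Subgroup.center (Matrix.SpecialLinearGroup (Fin (n + 1)) K) = ⊤ := by
  classical
  have h01 : (0 : Fin (n + 1)) ≠ 1 := by
    intro h
    have := congrArg Fin.val h
    rw [Fin.val_zero, Fin.val_one', Nat.mod_eq_of_lt (by omega)] at this
    omega
  have hv1 : (1 : Fin (n + 1)).val = 1 := by
    rw [Fin.val_one', Nat.mod_eq_of_lt (by omega)]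
  have hk0 : (k : K) ≠ 0 := k.ne_zero
  -- orders
  have hord : orderOf k = Nat.card Kˣ := orderOf_eq_card_of_forall_mem_zpowers hk
  have hcardK : 3 ≤ Nat.card Kˣ := by
    rw [Nat.card_eq_fintype_card, Fintype.card_units]
    omega
  have hk2 : (k : K) * k ≠ 1 := by
    intro h1
    have h2 : k ^ 2 = 1 := by
      apply Units.ext
      rw [Units.val_pow_eq_pow_val, sq, h1, Units.val_one]
    have h3 := orderOf_le_of_pow_eq_one (by norm_num) h2
    omega
  have hk1 : (k : K) ≠ 1 := by
    intro h1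
    apply hk2
    rw [h1, one_mul]
  let T : K → Matrix.SpecialLinearGroup (Fin (n + 1)) K := fun t => Matrix.SpecialLinearGroup.transvection h01 t
  have hTadd : ∀ s r, T s * T r = T (s + r) := fun s r => Tv_mul_same h01 s r
  have hTinv : ∀ s, (T s)⁻¹ = T (-s) := fun s => Tv_inv' h01 s
  have hxT : x = T 1 := Subtype.ext hx
  let d : Fin (n + 1) → K := fun i => if i.val = 0 then (k : K) else if i.val = 1 then ((k⁻¹ : Kˣ) : K) else 1
  have hd0 : d 0 = k := by simp [d]
  have hd1 : d 1 = (k : K)⁻¹ := by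
    show (if (1 : Fin (n + 1)).val = 0 then (k : K) else if (1 : Fin (n + 1)).val = 1 then ((k⁻¹ : Kˣ) : K) else 1) = _
    rw [hv1]
    simp
  have hdne : ∀ l, d l ≠ 0 := by
    intro l
    simp only [d]
    split_ifs
    · exact hk0
    · exact Units.ne_zero _
    · exact one_ne_zero
  let ε : Fin (n + 1) → K := fun l => if l.val < n then 1 else (-1) ^ n
  have hε : ∀ l, ε l ≠ 0 := by
    intro l
    simp only [ε]
    split_ifs
    · exact one_ne_zero
    · exact pow_ne_zero _ (neg_ne_zero.2 one_ne_zero)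
  have hwv : ∀ (y : Fin (n + 1) → K) (l : Fin (n + 1)), ((w : Matrix (Fin (n + 1)) (Fin (n + 1)) K) *ᵥ y) l = ε l * y (l + 1) := by
    intro y l
    rw [hw]
    exact w_mulVec hn y l
  have hhv : ∀ (y : Fin (n + 1) → K) (l : Fin (n + 1)), ((h : Matrix (Fin (n + 1)) (Fin (n + 1)) K) *ᵥ y) l = d l * y l := by
    intro y l
    rw [hh, Matrix.mulVec_diagonal]
  let D := w * h * w⁻¹
  have hDv : ∀ (y : Fin (n + 1) → K) (l : Fin (n + 1)), ((D : Matrix (Fin (n + 1)) (Fin (n + 1)) K) *ᵥ y) l = d (l + 1) * y l := by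
    intro y l
    have e1 : (D : Matrix (Fin (n + 1)) (Fin (n + 1)) K) * (w : Matrix (Fin (n + 1)) (Fin (n + 1)) K) = (w : Matrix (Fin (n + 1)) (Fin (n + 1)) K) * (h : Matrix (Fin (n + 1)) (Fin (n + 1)) K) := by
      have e0 : D * w = w * h := by
        simp only [D]
        group
      rw [← Matrix.SpecialLinearGroup.coe_mul, ← Matrix.SpecialLinearGroup.coe_mul, e0]
    let y' : Fin (n + 1) → K := ((w⁻¹ : Matrix.SpecialLinearGroup (Fin (n + 1)) K) : Matrix (Fin (n + 1)) (Fin (n + 1)) K) *ᵥ y
    have e2 : y = (w : Matrix (Fin (n + 1)) (Fin (n + 1)) K) *ᵥ y' := by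
      simp only [y']
      rw [Matrix.mulVec_mulVec, ← Matrix.SpecialLinearGroup.coe_mul, mul_inv_cancel]
      simp
    rw [e2, Matrix.mulVec_mulVec, e1, ← Matrix.mulVec_mulVec, hwv, hhv, hwv]
    ring
  have hdiag : ∀ {A : Matrix.SpecialLinearGroup (Fin (n + 1)) K} {e : Fin (n + 1) → K},
      (∀ (y : Fin (n + 1) → K) (l : Fin (n + 1)), ((A : Matrix (Fin (n + 1)) (Fin (n + 1)) K) *ᵥ y) l = e l * y l) → e 1 ≠ 0 →
      ∀ s, A * T s = T (s * (e 0 / e 1)) * A := by
    intro A e hA he s
    apply Cfsg.Agent.Lib.SLGen.SL_ext_mulVec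
    intro y
    ext l
    simp only [Matrix.SpecialLinearGroup.coe_mul, ← Matrix.mulVec_mulVec, T]
    rw [hA, Cfsg.Agent.Lib.SLGen.T_mulVec_apply, Cfsg.Agent.Lib.SLGen.T_mulVec_apply, hA, hA]
    by_cases hl : l = 0
    · subst hl
      simp only [if_true]
      field_simp
    · simp [hl]
  let c := d (0 + 1) / d (1 + 1)
  have L1 : ∀ s, D * T s = T (s * c) * D := by
    intro s
    exact hdiag hDv (hdne _) s
  let κ : K := k * k
  have hκ : d 0 / d 1 = κ := by
    rw [hd0, hd1]
    simp only [κ]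
    field_simp
  have L2 : ∀ s, h * T s = T (s * κ) * h := by
    intro s
    have := hdiag hhv (hdne 1) s
    rwa [hκ] at this
  have L3 : h * D = D * h := by
    apply Cfsg.Agent.Lib.SLGen.SL_ext_mulVec
    intro y
    ext l
    simp only [Matrix.SpecialLinearGroup.coe_mul, ← Matrix.mulVec_mulVec]
    rw [hhv, hDv, hDv, hhv]
    ring
  have hc : c ≠ 1 := by
    simp only [c]
    rw [zero_add, hd1]
    by_cases h2 : n = 1
    · subst h2
      have e : (1 + 1 : Fin (1 + 1)) = 0 := rfl
      rw [e, hd0]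
      intro h3
      apply hk2
      rw [div_eq_iff hk0, one_mul] at h3
      nth_rewrite 1 [← h3]
      exact inv_mul_cancel₀ hk0
    · have e : (1 + 1 : Fin (n + 1)).val = 2 := by
        rw [Fin.val_add, hv1, Nat.mod_eq_of_lt (by omega)]
      have e2 : d (1 + 1) = 1 := by
        show (if (1 + 1 : Fin (n + 1)).val = 0 then (k : K) else if (1 + 1 : Fin (n + 1)).val = 1 then ((k⁻¹ : Kˣ) : K) else 1) = 1
        rw [e]
        simp
      rw [e2, div_one]
      intro h3
      apply hk1
      exact inv_eq_one.1 h3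
  let H := Subgroup.closure ({h, x * w} : Set (Matrix.SpecialLinearGroup (Fin (n + 1)) K))
  have hhH : h ∈ H := Subgroup.subset_closure (by simp)
  have hyH : x * w ∈ H := Subgroup.subset_closure (by simp)
  let a : K := 1 - c
  have ha : a ≠ 0 := by
    simp only [a]
    intro h1
    exact hc (by linear_combination -h1)
  let z := (x * w) * h * (x * w)⁻¹
  have hzH : z ∈ H := H.mul_mem (H.mul_mem hyH hhH) (H.inv_mem hyH)
  have hz : z = T a * D := by
    have e1 : z = x * D * x⁻¹ := by
      simp only [z, D]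
      group
    rw [e1, hxT, hTinv, mul_assoc, L1, ← mul_assoc, hTadd]
    congr 2
    simp only [a]
    ring
  have hzz : h * z * h⁻¹ * z⁻¹ = T (a * κ - a) := by
    rw [hz, _root_.mul_inv_rev, hTinv]
    have e1 : h * (T a * D) * h⁻¹ = T (a * κ) * D := by
      rw [← mul_assoc, L2, mul_assoc (T (a * κ)), L3]
      group
    rw [e1]
    have e2 : T (a * κ) * D * (D⁻¹ * T (-a)) = T (a * κ) * T (-a) := by group
    rw [e2, hTadd]
    congr 1
    ring
  let b : K := a * κ - a
  have hb0 : b ≠ 0 := by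
    have e : b = a * (κ - 1) := by
      simp only [b]
      ring
    rw [e]
    exact mul_ne_zero ha (sub_ne_zero.2 hk2)
  have hbH : T b ∈ H := by
    show T (a * κ - a) ∈ H
    rw [← hzz]
    exact H.mul_mem (H.mul_mem (H.mul_mem hhH hzH) (H.inv_mem hhH)) (H.inv_mem hzH)
  let A : K → Prop := fun t => T (b * t) ∈ H
  have hT0 : T 0 = 1 := by
    apply Subtype.ext
    exact Matrix.transvection_zero _ _
  have hA0 : A 0 := by
    show T (b * 0) ∈ H
    rw [mul_zero, hT0]
    exact H.one_mem
  have hAadd : ∀ s r, A s → A r → A (s + r) := by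
    intro s r h1 h2
    show T (b * (s + r)) ∈ H
    rw [mul_add, ← hTadd]
    exact H.mul_mem h1 h2
  have hAneg : ∀ s, A s → A (-s) := by
    intro s h1
    show T (b * (-s)) ∈ H
    rw [mul_neg, ← hTinv]
    exact H.inv_mem h1
  have hκ0 : κ ≠ 0 := mul_ne_zero hk0 hk0
  have hAκ : ∀ s, A s → A (s * κ) := by
    intro s h1
    show T (b * (s * κ)) ∈ H
    have e : T (b * (s * κ)) = h * T (b * s) * h⁻¹ := by
      rw [L2, mul_assoc, mul_inv_cancel, mul_one]
      congr 1
      ring
    rw [e]
    exact H.mul_mem (H.mul_mem hhH h1) (H.inv_mem hhH)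
  have hAκ' : ∀ s, A s → A (s * κ⁻¹) := by
    intro s h1
    show T (b * (s * κ⁻¹)) ∈ H
    have e : T (b * (s * κ⁻¹)) = h⁻¹ * T (b * s) * h := by
      have e2 : T (b * s) = T (b * (s * κ⁻¹) * κ) := by
        congr 1
        field_simp
      rw [e2, mul_assoc, ← L2]
      group
    rw [e]
    exact H.mul_mem (H.mul_mem (H.inv_mem hhH) h1) hhH
  have hApow : ∀ i : ℤ, A (κ ^ i) := by
    intro i
    induction i using Int.induction_on with
    | zero =>
      show T (b * κ ^ (0 : ℤ)) ∈ H
      rw [zpow_zero, mul_one]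
      exact hbH
    | succ i ih =>
      rw [zpow_add_one₀ hκ0]
      exact hAκ _ ih
    | pred i ih =>
      rw [zpow_sub_one₀ hκ0]
      exact hAκ' _ ih
  have hcov : ∀ t : K, A t ∨ A ((k : K)⁻¹ * t) := by
    intro t
    by_cases h0 : t = 0
    · left
      rw [h0]
      exact hA0
    · obtain ⟨j, hj⟩ := Subgroup.mem_zpowers_iff.1 (hk (Units.mk0 t h0))
      have hj' : t = (k : K) ^ j := by
        have := congrArg Units.val hj
        simpa using this.symm
      rcases Int.even_or_odd' j with ⟨i, rfl | rfl⟩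
      · left
        have e : t = κ ^ i := by
          rw [hj', _root_.zpow_mul, zpow_two]
        rw [e]
        exact hApow i
      · right
        have e : (k : K)⁻¹ * t = κ ^ i := by
          rw [hj', zpow_add₀ hk0, zpow_one, _root_.zpow_mul, zpow_two]
          show (k : K)⁻¹ * (((k : K) * k) ^ i * k) = ((k : K) * k) ^ i
          rw [mul_comm (((k : K) * k) ^ i) k, ← mul_assoc, inv_mul_cancel₀ hk0, one_mul]
        rw [e]
        exact hApow i
  have hAll : ∀ t, A t := by
    by_contra hcon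
    push Not at hcon
    obtain ⟨x₀, hx₀⟩ := hcon
    have h1 : ∀ y, A ((k : K)⁻¹ * y) := by
      intro y
      by_contra hy
      have hy' : A y := (hcov y).resolve_right hy
      have h2 : A ((k : K)⁻¹ * x₀) := (hcov x₀).resolve_left hx₀
      rcases hcov (x₀ + y) with h3 | h3
      · apply hx₀
        have := hAadd _ _ h3 (hAneg _ hy')
        rwa [add_neg_cancel_right] at this
      · apply hy
        have := hAadd _ _ h3 (hAneg _ h2)
        have e : (k : K)⁻¹ * (x₀ + y) + -((k : K)⁻¹ * x₀) = (k : K)⁻¹ * y := by ring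
        rwa [e] at this
    have := h1 ((k : K) * x₀)
    rw [← mul_assoc, inv_mul_cancel₀ hk0, one_mul] at this
    exact hx₀ this
  have hT : ∀ t, T t ∈ H := by
    intro t
    have := hAll (b⁻¹ * t)
    show T t ∈ H
    have e : t = b * (b⁻¹ * t) := by field_simp
    rw [e]
    exact this
  have hxH : x ∈ H := by
    rw [hxT]
    exact hT 1
  have hwH : w ∈ H := by
    have e : w = x⁻¹ * (x * w) := by group
    rw [e]
    exact H.mul_mem (H.inv_mem hxH) hyH
  have htop : H = ⊤ := top_of_root hn hε hwv H hwH h01 hT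
  show H ⊔ _ = ⊤
  rw [htop, top_sup_eq]

end Cfsg.Agent.S2402
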