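import Cfsg.Statements.S2403
import Cfsg.Agent.Lib.PSLGen2

set_option autoImplicit false
open Cfsg

namespace Cfsg.Agent.S2403


open Cfsg.Agent.Lib.PSLGen2

theorem exists_nat {K : Type*} [Field K] [Fintype K] (hK : Fintype.card K ≤ 3) (t : K) : ∃ m : ℕ, t = (m : K) := by
  classical
  by_cases h0 : t = 0
  · exact ⟨0, by simp [h0]⟩
  by_cases h1 : t = 1
  · exact ⟨1, by simp [h1]⟩
  have hall : ∀ y : K, y = 0 ∨ y = 1 ∨ y = t := by
    intro y
    by_contra hy
    push Not at hy
    have h4 : ({0, 1, t, y} : Finset K).card = 4 := by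
      rw [Finset.card_insert_of_notMem, Finset.card_insert_of_notMem, Finset.card_insert_of_notMem, Finset.card_singleton]
      · simpa using hy.2.2.symm
      · simp [h1 , Ne.symm hy.2.1, Ne.symm h1]
      · simp [Ne.symm h0, Ne.symm hy.1]
    have h5 := Finset.card_le_univ ({0, 1, t, y} : Finset K)
    omega
  rcases hall (1 + 1) with h2 | h2 | h2
  · exfalso
    rcases hall (t + 1) with h3 | h3 | h3
    · apply h1
      linear_combination h3 - h2
    · apply h0
      linear_combination h3
    · have : (1 : K) = 0 := by linear_combination h3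
      exact one_ne_zero this
  · exfalso
    have : (1 : K) = 0 := by linear_combination h2
    exact one_ne_zero this
  · exact ⟨2, by rw [← h2]; norm_num⟩


/-- Explicit two-element generation of `PSL_{n+1}(K)` over the fields with two or three elements: with `x = 1 + E₁₂` and `w` the monomial matrix with entries `1` in positions `(i, i+1)` and `(−1)^n` in position `(n+1, 1)`, the elements `x` and `w` generate `SL_{n+1}(K)` modulo its centre. -/
theorem result {K : Type*} [Field K] [Fintype K] (hK : Fintype.card K ≤ 3) (n : ℕ) (hn : 1 ≤ n)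
    (x w : Matrix.SpecialLinearGroup (Fin (n + 1)) K)
    (hx : (x : Matrix (Fin (n + 1)) (Fin (n + 1)) K) = Matrix.transvection (0 : Fin (n + 1)) (1 : Fin (n + 1)) 1)
    (hw : (w : Matrix (Fin (n + 1)) (Fin (n + 1)) K) =
      Matrix.of (fun i j => if j.val = i.val + 1 then 1 else if i.val = n ∧ j.val = 0 then (-1) ^ n else 0)) :
    Subgroup.closure ({x, w} : Set (Matrix.SpecialLinearGroup (Fin (n + 1)) K)) ⊔
      Subgroup.center (Matrix.SpecialLinearGroup (Fin (n + 1)) K) = ⊤ := by
  classical
  have h01 : (0 : Fin (n + 1)) ≠ 1 := by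
    intro h
    have := congrArg Fin.val h
    rw [Fin.val_zero, Fin.val_one', Nat.mod_eq_of_lt (by omega)] at this
    omega
  have hxT : x = Matrix.SpecialLinearGroup.transvection h01 1 := Subtype.ext hx
  have hT0 : Matrix.SpecialLinearGroup.transvection h01 (0 : K) = 1 := by
    apply Subtype.ext
    exact Matrix.transvection_zero _ _
  have hpow : ∀ m : ℕ, Matrix.SpecialLinearGroup.transvection h01 ((m : ℕ) : K) = x ^ m := by
    intro m
    induction m with
    | zero =>
      rw [Nat.cast_zero, hT0, pow_zero]
    | succ m ih =>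
      rw [pow_succ, ← ih, hxT, Tv_mul_same, Nat.cast_succ]
  have htop : Subgroup.closure ({x, w} : Set (Matrix.SpecialLinearGroup (Fin (n + 1)) K)) = ⊤ := by
    apply top_of_root hn (ε := fun l => if l.val < n then 1 else (-1) ^ n) (w := w)
    · intro l
      show (if l.val < n then (1 : K) else (-1) ^ n) ≠ 0
      split_ifs
      · exact one_ne_zero
      · exact pow_ne_zero _ (neg_ne_zero.2 one_ne_zero)
    · intro y l
      rw [hw]
      exact w_mulVec hn y l
    · exact Subgroup.subset_closure (by simp)
    · intro t
      obtain ⟨m, rfl⟩ := exists_nat hK t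
      rw [hpow]
      exact Subgroup.pow_mem _ (Subgroup.subset_closure (by simp)) _
  rw [htop, top_sup_eq]

end Cfsg.Agent.S2403
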