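import Cfsg.Statements.S2416
import Cfsg.Agent.Lib.ChevGTG2
import Cfsg.Agent.Lib.ChevGTB2
import Cfsg.Agent.Lib.ChevGTD4
import Cfsg.Agent.Lib.ChevGTF4
import Cfsg.Agent.Lib.ChevGTE6
import Cfsg.Agent.Lib.ChevGTE7
import Cfsg.Agent.Lib.ChevGTE8

set_option autoImplicit false
open scoped MatrixGroups
open Cfsg

namespace Cfsg.Agent.S2416

/-- A Chevalley group of type G₂, B₂, D₄, F₄, E₆, E₇ or E₈ over a finite field lies in (indeed equals) the subgroup generated by its monomial subgroup `N` and a single fundamental root subgroup `X_p`, where `p` is a short fundamental root if there are two root lengths (any fundamental root otherwise), provided the characteristic is not 2 for types B₂, F₄ and not 3 for type G₂ (and the field has more than two elements for B₂, G₂). -/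
theorem result {K : Type*} [Field K] [Finite K] (D : Cfsg.Lie.ChevalleyDatum) (hD : D ∈ [Cfsg.Lie.chevG2, Cfsg.Lie.chevB2, Cfsg.Lie.chevD4, Cfsg.Lie.chevF4, Cfsg.Lie.chevE6, Cfsg.Lie.chevE7, Cfsg.Lie.chevE8])
    (hK : D ∈ [Cfsg.Lie.chevB2, Cfsg.Lie.chevG2] → ∃ x : K, x ≠ 0 ∧ x ≠ 1)
    (h2 : D ∈ [Cfsg.Lie.chevB2, Cfsg.Lie.chevF4] → ringChar K ≠ 2) (h3 : D = Cfsg.Lie.chevG2 → ringChar K ≠ 3)
    (i : ℕ) (hi : i < D.rank) (hshort : D.isLong (D.simple i) = false) :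
    D.group K ≤ D.monomialSubgroup K ⊔ D.rootSubgroup K (D.simple i) := by
  simp only [List.mem_cons, List.not_mem_nil, or_false] at hD
  rcases hD with rfl | rfl | rfl | rfl | rfl | rfl | rfl
  · have hc : ∀ e ∈ Cfsg.Agent.Lib.ChevGTG2.dat.cd, ((e.2.2.2.2.2 : ℤ) : K) ≠ 0 := by
      intro e he
      have h5 : ∀ e ∈ Cfsg.Agent.Lib.ChevGTG2.dat.cd, e.2.2.2.2.2 = -3 := by decide +kernel
      rw [h5 e he]
      exact Cfsg.Agent.Lib.ChevGen.neg_three_ne (h3 rfl)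
    exact Cfsg.Agent.Lib.ChevGen.s2416_gen Cfsg.Agent.Lib.ChevValidG2.valid Cfsg.Agent.Lib.ChevV2G2.valid2 Cfsg.Agent.Lib.ChevV3G2.valid3 Cfsg.Agent.Lib.ChevGTG2.ok hc (Cfsg.Agent.Lib.ChevGTG2.short_mem i hi hshort)
  · have hc : ∀ e ∈ Cfsg.Agent.Lib.ChevGTB2.dat.cd, ((e.2.2.2.2.2 : ℤ) : K) ≠ 0 := by
      intro e he
      have h5 : ∀ e ∈ Cfsg.Agent.Lib.ChevGTB2.dat.cd, e.2.2.2.2.2 = -2 := by decide +kernel
      rw [h5 e he]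
      exact Cfsg.Agent.Lib.ChevGen.neg_two_ne (h2 (by simp))
    exact Cfsg.Agent.Lib.ChevGen.s2416_gen Cfsg.Agent.Lib.ChevValidB2.valid Cfsg.Agent.Lib.ChevV2B2.valid2 Cfsg.Agent.Lib.ChevV3B2.valid3 Cfsg.Agent.Lib.ChevGTB2.ok hc (Cfsg.Agent.Lib.ChevGTB2.short_mem i hi hshort)
  · have hc : ∀ e ∈ Cfsg.Agent.Lib.ChevGTD4.dat.cd, ((e.2.2.2.2.2 : ℤ) : K) ≠ 0 := by
      intro e he
      simp [Cfsg.Agent.Lib.ChevGTD4.dat] at he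
    exact Cfsg.Agent.Lib.ChevGen.s2416_gen Cfsg.Agent.Lib.ChevValidD4.valid Cfsg.Agent.Lib.ChevV2D4.valid2 Cfsg.Agent.Lib.ChevV3D4.valid3 Cfsg.Agent.Lib.ChevGTD4.ok hc (Cfsg.Agent.Lib.ChevGTD4.short_mem i hi hshort)
  · have hc : ∀ e ∈ Cfsg.Agent.Lib.ChevGTF4.dat.cd, ((e.2.2.2.2.2 : ℤ) : K) ≠ 0 := by
      intro e he
      have h5 : ∀ e ∈ Cfsg.Agent.Lib.ChevGTF4.dat.cd, e.2.2.2.2.2 = -2 := by decide +kernel
      rw [h5 e he]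
      exact Cfsg.Agent.Lib.ChevGen.neg_two_ne (h2 (by simp))
    exact Cfsg.Agent.Lib.ChevGen.s2416_gen Cfsg.Agent.Lib.ChevValidF4.valid Cfsg.Agent.Lib.ChevV2F4.valid2 Cfsg.Agent.Lib.ChevV3F4.valid3 Cfsg.Agent.Lib.ChevGTF4.ok hc (Cfsg.Agent.Lib.ChevGTF4.short_mem i hi hshort)
  · have hc : ∀ e ∈ Cfsg.Agent.Lib.ChevGTE6.dat.cd, ((e.2.2.2.2.2 : ℤ) : K) ≠ 0 := by
      intro e he
      simp [Cfsg.Agent.Lib.ChevGTE6.dat] at he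
    exact Cfsg.Agent.Lib.ChevGen.s2416_gen Cfsg.Agent.Lib.ChevValidE6.valid Cfsg.Agent.Lib.ChevV2E6.valid2 Cfsg.Agent.Lib.ChevV3E6.valid3 Cfsg.Agent.Lib.ChevGTE6.ok hc (Cfsg.Agent.Lib.ChevGTE6.short_mem i hi hshort)
  · have hc : ∀ e ∈ Cfsg.Agent.Lib.ChevGTE7.dat.cd, ((e.2.2.2.2.2 : ℤ) : K) ≠ 0 := by
      intro e he
      simp [Cfsg.Agent.Lib.ChevGTE7.dat] at he
    exact Cfsg.Agent.Lib.ChevGen.s2416_gen Cfsg.Agent.Lib.ChevValidE7.valid Cfsg.Agent.Lib.ChevV2E7.valid2 Cfsg.Agent.Lib.ChevV3E7.valid3 Cfsg.Agent.Lib.ChevGTE7.ok hc (Cfsg.Agent.Lib.ChevGTE7.short_mem i hi hshort)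
  · have hc : ∀ e ∈ Cfsg.Agent.Lib.ChevGTE8.dat.cd, ((e.2.2.2.2.2 : ℤ) : K) ≠ 0 := by
      intro e he
      simp [Cfsg.Agent.Lib.ChevGTE8.dat] at he
    exact Cfsg.Agent.Lib.ChevGen.s2416_gen Cfsg.Agent.Lib.ChevValidE8.valid Cfsg.Agent.Lib.ChevV2E8.valid2 Cfsg.Agent.Lib.ChevV3E8.valid3 Cfsg.Agent.Lib.ChevGTE8.ok hc (Cfsg.Agent.Lib.ChevGTE8.short_mem i hi hshort)

end Cfsg.Agent.S2416
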