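import Cfsg.Statements.S2419
import Cfsg.Agent.Lib.ChevV9G2
import Cfsg.Agent.Lib.ChevV9B2
import Cfsg.Agent.Lib.ChevV9D4
import Cfsg.Agent.Lib.ChevV9F4
import Cfsg.Agent.Lib.ChevV9E6
import Cfsg.Agent.Lib.ChevV9E7
import Cfsg.Agent.Lib.ChevV9E8

set_option autoImplicit false
open Cfsg

namespace Cfsg.Agent.S2419

/-- The Coxeter groups of types B₂, G₂, E₆, E₇, E₈ are generated by the Coxeter element `s₁ s₂ ⋯ s_l` together with one suitable reflection (a conjugate of a simple reflection); for types D₄ and F₄ the Coxeter element together with two suitable reflections suffices. -/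
theorem result (c : (Σ n : ℕ, CoxeterMatrix (Fin n)) × ℕ)
    (hc : c ∈ [(⟨2, CoxeterMatrix.B 2⟩, 1), (⟨2, CoxeterMatrix.G₂⟩, 1), (⟨4, Cfsg.Lie.coxeterD4⟩, 2), (⟨4, CoxeterMatrix.F₄⟩, 2),
      (⟨6, CoxeterMatrix.E₆⟩, 1), (⟨7, CoxeterMatrix.E₇⟩, 1), (⟨8, CoxeterMatrix.E₈⟩, 1)]) :
    ∃ T : Finset c.1.2.Group, T.card = c.2 ∧ (∀ t ∈ T, ∃ (g : c.1.2.Group) (i : Fin c.1.1), t = g * c.1.2.simple i * g⁻¹) ∧
      Subgroup.closure (({((List.finRange c.1.1).map c.1.2.simple).prod} : Set c.1.2.Group) ∪ ↑T) = ⊤ := by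
  simp only [List.mem_cons, List.not_mem_nil, or_false] at hc
  rcases hc with rfl | rfl | rfl | rfl | rfl | rfl | rfl
  · exact Cfsg.Agent.Lib.ChevV9B2.gens
  · exact Cfsg.Agent.Lib.ChevV9G2.gens
  · exact Cfsg.Agent.Lib.ChevV9D4.gens
  · exact Cfsg.Agent.Lib.ChevV9F4.gens
  · exact Cfsg.Agent.Lib.ChevV9E6.gens
  · exact Cfsg.Agent.Lib.ChevV9E7.gens
  · exact Cfsg.Agent.Lib.ChevV9E8.gens

end Cfsg.Agent.S2419
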