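import Cfsg.Statements.S2420


set_option autoImplicit false
open scoped MatrixGroups
open Cfsg

namespace Cfsg.Agent.S2420


open Matrix Finset
open scoped MatrixGroups

section Label
variable {n : ℕ} (μ : Fin n → ℕ)

/-- partial sums -/
def SS (c : Fin n) : ℕ := ∑ k ∈ Finset.univ.filter (fun k : Fin n => k ≤ c), μ k
def TT (c : Fin n) : ℕ := ∑ k ∈ Finset.univ.filter (fun k : Fin n => k < c), μ k

theorem SS_eq (c : Fin n) : SS μ c = TT μ c + μ c := by
  unfold SS TT
  have : Finset.univ.filter (fun k : Fin n => k ≤ c) = insert c (Finset.univ.filter (fun k : Fin n => k < c)) := by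
    ext k
    simp only [Finset.mem_filter, Finset.mem_univ, true_and, Finset.mem_insert]
    exact le_iff_eq_or_lt
  rw [this, Finset.sum_insert (by simp)]
  ring

theorem SS_le_TT {j c : Fin n} (h : j < c) : SS μ j ≤ TT μ c := by
  unfold SS TT
  apply Finset.sum_le_sum_of_subset
  intro k hk
  simp only [Finset.mem_filter, Finset.mem_univ, true_and] at hk ⊢
  exact lt_of_le_of_lt hk h

theorem SS_mono {j c : Fin n} (h : c ≤ j) : SS μ c ≤ SS μ j := by
  unfold SS
  apply Finset.sum_le_sum_of_subset
  intro k hk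
  simp only [Finset.mem_filter, Finset.mem_univ, true_and] at hk ⊢
  exact le_trans hk h

theorem label_of {i : Fin n} {c : Fin n} (h1 : TT μ c ≤ i.val) (h2 : i.val < SS μ c) : compLabel μ i = c.val := by
  unfold compLabel
  have : (Finset.univ.filter fun j : Fin n => (∑ k ∈ Finset.univ.filter (fun k : Fin n => k ≤ j), μ k) ≤ i.val)
      = Finset.univ.filter fun j : Fin n => j < c := by
    ext j
    simp only [Finset.mem_filter, Finset.mem_univ, true_and]
    constructor
    · intro h
      by_contra hc
      push Not at hc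
      have := SS_mono μ hc
      have h3 : SS μ j ≤ i.val := h
      omega
    · intro h
      have := SS_le_TT μ h
      show SS μ j ≤ i.val
      omega
  rw [this, show (Finset.univ.filter fun j : Fin n => j < c) = Finset.Iio c by ext; simp]
  exact Fin.card_Iio c

theorem exists_label (hμ : ∑ i, μ i = n) (i : Fin n) : ∃ c : Fin n, TT μ c ≤ i.val ∧ i.val < SS μ c := by
  classical
  have hn : 0 < n := by
    have := i.2
    omega
  have hlast : ∃ k : ℕ, ∃ h : k < n, i.val < SS μ ⟨k, h⟩ := by
    refine ⟨n - 1, by omega, ?_⟩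
    have : SS μ ⟨n - 1, by omega⟩ = n := by
      unfold SS
      rw [Finset.filter_true_of_mem]
      · exact hμ
      · intro k _
        show k.val ≤ n - 1
        omega
    rw [this]
    exact i.2
  let k := Nat.find hlast
  obtain ⟨hk, hk2⟩ := Nat.find_spec hlast
  refine ⟨⟨k, hk⟩, ?_, hk2⟩
  by_cases h0 : k = 0
  · have : TT μ ⟨k, hk⟩ = 0 := by
      unfold TT
      apply Finset.sum_eq_zero
      intro x hx
      simp only [Finset.mem_filter, Finset.mem_univ, true_and] at hx
      exfalso
      have : x.val < k := hx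
      omega
    rw [this]
    omega
  · have hmin := Nat.find_min hlast (m := k - 1) (by omega)
    push Not at hmin
    have h1 := hmin (by omega)
    have : TT μ ⟨k, hk⟩ = SS μ ⟨k - 1, by omega⟩ := by
      unfold TT SS
      congr 1
      ext x
      simp only [Finset.mem_filter, Finset.mem_univ, true_and]
      constructor
      · intro h
        have : x.val < k := h
        show x.val ≤ k - 1
        omega
      · intro h
        have : x.val ≤ k - 1 := h
        show x.val < k
        omega
    rw [this]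
    exact h1

theorem label_lt (hμ : ∑ i, μ i = n) (i : Fin n) : compLabel μ i < n := by
  obtain ⟨c, h1, h2⟩ := exists_label μ hμ i
  rw [label_of μ h1 h2]
  exact c.2

theorem SS_le (hμ : ∑ i, μ i = n) (c : Fin n) : SS μ c ≤ n := by
  have h : SS μ c ≤ ∑ i, μ i := by
    unfold SS
    exact Finset.sum_le_sum_of_subset (Finset.subset_univ _)
  omega

theorem card_fibre (hμ : ∑ i, μ i = n) (c : Fin n) :
    (Finset.univ.filter (fun i : Fin n => compLabel μ i = c.val)).card = μ c := by
  have h : Finset.univ.filter (fun i : Fin n => compLabel μ i = c.val)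
      = Finset.univ.filter (fun i : Fin n => TT μ c ≤ i.val ∧ i.val < SS μ c) := by
    ext i
    simp only [Finset.mem_filter, Finset.mem_univ, true_and]
    constructor
    · intro h
      obtain ⟨c', h1, h2⟩ := exists_label μ hμ i
      have := label_of μ h1 h2
      have hc : c' = c := Fin.ext (by omega)
      rw [← hc]
      exact ⟨h1, h2⟩
    · rintro ⟨h1, h2⟩
      exact label_of μ h1 h2
  rw [h]
  have h2 : (Finset.univ.filter (fun i : Fin n => TT μ c ≤ i.val ∧ i.val < SS μ c)).card = (Finset.Ico (TT μ c) (SS μ c)).card := by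
    apply Finset.card_bij (fun i _ => i.val)
    · intro i hi
      simp only [Finset.mem_filter, Finset.mem_univ, true_and] at hi
      simpa using hi
    · intro a _ b _ h
      exact Fin.ext h
    · intro b hb
      rw [Finset.mem_Ico] at hb
      have := SS_le μ hμ c
      exact ⟨⟨b, by omega⟩, by simpa using hb, rfl⟩
  rw [h2, Nat.card_Ico, SS_eq]
  omega

end Label

section Count

variable {F : Type*} [Field F] [Fintype F] {q : ℕ}

/-- q-factorial -/
def gg (q r : ℕ) : ℕ := ∏ j ∈ Finset.range r, ∑ l ∈ Finset.range (j + 1), q ^ l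

theorem pow_sub_one_eq (q k : ℕ) (hq : 1 ≤ q) : q ^ k - 1 = (q - 1) * ∑ l ∈ Finset.range k, q ^ l := by
  have := Nat.geomSum_eq (m := q)
  obtain ⟨p, rfl⟩ : ∃ p, q = p + 1 := ⟨q - 1, by omega⟩
  simp only [Nat.add_sub_cancel]
  have h := geom_sum_mul_add p k
  have h3 : (∑ l ∈ Finset.range k, (p + 1) ^ l) * p + 1 = (p + 1) ^ k := h
  rw [← h3]
  simp only [Nat.add_sub_cancel]
  ring

theorem card_GL_formula (hq : Fintype.card F = q) (r : ℕ) :
    Nat.card (GL (Fin r) F) = q ^ (r * (r - 1) / 2) * (q - 1) ^ r * gg q r := by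
  have hq1 : 1 ≤ q := by
    have := Fintype.one_lt_card (α := F)
    omega
  have h1 := Matrix.card_GL_field (𝔽 := F) r
  rw [hq] at h1
  rw [h1, Fin.prod_univ_eq_prod_range (fun i => q ^ r - q ^ i) r]
  have h2 : ∀ i ∈ Finset.range r, q ^ r - q ^ i = q ^ i * ((q - 1) * ∑ l ∈ Finset.range (r - 1 - i + 1), q ^ l) := by
    intro i hi
    rw [Finset.mem_range] at hi
    rw [← pow_sub_one_eq q _ hq1, Nat.mul_sub, mul_one, ← pow_add]
    congr 2
    omega
  rw [Finset.prod_congr rfl h2, Finset.prod_mul_distrib, Finset.prod_mul_distrib, Finset.prod_pow_eq_pow_sum, Finset.sum_range_id,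
    Finset.prod_const, Finset.card_range, mul_assoc]
  congr 2
  unfold gg
  exact Finset.prod_range_reflect (fun j => ∑ l ∈ Finset.range (j + 1), q ^ l) r

end Count

section Para

variable {F : Type*} [Field F] [Fintype F] {n q : ℕ} (μ : Fin n → ℕ) (hμ : ∑ i, μ i = n)

/-- The matrix with prescribed diagonal blocks and entries above them. -/
noncomputable def MM (A : ∀ c : Fin n, GL {a : Fin n // compLabel μ a = c.val} F)
    (X : {p : Fin n × Fin n // compLabel μ p.1 < compLabel μ p.2} → F) : Matrix (Fin n) (Fin n) F := fun i j =>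
  if h : compLabel μ i = compLabel μ j then
    ((A ⟨compLabel μ i, label_lt μ hμ i⟩ : GL {a : Fin n // compLabel μ a = compLabel μ i} F) : Matrix {a : Fin n // compLabel μ a = compLabel μ i} {a : Fin n // compLabel μ a = compLabel μ i} F) ⟨i, rfl⟩ ⟨j, h.symm⟩
  else if h' : compLabel μ i < compLabel μ j then X ⟨(i, j), h'⟩ else 0

theorem MM_tri (A : ∀ c : Fin n, GL {a : Fin n // compLabel μ a = c.val} F)
    (X : {p : Fin n × Fin n // compLabel μ p.1 < compLabel μ p.2} → F) : (MM μ hμ A X).BlockTriangular (compLabel μ) := by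
  intro i j h
  unfold MM
  rw [dif_neg (ne_of_gt h), dif_neg (not_lt.2 h.le)]

theorem MM_block (A : ∀ c : Fin n, GL {a : Fin n // compLabel μ a = c.val} F)
    (X : {p : Fin n × Fin n // compLabel μ p.1 < compLabel μ p.2} → F) (c : Fin n) :
    (MM μ hμ A X).toSquareBlock (compLabel μ) c.val = ((A c : GL {a : Fin n // compLabel μ a = c.val} F) : Matrix _ _ F) := by
  ext ⟨a, ha⟩ ⟨b, hb⟩
  show MM μ hμ A X a b = _
  unfold MM
  rw [dif_pos (ha.trans hb.symm)]
  have hc : c = ⟨compLabel μ a, label_lt μ hμ a⟩ := Fin.ext ha.symm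
  subst hc
  rfl

theorem MM_det (A : ∀ c : Fin n, GL {a : Fin n // compLabel μ a = c.val} F)
    (X : {p : Fin n × Fin n // compLabel μ p.1 < compLabel μ p.2} → F) : (MM μ hμ A X).det ≠ 0 := by
  rw [(MM_tri μ hμ A X).det, Finset.prod_ne_zero_iff]
  intro k hk
  obtain ⟨i, -, rfl⟩ := Finset.mem_image.1 hk
  have := MM_block μ hμ A X ⟨compLabel μ i, label_lt μ hμ i⟩
  simp only at this
  rw [this]
  exact ((Matrix.isUnit_iff_isUnit_det _).1 (A ⟨compLabel μ i, label_lt μ hμ i⟩).isUnit).ne_zero

/-- The parametrisation of the parabolic subgroup. -/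
noncomputable def PHI (A : (∀ c : Fin n, GL {a : Fin n // compLabel μ a = c.val} F) × ({p : Fin n × Fin n // compLabel μ p.1 < compLabel μ p.2} → F)) :
    ↥(parabolicGL n F μ) :=
  ⟨Matrix.GeneralLinearGroup.mkOfDetNeZero (MM μ hμ A.1 A.2) (MM_det μ hμ A.1 A.2), MM_tri μ hμ A.1 A.2⟩

theorem PHI_val (A) : (((PHI μ hμ A : ↥(parabolicGL n F μ)) : GL (Fin n) F) : Matrix (Fin n) (Fin n) F) = MM μ hμ A.1 A.2 := rfl

theorem PHI_bij : Function.Bijective (PHI (F := F) μ hμ) := by
  classical
  constructor
  · rintro ⟨A, X⟩ ⟨A', X'⟩ h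
    have h1 : MM μ hμ A X = MM μ hμ A' X' := by
      have := congrArg (fun g : ↥(parabolicGL n F μ) => ((g : GL (Fin n) F) : Matrix (Fin n) (Fin n) F)) h
      simpa only [PHI_val] using this
    refine Prod.ext ?_ ?_
    · funext c
      apply Units.ext
      exact (MM_block μ hμ A X c).symm.trans ((congrArg (fun M => M.toSquareBlock (compLabel μ) c.val) h1).trans (MM_block μ hμ A' X' c))
    · funext ⟨⟨i, j⟩, hp⟩
      have := congrFun (congrFun h1 i) j
      unfold MM at this
      have hp' : compLabel μ i < compLabel μ j := hp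
      rw [dif_neg (ne_of_lt hp'), dif_neg (ne_of_lt hp'), dif_pos hp', dif_pos hp'] at this
      exact this
  · rintro ⟨g, hg⟩
    have htri : (g : Matrix (Fin n) (Fin n) F).BlockTriangular (compLabel μ) := hg
    have hd : (g : Matrix (Fin n) (Fin n) F).det ≠ 0 := ((Matrix.isUnit_iff_isUnit_det _).1 g.isUnit).ne_zero
    have hblock : ∀ c : Fin n, ((g : Matrix (Fin n) (Fin n) F).toSquareBlock (compLabel μ) c.val).det ≠ 0 := by
      intro c
      by_cases hc : c.val ∈ Finset.univ.image (compLabel μ)
      · rw [htri.det, Finset.prod_ne_zero_iff] at hd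
        exact hd _ hc
      · haveI : IsEmpty {a : Fin n // compLabel μ a = c.val} := ⟨fun ⟨a, ha⟩ => hc (Finset.mem_image.2 ⟨a, Finset.mem_univ _, ha⟩)⟩
        rw [Matrix.det_isEmpty]
        exact one_ne_zero
    refine ⟨(fun c => Matrix.GeneralLinearGroup.mkOfDetNeZero _ (hblock c), fun p => (g : Matrix (Fin n) (Fin n) F) p.1.1 p.1.2), ?_⟩
    apply Subtype.ext
    apply Units.ext
    show MM μ hμ _ _ = _
    funext i j
    unfold MM
    by_cases h : compLabel μ i = compLabel μ j
    · rw [dif_pos h]
      rfl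
    · rw [dif_neg h]
      by_cases h' : compLabel μ i < compLabel μ j
      · rw [dif_pos h']
      · rw [dif_neg h']
        have : compLabel μ j < compLabel μ i := lt_of_le_of_ne (not_lt.1 h') (Ne.symm h)
        exact (htri this).symm

include hμ in
theorem card_para (hq : Fintype.card F = q) :
    Nat.card ↥(parabolicGL n F μ) = (∏ c : Fin n, (q ^ (μ c * (μ c - 1) / 2) * (q - 1) ^ (μ c) * gg q (μ c))) *
      q ^ Nat.card {p : Fin n × Fin n // compLabel μ p.1 < compLabel μ p.2} := by
  classical
  rw [← Nat.card_congr (Equiv.ofBijective _ (PHI_bij (F := F) μ hμ)), Nat.card_prod, Nat.card_pi, Nat.card_fun, Nat.card_eq_fintype_card (α := F), hq]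
  congr 1
  apply Finset.prod_congr rfl
  intro c _
  rw [← card_GL_formula hq]
  have hc : Fintype.card {a : Fin n // compLabel μ a = c.val} = μ c := by
    rw [Fintype.card_subtype]
    exact card_fibre μ hμ c
  exact Nat.card_congr (Units.mapEquiv (Matrix.reindexAlgEquiv F F (Fintype.equivFinOfCardEq hc)).toMulEquiv).toEquiv

include hμ in
theorem count_pairs : 2 * Nat.card {p : Fin n × Fin n // compLabel μ p.1 < compLabel μ p.2} + ∑ c : Fin n, μ c * μ c = n * n := by
  classical
  have h0 : Nat.card {p : Fin n × Fin n // compLabel μ p.1 < compLabel μ p.2} =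
      (Finset.univ.filter (fun p : Fin n × Fin n => compLabel μ p.1 < compLabel μ p.2)).card := by
    rw [Nat.card_eq_fintype_card, Fintype.card_subtype]
  have h1 : (Finset.univ.filter (fun p : Fin n × Fin n => compLabel μ p.1 > compLabel μ p.2)).card =
      (Finset.univ.filter (fun p : Fin n × Fin n => compLabel μ p.1 < compLabel μ p.2)).card := by
    apply Finset.card_bij (fun p _ => (p.2, p.1))
    · intro p hp
      simpa using hp
    · intro a _ b _ h
      simp only [Prod.mk.injEq] at h
      exact Prod.ext h.2 h.1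
    · intro b hb
      exact ⟨(b.2, b.1), by simpa using hb, rfl⟩
  have h2 : (Finset.univ.filter (fun p : Fin n × Fin n => compLabel μ p.1 = compLabel μ p.2)).card = ∑ c : Fin n, μ c * μ c := by
    have h3 : ∀ p ∈ (Finset.univ.filter (fun p : Fin n × Fin n => compLabel μ p.1 = compLabel μ p.2)),
        (⟨compLabel μ p.1, label_lt μ hμ p.1⟩ : Fin n) ∈ (Finset.univ : Finset (Fin n)) := fun _ _ => Finset.mem_univ _
    rw [Finset.card_eq_sum_card_fiberwise h3]
    apply Finset.sum_congr rfl
    intro c _
    rw [← card_fibre μ hμ c, ← Finset.card_product]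
    congr 1
    ext ⟨i, j⟩
    simp only [Finset.mem_filter, Finset.mem_univ, true_and, Finset.mem_product, Fin.ext_iff]
    constructor
    · rintro ⟨h4, h5⟩
      exact ⟨h5, h4 ▸ h5⟩
    · rintro ⟨h4, h5⟩
      exact ⟨h4.trans h5.symm, h4⟩
  have h3 : (Finset.univ : Finset (Fin n × Fin n)).card = n * n := by
    simp [Finset.card_univ]
  have h4 : (Finset.univ.filter (fun p : Fin n × Fin n => compLabel μ p.1 < compLabel μ p.2)).card +
      (Finset.univ.filter (fun p : Fin n × Fin n => compLabel μ p.1 > compLabel μ p.2)).card +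
      (Finset.univ.filter (fun p : Fin n × Fin n => compLabel μ p.1 = compLabel μ p.2)).card = (Finset.univ : Finset (Fin n × Fin n)).card := by
    rw [← Finset.card_union_of_disjoint, ← Finset.card_union_of_disjoint]
    · congr 1
      ext p
      simp only [Finset.mem_union, Finset.mem_filter, Finset.mem_univ, true_and, iff_true]
      rcases lt_trichotomy (compLabel μ p.1) (compLabel μ p.2) with h | h | h
      · exact Or.inl (Or.inl h)
      · exact Or.inr h
      · exact Or.inl (Or.inr h)
    · rw [Finset.disjoint_left]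
      intro p hp hp'
      simp only [Finset.mem_union, Finset.mem_filter, Finset.mem_univ, true_and] at hp hp'
      rcases hp with hp | hp <;> omega
    · rw [Finset.disjoint_left]
      intro p hp hp'
      simp only [Finset.mem_filter, Finset.mem_univ, true_and] at hp hp'
      omega
  rw [h0]
  rw [h1, h2, h3] at h4
  linarith

end Para


/-- The number of partial flags of a given type: for a composition `μ` of `n` (with `n` parts, zeros allowed) and a field with `q` elements, the index of the standard parabolic subgroup `P_μ` in `GL_n(q)` times `∏_i {μ_i}` equals `{n}`, where `{r}` denotes the product over `k = 1, …, r` of the q-integers `1 + q + ⋯ + q^(k−1)`. -/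
theorem result {F : Type*} [Field F] [Fintype F] {q : ℕ} (hq : Fintype.card F = q) {n : ℕ} (μ : Fin n → ℕ) (hμ : ∑ i, μ i = n) :
    Nat.card (GL (Fin n) F ⧸ Cfsg.parabolicGL n F μ) * ∏ i : Fin n, ∏ j ∈ Finset.range (μ i), ∑ l ∈ Finset.range (j + 1), q ^ l =
      ∏ j ∈ Finset.range n, ∑ l ∈ Finset.range (j + 1), q ^ l := by
  classical
  have hq1 : 1 ≤ q := by
    have := Fintype.one_lt_card (α := F)
    omega
  have hq2 : 2 ≤ q := by
    have := Fintype.one_lt_card (α := F)
    omega
  have hL := Subgroup.card_eq_card_quotient_mul_card_subgroup (parabolicGL n F μ)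
  rw [card_GL_formula hq, card_para μ hμ hq] at hL
  set N := Nat.card (GL (Fin n) F ⧸ parabolicGL n F μ) with hN
  set X := Nat.card {p : Fin n × Fin n // compLabel μ p.1 < compLabel μ p.2} with hX
  have hc := count_pairs μ hμ
  have he : ∀ r : ℕ, 2 * (r * (r - 1) / 2) + r = r * r := by
    intro r
    have h1 : 2 ∣ r * (r - 1) := (Nat.even_mul_pred_self r).two_dvd
    rw [Nat.mul_div_cancel' h1]
    cases r with
    | zero => simp
    | succ k => simp only [Nat.add_sub_cancel]; ring
  have hsum : 2 * (∑ c : Fin n, μ c * (μ c - 1) / 2) + n = ∑ c : Fin n, μ c * μ c := by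
    calc 2 * (∑ c : Fin n, μ c * (μ c - 1) / 2) + n = 2 * (∑ c : Fin n, μ c * (μ c - 1) / 2) + ∑ c : Fin n, μ c := by rw [hμ]
      _ = ∑ c : Fin n, μ c * μ c := by
        rw [Finset.mul_sum, ← Finset.sum_add_distrib]
        exact Finset.sum_congr rfl fun c _ => he _
  have hen := he n
  have hexp : (∑ c : Fin n, μ c * (μ c - 1) / 2) + X = n * (n - 1) / 2 := by
    have h1 : 2 * ((∑ c : Fin n, μ c * (μ c - 1) / 2) + X) = 2 * (n * (n - 1) / 2) := by
      rw [← hX] at hc
      nlinarith
    omega
  have hprod : (∏ c : Fin n, (q ^ (μ c * (μ c - 1) / 2) * (q - 1) ^ (μ c) * gg q (μ c))) * q ^ X =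
      q ^ (n * (n - 1) / 2) * (q - 1) ^ n * ∏ c : Fin n, gg q (μ c) := by
    rw [Finset.prod_mul_distrib, Finset.prod_mul_distrib, Finset.prod_pow_eq_pow_sum, Finset.prod_pow_eq_pow_sum, hμ, ← hexp, pow_add]
    ring
  rw [hprod] at hL
  have hpos : 0 < q ^ (n * (n - 1) / 2) * (q - 1) ^ n := by
    have h1 : 0 < q - 1 := by omega
    positivity
  have hfin : gg q n = N * ∏ c : Fin n, gg q (μ c) := by
    apply Nat.eq_of_mul_eq_mul_left hpos
    rw [hL]
    ring
  exact hfin.symm

end Cfsg.Agent.S2420
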