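import Cfsg.Statements.S2427
import Cfsg.Agent.Lib.H1PSL2P

set_option autoImplicit false
open Cfsg

namespace Cfsg.Agent.S2427

open Matrix Cfsg.Agent.Lib.H1GL2 Cfsg.Agent.Lib.H1SL2 Cfsg.Agent.Lib.H1PSL2 Cfsg.Agent.Lib.H1PSL2P

/-- The group. -/
abbrev G3 := Matrix.SpecialLinearGroup (Fin 2) (ZMod 3)

def uu3 : G3 := ⟨!![0, -1; 1, 0], by decide +kernel⟩
def ww3 : G3 := ⟨!![1, 1; 1, -1], by decide +kernel⟩
def tt3 : G3 := ⟨!![1, 1; 0, 1], by decide +kernel⟩

def ff3 : QuaternionGroup 2 → G3
  | .a i => uu3 ^ i.val
  | .xa i => ww3 * uu3 ^ i.val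

theorem ff3_mul : ∀ x y : QuaternionGroup 2, ff3 (x * y) = ff3 x * ff3 y := by decide +kernel

theorem ff3_inj : ∀ x y : QuaternionGroup 2, ff3 x = ff3 y → x = y := by decide +kernel

theorem mem_ff3 : ∀ g : G3, (∃ x, ff3 x = g) ↔ (g = 1 ∨ g = mone ∨ tr g = 0) := by
  decide +kernel

theorem comm_tr : ∀ g : G3, (g = 1 ∨ g = mone ∨ tr g = 0) ∨ tr (uu3 * g * uu3⁻¹ * g⁻¹) = 0 := by
  decide +kernel

theorem comm_all : ∀ g h : G3, (g * h * g⁻¹ * h⁻¹ = 1 ∨ g * h * g⁻¹ * h⁻¹ = mone ∨
    tr (g * h * g⁻¹ * h⁻¹) = 0) := by
  decide +kernel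

theorem tr_comm_tt : tr (uu3 * tt3 * uu3⁻¹ * tt3⁻¹) = 0 := by decide +kernel

theorem tr_sq_zero : ∀ g : G3, tr g = 0 → g * g = mone := by decide +kernel

theorem tr_ne : ((0 : ZMod 3) ^ 2 ≠ 4) := by decide +kernel

theorem one_ne_mone' : (1 : G3) ≠ mone := by decide +kernel

/-- The homomorphism from the quaternion group. -/
def ffHom : QuaternionGroup 2 →* G3 := MonoidHom.mk' ff3 ff3_mul

theorem ffHom_inj : Function.Injective ffHom := fun x y h => ff3_inj x y h

theorem mem_Q (g : G3) : g ∈ ffHom.range ↔ (g = 1 ∨ g = mone ∨ tr g = 0) := by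
  rw [← mem_ff3 g]
  rfl

theorem card_Q : Nat.card ffHom.range = 8 := by
  rw [Nat.card_congr (MonoidHom.ofInjective ffHom_inj).toEquiv.symm, Nat.card_eq_fintype_card, QuaternionGroup.card]

theorem Q_le (N : Subgroup G3) (hN : N.Normal) (g : G3) (hg : g ∈ N) (h0 : tr g = 0) :
    ffHom.range ≤ N := by
  intro z hz
  rcases (mem_Q z).mp hz with rfl | rfl | hz
  · exact N.one_mem
  · rw [← tr_sq_zero g h0]
    exact N.mul_mem hg hg
  · have h1 : IsConj g z := by
      apply conj_of_trace
      · rw [h0, hz]
      · rw [h0]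
        exact tr_ne
    obtain ⟨c, hc⟩ := isConj_iff.mp h1
    rw [← hc]
    exact hN.conj_mem g hg c

theorem comm_eq : commutator G3 = ffHom.range := by
  apply le_antisymm
  · rw [commutator, Subgroup.commutator_le]
    intro g _ h _
    rw [commutatorElement_def, mem_Q]
    exact comm_all g h
  · apply Q_le _ inferInstance _ _ tr_comm_tt
    have := Subgroup.commutator_mem_commutator (Subgroup.mem_top uu3) (Subgroup.mem_top tt3)
    rw [commutatorElement_def] at this
    exact this

theorem card_G3 : Nat.card G3 = 24 := by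
  rw [card_sl2]
  simp [ZMod.card]

/-- The group SL₂ over the field with 3 elements has order 24 and centre of order 2; its commutator subgroup has order 8, is isomorphic to the quaternion group of order 8 and is complemented by every Sylow 3-subgroup (so the group is a semidirect product of a quaternion group of order 8 by a cyclic group of order 3); and its only normal subgroups besides the trivial subgroup and the whole group are the centre and the commutator subgroup. -/
theorem result :
    Nat.card (Matrix.SpecialLinearGroup (Fin 2) (ZMod 3)) = 24 ∧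
    Nat.card (Subgroup.center (Matrix.SpecialLinearGroup (Fin 2) (ZMod 3))) = 2 ∧
    Nat.card (commutator (Matrix.SpecialLinearGroup (Fin 2) (ZMod 3))) = 8 ∧
    Nonempty (commutator (Matrix.SpecialLinearGroup (Fin 2) (ZMod 3)) ≃* QuaternionGroup 2) ∧
    (∀ P : Sylow 3 (Matrix.SpecialLinearGroup (Fin 2) (ZMod 3)),
      Subgroup.IsComplement' (commutator (Matrix.SpecialLinearGroup (Fin 2) (ZMod 3)))
        (P : Subgroup (Matrix.SpecialLinearGroup (Fin 2) (ZMod 3)))) ∧
    ∀ N : Subgroup (Matrix.SpecialLinearGroup (Fin 2) (ZMod 3)), N.Normal →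
      N = ⊥ ∨ N = ⊤ ∨ N = Subgroup.center (Matrix.SpecialLinearGroup (Fin 2) (ZMod 3)) ∨
        N = commutator (Matrix.SpecialLinearGroup (Fin 2) (ZMod 3)) := by

  have hc24 := card_G3
  have hcQ : Nat.card (commutator G3) = 8 := by rw [comm_eq]; exact card_Q
  refine ⟨hc24, ?_, hcQ, ?_, ?_, ?_⟩
  · have h1 : ((Subgroup.center G3 : Subgroup G3) : Set G3) = {1, mone} := by
      ext c
      simp only [SetLike.mem_coe, Set.mem_insert_iff, Set.mem_singleton_iff]
      exact mem_center_iff c
    have h2 : Nat.card (Subgroup.center G3) = Set.ncard ((Subgroup.center G3 : Subgroup G3) : Set G3) :=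
      (Nat.card_coe_set_eq _).symm
    rw [h2, h1]
    exact Set.ncard_pair one_ne_mone'
  · exact ⟨(MulEquiv.subgroupCongr comm_eq).trans (MonoidHom.ofInjective ffHom_inj).symm⟩
  · intro P
    have hP : Nat.card P = 3 := by
      rw [Sylow.card_eq_multiplicity, hc24]
      have : Nat.factorization 24 3 = 1 := by
        have e : (24 : ℕ) = 3 ^ 1 * 8 := by norm_num
        rw [e, Nat.factorization_mul (by norm_num) (by norm_num), Nat.Prime.factorization_pow Nat.prime_three]
        simp [Nat.factorization_eq_zero_of_not_dvd]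
      rw [this, pow_one]
    apply Subgroup.isComplement'_of_coprime
    · rw [hcQ, hP, hc24]
    · rw [hcQ, hP]
      norm_num
  · intro N hN
    by_cases h1 : ∃ g ∈ N, ¬ (g = 1 ∨ g = mone ∨ tr g = 0)
    · obtain ⟨g, hg, hg'⟩ := h1
      have h2 := (comm_tr g).resolve_left hg'
      have h3 : uu3 * g * uu3⁻¹ * g⁻¹ ∈ N := N.mul_mem (hN.conj_mem g hg uu3) (N.inv_mem hg)
      have h4 := Q_le N hN _ h3 h2
      right; left
      apply Subgroup.eq_top_of_card_eq
      rw [hc24]
      have h8 : 8 ∣ Nat.card N := by
        have := Subgroup.card_dvd_of_le h4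
        rwa [card_Q] at this
      have h24 : Nat.card N ∣ 24 := by
        have := Subgroup.card_subgroup_dvd_card N
        rwa [hc24] at this
      have hne : Nat.card N ≠ 8 := by
        intro h
        have h5 : ffHom.range = N := Subgroup.eq_of_le_of_card_ge h4 (by rw [h, card_Q])
        apply hg'
        rw [← mem_Q, h5]
        exact hg
      have hle := Nat.le_of_dvd (by norm_num) h24
      have hpos : 0 < Nat.card N := Nat.card_pos
      obtain ⟨j, hj⟩ := h8
      rw [hj] at h24 hne hle hpos ⊢
      have : j ≤ 3 := by omega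
      interval_cases j
      · omega
      · omega
      · exact absurd h24 (by norm_num)
      · rfl
    · push Not at h1
      have hNQ : N ≤ ffHom.range := by
        intro g hg
        rw [mem_Q]
        exact h1 g hg
      by_cases h2 : ∃ g ∈ N, tr g = 0
      · obtain ⟨g, hg, h0⟩ := h2
        right; right; right
        rw [comm_eq]
        exact le_antisymm hNQ (Q_le N hN g hg h0)
      · push Not at h2
        have hNZ : ∀ g ∈ N, g = 1 ∨ g = mone := by
          intro g hg
          rcases (h1 g hg) with h | h | h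
          · exact Or.inl h
          · exact Or.inr h
          · exact absurd h (h2 g hg)
        by_cases h3 : (mone : G3) ∈ N
        · right; right; left
          apply le_antisymm
          · intro g hg
            exact (mem_center_iff g).mpr (hNZ g hg)
          · intro g hg
            rcases (mem_center_iff g).mp hg with rfl | rfl
            · exact N.one_mem
            · exact h3
        · left
          rw [Subgroup.eq_bot_iff_forall]
          intro g hg
          rcases hNZ g hg with h | h
          · exact h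
          · exact absurd (h ▸ hg) h3

end Cfsg.Agent.S2427
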