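import Cfsg.Statements.S2428
import Cfsg.Agent.Lib.H1Torus2

set_option autoImplicit false
open Cfsg

namespace Cfsg.Agent.S2428

/-- Let F be a finite field with q elements, q odd, and let d be a diagonal element of SL₂ over F whose diagonal entry a has a² ≠ 1 (such d exist exactly when q > 3). Then the centraliser of d is precisely the diagonal subgroup T; the normaliser of T has order 2(q − 1) and exactly (q + 5)/2 conjugacy classes; and every element of that normaliser outside T has square equal to −1. -/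
theorem result {F : Type*} [Field F] [Fintype F] (hodd : Odd (Fintype.card F))
    (d : Matrix.SpecialLinearGroup (Fin 2) F) (hd01 : (d : Matrix (Fin 2) (Fin 2) F) 0 1 = 0) (hd10 : (d : Matrix (Fin 2) (Fin 2) F) 1 0 = 0) (hda : (d : Matrix (Fin 2) (Fin 2) F) 0 0 ^ 2 ≠ 1) :
    (∀ g : Matrix.SpecialLinearGroup (Fin 2) F, g ∈ Subgroup.centralizer ({d} : Set (Matrix.SpecialLinearGroup (Fin 2) F)) ↔ ((g : Matrix (Fin 2) (Fin 2) F) 0 1 = 0 ∧ (g : Matrix (Fin 2) (Fin 2) F) 1 0 = 0)) ∧
    Nat.card (Subgroup.normalizer ((Subgroup.centralizer ({d} : Set (Matrix.SpecialLinearGroup (Fin 2) F))) : Set (Matrix.SpecialLinearGroup (Fin 2) F))) = 2 * (Fintype.card F - 1) ∧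
    Nat.card (ConjClasses (Subgroup.normalizer ((Subgroup.centralizer ({d} : Set (Matrix.SpecialLinearGroup (Fin 2) F))) : Set (Matrix.SpecialLinearGroup (Fin 2) F)))) = (Fintype.card F + 5) / 2 ∧
    ∀ g : Matrix.SpecialLinearGroup (Fin 2) F, g ∈ Subgroup.normalizer ((Subgroup.centralizer ({d} : Set (Matrix.SpecialLinearGroup (Fin 2) F))) : Set (Matrix.SpecialLinearGroup (Fin 2) F)) →
      g ∉ Subgroup.centralizer ({d} : Set (Matrix.SpecialLinearGroup (Fin 2) F)) → ((g * g) : Matrix (Fin 2) (Fin 2) F) = -1 := by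
  classical
  open Cfsg.Agent.Lib.H1Torus Cfsg.Agent.Lib.H1GL2 Cfsg.Agent.Lib.H1SL2 Cfsg.Agent.Lib.H1PSL2 in
  have hx := diag_tr hd01 hda
  have hq : 1 < Fintype.card F := Fintype.one_lt_card
  obtain ⟨k, hk⟩ := hodd
  have hm : 0 < k := by omega
  obtain ⟨ζ, hζ⟩ := IsCyclic.exists_ofOrder_eq_natCard (α := Fˣ)
  rw [Nat.card_units, Nat.card_eq_fintype_card] at hζ
  have hζgen : ∀ u : Fˣ, ∃ k : ℕ, u = ζ ^ k := by
    intro u
    have h1 : Function.Bijective (fun i : Fin (orderOf ζ) => ζ ^ (i : ℕ)) := by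
      rw [Fintype.bijective_iff_injective_and_card]
      refine ⟨fun i j h => Fin.ext (pow_injOn_Iio_orderOf i.2 j.2 h), ?_⟩
      rw [Fintype.card_fin, hζ, Fintype.card_units]
    obtain ⟨i, hi⟩ := h1.2 u
    exact ⟨i, hi.symm⟩
  have hgen := diag_gen ζ hζgen hd01 hd10 hda
  have hord : orderOf (dg ζ) = 2 * k := by
    rw [orderOf_injective dg dg_injective, hζ, hk]
    omega
  have hτ : dg ζ ∈ Tz d := (mem_Tz_diag hd01 hd10 hda _).mpr ⟨rfl, rfl⟩
  have hcard : Nat.card (Tz d) = 2 * k := by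
    have h1 : Tz d = Subgroup.zpowers (dg ζ) := by
      apply le_antisymm
      · intro t ht
        obtain ⟨j, rfl⟩ := hgen t ht
        exact Subgroup.npow_mem_zpowers _ j
      · rw [Subgroup.zpowers_le]
        exact hτ
    rw [h1, Nat.card_zpowers, hord]
  refine ⟨mem_Tz_diag hd01 hd10 hda, ?_, ?_, ?_⟩
  · have := card_normalizer hx
    rw [hcard] at this
    rw [this, hk]
    simp
  · have := card_classes_normalizer hx (dg ζ) k hm hτ hgen hord
    rw [this, hk]
    omega
  · intro g hg hgT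
    have h1 := sq_outside hx hg hgT
    have h2 := congrArg Subtype.val h1
    rw [Matrix.SpecialLinearGroup.coe_mul] at h2
    rw [h2]
    apply m2_ext <;> simp [mone]

end Cfsg.Agent.S2428
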