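import Cfsg.Statements.S2438
import Cfsg.Agent.Lib.LdSL6

set_option autoImplicit false
open Cfsg

namespace Cfsg.Agent.S2438

open Cfsg.Agent.Lib.LdGL1 Cfsg.Agent.Lib.LdGL2 Cfsg.Agent.Lib.LdGL3 Cfsg.Agent.Lib.LdGL4 Cfsg.Agent.Lib.LdGL5 Cfsg.Agent.Lib.LdSL1 Cfsg.Agent.Lib.LdSL2 Cfsg.Agent.Lib.LdSL3 Cfsg.Agent.Lib.LdSL4 Cfsg.Agent.Lib.LdSL5 Cfsg.Agent.Lib.LdSL6 Cfsg.Agent.Lib.H1GL2 Cfsg.Agent.Lib.H1SL2 Cfsg.Agent.Lib.CharBasic Cfsg.Agent.Lib.CharAlg Cfsg.Agent.Lib.CharOrth
open scoped ComplexConjugate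

/-- Let F be a finite field with q elements, q odd, q ≥ 5, U the upper unitriangular subgroup of SL₂ over F, and χ an irreducible complex character. The sum of the values of χ over U equals 2q, q, 0, q, 0 according as the degree of χ is q + 1, q, q − 1, (q + 1)/2, (q − 1)/2; so among these five degrees the sum vanishes exactly for the degrees q − 1 and (q − 1)/2, i.e. the irreducible characters of those two degrees are the ones whose restriction to U does not contain the trivial character (the cuspidal characters), while those of degree q + 1, q and (q + 1)/2 are not cuspidal. -/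
theorem result {F : Type*} [Field F] [Fintype F] [DecidableEq F] (hodd : Odd (Fintype.card F)) (hq : 5 ≤ Fintype.card F)
    (χ : Matrix.SpecialLinearGroup (Fin 2) F → ℂ) (hχ : Cfsg.IsIrrCharacter (Matrix.SpecialLinearGroup (Fin 2) F) χ) :
    (χ 1 = (Fintype.card F : ℂ) + 1 →
      (∑ g : Matrix.SpecialLinearGroup (Fin 2) F, if (g : Matrix (Fin 2) (Fin 2) F) 1 0 = 0 ∧ (g : Matrix (Fin 2) (Fin 2) F) 0 0 = 1 ∧ (g : Matrix (Fin 2) (Fin 2) F) 1 1 = 1 then χ g else 0) = 2 * (Fintype.card F : ℂ)) ∧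
    (χ 1 = (Fintype.card F : ℂ) →
      (∑ g : Matrix.SpecialLinearGroup (Fin 2) F, if (g : Matrix (Fin 2) (Fin 2) F) 1 0 = 0 ∧ (g : Matrix (Fin 2) (Fin 2) F) 0 0 = 1 ∧ (g : Matrix (Fin 2) (Fin 2) F) 1 1 = 1 then χ g else 0) = (Fintype.card F : ℂ)) ∧
    (χ 1 = (Fintype.card F : ℂ) - 1 →
      (∑ g : Matrix.SpecialLinearGroup (Fin 2) F, if (g : Matrix (Fin 2) (Fin 2) F) 1 0 = 0 ∧ (g : Matrix (Fin 2) (Fin 2) F) 0 0 = 1 ∧ (g : Matrix (Fin 2) (Fin 2) F) 1 1 = 1 then χ g else 0) = 0) ∧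
    (χ 1 = (((Fintype.card F + 1) / 2 : ℕ) : ℂ) →
      (∑ g : Matrix.SpecialLinearGroup (Fin 2) F, if (g : Matrix (Fin 2) (Fin 2) F) 1 0 = 0 ∧ (g : Matrix (Fin 2) (Fin 2) F) 0 0 = 1 ∧ (g : Matrix (Fin 2) (Fin 2) F) 1 1 = 1 then χ g else 0) = (Fintype.card F : ℂ)) ∧
    (χ 1 = (((Fintype.card F - 1) / 2 : ℕ) : ℂ) →
      (∑ g : Matrix.SpecialLinearGroup (Fin 2) F, if (g : Matrix (Fin 2) (Fin 2) F) 1 0 = 0 ∧ (g : Matrix (Fin 2) (Fin 2) F) 0 0 = 1 ∧ (g : Matrix (Fin 2) (Fin 2) F) 1 1 = 1 then χ g else 0) = 0) := by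
  obtain ⟨e, he⟩ := exists_nonsq hodd
  obtain ⟨k, hk⟩ := hodd
  have hodd : Odd (Fintype.card F) := ⟨k, hk⟩
  obtain ⟨D⟩ := exists_quadData he hk
  obtain ⟨C⟩ := exists_cuspData he hk
  have hq1 : (Fintype.card F - 1) / 2 = k := by omega
  have hq2 : (Fintype.card F + 1) / 2 = k + 1 := by omega
  rw [hq1, hq2]
  have hsum : (∑ g : Matrix.SpecialLinearGroup (Fin 2) F, if (g : Matrix (Fin 2) (Fin 2) F) 1 0 = 0 ∧ (g : Matrix (Fin 2) (Fin 2) F) 0 0 = 1 ∧ (g : Matrix (Fin 2) (Fin 2) F) 1 1 = 1 then χ g else 0) =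
      ∑ c : F, χ (tv c) := by
    rw [← Finset.sum_filter]
    symm
    apply Finset.sum_bij (fun c _ => tv c)
    · intro c _
      simp
    · intro c _ d _ h
      have := congrArg (fun g : SL2 F => (g : M2 F) 0 1) h
      simpa using this
    · intro g hg
      simp only [Finset.mem_filter, Finset.mem_univ, true_and] at hg
      obtain ⟨h1, h2, h3⟩ := hg
      refine ⟨(g : M2 F) 0 1, Finset.mem_univ _, ?_⟩
      apply sl_ext
      · simp [h2]
      · simp
      · simp [h1]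
      · simp [h3]
    · intro c _
      rfl
  rw [hsum]
  have hsum1 : ∀ {χ : SL2 F → ℂ}, IsClassFunction (SL2 F) χ → (∀ c : F, c ≠ 0 → χ (tv c) = 1) →
      ∑ c : F, χ (tv c) = χ 1 + ((Fintype.card F : ℂ) - 1) := by
    intro χ hcl h
    rw [sum_tv_split, Finset.sum_congr rfl (fun c hc => h c (Finset.ne_of_mem_erase hc)), Finset.sum_const,
      Finset.card_erase_of_mem (Finset.mem_univ _), Finset.card_univ, nsmul_eq_mul, Nat.cast_sub Fintype.card_pos]
    simp
  have hQ0 : (Fintype.card F : ℂ) = ((2 * k + 1 : ℕ) : ℂ) := by rw [hk]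
  have hQ1 : (Fintype.card F : ℂ) + 1 = ((2 * k + 2 : ℕ) : ℂ) := by rw [hk]; push_cast; ring
  have hQ2 : (Fintype.card F : ℂ) - 1 = ((2 * k : ℕ) : ℂ) := by rw [hk]; push_cast; ring
  set X : IrrS F := ⟨χ, hχ⟩ with hX
  have hχX : χ = (X : SL2 F → ℂ) := rfl
  have hcusp : X ∈ cuspSF (F := F) → ∑ c : F, χ (tv c) = 0 := fun h => cuspS_sum' h
  have hq2k : 2 ≤ k := by omega
  refine ⟨?_, ?_, ?_, ?_, ?_⟩
  · intro h
    rw [hQ1] at h
    rcases odd_cases hk D X with h3 | h3 | h3 | h3 | h3 | h3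
    · have := nat_of_two h h3.2; omega
    · have := nat_of_two h h3.2; omega
    · rw [hsum1 (classFunction_of_isIrrCharacter hχ) (fun c hc => ps_tv h3.1 hc), hχX, h3.2, hQ0]
      push_cast
      ring
    · have := nat_of_two h h3.2; omega
    · have := nat_of_two h h3.2; omega
    · have := nat_of_two h h3.2; omega
  · intro h
    have h5 : X = stIS := st_of_deg h
    rw [hχX, h5]
    show ∑ c : F, stS (tv c) = _
    rw [sum_tv_split, Finset.sum_eq_zero (fun c hc => st_tv (Finset.ne_of_mem_erase hc)), add_zero, stS_one]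
  · intro h
    rw [hQ2] at h
    rcases odd_cases hk D X with h3 | h3 | h3 | h3 | h3 | h3
    · have := nat_of_two h h3.2; omega
    · have := nat_of_two h h3.2; omega
    · have := nat_of_two h h3.2; omega
    · exact hcusp ((mem_cuspB X).mp h3.1).1
    · have := nat_of_two h h3.2; omega
    · have := nat_of_two h h3.2; omega
  · intro h
    obtain ⟨hxx, _, _, _⟩ := core he hk D C
    have hsa : ∀ (a : IrrS F), a = D.a ∨ a = D.b → (a : SL2 F → ℂ) (tv 1) + (a : SL2 F → ℂ) (tv (e : F)) = 1 → (a : SL2 F → ℂ) 1 = ((k + 1 : ℕ) : ℂ) →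
        ∑ c : F, (a : SL2 F → ℂ) (tv c) = (Fintype.card F : ℂ) := by
      intro a _ h1 h2
      have h3 := sum_tv_odd hodd (classFunction_of_isIrrCharacter a.2) he
      rw [h1, h2, hk] at h3
      rw [hk]
      push_cast at h3 ⊢
      linear_combination (1 / 2 : ℂ) * h3
    rcases odd_cases hk D X with h3 | h3 | h3 | h3 | h3 | h3
    · have := nat_of_two h h3.2; omega
    · have := nat_of_two h h3.2; omega
    · have := nat_of_two h h3.2; omega
    · have := nat_of_two h h3.2; omega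
    · rcases h3.1 with h4 | h4
      · rw [hχX, h4]
        exact hsa D.a (Or.inl rfl) hxx D.ha1
      · rw [hχX, h4]
        apply hsa D.b (Or.inr rfl) _ D.hb1
        have he0 : (e : F) ≠ 0 := e.ne_zero
        have hb1 : (D.b : SL2 F → ℂ) (tv 1) = (D.a : SL2 F → ℂ) (tv (e : F)) := by
          rw [← D.hswap]
          show (D.a : SL2 F → ℂ) (sig e (tv 1)) = _
          rw [sig_tv, mul_one]
        have hb2 : (D.b : SL2 F → ℂ) (tv (e : F)) = (D.a : SL2 F → ℂ) (tv 1) := by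
          rw [← D.hswap]
          show (D.a : SL2 F → ℂ) (sig e (tv (e : F))) = _
          rw [sig_tv]
          apply tv_val_sq (classFunction_of_isIrrCharacter D.a.2) (mul_ne_zero he0 he0) one_ne_zero
          rw [map_mul, alpha0_nonsquare he, alpha0_square one_ne_zero IsSquare.one]
          ring
        rw [hb1, hb2, add_comm]
        exact hxx
    · have := nat_of_two h h3.2; omega
  · intro h
    have hcast : (X : SL2 F → ℂ) 1 = ((k : ℕ) : ℂ) := h
    rcases odd_cases hk D X with h3 | h3 | h3 | h3 | h3 | h3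
    · have := nat_of_two hcast h3.2; omega
    · have := nat_of_two hcast h3.2; omega
    · have := nat_of_two hcast h3.2; omega
    · have := nat_of_two hcast h3.2; omega
    · have := nat_of_two hcast h3.2; omega
    · exact hcusp ((mem_cuspA X).mp h3.1).1

end Cfsg.Agent.S2438
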