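import Cfsg.Statements.S2532
import Mathlib

set_option autoImplicit false
open Cfsg

namespace Cfsg.Agent.S2532

open Subgroup
open Equiv.Perm (sign)

theorem main_step {X : Type} [Fintype X] [DecidableEq X] (H : Subgroup (Equiv.Perm X)) (r : ℕ)
    (hr : Nat.card H * (2 ^ Nat.card H * r + 1) ≤ Nat.card X) :
    ∃ φ : Equiv.Perm (Fin r) →* Equiv.Perm X, Function.Injective φ ∧
      ∀ π, ∀ h ∈ H, h * φ π = φ π * h := by
  classical
  let Ω := MulAction.orbitRel.Quotient H X
  haveI : Finite Ω := Quotient.finite _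
  haveI : Fintype Ω := Fintype.ofFinite _
  haveI : Fintype H := Fintype.ofFinite _
  let q : X → Ω := fun y => Quotient.mk'' y
  have hqs : ∀ (g : H) (y : X), q (g • y) = q y := by
    intro g y
    apply Quotient.sound'
    exact ⟨g, rfl⟩
  have hqout : ∀ ω : Ω, q (Quotient.out ω) = ω := fun ω => Quotient.out_eq' ω
  have hqex : ∀ y : X, ∃ g : H, g • Quotient.out (q y) = y := by
    intro y
    have h1 : q (Quotient.out (q y)) = q y := hqout _
    have h2 := Quotient.exact' h1
    obtain ⟨g, hg⟩ := h2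
    have hg' : g • y = Quotient.out (q y) := hg
    exact ⟨g⁻¹, inv_smul_eq_iff.2 hg'.symm⟩
  choose hh hhh using hqex
  have hcardX : Nat.card X ≤ Nat.card H * Nat.card Ω := by
    rw [← Nat.card_prod]
    apply Nat.card_le_card_of_injective (fun y => (hh y, q y))
    intro y y' h
    have h1 : hh y = hh y' := congrArg Prod.fst h
    have h2 : q y = q y' := congrArg Prod.snd h
    rw [← hhh y, ← hhh y', h1, h2]
  have hnpos : 0 < Nat.card H := Nat.card_pos
  have hΩ : 2 ^ Nat.card H * r + 1 ≤ Nat.card Ω :=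
    Nat.le_of_mul_le_mul_left (hr.trans hcardX) hnpos
  -- the stabiliser type
  let f : Ω → Subgroup H := fun ω => MulAction.stabilizer H (Quotient.out ω)
  haveI : Finite (Subgroup H) := Finite.of_injective (fun S : Subgroup H => (S : Set H)) SetLike.coe_injective
  haveI : Fintype (Subgroup H) := Fintype.ofFinite _
  have hcS : Fintype.card (Subgroup H) ≤ 2 ^ Nat.card H := by
    have h1 := Fintype.card_le_of_injective (fun S : Subgroup H => (S : Set H)) SetLike.coe_injective
    rw [Fintype.card_set] at h1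
    rw [Nat.card_eq_fintype_card (α := H)]
    exact h1
  have hlt : Fintype.card (Subgroup H) * r < Fintype.card Ω := by
    rw [← Nat.card_eq_fintype_card (α := Ω)]
    have h2 : Fintype.card (Subgroup H) * r ≤ 2 ^ Nat.card H * r := Nat.mul_le_mul_right _ hcS
    omega
  obtain ⟨S, hS⟩ := Fintype.exists_lt_card_fiber_of_mul_lt_card f hlt
  have hemb : Nonempty (Fin r ↪ {ω // ω ∈ Finset.univ.filter (fun ω => f ω = S)}) := by
    apply Function.Embedding.nonempty_of_card_le
    rw [Fintype.card_fin, Fintype.card_coe]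
    exact hS.le
  obtain ⟨e⟩ := hemb
  let x : Fin r → X := fun i => Quotient.out (e i).1
  have hxS : ∀ i, MulAction.stabilizer H (x i) = S := fun i => (Finset.mem_filter.1 (e i).2).2
  have hqx : ∀ i, q (x i) = (e i).1 := fun i => hqout _
  have hqinj : ∀ i j, q (x i) = q (x j) → i = j := by
    intro i j h
    rw [hqx, hqx] at h
    exact e.injective (Subtype.ext h)
  let Ψ : (H ⧸ S) × Fin r → X := fun p => (Quotient.out p.1 : H) • x p.2
  have hΨ : ∀ (g : H) (i : Fin r), Ψ ((g : H ⧸ S), i) = g • x i := by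
    intro g i
    have h1 : (Quotient.out (g : H ⧸ S) : H)⁻¹ * g ∈ S := by
      rw [← QuotientGroup.eq]
      exact QuotientGroup.out_eq' _
    have h1' : (Quotient.out (g : H ⧸ S) : H)⁻¹ * g ∈ MulAction.stabilizer H (x i) := by
      rw [hxS]
      exact h1
    rw [MulAction.mem_stabilizer_iff, mul_smul, inv_smul_eq_iff] at h1'
    change (Quotient.out (g : H ⧸ S) : H) • x i = g • x i
    exact h1'.symm
  have hΨinj : Function.Injective Ψ := by
    rintro ⟨c, i⟩ ⟨c', j⟩ h
    obtain ⟨g, rfl⟩ := QuotientGroup.mk_surjective c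
    obtain ⟨g', rfl⟩ := QuotientGroup.mk_surjective c'
    rw [hΨ, hΨ] at h
    have hij : i = j := by
      apply hqinj
      rw [← hqs g (x i), h, hqs]
    subst hij
    have h1 : g'⁻¹ * g ∈ S := by
      rw [← hxS i, MulAction.mem_stabilizer_iff, mul_smul, h, inv_smul_smul]
    have h2 : (g : H ⧸ S) = (g' : H ⧸ S) := (QuotientGroup.eq.2 (by
      have : g⁻¹ * g' = (g'⁻¹ * g)⁻¹ := by group
      rw [this]
      exact inv_mem h1)) 
    rw [h2]
  let ι : (H ⧸ S) × Fin r ↪ X := ⟨Ψ, hΨinj⟩
  let θ : Equiv.Perm (Fin r) →* Equiv.Perm ((H ⧸ S) × Fin r) :=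
    MonoidHom.mk' (fun π => Equiv.prodCongr (Equiv.refl _) π) (by
      intro a b
      ext ⟨c, i⟩ <;> rfl)
  let φ : Equiv.Perm (Fin r) →* Equiv.Perm X := (Equiv.Perm.viaEmbeddingHom ι).comp θ
  have hφ : ∀ π (g : H) (i : Fin r), φ π (g • x i) = g • x (π i) := by
    intro π g i
    rw [← hΨ, ← hΨ]
    change (θ π).viaEmbedding ι (ι ((g : H ⧸ S), i)) = ι ((g : H ⧸ S), π i)
    rw [Equiv.Perm.viaEmbedding_apply]
    rfl
  have hφ' : ∀ π y, (y ∉ Set.range Ψ) → φ π y = y := by
    intro π y hy
    exact Equiv.Perm.viaEmbedding_apply_of_notMem _ ι y hy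
  refine ⟨φ, ?_, ?_⟩
  · intro π ρ h
    ext i
    have h1 := congrArg (fun τ : Equiv.Perm X => τ ((1 : H) • x i)) h
    simp only [hφ] at h1
    have h2 := hΨinj ((hΨ 1 (π i)).trans (h1.trans (hΨ 1 (ρ i)).symm))
    have h3 : π i = ρ i := congrArg Prod.snd h2
    rw [h3]
  · intro π h hh'
    ext y
    change h (φ π y) = φ π (h y)
    by_cases hy : y ∈ Set.range Ψ
    · obtain ⟨⟨c, i⟩, rfl⟩ := hy
      obtain ⟨g, rfl⟩ := QuotientGroup.mk_surjective c
      rw [hΨ, hφ]
      have e1 : ∀ (g : H) (z : X), (g : Equiv.Perm X) z = g • z := fun _ _ => rfl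
      have e2 : h (g • x i) = (⟨h, hh'⟩ * g : H) • x i := by
        rw [mul_smul]
        rfl
      have e3 : h (g • x (π i)) = (⟨h, hh'⟩ * g : H) • x (π i) := by
        rw [mul_smul]
        rfl
      rw [e2, e3, hφ]
    · have hy' : h y ∉ Set.range Ψ := by
        rintro ⟨⟨c, i⟩, hc⟩
        obtain ⟨g, rfl⟩ := QuotientGroup.mk_surjective c
        rw [hΨ] at hc
        apply hy
        refine ⟨(((⟨h, hh'⟩ : H)⁻¹ * g : H), i), ?_⟩
        rw [hΨ, mul_smul, hc, inv_smul_eq_iff]
        rfl
      rw [hφ' π y hy, hφ' π _ hy']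

/-- There is a function `f` of two natural-number arguments such that, whenever `m ≥ f(n, r)`, every subgroup of order `n` of the alternating group of degree `m` centralizes some subgroup of that alternating group isomorphic to the alternating group of degree `r`. -/
theorem result :
    ∃ f : ℕ → ℕ → ℕ, ∀ (m r : ℕ) (H : Subgroup ↥(alternatingGroup (Fin m))), f (Nat.card H) r ≤ m →
      ∃ K : Subgroup ↥(alternatingGroup (Fin m)), Nonempty (↥K ≃* ↥(alternatingGroup (Fin r))) ∧
        K ≤ Subgroup.centralizer (H : Set ↥(alternatingGroup (Fin m))) := by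

  refine ⟨fun n r => n * (2 ^ n * r + 1), ?_⟩
  intro m r H hf
  let H' : Subgroup (Equiv.Perm (Fin m)) := H.map (alternatingGroup (Fin m)).subtype
  have hcH : Nat.card H' = Nat.card H := Nat.card_congr (Subgroup.equivMapOfInjective H _ Subtype.val_injective).toEquiv.symm
  have hr : Nat.card H' * (2 ^ Nat.card H' * r + 1) ≤ Nat.card (Fin m) := by
    rw [hcH, Nat.card_fin]
    exact hf
  obtain ⟨φ, hinj, hcomm⟩ := main_step H' r hr
  have hsign : ∀ π ∈ alternatingGroup (Fin r), φ π ∈ alternatingGroup (Fin m) := by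
    intro π hπ
    rw [Equiv.Perm.mem_alternatingGroup] at hπ ⊢
    let s : Equiv.Perm (Fin r) →* ℤˣ := Equiv.Perm.sign.comp φ
    change s π = 1
    by_cases hs : Function.Surjective s
    · rw [Equiv.Perm.eq_sign_of_surjective_hom hs]
      exact hπ
    · by_contra hne
      apply hs
      have h1 : s π = -1 := (Int.units_eq_one_or _).resolve_left hne
      intro u
      rcases Int.units_eq_one_or u with rfl | rfl
      · exact ⟨1, map_one s⟩
      · exact ⟨π, h1⟩
  let φ' : alternatingGroup (Fin r) →* alternatingGroup (Fin m) :=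
    (φ.comp (alternatingGroup (Fin r)).subtype).codRestrict (alternatingGroup (Fin m)) (fun π => hsign π.1 π.2)
  have hinj' : Function.Injective φ' := by
    intro a b h
    apply Subtype.ext
    apply hinj
    exact congrArg Subtype.val h
  refine ⟨φ'.range, ⟨(MonoidHom.ofInjective hinj').symm⟩, ?_⟩
  rintro _ ⟨π, rfl⟩
  rw [Subgroup.mem_centralizer_iff]
  intro h hh
  apply Subtype.ext
  exact hcomm π.1 h.1 ⟨h, hh, rfl⟩

end Cfsg.Agent.S2532
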