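import Cfsg.Statements.S2540
import Cfsg.Agent.Lib.SLGen

set_option autoImplicit false
open Cfsg

namespace Cfsg.Agent.S2540

open Cfsg.Agent.Lib.SLGen
open scoped commutatorElement

theorem exists_a {F : Type*} [Field F] [Fintype F] (h4 : 3 < Fintype.card F) : ∃ a : F, a ≠ 0 ∧ a ^ 2 ≠ 1 := by
  classical
  by_contra hcon
  push Not at hcon
  have hsub : (Finset.univ : Finset F) ⊆ {0, 1, -1} := by
    intro a _
    by_cases ha : a = 0
    · simp [ha]
    · have h1 := hcon a ha
      have h2 : (a - 1) * (a + 1) = 0 := by linear_combination h1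
      rcases mul_eq_zero.1 h2 with h3 | h3
      · have : a = 1 := sub_eq_zero.1 h3
        simp [this]
      · have : a = -1 := eq_neg_of_add_eq_zero_left h3
        simp [this]
  have h5 := Finset.card_le_card hsub
  have h6 : ({0, 1, -1} : Finset F).card ≤ 3 := Finset.card_le_three
  rw [Finset.card_univ] at h5
  omega

theorem perfect_two {F : Type*} [Field F] [Fintype F] (h4 : 3 < Fintype.card F) : commutator (Matrix.SpecialLinearGroup (Fin 2) F) = ⊤ := by
  obtain ⟨a, ha, hsq⟩ := exists_a h4
  rw [eq_top_iff]
  intro A _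
  refine sl_induction (fun A => A ∈ commutator (Matrix.SpecialLinearGroup (Fin 2) F)) ?_ (fun _ _ => mul_mem) (one_mem _) A
  intro i j hij c
  obtain ⟨x, y, hxy⟩ := T_mem_commutatorSet_of_sq hij ha hsq c
  rw [← hxy]
  exact Subgroup.commutator_mem_commutator (Subgroup.mem_top _) (Subgroup.mem_top _)

theorem simple_of_perfect {F : Type*} [Field F] (n : ℕ) (hn : 2 ≤ n) (hp : commutator (Matrix.SpecialLinearGroup (Fin n) F) = ⊤) :
    IsSimpleGroup (Matrix.ProjectiveSpecialLinearGroup (Fin n) F) := by
  have hnt : Nontrivial (Fin n) := Fin.nontrivial_iff_two_le.mpr (by omega)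
  have hperf : commutator (Matrix.ProjectiveSpecialLinearGroup (Fin n) F) = ⊤ := by
    have : Group.IsPerfect (Matrix.SpecialLinearGroup (Fin n) F) := ⟨hp⟩
    have : Group.IsPerfect (Matrix.ProjectiveSpecialLinearGroup (Fin n) F) := inferInstance
    exact this.commutator_eq_top
  exact MulAction.IwasawaStructure.isSimpleGroup hperf PSLIwasawa inferInstance

/-- A normal subgroup of a perfect group with simple central quotient is central or everything. -/
theorem normal_dichotomy {S : Type*} [Group S] (hperf : commutator S = ⊤) (hs : IsSimpleGroup (S ⧸ Subgroup.center S)) (H : Subgroup S) (hH : H.Normal) :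
    H ≤ Subgroup.center S ∨ H = ⊤ := by
  have hnm : (H.map (QuotientGroup.mk' (Subgroup.center S))).Normal := hH.map _ (QuotientGroup.mk'_surjective _)
  rcases hs.eq_bot_or_eq_top_of_normal _ hnm with h1 | h1
  · left
    intro x hx
    have : (QuotientGroup.mk' (Subgroup.center S)) x ∈ H.map (QuotientGroup.mk' (Subgroup.center S)) := Subgroup.mem_map_of_mem _ hx
    rw [h1, Subgroup.mem_bot] at this
    exact (QuotientGroup.eq_one_iff x).1 this
  · right
    -- `S = H Z`, so the quotient by `H` is abelian
    have hsup : ∀ x : S, ∃ a ∈ H, ∃ z ∈ Subgroup.center S, x = a * z := by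
      intro x
      have : (QuotientGroup.mk' (Subgroup.center S)) x ∈ H.map (QuotientGroup.mk' (Subgroup.center S)) := by
        rw [h1]
        trivial
      obtain ⟨a, ha, hax⟩ := this
      refine ⟨a, ha, a⁻¹ * x, ?_, by group⟩
      exact (QuotientGroup.eq).1 hax
    rw [eq_top_iff, ← hperf, commutator_def, Subgroup.commutator_le]
    intro x _ y _
    obtain ⟨a, ha, z, hz, rfl⟩ := hsup x
    obtain ⟨b, hb, w, hw, rfl⟩ := hsup y
    have hz' := Subgroup.mem_center_iff.1 hz
    have hw' := Subgroup.mem_center_iff.1 hw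
    have e : ⁅a * z, b * w⁆ = ⁅a, b⁆ := by
      have e1 : a * z * (b * w) = a * b * (z * w) := by
        calc a * z * (b * w) = a * (z * b) * w := by group
          _ = a * (b * z) * w := by rw [hz' b]
          _ = a * b * (z * w) := by group
      have e2 : b * w * (a * z) = b * a * (z * w) := by
        calc b * w * (a * z) = b * (w * a) * z := by group
          _ = b * (a * w) * z := by rw [hw' a]
          _ = b * a * (w * z) := by group
          _ = b * a * (z * w) := by rw [hw' z]
      calc ⁅a * z, b * w⁆ = (a * z * (b * w)) * (b * w * (a * z))⁻¹ := by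
            rw [commutatorElement_def]
            group
        _ = (a * b * (z * w)) * (b * a * (z * w))⁻¹ := by rw [e1, e2]
        _ = ⁅a, b⁆ := by
            rw [commutatorElement_def]
            group
    rw [e]
    rw [commutatorElement_def]
    exact H.mul_mem (hH.conj_mem b hb a) (H.inv_mem hb)

/-- Let F be a finite field and n ≥ 1, excluding the case n = 2 with #F ≤ 3. A subgroup of GL_n(F) that is normalized by every element of SL_n(F) either consists of scalar matrices or contains SL_n(F). -/
theorem result {F : Type*} [Field F] [Fintype F] (n : ℕ) (hn : 1 ≤ n) (hex : ¬ (n = 2 ∧ Fintype.card F ≤ 3)) (G : Subgroup (Matrix.GeneralLinearGroup (Fin n) F)) (hG : ∀ s : Matrix.SpecialLinearGroup (Fin n) F, ∀ g ∈ G, (Matrix.SpecialLinearGroup.toGL s) * g * (Matrix.SpecialLinearGroup.toGL s)⁻¹ ∈ G) : (∀ g ∈ G, ∃ c : F, (g : Matrix (Fin n) (Fin n) F) = c • (1 : Matrix (Fin n) (Fin n) F)) ∨ (Matrix.SpecialLinearGroup.toGL : Matrix.SpecialLinearGroup (Fin n) F →* _).range ≤ G := by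
  classical
  by_cases hn1 : n = 1
  · left
    subst hn1
    intro g _
    refine ⟨(g : Matrix (Fin 1) (Fin 1) F) 0 0, ?_⟩
    ext i j
    have hi : i = 0 := Subsingleton.elim _ _
    have hj : j = 0 := Subsingleton.elim _ _
    subst hi
    subst hj
    simp
  have hn2 : 2 ≤ n := by omega
  have hperf : commutator (Matrix.SpecialLinearGroup (Fin n) F) = ⊤ := by
    by_cases h2 : n = 2
    · subst h2
      apply perfect_two
      by_contra hle
      exact hex ⟨rfl, by omega⟩
    · exact commutator_SL_eq_top (by omega)
  have hs := simple_of_perfect (F := F) n hn2 hperf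
  let ι : Matrix.SpecialLinearGroup (Fin n) F →* GL (Fin n) F := Matrix.SpecialLinearGroup.toGL
  let H : Subgroup (Matrix.SpecialLinearGroup (Fin n) F) := G.comap ι
  have hH : H.Normal := by
    constructor
    intro x hx s
    show ι (s * x * s⁻¹) ∈ G
    rw [map_mul, map_mul, map_inv]
    exact hG s _ hx
  rcases normal_dichotomy hperf hs H hH with h1 | h1
  · left
    intro g hg
    -- commutators with `g` are central
    have hc : ∀ s : Matrix.SpecialLinearGroup (Fin n) F, ∃ z ∈ Subgroup.center (Matrix.SpecialLinearGroup (Fin n) F), ι s * g * (ι s)⁻¹ * g⁻¹ = ι z := by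
      intro s
      have hmem : ι s * g * (ι s)⁻¹ * g⁻¹ ∈ G := G.mul_mem (hG s g hg) (G.inv_mem hg)
      have hdet : Matrix.GeneralLinearGroup.det (ι s * g * (ι s)⁻¹ * g⁻¹) = 1 := by
        simp only [map_mul, map_inv]
        rw [mul_comm (Matrix.GeneralLinearGroup.det (ι s)) (Matrix.GeneralLinearGroup.det g)]
        simp
      have hd2 : ((ι s * g * (ι s)⁻¹ * g⁻¹ : GL (Fin n) F) : Matrix (Fin n) (Fin n) F).det = 1 := by
        have := congrArg (fun x : Fˣ => (x : F)) hdet
        exact this
      let z : Matrix.SpecialLinearGroup (Fin n) F := ⟨_, hd2⟩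
      have hz : ι z = ι s * g * (ι s)⁻¹ * g⁻¹ := Units.ext rfl
      refine ⟨z, h1 ?_, hz.symm⟩
      show ι z ∈ G
      rw [hz]
      exact hmem
    choose c hcc hce using hc
    have hι : Function.Injective ι := by
      intro a b hab
      apply Subtype.ext
      exact congrArg (fun g : GL (Fin n) F => (g : Matrix (Fin n) (Fin n) F)) hab
    have hmul : ∀ s t, c (s * t) = c s * c t := by
      intro s t
      apply hι
      rw [← hce (s * t), map_mul ι (c s) (c t), ← hce s, ← hce t, map_mul ι s t]
      -- `c t` commutes with `s` and with `g` is not needed after rewriting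
      have hct : ι s * ι (c t) = ι (c t) * ι s := by
        rw [← map_mul, ← map_mul, (Subgroup.mem_center_iff.1 (hcc t) s)]
      have e1 : ι t * g * (ι t)⁻¹ = ι (c t) * g := by
        rw [← hce t]
        group
      calc ι s * ι t * g * (ι s * ι t)⁻¹ * g⁻¹ = ι s * (ι t * g * (ι t)⁻¹) * (ι s)⁻¹ * g⁻¹ := by group
        _ = ι s * (ι (c t) * g) * (ι s)⁻¹ * g⁻¹ := by rw [e1]
        _ = (ι s * ι (c t)) * g * (ι s)⁻¹ * g⁻¹ := by group
        _ = (ι (c t) * ι s) * g * (ι s)⁻¹ * g⁻¹ := by rw [hct]
        _ = ι (c t) * (ι s * g * (ι s)⁻¹ * g⁻¹) := by group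
        _ = ι (c t) * ι (c s) := by rw [hce s]
        _ = ι (c s) * ι (c t) := by
          rw [← map_mul, ← map_mul, Subgroup.mem_center_iff.1 (hcc s) (c t)]
        _ = ι s * g * (ι s)⁻¹ * g⁻¹ * (ι t * g * (ι t)⁻¹ * g⁻¹) := by rw [hce s, hce t]
    -- the map to the centre
    let cc : Matrix.SpecialLinearGroup (Fin n) F →* Subgroup.center (Matrix.SpecialLinearGroup (Fin n) F) :=
      { toFun := fun s => ⟨c s, hcc s⟩
        map_one' := by
          apply Subtype.ext
          apply hι
          show ι (c 1) = ι 1
          rw [← hce]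
          simp
        map_mul' := fun s t => Subtype.ext (hmul s t) }
    have hall : ∀ s, c s = 1 := by
      intro s
      have hs' : s ∈ commutator (Matrix.SpecialLinearGroup (Fin n) F) := by
        rw [hperf]
        trivial
      have hle : commutator (Matrix.SpecialLinearGroup (Fin n) F) ≤ cc.ker := by
        rw [commutator_def, Subgroup.commutator_le]
        intro x _ y _
        have hcm : cc x * cc y = cc y * cc x := Subtype.ext (Subgroup.mem_center_iff.1 (hcc y) (c x))
        rw [MonoidHom.mem_ker, commutatorElement_def, map_mul, map_mul, map_mul, map_inv, map_inv, hcm]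
        group
      have := hle hs'
      rw [MonoidHom.mem_ker] at this
      exact congrArg Subtype.val this
    have hcomm : ∀ s : Matrix.SpecialLinearGroup (Fin n) F, ι s * g = g * ι s := by
      intro s
      have h3 := hce s
      rw [hall s, map_one] at h3
      have h4 : ι s * g * (ι s)⁻¹ = g := by
        rw [mul_inv_eq_one] at h3
        exact h3
      rw [mul_inv_eq_iff_eq_mul] at h4
      exact h4
    have hsc : (g : Matrix (Fin n) (Fin n) F) ∈ Set.range (Matrix.scalar (Fin n) (α := F)) := by
      rw [Matrix.mem_range_scalar_iff_commute_transvectionStruct]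
      intro t
      let s : Matrix.SpecialLinearGroup (Fin n) F := ⟨t.toMatrix, t.det⟩
      have := hcomm s
      exact (congrArg (fun y : GL (Fin n) F => (y : Matrix (Fin n) (Fin n) F)) this)
    obtain ⟨c₀, hc₀⟩ := hsc
    refine ⟨c₀, ?_⟩
    rw [← hc₀, Matrix.smul_one_eq_diagonal]
    rfl
  · right
    rintro _ ⟨s, rfl⟩
    have : s ∈ H := by
      rw [h1]
      trivial
    exact this

end Cfsg.Agent.S2540
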