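import Cfsg.Statements.S2541
import Cfsg.Agent.Lib.GL2Syl

set_option autoImplicit false
open Cfsg

namespace Cfsg.Agent.S2541

open Cfsg.Agent.Lib.GL2Syl
open scoped MatrixGroups

theorem perm_pow_60 (σ : Equiv.Perm (Fin 6)) : σ ^ 60 = 1 := by
  have h : orderOf σ ∣ 60 := by
    rw [← Equiv.Perm.lcm_cycleType]
    apply Multiset.lcm_dvd.2
    intro k hk
    have h1 : k ≤ σ.cycleType.sum := Multiset.le_sum_of_mem hk
    rw [Equiv.Perm.sum_cycleType] at h1
    have h2 : σ.support.card ≤ 6 := by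
      simpa using Finset.card_le_univ σ.support
    have h3 : 2 ≤ k := Equiv.Perm.two_le_of_mem_cycleType hk
    have h4 : k ≤ 6 := by omega
    interval_cases k <;> norm_num
  exact orderOf_dvd_iff_pow_eq_one.1 h

variable {F : Type*} [Field F]

/-- diagonal embedding -/
def dHom : Fˣ →* GL (Fin 2) F where
  toFun t := bm 0 t 1
  map_one' := by apply gl2_ext <;> simp [bm]
  map_mul' a b := by apply gl2_ext <;> simp [bm, mul_val]

/-- Let F be a field with 9 elements. The symmetric group S_6 is not isomorphic to PGL_2(F) (although both have index-2 subgroups isomorphic to A_6). -/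
theorem result {F : Type*} [Field F] [Fintype F] (hF : Fintype.card F = 9) : ¬ Nonempty (Equiv.Perm (Fin 6) ≃* Matrix.ProjGenLinGroup (Fin 2) F) := by
  classical
  rintro ⟨φ⟩
  obtain ⟨ζ, hζ⟩ := IsCyclic.exists_generator (α := Fˣ)
  have hord : orderOf ζ = 8 := by
    rw [orderOf_eq_card_of_forall_mem_zpowers hζ, Nat.card_eq_fintype_card, Fintype.card_units, hF]
  let x : Matrix.ProjGenLinGroup (Fin 2) F := Matrix.ProjGenLinGroup.mk (dHom ζ)
  have h1 : x ^ 60 = 1 := by
    have := perm_pow_60 (φ.symm x)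
    have h2 := congrArg φ this
    simpa using h2
  have h2 : dHom (ζ ^ 60) ∈ Subgroup.center (GL (Fin 2) F) := by
    rw [← Matrix.ProjGenLinGroup.mk_eq_one, map_pow, map_pow]
    exact h1
  rw [Matrix.GeneralLinearGroup.mem_center_iff_val_mem_range_scalar] at h2
  obtain ⟨c, hc⟩ := h2
  have h00 := congrFun (congrFun hc 0) 0
  have h11 := congrFun (congrFun hc 1) 1
  have h3 : ((ζ ^ 60 : Fˣ) : F) = 1 := by
    have a1 : ((dHom (ζ ^ 60)).1 0 0) = ((ζ ^ 60 : Fˣ) : F) := rfl
    have a2 : ((dHom (ζ ^ 60)).1 1 1) = 1 := rfl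
    rw [a1] at h00
    rw [a2] at h11
    simp at h00 h11
    rw [Units.val_pow_eq_pow_val, ← h00, h11]
  have h4 : ζ ^ 60 = 1 := Units.ext h3
  have h5 := orderOf_dvd_of_pow_eq_one h4
  rw [hord] at h5
  norm_num at h5

end Cfsg.Agent.S2541
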