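import Cfsg.Statements.S2550
import Cfsg.Agent.Lib.Psl34

set_option autoImplicit false
open Cfsg

namespace Cfsg.Agent.S2550

open Matrix

theorem card_P4 {F : Type*} [Field F] [Fintype F] (hF : Fintype.card F = 2) : Nat.card (Matrix.ProjectiveSpecialLinearGroup (Fin 4) F) = 20160 := by
  have h1 := Cfsg.Agent.Lib.ClassicalBasic.card_GL_eq (F := F) 4 (by norm_num)
  rw [Matrix.card_GL_field] at h1
  simp only [Nat.card_eq_fintype_card, hF] at h1
  have h2 := Cfsg.Agent.Lib.ClassicalBasic.card_SL_eq_center_mul_PSL (F := F) 4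
  rw [Cfsg.Agent.Lib.ClassicalBasic.card_center_SL 4 (by norm_num), hF] at h2
  rw [Fin.prod_univ_four] at h1
  norm_num at h1 h2
  omega

theorem card_P3 {F : Type*} [Field F] [Fintype F] (hF : Fintype.card F = 4) : Nat.card (Matrix.ProjectiveSpecialLinearGroup (Fin 3) F) = 20160 := by
  have h1 := Cfsg.Agent.Lib.ClassicalBasic.card_GL_eq (F := F) 3 (by norm_num)
  rw [Matrix.card_GL_field] at h1
  simp only [Nat.card_eq_fintype_card, hF] at h1
  have h2 := Cfsg.Agent.Lib.ClassicalBasic.card_SL_eq_center_mul_PSL (F := F) 3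
  rw [Cfsg.Agent.Lib.ClassicalBasic.card_center_SL 3 (by norm_num), hF] at h2
  rw [Fin.prod_univ_three] at h1
  norm_num at h1 h2
  omega

theorem not_all_conj {F : Type*} [Field F] [Fintype F] (hF : Fintype.card F = 2) :
    ∃ x y : Matrix.ProjectiveSpecialLinearGroup (Fin 4) F, orderOf x = 2 ∧ orderOf y = 2 ∧ ¬ IsConj x y := by
  classical
  have h2 : (1 : F) + 1 = 0 := by
    have h : ((Fintype.card F : ℕ) : F) = 0 := Nat.cast_card_eq_zero F
    rw [hF] at h
    simpa [one_add_one_eq_two] using h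
  have h01 : (0 : Fin 4) ≠ 1 := by decide
  have h23 : (2 : Fin 4) ≠ 3 := by decide
  let T₁ : Matrix (Fin 4) (Fin 4) F := Matrix.transvection 0 1 1
  let T₂ : Matrix (Fin 4) (Fin 4) F := Matrix.transvection 2 3 1
  have hd1 : T₁.det = 1 := Matrix.det_transvection_of_ne _ _ h01 _
  have hd2 : T₂.det = 1 := Matrix.det_transvection_of_ne _ _ h23 _
  have hsq1 : T₁ * T₁ = 1 := by
    show Matrix.transvection 0 1 1 * Matrix.transvection 0 1 1 = 1
    rw [Matrix.transvection_mul_transvection_same _ _ h01, h2, Matrix.transvection_zero]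
  have hsq2 : T₂ * T₂ = 1 := by
    show Matrix.transvection 2 3 1 * Matrix.transvection 2 3 1 = 1
    rw [Matrix.transvection_mul_transvection_same _ _ h23, h2, Matrix.transvection_zero]
  have hE : Matrix.single (0 : Fin 4) (1 : Fin 4) (1 : F) * Matrix.single (2 : Fin 4) (3 : Fin 4) (1 : F) = 0 := by
    rw [Matrix.single_mul_single_of_ne _ _ _ _ (by decide)]
  have hE' : Matrix.single (2 : Fin 4) (3 : Fin 4) (1 : F) * Matrix.single (0 : Fin 4) (1 : Fin 4) (1 : F) = 0 := by
    rw [Matrix.single_mul_single_of_ne _ _ _ _ (by decide)]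
  have hcomm : T₁ * T₂ = T₂ * T₁ := by
    show (1 + Matrix.single 0 1 1) * (1 + Matrix.single 2 3 1) = (1 + Matrix.single 2 3 1) * (1 + Matrix.single 0 1 1)
    rw [mul_add, add_mul, add_mul, mul_add, add_mul, add_mul, hE, hE']
    simp only [one_mul, mul_one, add_zero]
    abel
  let A : Matrix.SpecialLinearGroup (Fin 4) F := ⟨T₁, hd1⟩
  let B : Matrix.SpecialLinearGroup (Fin 4) F := ⟨T₁ * T₂, by rw [Matrix.det_mul, hd1, hd2, one_mul]⟩
  have hA2 : A * A = 1 := Subtype.ext hsq1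
  have hB2 : B * B = 1 := by
    apply Subtype.ext
    show T₁ * T₂ * (T₁ * T₂) = 1
    calc T₁ * T₂ * (T₁ * T₂) = T₁ * (T₂ * T₁) * T₂ := by noncomm_ring
      _ = T₁ * (T₁ * T₂) * T₂ := by rw [hcomm]
      _ = (T₁ * T₁) * (T₂ * T₂) := by noncomm_ring
      _ = 1 := by rw [hsq1, hsq2, one_mul]
  -- the centre is trivial
  have hZ : ∀ z ∈ Subgroup.center (Matrix.SpecialLinearGroup (Fin 4) F), z = 1 := by
    intro z hz
    have hc := Cfsg.Agent.Lib.ClassicalBasic.card_center_SL (F := F) 4 (by norm_num)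
    rw [hF] at hc
    have hc2 : Nat.card (Subgroup.center (Matrix.SpecialLinearGroup (Fin 4) F)) = 1 := by
      rw [hc]
      norm_num
    have := Subgroup.eq_bot_of_card_eq _ hc2
    rw [this] at hz
    exact Subgroup.mem_bot.1 hz
  have hmk : ∀ a b : Matrix.SpecialLinearGroup (Fin 4) F, (QuotientGroup.mk a : Matrix.ProjectiveSpecialLinearGroup (Fin 4) F) = QuotientGroup.mk b → a = b := by
    intro a b hab
    have := hZ _ (QuotientGroup.eq.1 hab)
    rw [inv_mul_eq_one] at this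
    exact this
  have e10 : (T₁ 0 1 : F) = 1 := by simp [T₁, Matrix.transvection, Matrix.single_apply]
  have hA1 : A ≠ 1 := by
    intro h
    have := congrArg (fun y : Matrix.SpecialLinearGroup (Fin 4) F => (y : Matrix (Fin 4) (Fin 4) F) 0 1) h
    simp only [A] at this
    rw [e10] at this
    simp at this
  have hBe : ∀ i j, (T₁ * T₂) i j = (1 : Matrix (Fin 4) (Fin 4) F) i j + Matrix.single 0 1 (1 : F) i j + Matrix.single 2 3 (1 : F) i j := by
    intro i j
    have : T₁ * T₂ = 1 + Matrix.single 0 1 (1 : F) + Matrix.single 2 3 (1 : F) := by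
      show (1 + Matrix.single 0 1 1) * (1 + Matrix.single 2 3 1) = _
      rw [mul_add, add_mul, add_mul, hE]
      simp only [one_mul, mul_one, add_zero]
    rw [this]
    rfl
  have hB1 : B ≠ 1 := by
    intro h
    have := congrArg (fun y : Matrix.SpecialLinearGroup (Fin 4) F => (y : Matrix (Fin 4) (Fin 4) F) 0 1) h
    simp only [B] at this
    rw [hBe] at this
    simp [Matrix.single_apply, Matrix.one_apply] at this
  have hord : ∀ a : Matrix.SpecialLinearGroup (Fin 4) F, a * a = 1 → a ≠ 1 → orderOf (QuotientGroup.mk a : Matrix.ProjectiveSpecialLinearGroup (Fin 4) F) = 2 := by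
    intro a ha ha1
    haveI : Fact (Nat.Prime 2) := ⟨Nat.prime_two⟩
    apply orderOf_eq_prime
    · rw [sq, ← QuotientGroup.mk_mul, ha]
      rfl
    · intro h
      exact ha1 (hmk a 1 h)
  refine ⟨QuotientGroup.mk A, QuotientGroup.mk B, hord A hA2 hA1, hord B hB2 hB1, ?_⟩
  intro hconj
  obtain ⟨g, hg⟩ := isConj_iff.1 hconj
  obtain ⟨g', rfl⟩ := QuotientGroup.mk_surjective g
  have hgg : g' * A * g'⁻¹ = B := by
    apply hmk
    rw [QuotientGroup.mk_mul, QuotientGroup.mk_mul, QuotientGroup.mk_inv]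
    exact hg
  -- rank considerations
  let u : Fin 4 → F := Pi.single 0 1
  let v : Fin 4 → F := Pi.single 1 1
  have hEuv : T₁ = 1 + Matrix.vecMulVec u v := by
    show 1 + Matrix.single 0 1 1 = _
    congr 1
    ext i j
    simp [Matrix.vecMulVec_apply, Matrix.single_apply, u, v, Pi.single_apply]
    by_cases hi : i = 0 <;> by_cases hj : j = 1 <;> simp [hi, hj, eq_comm]
  have hgm : ((g' * A * g'⁻¹ : Matrix.SpecialLinearGroup (Fin 4) F) : Matrix (Fin 4) (Fin 4) F) = (g' : Matrix (Fin 4) (Fin 4) F) * T₁ * ((g'⁻¹ : Matrix.SpecialLinearGroup (Fin 4) F) : Matrix (Fin 4) (Fin 4) F) := rfl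
  have hg1 : (g' : Matrix (Fin 4) (Fin 4) F) * ((g'⁻¹ : Matrix.SpecialLinearGroup (Fin 4) F) : Matrix (Fin 4) (Fin 4) F) = 1 := by
    have := congrArg (fun y : Matrix.SpecialLinearGroup (Fin 4) F => (y : Matrix (Fin 4) (Fin 4) F)) (mul_inv_cancel g')
    exact this
  have hfinal : T₁ * T₂ = 1 + Matrix.vecMulVec ((g' : Matrix (Fin 4) (Fin 4) F) *ᵥ u) (v ᵥ* ((g'⁻¹ : Matrix.SpecialLinearGroup (Fin 4) F) : Matrix (Fin 4) (Fin 4) F)) := by
    have h5 : ((g' * A * g'⁻¹ : Matrix.SpecialLinearGroup (Fin 4) F) : Matrix (Fin 4) (Fin 4) F) = (B : Matrix (Fin 4) (Fin 4) F) := by rw [hgg]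
    rw [hgm] at h5
    show T₁ * T₂ = _
    have h6 : (B : Matrix (Fin 4) (Fin 4) F) = T₁ * T₂ := rfl
    rw [← h6, ← h5, hEuv, mul_add, add_mul, mul_one, hg1, Matrix.mul_vecMulVec, Matrix.vecMulVec_mul]
  obtain ⟨a, b, hab⟩ : ∃ a b : Fin 4 → F, ∀ i j, (T₁ * T₂) i j = (1 : Matrix (Fin 4) (Fin 4) F) i j + a i * b j := by
    refine ⟨(g' : Matrix (Fin 4) (Fin 4) F) *ᵥ u, v ᵥ* ((g'⁻¹ : Matrix.SpecialLinearGroup (Fin 4) F) : Matrix (Fin 4) (Fin 4) F), fun i j => ?_⟩
    rw [hfinal]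
    rfl
  have e1 := hab 0 1
  have e2 := hab 2 3
  have e3 := hab 0 3
  rw [hBe] at e1 e2 e3
  simp [Matrix.single_apply, Matrix.one_apply] at e1 e2 e3
  have ha0 : a 0 ≠ 0 := by
    intro h0
    rw [h0, zero_mul] at e1
    exact one_ne_zero e1
  have hb3 : b 3 ≠ 0 := by
    intro h0
    rw [h0, mul_zero] at e2
    exact one_ne_zero e2
  rcases e3 with h | h
  · exact ha0 h
  · exact hb3 h

/-- Let F be a field with 2 elements and K a field with 4 elements. PSL_4(F) and PSL_3(K) have the same order (20160) but are not isomorphic. -/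
theorem result {F K : Type*} [Field F] [Fintype F] [Field K] [Fintype K] (hF : Fintype.card F = 2) (hK : Fintype.card K = 4) : Nat.card (Matrix.ProjectiveSpecialLinearGroup (Fin 4) F) = Nat.card (Matrix.ProjectiveSpecialLinearGroup (Fin 3) K) ∧ ¬ Nonempty (Matrix.ProjectiveSpecialLinearGroup (Fin 4) F ≃* Matrix.ProjectiveSpecialLinearGroup (Fin 3) K) := by
  refine ⟨by rw [card_P4 hF, card_P3 hK], ?_⟩
  rintro ⟨e⟩
  obtain ⟨x, y, hx, hy, hn⟩ := not_all_conj hF
  apply hn
  have h := Cfsg.Agent.Lib.Psl34.involutions_conj hK (e x) (e y) (by rw [MulEquiv.orderOf_eq]; exact hx) (by rw [MulEquiv.orderOf_eq]; exact hy)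
  have h2 := MonoidHom.map_isConj e.symm.toMonoidHom h
  simpa using h2

end Cfsg.Agent.S2550
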