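import Cfsg.Statements.S2552
import Mathlib

set_option autoImplicit false
open Cfsg

namespace Cfsg.Agent.S2552

variable {F : Type*} [Field F] {n : ℕ}

theorem exists_equiv (U₁ U₂ : Submodule F (Fin n → F)) (h : Module.finrank F U₁ = Module.finrank F U₂) :
    ∃ e : (Fin n → F) ≃ₗ[F] (Fin n → F), ∀ x ∈ U₁, e x ∈ U₂ := by
  obtain ⟨W₁, h₁⟩ := Submodule.exists_isCompl U₁
  obtain ⟨W₂, h₂⟩ := Submodule.exists_isCompl U₂
  have hw : Module.finrank F W₁ = Module.finrank F W₂ := by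
    have a1 := Submodule.finrank_add_eq_of_isCompl h₁
    have a2 := Submodule.finrank_add_eq_of_isCompl h₂
    omega
  let e₁ := LinearEquiv.ofFinrankEq U₁ U₂ h
  let e₂ := LinearEquiv.ofFinrankEq W₁ W₂ hw
  let e := (Submodule.prodEquivOfIsCompl U₁ W₁ h₁).symm ≪≫ₗ (e₁.prodCongr e₂) ≪≫ₗ
    (Submodule.prodEquivOfIsCompl U₂ W₂ h₂)
  refine ⟨e, fun x hx => ?_⟩
  have : (Submodule.prodEquivOfIsCompl U₁ W₁ h₁).symm x = (⟨x, hx⟩, 0) :=
    Submodule.prodEquivOfIsCompl_symm_apply_left U₁ W₁ h₁ ⟨x, hx⟩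
  show (Submodule.prodEquivOfIsCompl U₂ W₂ h₂) ((e₁.prodCongr e₂) ((Submodule.prodEquivOfIsCompl U₁ W₁ h₁).symm x)) ∈ U₂
  rw [this]
  simp

/-- Let F be a finite field and n ≥ 1. For every k, the special linear group SL_n(F) acts transitively on the set of k-dimensional subspaces of F^n: any two subspaces of the same dimension are carried onto each other by some matrix of determinant 1. -/
theorem result {F : Type*} [Field F] [Fintype F] (n : ℕ) (hn : 1 ≤ n) (U₁ U₂ : Submodule F (Fin n → F)) (h : Module.finrank F U₁ = Module.finrank F U₂) : ∃ g : Matrix.SpecialLinearGroup (Fin n) F, U₁.map ((Matrix.SpecialLinearGroup.toLin' g : (Fin n → F) ≃ₗ[F] (Fin n → F)) : (Fin n → F) →ₗ[F] (Fin n → F)) = U₂ := by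
  by_cases hU : U₂ = ⊥
  · have h0 : U₁ = ⊥ := by
      rw [hU, finrank_bot] at h
      exact Submodule.finrank_eq_zero.1 h
    refine ⟨1, ?_⟩
    rw [h0, hU]
    simp
  obtain ⟨v, hv, hv0⟩ := (Submodule.ne_bot_iff _).1 hU
  obtain ⟨i, hi⟩ : ∃ i, v i ≠ 0 := by
    by_contra hh
    push Not at hh
    exact hv0 (funext hh)
  obtain ⟨e, he⟩ := exists_equiv U₁ U₂ h
  have hdet : LinearMap.det (e : (Fin n → F) →ₗ[F] (Fin n → F)) ≠ 0 :=
    (LinearEquiv.isUnit_det' e).ne_zero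
  set c : F := (LinearMap.det (e : (Fin n → F) →ₗ[F] (Fin n → F)))⁻¹ with hc
  let φ : Module.Dual F (Fin n → F) := (v i)⁻¹ • LinearMap.proj i
  have hφ : φ v = 1 := by
    simp [φ, hi]
  let D : (Fin n → F) →ₗ[F] (Fin n → F) := LinearMap.transvection ((c - 1) • φ) v
  have hDdet : LinearMap.det D = c := by
    simp [D, LinearMap.transvection.det, hφ]
  let M : Matrix (Fin n) (Fin n) F := LinearMap.toMatrix' (D ∘ₗ (e : (Fin n → F) →ₗ[F] (Fin n → F)))
  have hM : M.det = 1 := by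
    simp only [M]
    rw [LinearMap.det_toMatrix', LinearMap.det_comp, hDdet, hc]
    exact inv_mul_cancel₀ hdet
  let g : Matrix.SpecialLinearGroup (Fin n) F := ⟨M, hM⟩
  refine ⟨g, ?_⟩
  have hg : ∀ x, (Matrix.SpecialLinearGroup.toLin' g : (Fin n → F) ≃ₗ[F] (Fin n → F)) x = D (e x) := by
    intro x
    rw [Matrix.SpecialLinearGroup.toLin'_apply]
    show Matrix.toLin' M x = _
    simp [M]
  apply Submodule.eq_of_le_of_finrank_eq
  · rintro _ ⟨x, hx, rfl⟩
    show (Matrix.SpecialLinearGroup.toLin' g : (Fin n → F) ≃ₗ[F] (Fin n → F)) x ∈ U₂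
    rw [hg]
    have := he x hx
    simp only [D, LinearMap.transvection.apply]
    exact U₂.add_mem this (U₂.smul_mem _ hv)
  · rw [LinearEquiv.finrank_map_eq, h]

end Cfsg.Agent.S2552
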