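import Cfsg.Statements.S2565
import Cfsg.Agent.S0825
import Cfsg.Prelude.Def_Classical

set_option autoImplicit false
open Cfsg

namespace Cfsg.Agent.S2565

/-- The commutator subgroup of the full orthogonal group of the plus-type form Σ xᵢyᵢ in dimension 6 over the field of two elements (the group Ω⁺₆(2), of index 2) is isomorphic to the alternating group of degree 8. -/
theorem result :
    (Cfsg.Omega (ZMod 2) (Cfsg.quadFormPlus 3 (ZMod 2))).index = 2 ∧
    Nonempty (↥(Cfsg.Omega (ZMod 2) (Cfsg.quadFormPlus 3 (ZMod 2))) ≃* alternatingGroup (Fin 8)) := by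
  obtain ⟨θ⟩ := Cfsg.Agent.S0825.result (F := ZMod 2) (by simp [ZMod.card])
  have hcomm : commutator (Equiv.Perm (Fin 8)) = alternatingGroup (Fin 8) :=
    alternatingGroup.commutator_perm_eq (by simp)
  have hmap : (Cfsg.Omega (ZMod 2) (Cfsg.quadFormPlus 3 (ZMod 2))).map θ.toMonoidHom = alternatingGroup (Fin 8) := by
    rw [← hcomm]
    unfold Cfsg.Omega
    rw [commutator_def, commutator_def, Subgroup.map_commutator, Subgroup.map_top_of_surjective _ θ.surjective]
  have hcomap : Cfsg.Omega (ZMod 2) (Cfsg.quadFormPlus 3 (ZMod 2)) = (alternatingGroup (Fin 8)).comap θ.toMonoidHom := by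
    rw [← hmap, Subgroup.comap_map_eq_self_of_injective θ.injective]
  constructor
  · rw [hcomap, Subgroup.index_comap_of_surjective _ θ.surjective]
    exact alternatingGroup.index_eq_two
  · exact ⟨(θ.subgroupMap _).trans (MulEquiv.subgroupCongr hmap)⟩

end Cfsg.Agent.S2565
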