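import Cfsg.Statements.S2566
import Cfsg.Agent.Lib.OmegaSL2
import Cfsg.Agent.Lib.OrthOrder2
import Cfsg.Agent.Lib.SL2Gen
import Cfsg.Agent.S0250

set_option autoImplicit false
open Cfsg

namespace Cfsg.Agent.S2566


open Matrix Cfsg

section

local notation "F₂" => ZMod 2
local notation "κ" => (Fin 2 ⊕ Fin 2)
local notation "M₂" => Matrix (Fin 2) (Fin 2) (ZMod 2)
local notation "SS" => Matrix.SpecialLinearGroup (Fin 2) (ZMod 2)

/-- coordinates to matrices -/
def EE : (κ → ZMod 2) →ₗ[ZMod 2] M₂ where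
  toFun v := !![v (Sum.inl 0), v (Sum.inl 1); v (Sum.inr 1), v (Sum.inr 0)]
  map_add' v w := by
    ext i j
    fin_cases i <;> fin_cases j <;> simp
  map_smul' c v := by
    ext i j
    fin_cases i <;> fin_cases j <;> simp

/-- matrices to coordinates -/
def Es : M₂ →ₗ[ZMod 2] (κ → ZMod 2) where
  toFun M := Sum.elim ![M 0 0, M 0 1] ![M 1 1, M 1 0]
  map_add' A B := by
    funext i
    rcases i with i | i <;> fin_cases i <;> simp [add_comm]
  map_smul' c A := by
    funext i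
    rcases i with i | i <;> fin_cases i <;> simp

theorem EE_Es (M : M₂) : EE (Es M) = M := by
  ext i j
  fin_cases i <;> fin_cases j <;> rfl

theorem Es_EE (v : κ → ZMod 2) : Es (EE v) = v := by
  funext i
  rcases i with i | i <;> fin_cases i <;> rfl

theorem Q_eq (v : κ → ZMod 2) : Cfsg.quadFormPlus 2 (ZMod 2) v = (EE v).det := by
  show ∑ i : Fin 2, v (Sum.inl i) * v (Sum.inr i) = _
  rw [Matrix.det_fin_two, Fin.sum_univ_two]
  show _ = v (Sum.inl 0) * v (Sum.inr 0) - v (Sum.inl 1) * v (Sum.inr 1)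
  rw [sub_eq_add_neg, neg_eq_of_add_eq_zero_left (CharTwo.add_self_eq_zero (v (Sum.inl 1) * v (Sum.inr 1)))]

/-- the action on matrices -/
noncomputable def act (a b : M₂) : M₂ →ₗ[ZMod 2] M₂ where
  toFun M := a * M * b
  map_add' A B := by rw [mul_add, add_mul]
  map_smul' c A := by
    rw [Matrix.mul_smul, Matrix.smul_mul]
    rfl

/-- the representation -/
noncomputable def rho : SS × SS →* ((κ → ZMod 2) →ₗ[ZMod 2] (κ → ZMod 2)) where
  toFun p := Es ∘ₗ act (p.1 : M₂) ((p.2⁻¹ : SS) : M₂) ∘ₗ EE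
  map_one' := by
    apply LinearMap.ext
    intro v
    show Es ((1 : M₂) * EE v * (((1 : SS)⁻¹ : SS) : M₂)) = v
    rw [inv_one, Matrix.SpecialLinearGroup.coe_one, Matrix.one_mul, Matrix.mul_one, Es_EE]
  map_mul' p r := by
    apply LinearMap.ext
    intro v
    show Es (((p.1 * r.1 : SS) : M₂) * EE v * (((p.2 * r.2)⁻¹ : SS) : M₂)) =
      Es ((p.1 : M₂) * EE (Es ((r.1 : M₂) * EE v * ((r.2⁻¹ : SS) : M₂))) * ((p.2⁻¹ : SS) : M₂))
    rw [EE_Es, _root_.mul_inv_rev, Matrix.SpecialLinearGroup.coe_mul, Matrix.SpecialLinearGroup.coe_mul]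
    simp only [Matrix.mul_assoc]

theorem EE_rho (p : SS × SS) (v : κ → ZMod 2) : EE (rho p v) = (p.1 : M₂) * EE v * ((p.2⁻¹ : SS) : M₂) := by
  show EE (Es _) = _
  rw [EE_Es]
  rfl

theorem rho_Q (p : SS × SS) (v : κ → ZMod 2) : Cfsg.quadFormPlus 2 (ZMod 2) (rho p v) = Cfsg.quadFormPlus 2 (ZMod 2) v := by
  rw [Q_eq, Q_eq, EE_rho, Matrix.det_mul, Matrix.det_mul, Matrix.SpecialLinearGroup.det_coe, Matrix.SpecialLinearGroup.det_coe, one_mul, mul_one]

/-- The matrix form. -/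
noncomputable def psi : SS × SS →* Matrix.GeneralLinearGroup κ (ZMod 2) :=
  MonoidHom.toHomUnits
    { toFun := fun g => LinearMap.toMatrix' (rho g)
      map_one' := by
        rw [map_one, LinearMap.toMatrix'_one]
      map_mul' := fun a b => by
        rw [map_mul, LinearMap.toMatrix'_mul] }

theorem psi_mulVec (g : SS × SS) (v : κ → ZMod 2) : ((psi g : Matrix.GeneralLinearGroup κ (ZMod 2)) : Matrix κ κ (ZMod 2)) *ᵥ v = rho g v := by
  show LinearMap.toMatrix' (rho g) *ᵥ v = _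
  rw [LinearMap.toMatrix'_mulVec]

theorem psi_mem (g : SS × SS) : psi g ∈ isometryGroup (ZMod 2) (Cfsg.quadFormPlus 2 (ZMod 2)) := by
  intro u _
  show Cfsg.quadFormPlus 2 (ZMod 2) (((psi g : Matrix.GeneralLinearGroup κ (ZMod 2)) : Matrix κ κ (ZMod 2)) *ᵥ u) = _
  rw [psi_mulVec, rho_Q]

/-- into the isometry group -/
noncomputable def phi : SS × SS →* ↥(isometryGroup (ZMod 2) (Cfsg.quadFormPlus 2 (ZMod 2))) := psi.codRestrict _ psi_mem

theorem phi_mulVec (g : SS × SS) (v : κ → ZMod 2) : (((phi g : ↥(isometryGroup (ZMod 2) (Cfsg.quadFormPlus 2 (ZMod 2)))) : Matrix.GeneralLinearGroup κ (ZMod 2)) : Matrix κ κ (ZMod 2)) *ᵥ v = rho g v :=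
  psi_mulVec g v

theorem SS_center {g : SS} (h1 : (g : M₂) * !![0, 1; 0, 0] = !![0, 1; 0, 0] * (g : M₂))
    (h2 : (g : M₂) * !![0, 0; 1, 0] = !![0, 0; 1, 0] * (g : M₂)) : g = 1 := by
  have h := Cfsg.Agent.Lib.OmegaSL2.mem_center_of_comm h1 h2
  rw [Matrix.SpecialLinearGroup.mem_center_iff] at h
  obtain ⟨r, hr, hg⟩ := h
  have hr1 : r = 1 := by
    simp only [Fintype.card_fin] at hr
    have key : ∀ r : ZMod 2, r ^ 2 = 1 → r = 1 := by decide
    exact key r hr
  apply Subtype.ext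
  rw [← hg, hr1]
  simp

theorem phi_inj : Function.Injective phi := by
  rw [injective_iff_map_eq_one]
  rintro ⟨g, h⟩ hgh
  have hfix : ∀ M : M₂, (g : M₂) * M = M * (h : M₂) := by
    intro M
    have h1 := phi_mulVec (g, h) (Es M)
    rw [hgh] at h1
    simp only [OneMemClass.coe_one, Units.val_one, Matrix.one_mulVec] at h1
    have h2 := congrArg EE h1
    rw [EE_rho, EE_Es] at h2
    show _ = M * (h : M₂)
    conv_rhs => rw [h2]
    simp only [Matrix.mul_assoc]
    rw [← Matrix.SpecialLinearGroup.coe_mul, inv_mul_cancel, Matrix.SpecialLinearGroup.coe_one, Matrix.mul_one]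
  have h12 : g = h := by
    have := hfix 1
    rw [Matrix.mul_one, Matrix.one_mul] at this
    exact Subtype.ext this
  subst h12
  have : g = 1 := SS_center (hfix _) (hfix _)
  subst this
  rfl

theorem card_SS : Nat.card SS = 6 := by
  have := Cfsg.Agent.Lib.SL2Gen.card_SL2 (F := ZMod 2)
  unfold Cfsg.Agent.Lib.SL2Gen.SL2 at this
  rw [this, ZMod.card]

theorem card_O : Nat.card ↥(isometryGroup (ZMod 2) (Cfsg.quadFormPlus 2 (ZMod 2))) = 72 := by
  rw [Cfsg.Agent.Lib.OrthOrder2.card_plus, ZMod.card]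
  simp only [Finset.prod_range_succ, Finset.prod_range_zero]
  norm_num

/-- the transpose on `SL₂`. -/
def tr (g : SS) : SS := ⟨(g : M₂).transpose, by rw [Matrix.det_transpose]; exact g.det_coe⟩

theorem tr_coe (g : SS) : ((tr g : SS) : M₂) = (g : M₂).transpose := rfl

theorem tr_tr (g : SS) : tr (tr g) = g := Subtype.ext (Matrix.transpose_transpose _)

/-- the swap of coordinates -/
noncomputable def tauL : (κ → ZMod 2) →ₗ[ZMod 2] (κ → ZMod 2) where
  toFun v := Es (EE v).transpose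
  map_add' v w := by
    rw [map_add, Matrix.transpose_add, map_add]
  map_smul' c v := by
    rw [map_smul, Matrix.transpose_smul, map_smul]
    rfl

theorem EE_tau (v : κ → ZMod 2) : EE (tauL v) = (EE v).transpose := by
  show EE (Es _) = _
  rw [EE_Es]

theorem tau_tau (v : κ → ZMod 2) : tauL (tauL v) = v := by
  apply_fun EE using (Function.LeftInverse.injective Es_EE)
  rw [EE_tau, EE_tau, Matrix.transpose_transpose]

/-- the swap as a matrix -/
noncomputable def tau : ↥(isometryGroup (ZMod 2) (Cfsg.quadFormPlus 2 (ZMod 2))) :=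
  ⟨⟨LinearMap.toMatrix' tauL, LinearMap.toMatrix' tauL, by
    rw [← LinearMap.toMatrix'_mul, ← LinearMap.toMatrix'_one]
    congr 1
    apply LinearMap.ext
    exact tau_tau, by
    rw [← LinearMap.toMatrix'_mul, ← LinearMap.toMatrix'_one]
    congr 1
    apply LinearMap.ext
    exact tau_tau⟩, fun u _ => by
      show Cfsg.quadFormPlus 2 (ZMod 2) (LinearMap.toMatrix' tauL *ᵥ u) = Cfsg.quadFormPlus 2 (ZMod 2) u
      rw [LinearMap.toMatrix'_mulVec, Q_eq, Q_eq, EE_tau, Matrix.det_transpose]⟩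

theorem tau_mulVec (v : κ → ZMod 2) : ((tau : ↥(isometryGroup (ZMod 2) (Cfsg.quadFormPlus 2 (ZMod 2)))) : Matrix.GeneralLinearGroup κ (ZMod 2)).1 *ᵥ v = tauL v := by
  show LinearMap.toMatrix' tauL *ᵥ v = _
  rw [LinearMap.toMatrix'_mulVec]

theorem O_ext {x y : ↥(isometryGroup (ZMod 2) (Cfsg.quadFormPlus 2 (ZMod 2)))}
    (h : ∀ v, ((x : Matrix.GeneralLinearGroup κ (ZMod 2)) : Matrix κ κ (ZMod 2)) *ᵥ v = ((y : Matrix.GeneralLinearGroup κ (ZMod 2)) : Matrix κ κ (ZMod 2)) *ᵥ v) : x = y := by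
  apply Subtype.ext
  apply Units.ext
  apply Matrix.mulVec_injective
  funext v
  exact h v

theorem tau_inv : tau⁻¹ = tau := by
  rw [inv_eq_iff_mul_eq_one]
  apply O_ext
  intro v
  simp only [Subgroup.coe_mul, Units.val_mul, ← Matrix.mulVec_mulVec, tau_mulVec, tau_tau]
  simp

/-- conjugating by the swap exchanges the factors -/
theorem tau_conj (g : SS) : tau * phi (g, 1) * tau⁻¹ = phi (1, (tr g)⁻¹) := by
  rw [tau_inv]
  apply O_ext
  intro v
  simp only [Subgroup.coe_mul, Units.val_mul, ← Matrix.mulVec_mulVec, tau_mulVec, phi_mulVec]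
  apply_fun EE using (Function.LeftInverse.injective Es_EE)
  rw [EE_tau, EE_rho, EE_rho, EE_tau]
  simp [Matrix.transpose_mul, tr_coe]

end


/-- The full orthogonal group of the plus-type form x₁y₁ + x₂y₂ in dimension 4 over the field of two elements has order 72 and is isomorphic to the wreath product of the symmetric group of degree 3 by a group of order 2: it has a normal subgroup isomorphic to the direct product of two symmetric groups of degree 3, of index 2, whose two direct factors are interchanged by conjugation by some element. -/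
theorem result :
    Nat.card ↥(Cfsg.isometryGroup (ZMod 2) (Cfsg.quadFormPlus 2 (ZMod 2))) = 72 ∧
    ∃ (A B : Subgroup ↥(Cfsg.isometryGroup (ZMod 2) (Cfsg.quadFormPlus 2 (ZMod 2)))),
      Nonempty (↥A ≃* Equiv.Perm (Fin 3)) ∧ Nonempty (↥B ≃* Equiv.Perm (Fin 3)) ∧ A ⊓ B = ⊥ ∧ (∀ a ∈ A, ∀ b ∈ B, a * b = b * a) ∧
      (A ⊔ B).index = 2 ∧ ∃ g : ↥(Cfsg.isometryGroup (ZMod 2) (Cfsg.quadFormPlus 2 (ZMod 2))), A.map (MulAut.conj g).toMonoidHom = B := by
  refine ⟨card_O, (phi.comp (MonoidHom.inl _ _)).range, (phi.comp (MonoidHom.inr _ _)).range, ?_, ?_, ?_, ?_, ?_, tau, ?_⟩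
  · obtain ⟨e⟩ := Cfsg.Agent.S0250.result (F := ZMod 2) (by simp)
    have hi : Function.Injective (phi.comp (MonoidHom.inl (Matrix.SpecialLinearGroup (Fin 2) (ZMod 2)) (Matrix.SpecialLinearGroup (Fin 2) (ZMod 2)))) := phi_inj.comp (fun a b h => congrArg Prod.fst h)
    exact ⟨(MonoidHom.ofInjective hi).symm.trans e⟩
  · obtain ⟨e⟩ := Cfsg.Agent.S0250.result (F := ZMod 2) (by simp)
    have hi : Function.Injective (phi.comp (MonoidHom.inr (Matrix.SpecialLinearGroup (Fin 2) (ZMod 2)) (Matrix.SpecialLinearGroup (Fin 2) (ZMod 2)))) := phi_inj.comp (fun a b h => congrArg Prod.snd h)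
    exact ⟨(MonoidHom.ofInjective hi).symm.trans e⟩
  · rw [eq_bot_iff]
    rintro x ⟨⟨g, rfl⟩, ⟨h, hh⟩⟩
    have h1 : ((g, 1) : Matrix.SpecialLinearGroup (Fin 2) (ZMod 2) × Matrix.SpecialLinearGroup (Fin 2) (ZMod 2)) = (1, h) := phi_inj hh.symm
    have h2 : g = 1 := congrArg Prod.fst h1
    subst h2
    rw [Subgroup.mem_bot]
    show phi (1, 1) = 1
    exact map_one phi
  · rintro _ ⟨g, rfl⟩ _ ⟨h, rfl⟩
    show phi (g, 1) * phi (1, h) = phi (1, h) * phi (g, 1)
    rw [← map_mul, ← map_mul]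
    congr 1
    simp
  · have h1 : (phi.comp (MonoidHom.inl _ _)).range ⊔ (phi.comp (MonoidHom.inr _ _)).range = phi.range := by
      apply le_antisymm
      · apply sup_le
        · rintro _ ⟨g, rfl⟩
          exact ⟨_, rfl⟩
        · rintro _ ⟨g, rfl⟩
          exact ⟨_, rfl⟩
      · rintro _ ⟨⟨g, h⟩, rfl⟩
        have : phi (g, h) = phi (g, 1) * phi (1, h) := by
          rw [← map_mul]
          simp
        rw [this]
        exact mul_mem (Subgroup.mem_sup_left ⟨g, rfl⟩) (Subgroup.mem_sup_right ⟨h, rfl⟩)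
    rw [h1]
    have h2 := Subgroup.index_mul_card phi.range
    rw [card_O, Nat.card_congr (MonoidHom.ofInjective phi_inj).toEquiv.symm, Nat.card_prod, card_SS] at h2
    omega
  · ext x
    constructor
    · rintro ⟨_, ⟨g, rfl⟩, rfl⟩
      exact ⟨(tr g)⁻¹, (tau_conj g).symm⟩
    · rintro ⟨h, rfl⟩
      refine ⟨_, ⟨tr h⁻¹, rfl⟩, ?_⟩
      show tau * phi (tr h⁻¹, 1) * tau⁻¹ = phi (1, h)
      rw [tau_conj, tr_tr, inv_inv]

end Cfsg.Agent.S2566
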