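import Cfsg.Statements.S2567
import Mathlib

set_option autoImplicit false
open Cfsg

namespace Cfsg.Agent.S2567

theorem unique_lift {G : Type*} [Group G] {r m : ℕ} (hr : r.Prime) (hc : Nat.Coprime r m)
    (hZ : ∀ z ∈ Subgroup.center G, z ^ m = 1) (x : G ⧸ Subgroup.center G) (hx : orderOf x = r) :
    ∃! g : G, (QuotientGroup.mk g : G ⧸ Subgroup.center G) = x ∧ orderOf g = r := by
  obtain ⟨g₀, rfl⟩ := QuotientGroup.mk_surjective x
  have hz0 : g₀ ^ r ∈ Subgroup.center G := by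
    rw [← QuotientGroup.eq_one_iff, QuotientGroup.mk_pow, ← hx]
    exact pow_orderOf_eq_one _
  have hcent : ∀ z ∈ Subgroup.center G, ∀ y : G, z * y = y * z :=
    fun z hz y => (Subgroup.mem_center_iff.1 hz y).symm
  obtain ⟨u, v, huv⟩ : ∃ u v : ℤ, u * r + v * m = 1 := by
    have := Nat.isCoprime_iff_coprime.2 hc
    exact this
  set z := g₀ ^ r with hz
  let c : G := z ^ (-u)
  have hcZ : c ∈ Subgroup.center G := Subgroup.zpow_mem _ hz0 _
  have hcr : c ^ r = z⁻¹ := by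
    have h1 : z ^ ((u * r + v * m : ℤ)) = z := by rw [huv, zpow_one]
    have h2 : z ^ ((v * m : ℤ)) = 1 := by
      rw [mul_comm, zpow_mul, zpow_natCast, hZ z hz0, one_zpow]
    rw [zpow_add, h2, mul_one] at h1
    show (z ^ (-u)) ^ r = z⁻¹
    rw [← zpow_natCast, ← zpow_mul, neg_mul, zpow_neg, h1]
  have hne : (QuotientGroup.mk g₀ : G ⧸ Subgroup.center G) ≠ 1 := by
    intro h
    rw [h, orderOf_one] at hx
    exact hr.one_lt.ne hx
  have hg1 : (g₀ * c) ^ r = 1 := by
    have hcomm : Commute g₀ c := (hcent c hcZ g₀).symm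
    rw [hcomm.mul_pow, hcr, ← hz]
    simp
  have hmk : (QuotientGroup.mk (g₀ * c) : G ⧸ Subgroup.center G) = QuotientGroup.mk g₀ := by
    rw [QuotientGroup.eq]
    have : (g₀ * c)⁻¹ * g₀ = c⁻¹ := by group
    rw [this]
    exact Subgroup.inv_mem _ hcZ
  haveI : Fact r.Prime := ⟨hr⟩
  have hord : ∀ g : G, (QuotientGroup.mk g : G ⧸ Subgroup.center G) = QuotientGroup.mk g₀ →
      g ^ r = 1 → orderOf g = r := by
    intro g hg hgr
    apply orderOf_eq_prime hgr
    rintro rfl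
    apply hne
    rw [← hg]
    rfl
  refine ⟨g₀ * c, ⟨hmk, hord _ hmk hg1⟩, ?_⟩
  rintro g₁ ⟨h1, h2⟩
  have hg₁r : g₁ ^ r = 1 := by
    rw [← h2]; exact pow_orderOf_eq_one _
  have hw : (g₀ * c)⁻¹ * g₁ ∈ Subgroup.center G := by
    rw [← QuotientGroup.eq, hmk, h1]
  set w := (g₀ * c)⁻¹ * g₁ with hwdef
  have hwr : w ^ r = 1 := by
    have hcomm : Commute (g₀ * c)⁻¹ g₁ := by
      have e : g₁ = (g₀ * c) * w := by rw [hwdef]; group
      rw [e]
      have := (hcent w hw (g₀ * c))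
      show (g₀ * c)⁻¹ * ((g₀ * c) * w) = ((g₀ * c) * w) * (g₀ * c)⁻¹
      have e2 : ((g₀ * c) * w) * (g₀ * c)⁻¹ = w := by rw [← this]; group
      have e3 : (g₀ * c)⁻¹ * ((g₀ * c) * w) = w := by group
      rw [e2, e3]
    rw [hwdef, hcomm.mul_pow, hg₁r, inv_pow, hg1]
    simp
  have hwm : w ^ m = 1 := hZ w hw
  have h3 : orderOf w ∣ Nat.gcd r m := Nat.dvd_gcd (orderOf_dvd_of_pow_eq_one hwr) (orderOf_dvd_of_pow_eq_one hwm)
  rw [hc, Nat.dvd_one, orderOf_eq_one_iff] at h3
  have : g₁ = (g₀ * c) * w := by rw [hwdef]; group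
  rw [this, h3, mul_one]

/-- Lifting elements of prime order from PGL to GL: let F be a finite field with q elements, r a prime not dividing q − 1, and x an element of order r in GL_n(F) modulo its centre (the scalar matrices). Then x has exactly one preimage in GL_n(F) of order r. -/
theorem result {F : Type*} [Field F] [Fintype F] {q n r : ℕ} (hF : Fintype.card F = q) (hr : r.Prime) (hdiv : ¬ r ∣ q - 1) (x : GL (Fin n) F ⧸ Subgroup.center (GL (Fin n) F)) (hx : orderOf x = r) : ∃! g : GL (Fin n) F, (QuotientGroup.mk g : GL (Fin n) F ⧸ Subgroup.center (GL (Fin n) F)) = x ∧ orderOf g = r := by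
  apply unique_lift (m := q - 1) hr ((Nat.Prime.coprime_iff_not_dvd hr).2 hdiv) _ x hx
  intro z hz
  rw [Matrix.GeneralLinearGroup.center_eq_range_scalar] at hz
  obtain ⟨u, rfl⟩ := hz
  rw [← map_pow]
  have : u ^ (q - 1) = 1 := by
    apply Units.ext
    rw [Units.val_pow_eq_pow_val, Units.val_one, ← hF]
    exact FiniteField.pow_card_sub_one_eq_one _ u.ne_zero
  rw [this, map_one]

end Cfsg.Agent.S2567
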