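import Cfsg.Statements.S2569
import Cfsg.Agent.Lib.IrrEnd

set_option autoImplicit false
open Cfsg

namespace Cfsg.Agent.S2569


open Matrix Cfsg.Agent.Lib.IrrEnd

section
variable {F : Type*} [Field F] [Fintype F] {V : Type*} [AddCommGroup V] [Module F V] [FiniteDimensional F V]

/-- Semisimple operators have commuting elements of any determinant. -/
theorem exists_det (f : Module.End F V) (hf : f.IsSemisimple) [Nontrivial V] (c : F) :
    ∃ L : Module.End F V, L * f = f * L ∧ LinearMap.det L = c := by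
  classical
  -- a minimal invariant subspace
  have hex : ∃ k, ∃ W : Submodule F V, W ≠ ⊥ ∧ (∀ w ∈ W, f w ∈ W) ∧ Module.finrank F W = k :=
    ⟨_, ⊤, top_ne_bot, fun _ _ => trivial, rfl⟩
  obtain ⟨W, hW0, hWinv, hWk⟩ := Nat.find_spec hex
  have hmin : ∀ U : Submodule F V, U ≠ ⊥ → (∀ w ∈ U, f w ∈ U) → U ≤ W → U = W := by
    intro U hU0 hUinv hUW
    apply Submodule.eq_of_le_of_finrank_le hUW
    rw [hWk]
    by_contra hlt
    push Not at hlt
    exact Nat.find_min hex hlt ⟨U, hU0, hUinv, rfl⟩
  -- an invariant complement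
  obtain ⟨Z, hZinv, hc⟩ := (Module.End.isSemisimple_iff.1 hf) W (by
    rw [Module.End.mem_invtSubmodule]
    exact fun w hw => hWinv w hw)
  have hZinv' : ∀ w ∈ Z, f w ∈ Z := fun w hw => (Module.End.mem_invtSubmodule _).1 hZinv hw
  let fW : Module.End F W := f.restrict hWinv
  have hfW : ∀ w : W, (fW w : V) = f w := fun w => rfl
  have hirr : Irr fW := by
    intro U hU hUinv
    have h1 := hmin (U.map W.subtype) (by
      intro h
      apply hU
      apply Submodule.map_injective_of_injective W.subtype_injective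
      rw [h, Submodule.map_bot]) (by
      rintro _ ⟨u, hu, rfl⟩
      exact ⟨fW u, hUinv u hu, rfl⟩) (by
      rintro _ ⟨u, hu, rfl⟩
      exact u.2)
    rw [eq_top_iff]
    intro w _
    have h2 : (w : V) ∈ U.map W.subtype := by rw [h1]; exact w.2
    obtain ⟨u, hu, hu2⟩ := h2
    have h3 : u = w := Subtype.ext hu2
    rwa [← h3]
  haveI : Nontrivial W := Submodule.nontrivial_iff_ne_bot.2 hW0
  obtain ⟨E, _, _, ψ, -, hcomm, -, hdet, hfin, -⟩ := exists_field hirr
  haveI : Finite E := Module.finite_of_finite F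
  obtain ⟨e, he⟩ := FiniteField.norm_surjective F E c
  -- the extension by the identity
  let D : (W × Z) ≃ₗ[F] V := Submodule.prodEquivOfIsCompl W Z hc
  have hD : ∀ a b, D (a, b) = (a : V) + b := fun a b => rfl
  let y : Module.End F W := ψ e
  have hy : y * fW = fW * y := hcomm e
  refine ⟨D.toLinearMap ∘ₗ (y.prodMap (LinearMap.id : Z →ₗ[F] Z)) ∘ₗ D.symm.toLinearMap, ?_, ?_⟩
  · ext v
    obtain ⟨⟨a, b⟩, rfl⟩ := D.surjective v
    have hfD : ∀ a b, f (D (a, b)) = D (fW a, ⟨f b, hZinv' b b.2⟩) := by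
      intro a b
      rw [hD, hD, map_add]
      rfl
    show D ((y.prodMap (LinearMap.id : Z →ₗ[F] Z)) (D.symm (f (D (a, b))))) = f (D ((y.prodMap (LinearMap.id : Z →ₗ[F] Z)) (D.symm (D (a, b)))))
    rw [hfD, LinearEquiv.symm_apply_apply, LinearEquiv.symm_apply_apply]
    simp only [LinearMap.prodMap_apply, LinearMap.id_apply]
    rw [hfD]
    have h1 : y (fW a) = fW (y a) := by
      have := congrArg (fun z : Module.End F W => z a) hy
      exact this
    rw [h1]
  · rw [LinearMap.det_conj, LinearMap.det_prodMap, LinearMap.det_id, mul_one, ← he]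
    exact hdet e
end


/-- In GL_n over a finite field of characteristic p, the conjugacy class of a semisimple element (an element of order prime to p) under the special linear group is its whole GL-conjugacy class: for every such x and every invertible g there is h of determinant one with h x h⁻¹ = g x g⁻¹. -/
theorem result {F : Type*} [Field F] [Fintype F] {p : ℕ} [Fact p.Prime] [CharP F p] {n : ℕ} (x g : GL (Fin n) F) (hx : (orderOf x).Coprime p) : ∃ h : GL (Fin n) F, (h : Matrix (Fin n) (Fin n) F).det = 1 ∧ h * x * h⁻¹ = g * x * g⁻¹ := by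
  classical
  have hm0 : orderOf x ≠ 0 := (orderOf_pos x).ne'
  -- reduction
  suffices hc : ∃ c : GL (Fin n) F, c * x = x * c ∧ (c : Matrix (Fin n) (Fin n) F).det = (g : Matrix (Fin n) (Fin n) F).det by
    obtain ⟨c, hc1, hc2⟩ := hc
    refine ⟨g * c⁻¹, ?_, ?_⟩
    · have h1 : ((c⁻¹ : GL (Fin n) F) : Matrix (Fin n) (Fin n) F).det * (c : Matrix (Fin n) (Fin n) F).det = 1 := by
        rw [← Matrix.det_mul, ← Units.val_mul, inv_mul_cancel, Units.val_one, Matrix.det_one]
      rw [Units.val_mul, Matrix.det_mul, ← hc2, mul_comm]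
      exact h1
    · have h1 : c⁻¹ * x * c = x := by
        rw [mul_assoc, ← hc1, ← mul_assoc, inv_mul_cancel, one_mul]
      calc g * c⁻¹ * x * (g * c⁻¹)⁻¹ = g * (c⁻¹ * x * c) * g⁻¹ := by group
        _ = g * x * g⁻¹ := by rw [h1]
  by_cases hn : n = 0
  · subst hn
    refine ⟨1, by simp, ?_⟩
    simp
  haveI : Nonempty (Fin n) := ⟨⟨0, by omega⟩⟩
  let X : Matrix (Fin n) (Fin n) F := x
  let f : Module.End F (Fin n → F) := Matrix.toLin' X
  have hpow : ∀ k, f ^ k = Matrix.toLin' (X ^ k) := by
    intro k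
    induction k with
    | zero => simp; rfl
    | succ k ih =>
      rw [pow_succ, ih, pow_succ, Matrix.toLin'_mul]
      rfl
  have hX : X ^ orderOf x = 1 := by
    have h1 := pow_orderOf_eq_one x
    have h2 : ((x ^ orderOf x : GL (Fin n) F) : Matrix (Fin n) (Fin n) F) = 1 := by rw [h1]; rfl
    rwa [Units.val_pow_eq_pow_val] at h2
  have hsemi : f.IsSemisimple := by
    apply Module.End.isSemisimple_of_squarefree_aeval_eq_zero (p := Polynomial.X ^ orderOf x - Polynomial.C 1)
    · apply Polynomial.Separable.squarefree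
      apply Polynomial.separable_X_pow_sub_C
      · intro h
        have h1 := (CharP.cast_eq_zero_iff F p (orderOf x)).1 h
        have h2 := Nat.Coprime.eq_one_of_dvd hx.symm h1
        exact (Fact.out : p.Prime).one_lt.ne' h2
      · exact one_ne_zero
    · simp only [map_sub, map_pow, Polynomial.aeval_X, Polynomial.aeval_C, map_one]
      rw [hpow, hX, Matrix.toLin'_one, sub_eq_zero]
      rfl
  obtain ⟨L, hL1, hL2⟩ := exists_det f hsemi (g : Matrix (Fin n) (Fin n) F).det
  have hdet : (LinearMap.toMatrix' L).det ≠ 0 := by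
    rw [LinearMap.det_toMatrix', hL2]
    exact g.isUnit.map (Matrix.detMonoidHom) |>.ne_zero
  refine ⟨Matrix.GeneralLinearGroup.mkOfDetNeZero _ hdet, ?_, ?_⟩
  · apply Units.ext
    show LinearMap.toMatrix' L * X = X * LinearMap.toMatrix' L
    apply Matrix.toLin'.injective
    rw [Matrix.toLin'_mul, Matrix.toLin'_mul, Matrix.toLin'_toMatrix']
    exact hL1
  · show (LinearMap.toMatrix' L).det = _
    rw [LinearMap.det_toMatrix', hL2]

end Cfsg.Agent.S2569
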