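import Cfsg.Statements.S2571
import Cfsg.Agent.Lib.RegUni2

set_option autoImplicit false
open Cfsg

namespace Cfsg.Agent.S2571

/-- Centraliser of a regular unipotent element in GL_n(q): if u is an invertible n × n matrix over the field with q elements, n ≥ 1, with (u − 1)^n = 0 and rank(u − 1) = n − 1 (a single unipotent Jordan block), then its centraliser in GL_n(q) has order (q − 1) q^(n−1). -/
theorem result {F : Type*} [Field F] [Fintype F] {q n : ℕ} (hF : Fintype.card F = q) (hn : 1 ≤ n) (u : GL (Fin n) F) (hnil : ((u : Matrix (Fin n) (Fin n) F) - 1) ^ n = 0) (hreg : ((u : Matrix (Fin n) (Fin n) F) - 1).rank = n - 1) : Nat.card ↥(Subgroup.centralizer ({u} : Set (GL (Fin n) F))) = (q - 1) * q ^ (n - 1) := by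
  classical
  set N := (u : Matrix (Fin n) (Fin n) F) - 1 with hN
  have hcard : Fintype.card (Fin n) = n := Fintype.card_fin n
  obtain ⟨e, he⟩ := Cfsg.Agent.Lib.RegUni2.exists_cyclic hcard hn hnil hreg
  have e1 : Subgroup.centralizer ({u} : Set (GL (Fin n) F)) = (Subgroup.centralizer ({u} : Set (GL (Fin n) F))) := rfl
  have h1 : ∀ g : GL (Fin n) F, g ∈ Subgroup.centralizer ({u} : Set (GL (Fin n) F)) ↔ Commute (g : Matrix (Fin n) (Fin n) F) N := by
    intro g
    rw [Subgroup.mem_centralizer_singleton_iff, hN]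
    constructor
    · intro h
      have h2 : (g : Matrix (Fin n) (Fin n) F) * (u : Matrix (Fin n) (Fin n) F) = (u : Matrix (Fin n) (Fin n) F) * (g : Matrix (Fin n) (Fin n) F) := by
        rw [← Units.val_mul, ← Units.val_mul, h]
      show (g : Matrix (Fin n) (Fin n) F) * ((u : Matrix (Fin n) (Fin n) F) - 1) = ((u : Matrix (Fin n) (Fin n) F) - 1) * (g : Matrix (Fin n) (Fin n) F)
      rw [mul_sub, sub_mul, h2, mul_one, one_mul]
    · intro h
      have h2 : (g : Matrix (Fin n) (Fin n) F) * ((u : Matrix (Fin n) (Fin n) F) - 1) = ((u : Matrix (Fin n) (Fin n) F) - 1) * (g : Matrix (Fin n) (Fin n) F) := h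
      rw [mul_sub, sub_mul, mul_one, one_mul] at h2
      apply Units.ext
      rw [Units.val_mul, Units.val_mul]
      exact sub_left_injective h2
  have h2 : Nat.card (Subgroup.centralizer ({u} : Set (GL (Fin n) F))) = Nat.card {g : GL (Fin n) F // Commute (g : Matrix (Fin n) (Fin n) F) N} :=
    Nat.card_congr (Equiv.subtypeEquivRight h1)
  rw [h2, Nat.card_congr (Cfsg.Agent.Lib.RegUni2.centEquiv hcard hnil hreg he), Cfsg.Agent.Lib.RegUni2.card_compl hcard hn hnil hreg, hF]

end Cfsg.Agent.S2571
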