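import Cfsg.Statements.S2574
import Cfsg.Agent.Lib.RegUni
import Cfsg.Agent.Lib.SympBasic

set_option autoImplicit false
open Cfsg

namespace Cfsg.Agent.S2574

/-- A regular unipotent element of the symplectic group has totally isotropic small invariant subspaces: over a finite field, if u ∈ Sp_2m(F) satisfies (u − 1)^(2m) = 0 and rank(u − 1) = 2m − 1, and W is a u-invariant subspace with 2 dim W ≤ 2m, then the alternating form vanishes identically on W. -/
theorem result {F : Type*} [Field F] [Finite F] {m : ℕ} (u : Matrix.symplecticGroup (Fin m) F) (hnil : ((u : Matrix (Fin m ⊕ Fin m) (Fin m ⊕ Fin m) F) - 1) ^ (2 * m) = 0) (hreg : ((u : Matrix (Fin m ⊕ Fin m) (Fin m ⊕ Fin m) F) - 1).rank = 2 * m - 1) (W : Submodule F (Fin m ⊕ Fin m → F)) (hW : ∀ v ∈ W, (u : Matrix (Fin m ⊕ Fin m) (Fin m ⊕ Fin m) F).mulVec v ∈ W) (hdim : 2 * Module.finrank F W ≤ 2 * m) : ∀ v ∈ W, ∀ w ∈ W, Cfsg.sympForm m F v w = 0 := by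
  classical
  obtain ⟨A, hA⟩ := u
  set N := A - 1 with hN
  have hcard : Fintype.card (Fin m ⊕ Fin m) = 2 * m := by
    simp [two_mul]
  have hnil' : N ^ (2 * m) = 0 := hnil
  have hreg' : N.rank = 2 * m - 1 := hreg
  have hW' : ∀ v ∈ W, A.mulVec v ∈ W := hW
  have hpres : ∀ x y, Cfsg.sympForm m F (A.mulVec x) (A.mulVec y) = Cfsg.sympForm m F x y :=
    (Cfsg.Agent.Lib.SympBasic.preserves_iff_mem A).2 hA
  -- `A` is injective
  have hinj : Function.Injective (Matrix.mulVecLin A) :=
    Matrix.mulVec_injective_iff_isUnit.2 ((Matrix.isUnit_iff_isUnit_det A).2 (SymplecticGroup.symplectic_det hA))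
  have hmap : W.map (Matrix.mulVecLin A) = W := by
    apply Submodule.eq_of_le_of_finrank_eq
    · rintro _ ⟨v, hv, rfl⟩
      exact hW' v hv
    · exact (LinearEquiv.finrank_eq (Submodule.equivMapOfInjective _ hinj W)).symm
  -- the perp
  let Φ : (Fin m ⊕ Fin m → F) →ₗ[F] Module.Dual F W :=
    { toFun := fun x =>
        { toFun := fun w => Cfsg.sympForm m F x (w : Fin m ⊕ Fin m → F)
          map_add' := fun a b => Cfsg.Agent.Lib.SympBasic.sympForm_add_right _ _ _
          map_smul' := fun c a => Cfsg.Agent.Lib.SympBasic.sympForm_smul_right _ _ _ }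
      map_add' := fun a b => by
        ext w
        exact Cfsg.Agent.Lib.SympBasic.sympForm_add_left _ _ _
      map_smul' := fun c a => by
        ext w
        exact Cfsg.Agent.Lib.SympBasic.sympForm_smul_left _ _ _ }
  set P := LinearMap.ker Φ with hP
  have hmemP : ∀ x, x ∈ P ↔ ∀ w ∈ W, Cfsg.sympForm m F x w = 0 := by
    intro x
    rw [hP, LinearMap.mem_ker]
    constructor
    · intro h w hw
      have := LinearMap.congr_fun h ⟨w, hw⟩
      exact this
    · intro h
      ext w
      exact h w w.2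
  have hPinv : ∀ x ∈ P, A.mulVec x ∈ P := by
    intro x hx
    rw [hmemP] at hx ⊢
    intro w hw
    rw [← hmap] at hw
    obtain ⟨w', hw', rfl⟩ := hw
    rw [Matrix.mulVecLin_apply, hpres]
    exact hx w' hw'
  have hdimP : 2 * m ≤ Module.finrank F P + Module.finrank F W := by
    have h1 := LinearMap.finrank_range_add_finrank_ker Φ
    have h2 : Module.finrank F (LinearMap.range Φ) ≤ Module.finrank F (Module.Dual F W) := Submodule.finrank_le _
    rw [Subspace.dual_finrank_eq] at h2
    rw [Module.finrank_pi, hcard, ← hP] at h1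
    omega
  have e1 := Cfsg.Agent.Lib.RegUni.inv_eq_ker hcard hnil' hreg' W (Cfsg.Agent.Lib.RegUni.inv_of_inv hW')
  have e2 := Cfsg.Agent.Lib.RegUni.inv_eq_ker hcard hnil' hreg' P (Cfsg.Agent.Lib.RegUni.inv_of_inv hPinv)
  have hle : W ≤ P := by
    calc W = _ := e1
      _ ≤ _ := Cfsg.Agent.Lib.RegUni.KK_mono N (by omega)
      _ = P := e2.symm
  intro v hv w hw
  exact (hmemP v).1 (hle hv) w hw

end Cfsg.Agent.S2574
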