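import Cfsg.Statements.S2575
import Cfsg.Agent.Lib.FieldTwoPart

set_option autoImplicit false
open Cfsg

namespace Cfsg.Agent.S2575

theorem prod_eq {F : Type*} [Field F] {n : ℕ} {i : ℕ} (hi : i ≤ n) :
    ∏ j : Fin n, (if (j : ℕ) < i then (-1 : F) else 1) = (-1) ^ i := by
  rw [Fin.prod_univ_eq_prod_range (fun j => if j < i then (-1 : F) else 1) n, Finset.prod_ite]
  simp only [Finset.prod_const_one, mul_one, Finset.prod_const]
  congr 1
  have : Finset.filter (fun j => j < i) (Finset.range n) = Finset.range i := by
    ext j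
    simp
    omega
  rw [this, Finset.card_range]

/-- Which diagonal involutions of PGL_n(q) lie in PSL_n(q), q odd: for the diagonal matrix t with i entries −1 and n − i entries 1, some non-zero scalar multiple of t has determinant one if and only if i is even or the 2-part of q − 1 exceeds the 2-part of n (that is, −1 is an n-th power in the field exactly in the latter case). -/
theorem result {F : Type*} [Field F] [Fintype F] {q : ℕ} (hF : Fintype.card F = q) (hq : Odd q) {n : ℕ} (hn : 1 ≤ n) (i : ℕ) (hi : i ≤ n) : (∃ c : F, c ≠ 0 ∧ (c • Matrix.diagonal (fun j : Fin n => if (j : ℕ) < i then (-1 : F) else 1)).det = 1) ↔ (Even i ∨ padicValNat 2 n < padicValNat 2 (q - 1)) := by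
  subst hF
  rw [← Cfsg.Agent.Lib.FieldTwoPart.exists_pow_neg_one hq hn]
  have hdet : ∀ c : F, (c • Matrix.diagonal (fun j : Fin n => if (j : ℕ) < i then (-1 : F) else 1)).det = c ^ n * (-1) ^ i := by
    intro c
    rw [Matrix.det_smul, Matrix.det_diagonal, Fintype.card_fin, prod_eq hi]
  simp only [hdet]
  constructor
  · rintro ⟨c, hc, h⟩
    rcases Nat.even_or_odd i with he | ho
    · exact Or.inl he
    · right
      refine ⟨c, hc, ?_⟩
      rw [ho.neg_one_pow] at h
      linear_combination -h
  · rintro (he | ⟨c, hc, h⟩)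
    · exact ⟨1, one_ne_zero, by rw [one_pow, he.neg_one_pow, one_mul]⟩
    · rcases Nat.even_or_odd i with he | ho
      · exact ⟨1, one_ne_zero, by rw [one_pow, he.neg_one_pow, one_mul]⟩
      · refine ⟨c, hc, ?_⟩
        rw [h, ho.neg_one_pow]
        ring

end Cfsg.Agent.S2575
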