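import Cfsg.Statements.S2576
import Cfsg.Agent.Lib.FieldTwoPart

set_option autoImplicit false
open Cfsg

namespace Cfsg.Agent.S2576

open Cfsg.Agent.Lib.FieldTwoPart

/-- Which involutions of PGL_2m(q) coming from a scalar of the quadratic extension field lie in PSL_2m(q), q odd: let μ generate the Sylow 2-subgroup of the multiplicative group of the field with q elements (μ has order the 2-part of q − 1) and let t be the block-diagonal matrix with m diagonal blocks [[0, 1], [μ, 0]] (so t² is the scalar μ and t is an involution modulo scalars). Then some non-zero scalar multiple of t has determinant one if and only if q ≡ 3 (mod 4) or the 2-part of q − 1 is less than the 2-part of 2m. -/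
theorem result {F : Type*} [Field F] [Fintype F] {q : ℕ} (hF : Fintype.card F = q) (hq : Odd q) {m : ℕ} (hm : 1 ≤ m) (μ : F) (hμ : orderOf μ = 2 ^ padicValNat 2 (q - 1)) : (∃ c : F, c ≠ 0 ∧ (c • Matrix.blockDiagonal (fun _ : Fin m => !![(0 : F), 1; μ, 0])).det = 1) ↔ (q % 4 = 3 ∨ padicValNat 2 (q - 1) < padicValNat 2 (2 * m)) := by
  subst hF
  have hdet : ∀ c : F, (c • Matrix.blockDiagonal (fun _ : Fin m => !![(0 : F), 1; μ, 0])).det = (c ^ 2 * (-μ)) ^ m := by
    intro c
    rw [Matrix.det_smul, Matrix.det_blockDiagonal]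
    simp [Matrix.det_fin_two, mul_pow, pow_mul, mul_comm]
    rw [show -(μ * c ^ 2) = c ^ 2 * (-μ) by ring, mul_pow]
    ring
  simp only [hdet]
  have hval : padicValNat 2 (2 * m) = 1 + padicValNat 2 m := by
    rw [padicValNat.mul (by norm_num) (by omega), padicValNat_self]
  rw [hval]
  have hq1 : 1 < Fintype.card F := Fintype.one_lt_card
  have hμ0 : μ ≠ 0 := by
    rintro rfl
    rw [orderOf_eq_zero (by
      rw [isOfFinOrder_iff_pow_eq_one]
      rintro ⟨n, hn, hn2⟩
      rw [zero_pow hn.ne'] at hn2
      exact zero_ne_one hn2)] at hμ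
    have : 0 < 2 ^ padicValNat 2 (Fintype.card F - 1) := by positivity
    omega
  have hnotsq := not_isSquare_of_order hq hμ
  constructor
  · rintro ⟨c, hc, h⟩
    by_cases h3 : Fintype.card F % 4 = 3
    · exact Or.inl h3
    right
    by_contra hlt
    push Not at hlt
    have hz0 : c ^ 2 * (-μ) ≠ 0 := mul_ne_zero (pow_ne_zero _ hc) (neg_ne_zero.2 hμ0)
    have hs := pow_half_of_pow hq hz0 hm h (by omega)
    apply hnotsq
    have hneg : IsSquare (-1 : F) := FiniteField.isSquare_neg_one_iff.2 h3
    have e : μ = (-1) * ((c⁻¹) ^ 2 * (c ^ 2 * (-μ))) := by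
      field_simp
    rw [e]
    exact hneg.mul ((IsSquare.sq _).mul hs)
  · intro h
    have hNeven : 2 ∣ Fintype.card F - 1 := by
      rw [Nat.odd_iff] at hq
      omega
    have hN0 : Fintype.card F - 1 ≠ 0 := by omega
    have ha1 : 1 ≤ padicValNat 2 (Fintype.card F - 1) := by
      exact one_le_padicValNat_of_dvd hN0 hNeven
    rcases h with h3 | hlt
    · refine ⟨1, one_ne_zero, ?_⟩
      -- the 2-part of q - 1 is 2, so μ = -1
      obtain ⟨b, hb, hNb⟩ := val_decomp hN0
      have ha : padicValNat 2 (Fintype.card F - 1) = 1 := by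
        by_contra hne
        have : 2 ≤ padicValNat 2 (Fintype.card F - 1) := by omega
        obtain ⟨k, hk⟩ : ∃ k, padicValNat 2 (Fintype.card F - 1) = k + 2 := ⟨padicValNat 2 (Fintype.card F - 1) - 2, by omega⟩
        rw [hk, pow_add] at hNb
        have h4 : 4 ∣ Fintype.card F - 1 := ⟨2 ^ k * b, by rw [hNb]; ring⟩
        omega
      rw [ha, pow_one] at hμ
      have hμ2 : μ * μ = 1 := by
        have := pow_orderOf_eq_one μ
        rw [hμ, pow_two] at this
        exact this
      rcases mul_self_eq_one_iff.1 hμ2 with h1 | h1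
      · exfalso
        rw [h1, orderOf_one] at hμ
        omega
      · rw [h1]; simp
    · refine ⟨1, one_ne_zero, ?_⟩
      have hdvd : 2 ^ padicValNat 2 (Fintype.card F - 1) ∣ m := by
        rw [padicValNat_dvd_iff_le (by omega)]
        omega
      have h1 : μ ^ m = 1 := by
        rw [← hμ] at hdvd
        exact orderOf_dvd_iff_pow_eq_one.1 hdvd
      have h2 : Even m := by
        rw [even_iff_two_dvd]
        exact dvd_trans (dvd_pow_self 2 (by omega)) hdvd
      rw [one_pow, one_mul, neg_pow, h2.neg_one_pow, h1, one_mul]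

end Cfsg.Agent.S2576
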