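import Cfsg.Statements.S2578
import Cfsg.Agent.Lib.RegUni3
import Cfsg.Agent.Lib.ClassCount

set_option autoImplicit false
open Cfsg

namespace Cfsg.Agent.S2578

open Matrix

/-- The shift matrix. -/
def Sh (n : ℕ) (F : Type*) [Field F] : Matrix (Fin n) (Fin n) F := Matrix.of fun i j => if (j : ℕ) = i + 1 then 1 else 0

theorem Sh_mulVec {n : ℕ} {F : Type*} [Field F] (x : Fin n → F) (i : Fin n) :
    (Sh n F *ᵥ x) i = if h : (i : ℕ) + 1 < n then x ⟨i + 1, h⟩ else 0 := by
  simp only [Matrix.mulVec, dotProduct, Sh, Matrix.of_apply, ite_mul, one_mul, zero_mul]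
  split_ifs with h
  · rw [Finset.sum_eq_single (⟨(i : ℕ) + 1, h⟩ : Fin n)]
    · simp
    · intro b _ hb
      rw [if_neg]
      intro e
      exact hb (Fin.ext e)
    · simp
  · apply Finset.sum_eq_zero
    intro b _
    rw [if_neg]
    intro e
    have := b.2
    omega

theorem Sh_pow_mulVec {n : ℕ} {F : Type*} [Field F] (k : ℕ) (x : Fin n → F) (i : Fin n) :
    ((Sh n F) ^ k *ᵥ x) i = if h : (i : ℕ) + k < n then x ⟨i + k, h⟩ else 0 := by
  induction k generalizing i with
  | zero => simp
  | succ k ih =>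
    rw [pow_succ', ← Matrix.mulVec_mulVec, Sh_mulVec]
    by_cases h : (i : ℕ) + 1 < n
    · rw [dif_pos h, ih]
      by_cases h2 : (i : ℕ) + (k + 1) < n
      · rw [dif_pos, dif_pos h2]
        · congr 2
          simp only
          omega
        · simp only
          omega
      · rw [dif_neg, dif_neg h2]
        simp only
        omega
    · rw [dif_neg h, dif_neg]
      omega

theorem Sh_pow_n {n : ℕ} {F : Type*} [Field F] : (Sh n F) ^ n = 0 := by
  apply Matrix.mulVec_injective
  funext x
  funext i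
  rw [Sh_pow_mulVec, dif_neg (by omega), Matrix.zero_mulVec]
  rfl

theorem Sh_rank {n : ℕ} {F : Type*} [Field F] (hn : 1 ≤ n) : (Sh n F).rank = n - 1 := by
  classical
  have h := LinearMap.finrank_range_add_finrank_ker (Matrix.mulVecLin (Sh n F))
  have h2 : Module.finrank F (LinearMap.range (Matrix.mulVecLin (Sh n F))) = (Sh n F).rank := rfl
  have hk : LinearMap.ker (Matrix.mulVecLin (Sh n F)) = Submodule.span F {(Pi.single (⟨0, by omega⟩ : Fin n) (1 : F) : Fin n → F)} := by
    apply le_antisymm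
    · intro x hx
      rw [LinearMap.mem_ker, Matrix.mulVecLin_apply] at hx
      rw [Submodule.mem_span_singleton]
      refine ⟨x ⟨0, by omega⟩, ?_⟩
      funext i
      by_cases hi : (i : ℕ) = 0
      · have hi2 : i = ⟨0, by omega⟩ := Fin.ext hi
        rw [hi2]
        simp
      · have h3 := congrFun hx ⟨(i : ℕ) - 1, by omega⟩
        have hlt : (i : ℕ) - 1 + 1 < n := by
          have := i.2
          omega
        rw [Sh_mulVec, dif_pos hlt] at h3
        have e : (⟨(i : ℕ) - 1 + 1, hlt⟩ : Fin n) = i := Fin.ext (by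
          show (i : ℕ) - 1 + 1 = i
          omega)
        simp only [e] at h3
        have h4 : (⟨0, by omega⟩ : Fin n) ≠ i := fun e => hi (by rw [← e])
        simp [Pi.single_apply, h3, h4.symm]
    · rw [Submodule.span_singleton_le_iff_mem, LinearMap.mem_ker, Matrix.mulVecLin_apply]
      funext i
      rw [Sh_mulVec]
      split_ifs with h5
      · simp [Pi.single_apply]
      · rfl
  have h1 : Module.finrank F (LinearMap.ker (Matrix.mulVecLin (Sh n F))) = 1 := by
    rw [hk]
    apply finrank_span_singleton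
    intro e
    have := congrFun e ⟨0, by omega⟩
    simp at this
  rw [h2, h1, Module.finrank_pi, Fintype.card_fin] at h
  omega

theorem det_J {n : ℕ} {F : Type*} [Field F] : (1 + Sh n F).det = 1 := by
  rw [Matrix.det_of_upperTriangular]
  · apply Finset.prod_eq_one
    intro i _
    simp [Sh]
  · intro i j hij
    have hij' : (j : ℕ) < i := hij
    have hne : i ≠ j := fun e => by rw [e] at hij'; omega
    simp [Sh, Matrix.one_apply, hne]
    omega

/-- Regular unipotent classes of SL_n(q): for n ≥ 2 over the field with q elements, the matrices u of determinant one with (u − 1)^n = 0 and rank(u − 1) = n − 1 form a single GL_n(q)-class which splits into exactly gcd(n, q − 1) conjugacy classes of SL_n(q). -/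
theorem result {F : Type*} [Field F] [Fintype F] {q : ℕ} (hF : Fintype.card F = q) {n : ℕ} (hn : 2 ≤ n) : Nat.card {C : ConjClasses (Matrix.SpecialLinearGroup (Fin n) F) // ∃ u : Matrix.SpecialLinearGroup (Fin n) F, ConjClasses.mk u = C ∧ ((u : Matrix (Fin n) (Fin n) F) - 1) ^ n = 0 ∧ ((u : Matrix (Fin n) (Fin n) F) - 1).rank = n - 1} = Nat.gcd n (q - 1) := by
  classical
  have hn1 : 1 ≤ n := by omega
  haveI : NeZero n := ⟨by omega⟩
  haveI : Nonempty (Fin n) := ⟨⟨0, by omega⟩⟩
  have hcard : Fintype.card (Fin n) = n := Fintype.card_fin n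
  let u₀ : Matrix.SpecialLinearGroup (Fin n) F := ⟨1 + Sh n F, det_J⟩
  have hu₀ : (u₀ : Matrix (Fin n) (Fin n) F) - 1 = Sh n F := by
    show 1 + Sh n F - 1 = Sh n F
    abel
  let ι : Matrix.SpecialLinearGroup (Fin n) F →* GL (Fin n) F := Matrix.SpecialLinearGroup.toGL
  let δ : GL (Fin n) F →* Fˣ := Matrix.GeneralLinearGroup.det
  have hι : Function.Injective ι := by
    intro a b hab
    apply Subtype.ext
    exact congrArg (fun g : GL (Fin n) F => (g : Matrix (Fin n) (Fin n) F)) hab
  have hδ : Function.Surjective δ := Matrix.GeneralLinearGroup.det_surjective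
  have hval : ∀ s : Matrix.SpecialLinearGroup (Fin n) F, ((ι s : GL (Fin n) F) : Matrix (Fin n) (Fin n) F) = s := fun s => rfl
  have hker : δ.ker = ι.range := by
    ext g
    constructor
    · intro hg
      have h1 : (g : Matrix (Fin n) (Fin n) F).det = 1 := by
        have := congrArg (fun x : Fˣ => (x : F)) (show δ g = 1 from hg)
        exact this
      exact ⟨⟨g, h1⟩, Units.ext rfl⟩
    · rintro ⟨s, rfl⟩
      apply Units.ext
      exact s.2
  let P : Subgroup Fˣ := (powMonoidHom n : Fˣ →* Fˣ).range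
  have hR : ∀ u : Matrix.SpecialLinearGroup (Fin n) F, (((u : Matrix (Fin n) (Fin n) F) - 1) ^ n = 0 ∧ ((u : Matrix (Fin n) (Fin n) F) - 1).rank = n - 1) ↔
      ∃ g : GL (Fin n) F, ι u = g * ι u₀ * g⁻¹ := by
    intro u
    constructor
    · rintro ⟨h1, h2⟩
      obtain ⟨g, hg⟩ := Cfsg.Agent.Lib.RegUni3.exists_conj hcard hn1 (Sh_pow_n (n := n) (F := F)) (Sh_rank hn1) h1 h2
      refine ⟨g, ?_⟩
      rw [eq_mul_inv_iff_mul_eq]
      apply Units.ext
      rw [Units.val_mul, Units.val_mul, hval, hval]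
      show (u : Matrix (Fin n) (Fin n) F) * (g : Matrix (Fin n) (Fin n) F) = (g : Matrix (Fin n) (Fin n) F) * (1 + Sh n F)
      have e : (u : Matrix (Fin n) (Fin n) F) = 1 + ((u : Matrix (Fin n) (Fin n) F) - 1) := by abel
      rw [mul_add, hg, mul_one]
      conv_lhs => rw [e]
      rw [add_mul, one_mul]
    · rintro ⟨g, hg⟩
      have e1 : (u : Matrix (Fin n) (Fin n) F) = (g : Matrix (Fin n) (Fin n) F) * (u₀ : Matrix (Fin n) (Fin n) F) * ((g⁻¹ : GL (Fin n) F) : Matrix (Fin n) (Fin n) F) := by
        have := congrArg (fun x : GL (Fin n) F => (x : Matrix (Fin n) (Fin n) F)) hg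
        simpa only [Units.val_mul, hval] using this
      have e2 : (u : Matrix (Fin n) (Fin n) F) - 1 = (g : Matrix (Fin n) (Fin n) F) * Sh n F * ((g⁻¹ : GL (Fin n) F) : Matrix (Fin n) (Fin n) F) := by
        rw [e1, ← hu₀, mul_sub, sub_mul, mul_one, ← Units.val_mul, mul_inv_cancel, Units.val_one]
      constructor
      · rw [e2, Units.conj_pow, Sh_pow_n, mul_zero, zero_mul]
      · rw [e2, Matrix.rank_mul_eq_left_of_isUnit_det _ _ ((Matrix.isUnit_iff_isUnit_det _).1 (g⁻¹).isUnit),
          Matrix.rank_mul_eq_right_of_isUnit_det _ _ ((Matrix.isUnit_iff_isUnit_det _).1 g.isUnit), Sh_rank hn1]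
  have hP : ∀ a, a ∈ P ↔ ∃ c : GL (Fin n) F, c * ι u₀ = ι u₀ * c ∧ δ c = a := by
    intro a
    constructor
    · rintro ⟨c, rfl⟩
      let z : GL (Fin n) F := ⟨c.1 • 1, (c⁻¹ : Fˣ).1 • 1, by
        rw [smul_mul_smul_comm]
        simp, by
        rw [smul_mul_smul_comm]
        simp⟩
      refine ⟨z, ?_, ?_⟩
      · apply Units.ext
        simp [z]
      · apply Units.ext
        show (c.1 • (1 : Matrix (Fin n) (Fin n) F)).det = _
        simp [Matrix.det_smul]
    · rintro ⟨c, hc, rfl⟩
      have hc' : Commute (c : Matrix (Fin n) (Fin n) F) (Sh n F) := by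
        have h1 : (c : Matrix (Fin n) (Fin n) F) * (1 + Sh n F) = (1 + Sh n F) * (c : Matrix (Fin n) (Fin n) F) := by
          have := congrArg (fun x : GL (Fin n) F => (x : Matrix (Fin n) (Fin n) F)) hc
          simpa only [Units.val_mul, hval] using this
        rw [mul_add, add_mul, mul_one, one_mul] at h1
        exact add_left_cancel h1
      obtain ⟨k, hk⟩ := Cfsg.Agent.Lib.RegUni3.det_comm hcard hn1 (Sh_pow_n (n := n) (F := F)) (Sh_rank hn1) hc'
      refine ⟨k, ?_⟩
      apply Units.ext
      show (k : F) ^ n = (c : Matrix (Fin n) (Fin n) F).det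
      exact hk.symm
  have hm := Cfsg.Agent.Lib.ClassCount.card_classes ι hι δ hδ hker P u₀ _ hR hP
  have e2 : Nat.card (Fˣ ⧸ P) = Nat.gcd n (q - 1) := by
    have h3 := IsCyclic.index_powMonoidHom_range (G := Fˣ) n
    have h4 : Nat.card Fˣ = q - 1 := by
      rw [Nat.card_eq_fintype_card, Fintype.card_units, hF]
    rw [h4, Nat.gcd_comm] at h3
    exact h3
  rw [← e2]
  convert hm using 1

end Cfsg.Agent.S2578
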