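import Cfsg.Statements.S2585
import Cfsg.Agent.Lib.SympBasic

set_option autoImplicit false
open Cfsg

namespace Cfsg.Agent.S2585


open Matrix Cfsg Cfsg.Agent.Lib.SympBasic

section
variable {F : Type*} [Field F] [CharP F 2] {m : ℕ}

include F in
theorem two0 : (2 : F) = 0 := by exact_mod_cast CharP.cast_eq_zero F 2

/-- The basic form, as a quadratic form. -/
noncomputable def Q0 (m : ℕ) (F : Type*) [Field F] : QuadraticForm F (Fin m ⊕ Fin m → F) :=
  ∑ i : Fin m, QuadraticMap.linMulLin (LinearMap.proj (Sum.inl i)) (LinearMap.proj (Sum.inr i))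

omit [CharP F 2] in
theorem Q0_apply (v : Fin m ⊕ Fin m → F) : Q0 m F v = ∑ i, v (Sum.inl i) * v (Sum.inr i) := by
  simp [Q0, QuadraticMap.sum_apply]

theorem Q0_add (u v : Fin m ⊕ Fin m → F) : Q0 m F (u + v) = Q0 m F u + Q0 m F v + sympForm m F u v := by
  have h2 : (2 : F) = 0 := two0 (F := F)
  rw [Q0_apply, Q0_apply, Q0_apply, sympForm_apply, ← Finset.sum_add_distrib, ← Finset.sum_add_distrib]
  apply Finset.sum_congr rfl
  intro i _
  simp only [Pi.add_apply]
  have e : ∀ x : F, x + x = 0 := fun x => by rw [← two_mul, h2, zero_mul]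
  have : u (Sum.inl i) * v (Sum.inr i) = - (u (Sum.inl i) * v (Sum.inr i)) := by
    rw [eq_neg_iff_add_eq_zero, e]
  linear_combination this

theorem add_self0 (x : F) : x + x = 0 := by rw [← two_mul, two0 (F := F), zero_mul]

end


/-- Over a finite field of characteristic two every element of the symplectic group is orthogonal for a suitable quadratic form: for each A in Sp_2m(F) there is a quadratic form Q on F^(2m) whose polar form is the alternating form defining Sp_2m(F) (so Q is non-degenerate) and which A preserves. Equivalently, for m ≥ 1, Sp_2m(F) is the union of the conjugates of its two orthogonal subgroups O⁺_2m(F) and O⁻_2m(F). -/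
theorem result {F : Type*} [Field F] [Fintype F] [CharP F 2] {m : ℕ} (A : Matrix.symplecticGroup (Fin m) F) : ∃ Q : QuadraticForm F (Fin m ⊕ Fin m → F), (∀ u v : Fin m ⊕ Fin m → F, QuadraticMap.polar ⇑Q u v = Cfsg.sympForm m F u v) ∧ ∀ v : Fin m ⊕ Fin m → F, Q ((A : Matrix (Fin m ⊕ Fin m) (Fin m ⊕ Fin m) F).mulVec v) = Q v := by
  classical
  haveI : Fact (Nat.Prime 2) := ⟨Nat.prime_two⟩
  have h2 : (2 : F) = 0 := two0 (F := F)
  set M : Matrix (Fin m ⊕ Fin m) (Fin m ⊕ Fin m) F := A.1 with hM
  have hsymp : ∀ u v, sympForm m F (M *ᵥ u) (M *ᵥ v) = sympForm m F u v := (preserves_iff_mem _).2 A.2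
  let s : F ≃+* F := (frobeniusEquiv F 2).symm
  have hs : ∀ x, (s x) ^ 2 = x := fun x => frobeniusEquiv_symm_pow_p F 2 x
  have hs' : ∀ x, s (x ^ 2) = x := fun x => frobeniusEquiv_symm_pow F 2 x
  let D : (Fin m ⊕ Fin m → F) → F := fun v => Q0 m F (M *ᵥ v) + Q0 m F v
  have hDadd : ∀ u v, D (u + v) = D u + D v := by
    intro u v
    simp only [D, Matrix.mulVec_add, Q0_add, hsymp]
    have := add_self0 (sympForm m F u v)
    linear_combination this
  have hDsmul : ∀ (c : F) v, D (c • v) = c ^ 2 * D v := by
    intro c v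
    simp only [D, Matrix.mulVec_smul, QuadraticMap.map_smul, smul_eq_mul]
    ring
  let ℓ : (Fin m ⊕ Fin m → F) →ₗ[F] F :=
    { toFun := fun v => s (D v)
      map_add' := fun u v => by rw [hDadd, map_add]
      map_smul' := fun c v => by
        rw [hDsmul, map_mul, hs', RingHom.id_apply, smul_eq_mul] }
  let T : (Fin m ⊕ Fin m → F) →ₗ[F] (Fin m ⊕ Fin m → F) := M.mulVecLin - LinearMap.id
  have hker : ℓ ∈ (LinearMap.ker T).dualAnnihilator := by
    rw [Submodule.mem_dualAnnihilator]
    intro v hv
    have hv' : M *ᵥ v = v := by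
      have := LinearMap.mem_ker.1 hv
      simp only [T, LinearMap.sub_apply, Matrix.mulVecLin_apply, LinearMap.id_apply] at this
      exact sub_eq_zero.1 this
    show s (D v) = 0
    have : D v = 0 := by
      simp only [D, hv']
      exact add_self0 _
    rw [this, map_zero]
  rw [← LinearMap.range_dualMap_eq_dualAnnihilator_ker] at hker
  obtain ⟨lam, hlam⟩ := hker
  have hlam' : ∀ v, lam (M *ᵥ v) + lam v = ℓ v := by
    intro v
    have := congrArg (fun f => f v) hlam
    simp only [LinearMap.dualMap_apply, T, LinearMap.sub_apply, Matrix.mulVecLin_apply, LinearMap.id_apply, map_sub] at this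
    rw [← this]
    have := add_self0 (lam v)
    linear_combination this
  refine ⟨Q0 m F + QuadraticMap.linMulLin lam lam, ?_, ?_⟩
  · intro u v
    simp only [QuadraticMap.polar, QuadraticMap.add_apply, QuadraticMap.linMulLin_apply, Q0_add, map_add]
    have := add_self0 (lam u * lam v)
    linear_combination this
  · intro v
    simp only [QuadraticMap.add_apply, QuadraticMap.linMulLin_apply]
    have h1 : lam (M *ᵥ v) = ℓ v + lam v := by
      have := hlam' v
      have h3 := add_self0 (lam v)
      linear_combination this - h3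
    rw [h1]
    have h4 : ℓ v ^ 2 = D v := hs _
    have h5 : D v = Q0 m F (M *ᵥ v) + Q0 m F v := rfl
    have h6 := add_self0 (ℓ v * lam v)
    have h7 := add_self0 (Q0 m F (M *ᵥ v))
    linear_combination h6 + h4 + h5 + h7

end Cfsg.Agent.S2585
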