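import Cfsg.Statements.S2586
import Cfsg.Agent.Lib.SimTranspose

set_option autoImplicit false
open Cfsg

namespace Cfsg.Agent.S2586

/-- Over a finite field, every element of the symplectic group Sp_2m(F) is conjugate by an invertible matrix to its inverse. -/
theorem result {F : Type*} [Field F] [Finite F] {m : ℕ} (A : Matrix.symplecticGroup (Fin m) F) : IsConj (A : Matrix (Fin m ⊕ Fin m) (Fin m ⊕ Fin m) F) ((A⁻¹ : Matrix.symplecticGroup (Fin m) F) : Matrix (Fin m ⊕ Fin m) (Fin m ⊕ Fin m) F) := by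
  have h1 : IsConj (A : Matrix (Fin m ⊕ Fin m) (Fin m ⊕ Fin m) F) (A : Matrix (Fin m ⊕ Fin m) (Fin m ⊕ Fin m) F).transpose :=
    Cfsg.Agent.Lib.SimTranspose.isConj_transpose _
  refine h1.trans ?_
  have hJ2 : Matrix.J (Fin m) F * Matrix.J (Fin m) F = -1 := Matrix.J_squared (Fin m) F
  let c : (Matrix (Fin m ⊕ Fin m) (Fin m ⊕ Fin m) F)ˣ := ⟨-Matrix.J (Fin m) F, Matrix.J (Fin m) F, by
    rw [neg_mul, hJ2, neg_neg], by
    rw [mul_neg, hJ2, neg_neg]⟩
  refine ⟨c, ?_⟩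
  show (-Matrix.J (Fin m) F) * (A : Matrix (Fin m ⊕ Fin m) (Fin m ⊕ Fin m) F).transpose = ((A⁻¹ : Matrix.symplecticGroup (Fin m) F) : Matrix (Fin m ⊕ Fin m) (Fin m ⊕ Fin m) F) * (-Matrix.J (Fin m) F)
  rw [SymplecticGroup.coe_inv, mul_assoc, mul_neg, hJ2, neg_neg, mul_one]

end Cfsg.Agent.S2586
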