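import Cfsg.Statements.S2594
import Cfsg.Agent.Lib.SympPerfect
import Cfsg.Agent.Lib.SympOrder
import Cfsg.Agent.Lib.SympGen
import Cfsg.Agent.Lib.SympPrim
import Cfsg.Agent.Lib.Rank1
import Cfsg.Agent.Lib.TvCount

set_option autoImplicit false
open Cfsg

namespace Cfsg.Agent.S2594

open Matrix Cfsg.Agent.Lib.SympBasic Cfsg.Agent.Lib.SympTrans Cfsg.Agent.Lib.SympPerfect Cfsg.Agent.Lib.SympOrder Cfsg.Agent.Lib.SympGen Cfsg.Agent.Lib.SympPrim

local notation "f" => Cfsg.sympForm _ _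

/-- Over a finite field with q elements, q even, an element t of Sp_2m(F) with rank(t − 1) = 1 (a symplectic transvection) has centraliser in Sp_2m(F) of order q^(2m−1) · |Sp_(2m−2)(q)| = q^(2m−1) · q^((m−1)²) · Π_(i=1)^(m−1) (q^(2i) − 1). -/
theorem result {F : Type*} [Field F] [Fintype F] [CharP F 2] {q : ℕ} (hF : Fintype.card F = q) {m : ℕ} (hm : 1 ≤ m) (t : Matrix.symplecticGroup (Fin m) F) (ht : ((t : Matrix (Fin m ⊕ Fin m) (Fin m ⊕ Fin m) F) - 1).rank = 1) : Nat.card ↥(Subgroup.centralizer ({t} : Set ↥(Matrix.symplecticGroup (Fin m) F))) = q ^ (2 * m - 1) * (q ^ ((m - 1) ^ 2) * ∏ i : Fin (m - 1), (q ^ (2 * ((i : ℕ) + 1)) - 1)) := by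
  classical
  subst hF
  set q := Fintype.card F with hq
  have hq2 : 2 ≤ q := Fintype.one_lt_card
  obtain ⟨a, φ, ha, hφ, h⟩ := Cfsg.Agent.Lib.Rank1.exists_vecMulVec ht
  have hmv : ∀ x, (t : Matrix (Fin m ⊕ Fin m) (Fin m ⊕ Fin m) F) *ᵥ x = x + (φ ⬝ᵥ x) • a := by
    intro x
    have e : (t : Matrix (Fin m ⊕ Fin m) (Fin m ⊕ Fin m) F) = 1 + vecMulVec a φ := by
      rw [← h]
      abel
    rw [e, Matrix.add_mulVec, Matrix.one_mulVec, Matrix.vecMulVec_mulVec]
    congr 1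
    ext i
    simp [mul_comm]
  have hnd : ∀ {v : Vec m F}, v ≠ 0 → ∃ x, f x v ≠ 0 := by
    intro v hv
    obtain ⟨y, -, hy⟩ := nondeg_top (m := m) (F := F) v trivial hv
    exact ⟨y, by rw [sympForm_skew]; exact neg_ne_zero.2 hy⟩
  obtain ⟨x₀, hx₀⟩ := hnd ha
  have hp : ∀ x y, φ ⬝ᵥ y * f x a = φ ⬝ᵥ x * f y a := by
    intro x y
    have h1 := sp_preserves t x y
    rw [hmv, hmv, sympForm_add_left, sympForm_add_right, sympForm_add_right, sympForm_smul_left, sympForm_smul_left,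
      sympForm_smul_right, sympForm_smul_right, sympForm_self, sympForm_skew a y] at h1
    linear_combination h1
  set c := φ ⬝ᵥ x₀ / f x₀ a with hc
  have hφc : ∀ y, φ ⬝ᵥ y = c * f y a := by
    intro y
    have h1 := hp x₀ y
    rw [hc]
    field_simp
    linear_combination h1
  have hc0 : c ≠ 0 := by
    intro h0
    apply hφ
    apply dotProduct_eq
    intro u
    rw [hφc, h0, zero_mul, zero_dotProduct]
  have hch : ringChar F = 2 := ringChar.eq F 2
  obtain ⟨s, hs⟩ : IsSquare c := FiniteField.isSquare_of_char_two hch c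
  have hs0 : s ≠ 0 := by
    rintro rfl
    exact hc0 (by rw [hs, mul_zero])
  set a₀ : Vec m F := s • a with ha₀
  have ha₀0 : a₀ ≠ 0 := smul_ne_zero hs0 ha
  have ht₀ : t = tv a₀ 1 := by
    apply Subtype.ext
    apply Matrix.mulVec_injective
    funext x
    show (t : Matrix (Fin m ⊕ Fin m) (Fin m ⊕ Fin m) F) *ᵥ x = (tv a₀ 1 : Sp m F).1 *ᵥ x
    rw [hmv, tv_mulVec, hφc, ha₀, hs, sympForm_smul_right, one_mul, smul_smul]
    congr 2
    ring
  have h2F : (2 : F) = 0 := by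
    have := CharP.cast_eq_zero F 2
    simpa using this
  have htv_inj : ∀ {b b' : Vec m F}, b ≠ 0 → tv b 1 = tv b' 1 → b = b' := by
    intro b b' hb he
    have hx : ∀ x, f x b • b = f x b' • b' := by
      intro x
      have h1 := congrArg (fun g : Sp m F => (g : Matrix (Fin m ⊕ Fin m) (Fin m ⊕ Fin m) F) *ᵥ x) he
      simp only [tv_mulVec, one_mul] at h1
      exact add_left_cancel h1
    obtain ⟨x, hx0⟩ := hnd hb
    set l := f x b' / f x b with hl
    have hbl : b = l • b' := by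
      have h1 := hx x
      rw [hl, div_eq_inv_mul, mul_smul, ← h1, smul_smul, inv_mul_cancel₀ hx0, one_smul]
    have hb'0 : b' ≠ 0 := by
      rintro rfl
      rw [smul_zero] at hbl
      exact hb hbl
    obtain ⟨y, hy⟩ := hnd hb'0
    have h3 := hx y
    rw [hbl, sympForm_smul_right, smul_smul] at h3
    have h5 : (l * f y b' * l - f y b') • b' = 0 := by
      rw [sub_smul, h3, sub_self]
    have h6 := (smul_eq_zero.1 h5).resolve_right hb'0
    have h7 : (l - 1) * (l - 1) * f y b' = 0 := by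
      linear_combination h6 + f y b' * (1 - l) * h2F
    have h8 : l = 1 := by
      have := (mul_eq_zero.1 h7).resolve_right hy
      exact sub_eq_zero.1 (mul_self_eq_zero.1 this)
    rw [hbl, h8, one_smul]
  let Φ : Sp m F → {v : Vec m F // v ≠ 0} := fun g => ⟨(g : Matrix (Fin m ⊕ Fin m) (Fin m ⊕ Fin m) F) *ᵥ a₀, mulVec_ne_zero g ha₀0⟩
  have hΦ : Function.Surjective Φ := by
    rintro ⟨b, hb⟩
    obtain ⟨A, -, hA⟩ := exists_tv_vector (nondeg_top (m := m) (F := F)) (Submodule.mem_top) (Submodule.mem_top) ha₀0 hb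
    exact ⟨A, Subtype.ext hA⟩
  have hfix : ∀ g : Sp m F, g ∈ Subgroup.centralizer ({t} : Set (Sp m F)) ↔ (g : Matrix (Fin m ⊕ Fin m) (Fin m ⊕ Fin m) F) *ᵥ a₀ = a₀ := by
    intro g
    rw [Subgroup.mem_centralizer_singleton_iff, ht₀]
    constructor
    · intro h1
      have h3 : g * tv a₀ 1 * g⁻¹ = tv a₀ 1 := by
        rw [h1]
        group
      rw [tv_conj] at h3
      exact htv_inj (mulVec_ne_zero g ha₀0) h3
    · intro h1
      have h3 := tv_conj g a₀ 1
      rw [h1] at h3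
      calc g * tv a₀ 1 = (g * tv a₀ 1 * g⁻¹) * g := by group
        _ = tv a₀ 1 * g := by rw [h3]
  have hfib : ∀ x y, Φ x = Φ y ↔ x⁻¹ * y ∈ Subgroup.centralizer ({t} : Set (Sp m F)) := by
    intro x y
    rw [hfix, sp_mul_mulVec]
    constructor
    · intro h1
      have h3 : (x : Matrix (Fin m ⊕ Fin m) (Fin m ⊕ Fin m) F) *ᵥ a₀ = (y : Matrix (Fin m ⊕ Fin m) (Fin m ⊕ Fin m) F) *ᵥ a₀ := congrArg Subtype.val h1
      rw [← h3, ← sp_mul_mulVec, inv_mul_cancel]
      simp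
    · intro h1
      apply Subtype.ext
      show (x : Matrix (Fin m ⊕ Fin m) (Fin m ⊕ Fin m) F) *ᵥ a₀ = (y : Matrix (Fin m ⊕ Fin m) (Fin m ⊕ Fin m) F) *ᵥ a₀
      conv_lhs => rw [← h1]
      rw [← sp_mul_mulVec, mul_inv_cancel]
      simp
  have hcard := card_eq_of_fiber _ Φ hΦ hfib
  have hX : Nat.card {v : Vec m F // v ≠ 0} = q ^ (2 * m) - 1 := by
    rw [Cfsg.Agent.Lib.TvCount.card_ne, Nat.card_eq_fintype_card, Fintype.card_fun, Fintype.card_sum, Fintype.card_fin, ← hq, two_mul]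
  rw [hX, card_Sp, ← hq] at hcard
  obtain ⟨k, rfl⟩ : ∃ k, m = k + 1 := ⟨m - 1, by omega⟩
  have hpos : 0 < q ^ (2 * (k + 1)) - 1 := by
    have h1 : 2 ^ (2 * (k + 1)) ≤ q ^ (2 * (k + 1)) := Nat.pow_le_pow_left hq2 _
    have h3 : 2 ^ 1 ≤ 2 ^ (2 * (k + 1)) := Nat.pow_le_pow_right (by norm_num) (by omega)
    omega
  apply Nat.eq_of_mul_eq_mul_left hpos
  rw [← hcard, Finset.prod_range_succ, Nat.add_sub_cancel, Fin.prod_univ_eq_prod_range (fun i => q ^ (2 * (i + 1)) - 1) k]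
  have e1 : 2 * (k + 1) - 1 = 2 * k + 1 := by omega
  have e2 : q ^ ((k + 1) ^ 2) = q ^ (2 * k + 1) * q ^ (k ^ 2) := by
    rw [← pow_add]
    congr 1
    ring
  rw [e1, e2]
  ring

end Cfsg.Agent.S2594
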