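import Cfsg.Statements.S2599
import Cfsg.Agent.Lib.OrthE

set_option autoImplicit false
open Cfsg

namespace Cfsg.Agent.S2599

open Matrix Cfsg.Agent.Lib.FormVec

/-- An irreducible invariant subspace of a semisimple isometry is non-degenerate or totally singular: let Q be a quadratic form on F^n (F finite of characteristic p) with non-degenerate polar form f, x an isometry of Q of order prime to p, and U a non-zero x-invariant subspace containing no x-invariant subspace other than 0 and U. Then U meets its f-orthogonal trivially, or Q vanishes on U, or p = 2, U is a line spanned by a non-singular vector and x fixes U pointwise. -/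
theorem result {F : Type*} [Field F] [Fintype F] {p : ℕ} [Fact p.Prime] [CharP F p] {n : ℕ} (Q : QuadraticForm F (Fin n → F)) (hQ : (QuadraticMap.polarBilin Q).Nondegenerate) (x : ↥(Cfsg.isometryGroup F ⇑Q)) (hx : (orderOf x).Coprime p) (U : Submodule F (Fin n → F)) (hU0 : U ≠ ⊥) (hUx : ∀ u ∈ U, ((x : Matrix.GeneralLinearGroup (Fin n) F) : Matrix (Fin n) (Fin n) F).mulVec u ∈ U) (hirr : ∀ W : Submodule F (Fin n → F), W ≤ U → (∀ w ∈ W, ((x : Matrix.GeneralLinearGroup (Fin n) F) : Matrix (Fin n) (Fin n) F).mulVec w ∈ W) → W = ⊥ ∨ W = U) : U ⊓ LinearMap.BilinForm.orthogonal (QuadraticMap.polarBilin Q) U = ⊥ ∨ (∀ u ∈ U, Q u = 0) ∨ (p = 2 ∧ Module.finrank F U = 1 ∧ (∃ u ∈ U, Q u ≠ 0) ∧ ∀ u ∈ U, ((x : Matrix.GeneralLinearGroup (Fin n) F) : Matrix (Fin n) (Fin n) F).mulVec u = u) := by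
  set X : Matrix (Fin n) (Fin n) F := ((x : Matrix.GeneralLinearGroup (Fin n) F) : Matrix (Fin n) (Fin n) F) with hX
  have hiso : ∀ u, Q (X *ᵥ u) = Q u := (Cfsg.Agent.Lib.OrthE.mem_O_iff _).1 x.2
  have hpol : ∀ u v, QuadraticMap.polar Q (X *ᵥ u) (X *ᵥ v) = QuadraticMap.polar Q u v := by
    intro u v
    simp only [QuadraticMap.polar]
    rw [← Matrix.mulVec_add, hiso, hiso, hiso]
  -- surjectivity on U
  let e : (Fin n → F) ≃ₗ[F] (Fin n → F) :=
    { toFun := fun v => X *ᵥ v
      invFun := fun v => ((x : Matrix.GeneralLinearGroup (Fin n) F)⁻¹ : Matrix.GeneralLinearGroup (Fin n) F).1 *ᵥ v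
      map_add' := Matrix.mulVec_add _
      map_smul' := fun c v => by simp [Matrix.mulVec_smul]
      left_inv := fun v => inv_mulVec_mulVec _ v
      right_inv := fun v => mulVec_inv_mulVec _ v }
  have hmap : U.map (e : (Fin n → F) →ₗ[F] (Fin n → F)) = U := by
    apply Submodule.eq_of_le_of_finrank_eq
    · rintro _ ⟨u, hu, rfl⟩
      exact hUx u hu
    · exact LinearEquiv.finrank_map_eq e U
  have hsurj : ∀ w ∈ U, ∃ u ∈ U, X *ᵥ u = w := by
    intro w hw
    rw [← hmap] at hw
    obtain ⟨u, hu, rfl⟩ := hw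
    exact ⟨u, hu, rfl⟩
  have hW := hirr (U ⊓ LinearMap.BilinForm.orthogonal (QuadraticMap.polarBilin Q) U) inf_le_left (by
    rintro w ⟨hw1, hw2⟩
    refine ⟨hUx w hw1, ?_⟩
    rw [SetLike.mem_coe, LinearMap.BilinForm.mem_orthogonal_iff] at hw2 ⊢
    intro m hm
    obtain ⟨m', hm', rfl⟩ := hsurj m hm
    have := hw2 m' hm'
    show QuadraticMap.polarBilin Q _ _ = 0
    rw [QuadraticMap.polarBilin_apply_apply, hpol]
    exact this)
  rcases hW with hW | hW
  · exact Or.inl hW
  right
  by_cases hvan : ∀ u ∈ U, Q u = 0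
  · exact Or.inl hvan
  right
  push Not at hvan
  obtain ⟨u₀, hu₀, hQu₀⟩ := hvan
  have hort : ∀ u ∈ U, ∀ v ∈ U, QuadraticMap.polar Q u v = 0 := by
    intro u hu v hv
    have hv' : v ∈ U ⊓ LinearMap.BilinForm.orthogonal (QuadraticMap.polarBilin Q) U := by rw [hW]; exact hv
    have : QuadraticMap.polarBilin Q u v = 0 := (LinearMap.BilinForm.mem_orthogonal_iff.1 hv'.2) u hu
    rwa [QuadraticMap.polarBilin_apply_apply] at this
  -- characteristic two
  have h2 : (2 : F) = 0 := by
    have := hort u₀ hu₀ u₀ hu₀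
    rw [QuadraticMap.polar_self] at this
    rcases mul_eq_zero.1 (by simpa [two_mul] using this : (2 : F) * Q u₀ = 0) with h | h
    · exact h
    · exact absurd h hQu₀
  have hchar : CharP F 2 := CharTwo.of_one_ne_zero_of_two_eq_zero (R := F) one_ne_zero h2
  have hp2 : p = 2 := CharP.eq F ‹CharP F p› hchar
  have hring : ringChar F = 2 := ringChar.eq F 2
  have hQadd : ∀ u ∈ U, ∀ v ∈ U, Q (u + v) = Q u + Q v := by
    intro u hu v hv
    have := hort u hu v hv
    simp only [QuadraticMap.polar] at this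
    linear_combination this
  -- the singular vectors of `U` form an invariant subspace
  let U₀ : Submodule F (Fin n → F) :=
    { carrier := {u | u ∈ U ∧ Q u = 0}
      add_mem' := by
        rintro a b ⟨ha, ha'⟩ ⟨hb, hb'⟩
        exact ⟨U.add_mem ha hb, by rw [hQadd a ha b hb, ha', hb', add_zero]⟩
      zero_mem' := ⟨U.zero_mem, by simp⟩
      smul_mem' := by
        rintro c a ⟨ha, ha'⟩
        exact ⟨U.smul_mem c ha, by rw [QuadraticMap.map_smul, ha']; simp⟩ }
  have hU₀ : U₀ = ⊥ ∨ U₀ = U := hirr U₀ (fun u hu => hu.1) (by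
    rintro w ⟨hw1, hw2⟩
    exact ⟨hUx w hw1, by rw [hiso, hw2]⟩)
  have hU₀bot : U₀ = ⊥ := by
    rcases hU₀ with h | h
    · exact h
    · exfalso
      have : u₀ ∈ U₀ := by rw [h]; exact hu₀
      exact hQu₀ this.2
  have hspan : ∀ v ∈ U, ∃ c : F, v = c • u₀ := by
    intro v hv
    obtain ⟨c, hc⟩ := FiniteField.isSquare_of_char_two hring (Q v / Q u₀)
    have hcc : c * c * Q u₀ = Q v := by
      rw [← hc]; field_simp
    have h1 : v + c • u₀ ∈ U₀ := by
      refine ⟨U.add_mem hv (U.smul_mem c hu₀), ?_⟩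
      rw [hQadd v hv _ (U.smul_mem c hu₀), QuadraticMap.map_smul]
      simp only [smul_eq_mul]
      rw [hcc]
      linear_combination (Q v) * h2
    rw [hU₀bot, Submodule.mem_bot] at h1
    refine ⟨c, ?_⟩
    have h3 : v = - (c • u₀) := eq_neg_of_add_eq_zero_left h1
    rw [h3]
    have : ∀ y : Fin n → F, - y = y := by
      intro y
      ext i
      have : y i + y i = 0 := by
        rw [← two_mul, h2, zero_mul]
      simp only [Pi.neg_apply]
      exact neg_eq_of_add_eq_zero_left this
    exact this _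
  have hU1 : U = Submodule.span F {u₀} := by
    apply le_antisymm
    · intro v hv
      obtain ⟨c, rfl⟩ := hspan v hv
      exact Submodule.smul_mem _ _ (Submodule.mem_span_singleton_self _)
    · rw [Submodule.span_singleton_le_iff_mem]
      exact hu₀
  have hu₀0 : u₀ ≠ 0 := by
    rintro rfl
    simp at hQu₀
  refine ⟨hp2, ?_, ⟨u₀, hu₀, hQu₀⟩, ?_⟩
  · rw [hU1]
    exact finrank_span_singleton hu₀0
  · obtain ⟨l, hl⟩ := hspan _ (hUx u₀ hu₀)
    have hl1 : l = 1 := by
      have h1 := hiso u₀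
      rw [hl, QuadraticMap.map_smul] at h1
      simp only [smul_eq_mul] at h1
      have h3 : (l * l - 1) * Q u₀ = 0 := by linear_combination h1
      have h4 : l * l - 1 = 0 := (mul_eq_zero.1 h3).resolve_right hQu₀
      have h5 : (l - 1) * (l - 1) = 0 := by
        linear_combination h4 + (-l + 1) * h2
      have h6 := mul_self_eq_zero.1 h5
      linear_combination h6
    rw [hl1, one_smul] at hl
    intro u hu
    obtain ⟨c, rfl⟩ := hspan u hu
    rw [Matrix.mulVec_smul, hl]

end Cfsg.Agent.S2599
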