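import Cfsg.Statements.S2610
import Cfsg.Agent.Lib.OrthPairs
import Cfsg.Agent.Lib.OrthGram

set_option autoImplicit false
open Cfsg

namespace Cfsg.Agent.S2610

open Cfsg.Agent.Lib.OrthE Cfsg.Agent.Lib.OrthBridge Cfsg.Agent.Lib.OrthNeg Cfsg.Agent.Lib.OrthGram

/-- For a quadratic form Q on F^n with non-degenerate polar form, F finite of odd order and n ≥ 2 even, the isometry −1 lies in Ω (the commutator subgroup of the orthogonal group) if and only if the discriminant of Q (the determinant of the Gram matrix of its polar form) is a square. -/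
theorem result {F : Type*} [Field F] [Fintype F] (h2 : (2 : F) ≠ 0) {n : ℕ} (hn : 2 ≤ n) (he : Even n) (Q : QuadraticForm F (Fin n → F)) (hQ : (QuadraticMap.polarBilin Q).Nondegenerate) : (∃ g : ↥(Cfsg.isometryGroup F ⇑Q), g ∈ Cfsg.Omega F ⇑Q ∧ ((g : Matrix.GeneralLinearGroup (Fin n) F) : Matrix (Fin n) (Fin n) F) = -1) ↔ IsSquare (Matrix.of (fun i j : Fin n => QuadraticMap.polar ⇑Q (Pi.single i 1) (Pi.single j 1))).det := by
  have hN := nondeg_of_form Q hQ
  haveI : Invertible (2 : F) := invertibleOfNonzero h2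
  obtain ⟨v, hv⟩ := LinearMap.BilinForm.exists_orthogonal_basis (B := polB hN) ⟨fun x y => polB_symm hN x y⟩
  have horth : ∀ k l, k ≠ l → QuadraticMap.polar (⇑Q) (v k) (v l) = 0 := fun k l hkl => hv hkl
  have hQv : ∀ k, (⇑Q) (v k) ≠ 0 := by
    intro k hk
    apply v.ne_zero k
    apply B_nondeg hN
    intro y
    have hy : y ∈ Submodule.span F (Set.range v) := by rw [v.span_eq]; trivial
    induction hy using Submodule.span_induction with
    | mem y hy =>
      obtain ⟨l, rfl⟩ := hy
      by_cases hkl : k = l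
      · subst hkl
        rw [B_self hN, hk, mul_zero]
      · exact horth l k (Ne.symm hkl)
    | zero => exact B_zero_left hN _
    | add a b _ _ ha hb => rw [B_add_left hN, ha, hb, add_zero]
    | smul c a _ ha => rw [B_smul_left hN, ha, mul_zero]
  have hcard : Fintype.card (Fin (Module.finrank F (Fin n → F))) = n := by simp
  have hK : Even (Fintype.card (Fin (Module.finrank F (Fin n → F)))) := by rw [hcard]; exact he
  have hn' : 2 ≤ Fintype.card (Fin n) := by simpa using hn
  rw [neg_one_mem_iff hN h2 hn' v hQv horth v.span_eq hK]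
  have hg := isSquare_gram_iff (polB hN) v (Pi.basisFun F (Fin n))
  have e1 : Matrix.of (fun i j : Fin n => QuadraticMap.polar ⇑Q (Pi.single i 1) (Pi.single j 1)) =
      gram (polB hN) (Pi.basisFun F (Fin n)) := by
    ext i j
    simp [gram]
  rw [e1, ← hg]
  have e2 : gram (polB hN) v = Matrix.diagonal (fun k => 2 * (⇑Q) (v k)) := by
    ext k l
    by_cases hkl : k = l
    · subst hkl
      simp [gram, B_self hN]
    · simp [gram, hkl, horth k l hkl]
  rw [e2, Matrix.det_diagonal, Finset.prod_mul_distrib, Finset.prod_const, Finset.card_univ, hcard]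
  obtain ⟨r, rfl⟩ := he
  have h2r : (2 : F) ^ (r + r) ≠ 0 := pow_ne_zero _ h2
  have e3 : (2 : F) ^ (r + r) = (2 ^ r) * (2 ^ r) := pow_add _ _ _
  constructor
  · rintro ⟨w, hw⟩
    refine ⟨2 ^ r * w, ?_⟩
    rw [e3, hw]; ring
  · rintro ⟨w, hw⟩
    have h2r' : (2 : F) ^ r ≠ 0 := pow_ne_zero _ h2
    refine ⟨w / 2 ^ r, ?_⟩
    rw [e3] at hw
    have : ∏ k, (⇑Q) (v k) = w * w / (2 ^ r * 2 ^ r) := by
      rw [← hw]; field_simp
    rw [this]; field_simp

end Cfsg.Agent.S2610
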