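import Cfsg.Statements.S2612
import Cfsg.Agent.Lib.OrthClass

set_option autoImplicit false
open Cfsg

namespace Cfsg.Agent.S2612

open Matrix Cfsg.Agent.Lib.OrthClass Cfsg.Agent.Lib.OrthChar Cfsg.Agent.Lib.OrthStd2 Cfsg.Agent.Lib.OrthOrder Cfsg.Agent.Lib.OrthOrder2

/-- For the hyperbolic quadratic form Σ x_i y_i on F^(2m) (F finite, m ≥ 1, excluding m = 2 over the field of two elements), Ω⁺_2m(F) (the commutator subgroup of the orthogonal group) contains an element interchanging the two complementary maximal totally singular subspaces {y = 0} and {x = 0} if and only if m is even (dimension divisible by 4). -/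
theorem result {F : Type*} [Field F] [Fintype F] {m : ℕ} (hm : 1 ≤ m) (h : Fintype.card F ≠ 2 ∨ m ≠ 2) : (∃ g : ↥(Cfsg.isometryGroup F (Cfsg.quadFormPlus m F)), g ∈ Cfsg.Omega F (Cfsg.quadFormPlus m F) ∧ (∀ v : Fin m ⊕ Fin m → F, (∀ i, v (Sum.inr i) = 0) → ∀ i, (((g : Matrix.GeneralLinearGroup (Fin m ⊕ Fin m) F) : Matrix (Fin m ⊕ Fin m) (Fin m ⊕ Fin m) F).mulVec v) (Sum.inl i) = 0) ∧ (∀ v : Fin m ⊕ Fin m → F, (∀ i, v (Sum.inl i) = 0) → ∀ i, (((g : Matrix.GeneralLinearGroup (Fin m ⊕ Fin m) F) : Matrix (Fin m ⊕ Fin m) (Fin m ⊕ Fin m) F).mulVec v) (Sum.inr i) = 0)) ↔ Even m := by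
  have hQ := quadFormPlus_nondeg (F := F) (m := m)
  have hS := hypSys_plus (F := F) (m := m)
  have h' : Fintype.card F ≠ 2 ∨ Fintype.card (Fin m ⊕ Fin m) ≠ 4 := by
    rcases h with h | h
    · exact Or.inl h
    · right
      simp only [Fintype.card_sum, Fintype.card_fin]
      omega
  have hn : 2 ≤ Fintype.card (Fin m ⊕ Fin m) := by
    simp only [Fintype.card_sum, Fintype.card_fin]
    omega
  constructor
  · rintro ⟨g, hg, h1, h2⟩
    obtain ⟨L, hL, rfl⟩ := exists_list hQ h' g
    have he := even_of_mem_omega hQ hn h' L hL hg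
    have hc := (class_iff L hL).2 he
    have hbot : U0 F m ⊓ (U0 F m).map (Matrix.mulVecLin
        ((prodR quadFormPlus_nondeg L : ↥(Cfsg.isometryGroup F (Cfsg.quadFormPlus m F))) : GL (Fin m ⊕ Fin m) F).1) = ⊥ := by
      rw [eq_bot_iff]
      rintro x ⟨hx, y, hy, rfl⟩
      rw [SetLike.mem_coe, mem_U0] at hx hy
      have h3 := h1 y hy
      rw [Submodule.mem_bot]
      ext k
      rcases k with k | k
      · exact h3 k
      · exact hx k
    rw [hbot, finrank_bot, Nat.sub_zero] at hc
    exact hc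
  · intro he
    let T : List (Fin m) := List.finRange m
    have hT : T.Nodup := List.nodup_finRange m
    have hlen : T.length = m := List.length_finRange
    have hmem : ∀ j, j ∈ T := List.mem_finRange
    let τ := prodR hQ (swL (eP (F := F) (m := m)) fP T)
    refine ⟨τ, ?_, ?_, ?_⟩
    · apply mem_omega_of_even hQ hn h' _ (swL_Q hQ hS T)
      · rw [swL_length, hlen]; exact he
      · rw [swL_prod hQ hS, hlen, he.neg_one_pow]
        exact IsSquare.one
    · intro v hv i
      have hswap := sw_swap hQ hS T hT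
      rw [Matrix.mulVec_eq_sum, Finset.sum_apply]
      apply Finset.sum_eq_zero
      rintro (k | k) _
      · have := (hswap k (hmem k)).1
        have e1 : Matrix.transpose ((τ : GL (Fin m ⊕ Fin m) F).1) (Sum.inl k) =
            (τ : GL (Fin m ⊕ Fin m) F).1 *ᵥ eP k := by
          ext a
          simp [eP, Matrix.mulVec_single_one]
        rw [Pi.smul_apply, e1, this]
        simp [fP]
      · rw [hv k]; simp
    · intro v hv i
      have hswap := sw_swap hQ hS T hT
      rw [Matrix.mulVec_eq_sum, Finset.sum_apply]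
      apply Finset.sum_eq_zero
      rintro (k | k) _
      · rw [hv k]; simp
      · have := (hswap k (hmem k)).2
        have e1 : Matrix.transpose ((τ : GL (Fin m ⊕ Fin m) F).1) (Sum.inr k) =
            (τ : GL (Fin m ⊕ Fin m) F).1 *ᵥ fP k := by
          ext a
          simp [fP, Matrix.mulVec_single_one]
        rw [Pi.smul_apply, e1, this]
        simp [eP]

end Cfsg.Agent.S2612
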