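import Cfsg.Statements.S2613
import Cfsg.Agent.Lib.OrthPairs
import Cfsg.Agent.Lib.FieldTwoPart

set_option autoImplicit false
open Cfsg

namespace Cfsg.Agent.S2613

open Cfsg.Agent.Lib.OrthPairs Cfsg.Agent.Lib.OrthOrder Cfsg.Agent.Lib.OrthOrder2 Cfsg.Agent.Lib.OrthStd2

/-- For the hyperbolic form Σ x_j y_j on F^(2m), F finite with q elements, q odd, and 1 ≤ i ≤ m: the involution negating the first i hyperbolic pairs (x_j, y_j ↦ −x_j, −y_j for j < i) and fixing the rest lies in Ω⁺_2m(q) (commutator subgroup of the orthogonal group) if and only if q^i ≡ 1 (mod 4); its (−1)-eigenspace is a hyperbolic 2i-space. -/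
theorem result {F : Type*} [Field F] [Fintype F] {q : ℕ} (hF : Fintype.card F = q) (hq : Odd q) {m : ℕ} (i : ℕ) (hi : 1 ≤ i) (him : i ≤ m) : (∃ g : ↥(Cfsg.isometryGroup F (Cfsg.quadFormPlus m F)), g ∈ Cfsg.Omega F (Cfsg.quadFormPlus m F) ∧ ((g : Matrix.GeneralLinearGroup (Fin m ⊕ Fin m) F) : Matrix (Fin m ⊕ Fin m) (Fin m ⊕ Fin m) F) = Matrix.diagonal (fun k : Fin m ⊕ Fin m => if (Sum.elim (fun j : Fin m => (j : ℕ)) (fun j : Fin m => (j : ℕ)) k) < i then (-1 : F) else 1)) ↔ q ^ i % 4 = 1 := by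
  have h2 : (2 : F) ≠ 0 := Cfsg.Agent.Lib.FieldTwoPart.two_ne_zero_of_odd (hF ▸ hq)
  have hS := hypSys_plus (F := F) (m := m)
  have hQ := quadFormPlus_nondeg (F := F) (m := m)
  let T : List (Fin m) := (List.finRange i).map (Fin.castLE him)
  have hT : T.Nodup := (List.nodup_finRange i).map (Fin.castLE_injective him)
  have hTlen : T.length = i := by simp [T]
  have hmem : ∀ j : Fin m, j ∈ T ↔ j.val < i := by
    intro j
    simp only [T, List.mem_map, List.mem_finRange, true_and]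
    constructor
    · rintro ⟨x, rfl⟩
      exact x.2
    · intro h
      exact ⟨⟨j.val, h⟩, rfl⟩
  have hn : 2 ≤ Fintype.card (Fin m ⊕ Fin m) := by
    simp only [Fintype.card_sum, Fintype.card_fin]
    omega
  rw [diag_mem_iff hQ hS h2 hn T hT, hTlen]
  · exact isSquare_neg_pow_iff hF hq i
  · rintro (k | k)
    · by_cases hk : k.val < i
      · left
        exact ⟨⟨k, (hmem k).2 hk, Or.inl rfl⟩, by simp [hk]⟩
      · right
        refine ⟨fun j hj => ?_, by simp [hk]⟩
        have hne : k ≠ j := fun h => hk (h ▸ (hmem j).1 hj)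
        exact ⟨hS.ee k j, by rw [show (Pi.single (Sum.inl k) 1 : Fin m ⊕ Fin m → F) = eP k from rfl, hS.ef, if_neg hne]⟩
    · by_cases hk : k.val < i
      · left
        exact ⟨⟨k, (hmem k).2 hk, Or.inr rfl⟩, by simp [hk]⟩
      · right
        refine ⟨fun j hj => ?_, by simp [hk]⟩
        have hne : j ≠ k := fun h => hk (h ▸ (hmem j).1 hj)
        refine ⟨?_, hS.ff k j⟩
        rw [QuadraticMap.polar_comm, show (Pi.single (Sum.inr k) 1 : Fin m ⊕ Fin m → F) = fP k from rfl, hS.ef, if_neg hne]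

end Cfsg.Agent.S2613
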