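import Cfsg.Statements.S2615
import Cfsg.Agent.Lib.OrthPairs
import Cfsg.Agent.Lib.FieldTwoPart

set_option autoImplicit false
open Cfsg

namespace Cfsg.Agent.S2615

open Cfsg.Agent.Lib.OrthPairs Cfsg.Agent.Lib.OrthOrder Cfsg.Agent.Lib.OrthOrder3 Cfsg.Agent.Lib.OrthStd2

theorem main_case {F : Type*} [Field F] [Fintype F] {q : ℕ} (hF : Fintype.card F = q) (hq : Odd q) {k' : ℕ} (a b : F) (hab : ∀ z₁ z₂ : F, z₁ ^ 2 + a * z₁ * z₂ + b * z₂ ^ 2 = 0 → z₁ = 0 ∧ z₂ = 0) (i : ℕ) (him' : i ≤ k') : (∃ g : ↥(Cfsg.isometryGroup F (Cfsg.quadFormMinus k' F a b)), g ∈ Cfsg.Omega F (Cfsg.quadFormMinus k' F a b) ∧ ((g : Matrix.GeneralLinearGroup ((Fin k' ⊕ Fin k') ⊕ Fin 2) F) : Matrix ((Fin k' ⊕ Fin k') ⊕ Fin 2) ((Fin k' ⊕ Fin k') ⊕ Fin 2) F) = Matrix.diagonal (fun k : (Fin k' ⊕ Fin k') ⊕ Fin 2 => if (Sum.elim (Sum.elim (fun j : Fin k' => (j : ℕ)) (fun j : Fin k' => (j : ℕ))) (fun _ : Fin 2 => i) k) < i then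 (-1 : F) else 1)) ↔ q ^ i % 4 = 1 := by
  have hq' : Odd (Fintype.card F) := hF ▸ hq
  have h2 : (2 : F) ≠ 0 := Cfsg.Agent.Lib.FieldTwoPart.two_ne_zero_of_odd hq'
  have hS := hypSys_minus (F := F) (k := k') (a := a) (b := b)
  have hQ := quadFormMinus_nondeg (F := F) (m := k') hab
  let T : List (Fin k') := (List.finRange i).map (Fin.castLE him')
  have hT : T.Nodup := (List.nodup_finRange i).map (Fin.castLE_injective him')
  have hTlen : T.length = i := by simp [T]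
  have hmem : ∀ j : Fin k', j ∈ T ↔ j.val < i := by
    intro j
    simp only [T, List.mem_map, List.mem_finRange, true_and]
    constructor
    · rintro ⟨x, rfl⟩
      exact x.2
    · intro h
      exact ⟨⟨j.val, h⟩, rfl⟩
  have hn : 2 ≤ Fintype.card ((Fin k' ⊕ Fin k') ⊕ Fin 2) := by
    simp only [Fintype.card_sum, Fintype.card_fin]
    omega
  rw [diag_mem_iff hQ hS h2 hn T hT, hTlen]
  · exact isSquare_neg_pow_iff hF hq i
  · rintro ((k | k) | k)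
    · by_cases hk : k.val < i
      · left
        exact ⟨⟨k, (hmem k).2 hk, Or.inl rfl⟩, by simp [hk]⟩
      · right
        refine ⟨fun j hj => ?_, by simp [hk]⟩
        have hne : k ≠ j := fun h => hk (h ▸ (hmem j).1 hj)
        exact ⟨hS.ee k j, by rw [show (Pi.single (Sum.inl (Sum.inl k)) 1 : (Fin k' ⊕ Fin k') ⊕ Fin 2 → F) = eM k from rfl, hS.ef, if_neg hne]⟩
    · by_cases hk : k.val < i
      · left
        exact ⟨⟨k, (hmem k).2 hk, Or.inr rfl⟩, by simp [hk]⟩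
      · right
        refine ⟨fun j hj => ?_, by simp [hk]⟩
        have hne : j ≠ k := fun h => hk (h ▸ (hmem j).1 hj)
        refine ⟨?_, hS.ff k j⟩
        rw [QuadraticMap.polar_comm, show (Pi.single (Sum.inl (Sum.inr k)) 1 : (Fin k' ⊕ Fin k') ⊕ Fin 2 → F) = fM k from rfl, hS.ef, if_neg hne]
    · right
      refine ⟨fun j _ => ?_, by simp⟩
      fin_cases k
      · exact zM_mem hab j j.2
      · exact yM_mem hab j j.2

/-- For an elliptic form Σ_(j<m−1) x_j y_j + (z₁² + a z₁z₂ + b z₂²) (anisotropic binary part) on F^(2m), F finite with q elements, q odd, and 1 ≤ i ≤ m − 1: the involution negating the first i hyperbolic pairs and fixing the rest lies in Ω⁻_2m(q) (commutator subgroup of the orthogonal group) if and only if q^i ≡ 1 (mod 4). -/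
theorem result {F : Type*} [Field F] [Fintype F] {q : ℕ} (hF : Fintype.card F = q) (hq : Odd q) {m : ℕ} (a b : F) (hab : ∀ z₁ z₂ : F, z₁ ^ 2 + a * z₁ * z₂ + b * z₂ ^ 2 = 0 → z₁ = 0 ∧ z₂ = 0) (i : ℕ) (hi : 1 ≤ i) (him : i + 1 ≤ m) : (∃ g : ↥(Cfsg.isometryGroup F (Cfsg.quadFormMinus (m - 1) F a b)), g ∈ Cfsg.Omega F (Cfsg.quadFormMinus (m - 1) F a b) ∧ ((g : Matrix.GeneralLinearGroup ((Fin (m - 1) ⊕ Fin (m - 1)) ⊕ Fin 2) F) : Matrix ((Fin (m - 1) ⊕ Fin (m - 1)) ⊕ Fin 2) ((Fin (m - 1) ⊕ Fin (m - 1)) ⊕ Fin 2) F) = Matrix.diagonal (fun k : (Fin (m - 1) ⊕ Fin (m - 1)) ⊕ Fin 2 => if (Sum.elim (Sum.elim (fun j : Fin (m - 1) => (j : ℕ)) (fun j : Fin (m - 1) => (j : ℕ))) (fun _ : Fin 2 => i) k) < i then (-1 : F) else 1)) ↔ q ^ i % 4 = 1 := by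
  obtain ⟨k', rfl⟩ : ∃ k', m = k' + 1 := ⟨m - 1, by omega⟩
  exact main_case hF hq a b hab i (by omega)

end Cfsg.Agent.S2615
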