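import Cfsg.Statements.S2617
import Cfsg.Agent.Lib.OrthWitt

set_option autoImplicit false
open Cfsg

namespace Cfsg.Agent.S2617

open Cfsg.Agent.Lib.OrthWitt Cfsg.Agent.Lib.OrthOmega Cfsg.Agent.Lib.OrthStd2

variable {F : Type*} [Field F]

/-- anisotropy of the binary part -/
theorem aniso {ζ : F} (hζ : ∀ t : F, t ^ 2 + t + ζ ≠ 0) (z₁ z₂ : F)
    (h : z₁ ^ 2 + 1 * z₁ * z₂ + ζ * z₂ ^ 2 = 0) : z₁ = 0 ∧ z₂ = 0 := by
  by_cases h2 : z₂ = 0
  · subst h2
    simp at h
    exact ⟨h, rfl⟩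
  · exfalso
    apply hζ (z₁ / z₂)
    field_simp
    linear_combination h

/-- embedding the `x`-coordinates -/
def inclMinus (m : ℕ) : (Fin m → F) →ₗ[F] ((Fin m ⊕ Fin m) ⊕ Fin 2 → F) where
  toFun a := Sum.elim (Sum.elim a 0) 0
  map_add' a b := by
    ext i
    rcases i with (i | i) | i <;> simp
  map_smul' c a := by
    ext i
    rcases i with (i | i) | i <;> simp

theorem inclMinus_inj (m : ℕ) : Function.Injective (inclMinus (F := F) m) := by
  intro a b h
  ext i
  exact congrFun h (.inl (.inl i))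

def inclPlus (m : ℕ) : (Fin m → F) →ₗ[F] (Fin m ⊕ Fin m → F) where
  toFun a := Sum.elim a 0
  map_add' a b := by
    ext i
    rcases i with i | i <;> simp
  map_smul' c a := by
    ext i
    rcases i with i | i <;> simp

theorem inclPlus_inj (m : ℕ) : Function.Injective (inclPlus (F := F) m) := by
  intro a b h
  ext i
  exact congrFun h (.inl i)

/-- The two standard quadratic forms of even dimension 2m over a finite field are not isometric: there is no linear isomorphism carrying the elliptic form Σ_(i<m−1) x_i y_i + z₁² + z₁z₂ + ζ z₂² (t² + t + ζ without roots) to the hyperbolic form Σ_(i<m) x_i y_i (they have different Witt index). -/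
theorem result {F : Type*} [Field F] [Finite F] {m : ℕ} (hm : 1 ≤ m) (ζ : F) (hζ : ∀ t : F, t ^ 2 + t + ζ ≠ 0) (g : (Fin m ⊕ Fin m → F) ≃ₗ[F] ((Fin (m - 1) ⊕ Fin (m - 1)) ⊕ Fin 2 → F)) : ¬ (∀ v : Fin m ⊕ Fin m → F, Cfsg.quadFormMinus (m - 1) F 1 ζ (g v) = Cfsg.quadFormPlus m F v) := by
  intro hg
  haveI := Fintype.ofFinite F
  have hQ := quadFormMinus_nondeg (m := m - 1) (a := (1 : F)) (b := ζ) (aniso hζ)
  let T := LinearMap.range (inclMinus (F := F) (m - 1))
  let W := (LinearMap.range (inclPlus (F := F) m)).map (g : (Fin m ⊕ Fin m → F) →ₗ[F] ((Fin (m - 1) ⊕ Fin (m - 1)) ⊕ Fin 2 → F))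
  have hT : Module.finrank F T = m - 1 := by
    rw [LinearMap.finrank_range_of_inj (inclMinus_inj _)]
    simp
  have hW : Module.finrank F W = m := by
    rw [LinearEquiv.finrank_map_eq, LinearMap.finrank_range_of_inj (inclPlus_inj _)]
    simp
  have hle := ts_le hQ (W := W) (T := T) ?_ ?_ ?_
  · omega
  · rintro _ ⟨_, ⟨a, rfl⟩, rfl⟩
    show Cfsg.quadFormMinus (m - 1) F 1 ζ (g _) = 0
    rw [hg]
    simp [Cfsg.quadFormPlus, inclPlus]
  · rintro _ ⟨a, rfl⟩
    simp [Cfsg.quadFormMinus, inclMinus]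
  · intro v hv hv0
    have hy : ∀ i, v (.inl (.inr i)) = 0 := by
      intro i
      have := (mem_perp hQ).1 hv (inclMinus (m - 1) (Pi.single i 1)) ⟨_, rfl⟩
      rw [polar_minus] at this
      simpa [inclMinus, Pi.single_apply] using this
    have hv0' : v (.inr 0) ^ 2 + 1 * v (.inr 0) * v (.inr 1) + ζ * v (.inr 1) ^ 2 = 0 := by
      simpa [Cfsg.quadFormMinus, hy] using hv0
    obtain ⟨hz0, hz1⟩ := aniso hζ _ _ hv0'
    refine ⟨fun i => v (.inl (.inl i)), ?_⟩
    ext i
    rcases i with (i | i) | i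
    · simp [inclMinus]
    · simp [inclMinus, hy]
    · fin_cases i
      · simp [inclMinus, hz0]
      · simp [inclMinus, hz1]

end Cfsg.Agent.S2617
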