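import Cfsg.Statements.S2618
import Cfsg.Agent.Lib.OrthBasis

set_option autoImplicit false
open Cfsg

namespace Cfsg.Agent.S2618

open Cfsg.Agent.Lib.OrthBasis

/-- Standard (parabolic) basis of a non-degenerate quadratic space of odd dimension 2m + 1 over a finite field (the non-degeneracy of the polar form forces the characteristic to be odd): there is a basis e_i, f_i (i < m), x with Q(e_i) = Q(f_i) = 0, B(e_i, f_j) = δ_ij (B the polar form), the e's pairwise orthogonal and the f's pairwise orthogonal, x orthogonal to all of them and Q(x) ≠ 0. -/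
theorem result {F V : Type*} [Field F] [Finite F] [AddCommGroup V] [Module F V] [FiniteDimensional F V] {m : ℕ} (hV : Module.finrank F V = 2 * m + 1) (Q : QuadraticForm F V) (hQ : (QuadraticMap.polarBilin Q).Nondegenerate) : ∃ b : Module.Basis (Unit ⊕ (Fin m ⊕ Fin m)) F V, Q (b (Sum.inl ())) ≠ 0 ∧ (∀ i, QuadraticMap.polar ⇑Q (b (Sum.inl ())) (b (Sum.inr (Sum.inl i))) = 0 ∧ QuadraticMap.polar ⇑Q (b (Sum.inl ())) (b (Sum.inr (Sum.inr i))) = 0) ∧ (∀ i, Q (b (Sum.inr (Sum.inl i))) = 0 ∧ Q (b (Sum.inr (Sum.inr i))) = 0) ∧ (∀ i j, QuadraticMap.polar ⇑Q (b (Sum.inr (Sum.inl i))) (b (Sum.inr (Sum.inr j))) = if i = j then 1 else 0) ∧ (∀ i j, QuadraticMap.polar ⇑Q (b (Sum.inr (Sum.inl i))) (b (Sum.inr (Sum.inl j))) = 0 ∧ QuadraticMap.polar ⇑Q (b (Sum.inr (Sum.inr i))) (b (Sum.inr (Sum.inr j))) = 0) := by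
  classical
  haveI := Fintype.ofFinite F
  let e : V ≃ₗ[F] (Fin (2 * m + 1) → F) := LinearEquiv.ofFinrankEq _ _ (by simp [hV])
  have hN := nondeg_comp Q hQ e
  have hp := polar_comp_symm Q e
  have hq : ∀ x, Q (e.symm x) = (Q.comp e.symm.toLinearMap) x := fun x => rfl
  obtain ⟨b, h1, h2, h3, h4, h5⟩ := odd_basis hN (M := m) (by simp)
  refine ⟨b.map e.symm, ?_, ?_, ?_, ?_, ?_⟩
  · simp only [Module.Basis.map_apply, LinearEquiv.coe_coe, hq]
    exact h1
  · intro i
    simp only [Module.Basis.map_apply, LinearEquiv.coe_coe, hp]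
    exact h2 i
  · intro i
    simp only [Module.Basis.map_apply, LinearEquiv.coe_coe, hq]
    exact h3 i
  · intro i j
    simp only [Module.Basis.map_apply, LinearEquiv.coe_coe, hp]
    exact h4 i j
  · intro i j
    simp only [Module.Basis.map_apply, LinearEquiv.coe_coe, hp]
    exact h5 i j

end Cfsg.Agent.S2618
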