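import Cfsg.Statements.S2619
import Mathlib

set_option autoImplicit false
open Cfsg

namespace Cfsg.Agent.S2619

/-- Over a finite field of characteristic two, given an alternating bilinear form B on a finite-dimensional space, a basis (v_i) and scalars (λ_i), there is exactly one quadratic form whose polar form is B and whose value at each v_i is λ_i. -/
theorem result {F V ι : Type*} [Field F] [Finite F] [CharP F 2] [AddCommGroup V] [Module F V] [Fintype ι] (b : Module.Basis ι F V) (B : LinearMap.BilinForm F V) (hB : B.IsAlt) (c : ι → F) : ∃! Q : QuadraticForm F V, QuadraticMap.polarBilin Q = B ∧ ∀ i, Q (b i) = c i := by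
  classical
  have h2 : (2 : F) = 0 := by
    have := CharP.cast_eq_zero F 2
    exact_mod_cast this
  let r := Fintype.equivFin ι
  let M : Matrix ι ι F := fun i j => if r i < r j then B (b i) (b j) else if i = j then c i else 0
  let A : LinearMap.BilinForm F V := Matrix.toBilin b M
  have hA : ∀ i j, A (b i) (b j) = M i j := by
    intro i j
    have := LinearMap.BilinForm.toMatrix_toBilin b M
    have h := congrFun (congrFun this i) j
    rw [LinearMap.BilinForm.toMatrix_apply] at h
    exact h
  let Q : QuadraticForm F V := LinearMap.BilinMap.toQuadraticMap A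
  have hsymm : ∀ x y, B x y = B y x := by
    intro x y
    have h := LinearMap.BilinForm.IsAlt.neg_eq hB x y
    rw [← h]
    have : ∀ z : F, -z = z := by
      intro z
      apply neg_eq_of_add_eq_zero_left
      rw [← two_mul, h2, zero_mul]
    rw [this]
  have hpolQ : QuadraticMap.polarBilin Q = B := by
    apply LinearMap.ext_basis b b
    intro i j
    rw [QuadraticMap.polarBilin_apply_apply, LinearMap.BilinMap.polar_toQuadraticMap, hA, hA]
    simp only [M]
    rcases lt_trichotomy (r i) (r j) with hlt | heq | hgt
    · have h1 : ¬ r j < r i := by omega
      have h3 : j ≠ i := by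
        rintro rfl
        omega
      simp [hlt, h1, h3]
    · have h3 : i = j := r.injective heq
      subst h3
      simp only [lt_irrefl, if_false, if_true]
      rw [hB]
      rw [← two_mul, h2, zero_mul]
    · have h1 : ¬ r i < r j := by omega
      have h3 : i ≠ j := by
        rintro rfl
        omega
      simp [hgt, h1, h3]
      exact hsymm _ _
  refine ⟨Q, ⟨?_, ?_⟩, ?_⟩
  · exact hpolQ
  · intro i
    show A (b i) (b i) = c i
    rw [hA]
    simp [M]
  · rintro Q' ⟨hQ', hc⟩
    have hpol : ∀ x y, QuadraticMap.polar Q' x y = QuadraticMap.polar Q x y := by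
      intro x y
      have h1 : QuadraticMap.polarBilin Q' x y = B x y := by rw [hQ']
      have h4 : QuadraticMap.polarBilin Q x y = B x y := by rw [hpolQ]
      rw [QuadraticMap.polarBilin_apply_apply] at h1 h4
      rw [h1, h4]
    have hval : ∀ i, Q' (b i) = Q (b i) := by
      intro i
      rw [hc i]
      show c i = A (b i) (b i)
      rw [hA]
      simp [M]
    apply QuadraticMap.ext
    intro x
    have hx : x ∈ Submodule.span F (Set.range b) := by
      rw [b.span_eq]; trivial
    induction hx using Submodule.span_induction with
    | mem x hx =>
      obtain ⟨i, rfl⟩ := hx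
      exact hval i
    | zero => simp
    | add x y _ _ ihx ihy =>
      have h1 := hpol x y
      simp only [QuadraticMap.polar] at h1
      have h3 : Q' (x + y) - Q (x + y) = (Q' x - Q x) + (Q' y - Q y) := by
        linear_combination h1
      rw [ihx, ihy] at h3
      linear_combination h3
    | smul a x _ ih =>
      rw [QuadraticMap.map_smul, QuadraticMap.map_smul, ih]

end Cfsg.Agent.S2619
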