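import Cfsg.Statements.S2622
-- import your own Cfsg.Agent.* helpers here

set_option autoImplicit false
open Cfsg

namespace Cfsg.Agent.S2622


/-- Orthonormal finite sets. -/
def ONS {F V : Type*} [Field F] [AddCommGroup V] [Module F V] (B : LinearMap.BilinForm F V) (S : Finset V) : Prop :=
  (∀ u ∈ S, B u u = 1) ∧ ∀ u ∈ S, ∀ w ∈ S, u ≠ w → B u w = 0

section

variable {F V : Type*} [Field F] [AddCommGroup V] [Module F V] {B : LinearMap.BilinForm F V}

theorem ons_li {S : Finset V} (hS : ONS B S) : LinearIndependent F (fun u : S => (u : V)) := by
  classical
  rw [Fintype.linearIndependent_iff]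
  intro a ha u
  have h1 := congrArg (fun z => B z u) ha
  simp only [map_sum, map_smul, LinearMap.sum_apply, LinearMap.smul_apply, map_zero, LinearMap.zero_apply, smul_eq_mul] at h1
  rw [Finset.sum_eq_single u] at h1
  · rw [hS.1 u u.2, mul_one] at h1
    exact h1
  · intro w _ hw
    rw [hS.2 w w.2 u u.2 (fun e => hw (Subtype.ext e)), mul_zero]
  · simp

theorem ons_proj {S : Finset V} (hS : ONS B S) (z : V) (w : V) (hw : w ∈ S) :
    B (z - ∑ u ∈ S, B z u • u) w = 0 := by
  classical
  simp only [map_sub, LinearMap.sub_apply, map_sum, LinearMap.sum_apply, map_smul, LinearMap.smul_apply, smul_eq_mul]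
  rw [Finset.sum_eq_single w]
  · rw [hS.1 w hw, mul_one, sub_self]
  · intro u hu huw
    rw [hS.2 u hu w hw huw, mul_zero]
  · intro h
    exact absurd hw h

end

/-- Over a finite field of characteristic two, a non-degenerate symmetric bilinear form that is not alternating (some vector v has B(v, v) ≠ 0) admits an orthonormal basis. -/
theorem result {F V : Type*} [Field F] [Finite F] [CharP F 2] [AddCommGroup V] [Module F V] [FiniteDimensional F V] {n : ℕ} (hV : Module.finrank F V = n) (B : LinearMap.BilinForm F V) (hS : B.IsSymm) (hB : B.Nondegenerate) (hna : ∃ v : V, B v v ≠ 0) : ∃ b : Module.Basis (Fin n) F V, ∀ i j, B (b i) (b j) = if i = j then 1 else 0 := by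
  classical
  haveI := Fintype.ofFinite F
  have hchar : ringChar F = 2 := ringChar.eq F 2
  have h11 : (1 : F) + 1 = 0 := CharTwo.add_self_eq_zero 1
  have hscale : ∀ y : V, B y y ≠ 0 → ∃ y' : V, B y' y' = 1 ∧ ∃ c : F, c ≠ 0 ∧ y' = c • y := by
    intro y hy
    obtain ⟨t, ht⟩ := FiniteField.isSquare_of_char_two hchar (B y y)
    have ht0 : t ≠ 0 := by
      rintro rfl
      rw [mul_zero] at ht
      exact hy ht
    refine ⟨t⁻¹ • y, ?_, t⁻¹, inv_ne_zero ht0, rfl⟩
    simp only [map_smul, LinearMap.smul_apply, smul_eq_mul, ht]
    field_simp
  have hcard : ∀ S : Finset V, ONS B S → S.card ≤ n := by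
    intro S hS
    have := (ons_li hS).fintype_card_le_finrank
    rw [hV] at this
    simpa using this
  have hsymm : ∀ x y, B x y = B y x := fun x y => hS.eq x y
  have key : ∀ d (S : Finset V), ONS B S → S.Nonempty → n - S.card < d →
      ∃ S' : Finset V, ONS B S' ∧ ∀ x, (∀ u ∈ S', B x u = 0) → x = 0 := by
    intro d
    induction d with
    | zero => intro S _ _ h; omega
    | succ d ih =>
      intro S hSo hne hd
      have hcS := hcard S hSo
      by_cases hW : ∀ x, (∀ u ∈ S, B x u = 0) → x = 0
      · exact ⟨S, hSo, hW⟩
      push Not at hW
      obtain ⟨x, hxW, hx0⟩ := hW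
      have hnot : ∀ y, (∀ u ∈ S, B y u = 0) → ∀ u ∈ S, u ≠ y := by
        intro y hy u hu e
        have h1 := hy u hu
        rw [← e, hSo.1 u hu] at h1
        exact one_ne_zero h1
      by_cases halt : ∀ y, (∀ u ∈ S, B y u = 0) → B y y = 0
      · -- alternating complement
        obtain ⟨z, hz⟩ : ∃ z, B x z ≠ 0 := by
          by_contra hc
          push Not at hc
          exact hx0 (hB.1 x hc)
        set z' := z - ∑ u ∈ S, B z u • u with hz'
        have hz'W : ∀ u ∈ S, B z' u = 0 := fun u hu => ons_proj hSo z u hu
        have hxz' : B x z' ≠ 0 := by
          have : B x z' = B x z := by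
            rw [hz']
            simp only [map_sub, map_sum, map_smul, smul_eq_mul]
            rw [Finset.sum_eq_zero, sub_zero]
            intro u hu
            rw [hxW u hu, mul_zero]
          rw [this]
          exact hz
        set y := (B x z')⁻¹ • z' with hy
        have hyW : ∀ u ∈ S, B y u = 0 := by
          intro u hu
          simp only [hy, map_smul, LinearMap.smul_apply, smul_eq_mul, hz'W u hu, mul_zero]
        have hxy : B x y = 1 := by
          simp only [hy, map_smul, smul_eq_mul]
          exact inv_mul_cancel₀ hxz'
        have hyx : B y x = 1 := by rw [hsymm, hxy]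
        have hxx := halt x hxW
        have hyy := halt y hyW
        obtain ⟨a, ha⟩ := hne
        have haa := hSo.1 a ha
        have hax : B a x = 0 := by rw [hsymm, hxW a ha]
        have hay : B a y = 0 := by rw [hsymm, hyW a ha]
        have hxa := hxW a ha
        have hya := hyW a ha
        -- the new set
        let n1 := a + x
        let n2 := a + y
        let n3 := a + x + y
        have hOld : ∀ u ∈ S.erase a, B u a = 0 ∧ B u x = 0 ∧ B u y = 0 ∧ B a u = 0 ∧ B x u = 0 ∧ B y u = 0 := by
          intro u hu
          obtain ⟨hua, huS⟩ := Finset.mem_erase.1 hu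
          have h1 := hSo.2 u huS a ha hua
          have h2 := hxW u huS
          have h3 := hyW u huS
          exact ⟨h1, by rw [hsymm, h2], by rw [hsymm, h3], by rw [hsymm, h1], h2, h3⟩
        have h12 : B n1 n2 = 0 := by
          simp only [n1, n2, map_add, LinearMap.add_apply, haa, hay, hxa, hxy]
          linear_combination h11
        have h13 : B n1 n3 = 0 := by
          simp only [n1, n3, map_add, LinearMap.add_apply, haa, hay, hxa, hxy, hax, hxx]
          linear_combination h11
        have h23 : B n2 n3 = 0 := by
          simp only [n2, n3, map_add, LinearMap.add_apply, haa, hay, hya, hyx, hax, hyy]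
          linear_combination h11
        have h11' : B n1 n1 = 1 := by
          simp only [n1, map_add, LinearMap.add_apply, haa, hax, hxa, hxx]
          ring
        have h22' : B n2 n2 = 1 := by
          simp only [n2, map_add, LinearMap.add_apply, haa, hay, hya, hyy]
          ring
        have h33' : B n3 n3 = 1 := by
          simp only [n3, map_add, LinearMap.add_apply, haa, hax, hxa, hxx, hay, hya, hyy, hxy, hyx]
          linear_combination h11
        have hne12 : n1 ≠ n2 := by
          intro e
          rw [e, h22'] at h12
          exact one_ne_zero h12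
        have hne13 : n1 ≠ n3 := by
          intro e
          rw [e, h33'] at h13
          exact one_ne_zero h13
        have hne23 : n2 ≠ n3 := by
          intro e
          rw [e, h33'] at h23
          exact one_ne_zero h23
        have hnew : ∀ u ∈ S.erase a, B n1 u = 0 ∧ B n2 u = 0 ∧ B n3 u = 0 := by
          intro u hu
          obtain ⟨h1, h2, h3, h4, h5, h6⟩ := hOld u hu
          refine ⟨?_, ?_, ?_⟩
          · simp only [n1, map_add, LinearMap.add_apply, h4, h5, add_zero]
          · simp only [n2, map_add, LinearMap.add_apply, h4, h6, add_zero]
          · simp only [n3, map_add, LinearMap.add_apply, h4, h5, h6, add_zero]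
        have hn1 : n1 ∉ S.erase a := by
          intro h
          have := (hnew _ h).1
          rw [h11'] at this
          exact one_ne_zero this
        have hn2 : n2 ∉ S.erase a := by
          intro h
          have := (hnew _ h).2.1
          rw [h22'] at this
          exact one_ne_zero this
        have hn3 : n3 ∉ S.erase a := by
          intro h
          have := (hnew _ h).2.2
          rw [h33'] at this
          exact one_ne_zero this
        let S' : Finset V := insert n1 (insert n2 (insert n3 (S.erase a)))
        have hS'o : ONS B S' := by
          have hsym' : ∀ u w, u ≠ w → B w u = 0 → B u w = 0 := fun u w _ h => by rw [hsymm, h]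
          constructor
          · intro u hu
            simp only [S', Finset.mem_insert] at hu
            rcases hu with rfl | rfl | rfl | hu
            · exact h11'
            · exact h22'
            · exact h33'
            · exact hSo.1 u (Finset.mem_of_mem_erase hu)
          · intro u hu w hw huw
            simp only [S', Finset.mem_insert] at hu hw
            rcases hu with rfl | rfl | rfl | hu <;> rcases hw with rfl | rfl | rfl | hw
            · exact absurd rfl huw
            · exact h12
            · exact h13
            · exact (hnew w hw).1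
            · rw [hsymm]; exact h12
            · exact absurd rfl huw
            · exact h23
            · exact (hnew w hw).2.1
            · rw [hsymm]; exact h13
            · rw [hsymm]; exact h23
            · exact absurd rfl huw
            · exact (hnew w hw).2.2
            · rw [hsymm]; exact (hnew u hu).1
            · rw [hsymm]; exact (hnew u hu).2.1
            · rw [hsymm]; exact (hnew u hu).2.2
            · exact hSo.2 u (Finset.mem_of_mem_erase hu) w (Finset.mem_of_mem_erase hw) huw
        have hcS' : S'.card = S.card + 2 := by
          have h3 : n3 ∉ S.erase a := hn3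
          have h2 : n2 ∉ insert n3 (S.erase a) := by
            simp only [Finset.mem_insert, not_or]
            exact ⟨hne23, hn2⟩
          have h1 : n1 ∉ insert n2 (insert n3 (S.erase a)) := by
            simp only [Finset.mem_insert, not_or]
            exact ⟨hne12, hne13, hn1⟩
          simp only [S']
          rw [Finset.card_insert_of_notMem h1, Finset.card_insert_of_notMem h2, Finset.card_insert_of_notMem h3,
            Finset.card_erase_of_mem ha]
          have : 0 < S.card := Finset.card_pos.2 ⟨a, ha⟩
          omega
        have hc' := hcard S' hS'o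
        refine ih S' hS'o ⟨n1, by simp [S']⟩ ?_
        omega
      · push Not at halt
        obtain ⟨y, hyW, hyy⟩ := halt
        obtain ⟨y', hy'1, c, hc, rfl⟩ := hscale y hyy
        have hy'W : ∀ u ∈ S, B (c • y) u = 0 := by
          intro u hu
          simp only [map_smul, LinearMap.smul_apply, smul_eq_mul, hyW u hu, mul_zero]
        have hnS : c • y ∉ S := fun h => hnot _ hy'W _ h rfl
        let S' : Finset V := insert (c • y) S
        have hS'o : ONS B S' := by
          constructor
          · intro u hu
            rcases Finset.mem_insert.1 hu with rfl | hu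
            · exact hy'1
            · exact hSo.1 u hu
          · intro u hu w hw huw
            rcases Finset.mem_insert.1 hu with rfl | hu <;> rcases Finset.mem_insert.1 hw with rfl | hw
            · exact absurd rfl huw
            · exact hy'W w hw
            · rw [hsymm]; exact hy'W u hu
            · exact hSo.2 u hu w hw huw
        have hcS' : S'.card = S.card + 1 := Finset.card_insert_of_notMem hnS
        have hc' := hcard S' hS'o
        refine ih S' hS'o ⟨c • y, by simp [S']⟩ ?_
        omega
  obtain ⟨v₀, hv₀⟩ := hna
  obtain ⟨v, hv1, -⟩ := hscale v₀ hv₀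
  have hS0 : ONS B {v} := by
    constructor
    · intro u hu
      rw [Finset.mem_singleton.1 hu]
      exact hv1
    · intro u hu w hw huw
      rw [Finset.mem_singleton.1 hu, Finset.mem_singleton.1 hw] at huw
      exact absurd rfl huw
  obtain ⟨S, hSo, hSW⟩ := key (n + 1) {v} hS0 ⟨v, by simp⟩ (by omega)
  have hspan : ⊤ ≤ Submodule.span F (Set.range (fun u : S => (u : V))) := by
    intro z _
    have h0 : z - ∑ u ∈ S, B z u • u = 0 := hSW _ (fun u hu => ons_proj hSo z u hu)
    have e : z = ∑ u ∈ S, B z u • u := sub_eq_zero.1 h0
    rw [e]
    refine Submodule.sum_mem _ fun u hu => Submodule.smul_mem _ _ (Submodule.subset_span ⟨⟨u, hu⟩, rfl⟩)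
  let b₀ := Module.Basis.mk (ons_li hSo) hspan
  have hcardS : Fintype.card S = n := by
    rw [← hV, Module.finrank_eq_card_basis b₀]
  let b := b₀.reindex (Fintype.equivFinOfCardEq hcardS)
  refine ⟨b, fun i j => ?_⟩
  have hb : ∀ i, b i = ((Fintype.equivFinOfCardEq hcardS).symm i : V) := by
    intro i
    simp [b, b₀, Module.Basis.reindex_apply, Module.Basis.mk_apply]
  rw [hb, hb]
  by_cases hij : i = j
  · subst hij
    rw [if_pos rfl]
    exact hSo.1 _ (Subtype.property _)
  · rw [if_neg hij]
    apply hSo.2 _ (Subtype.property _) _ (Subtype.property _)
    intro e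
    exact hij ((Fintype.equivFinOfCardEq hcardS).symm.injective (Subtype.ext e))

end Cfsg.Agent.S2622
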