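import Cfsg.Statements.S2624
import Cfsg.Agent.Lib.OrthDisc

set_option autoImplicit false
open Cfsg

namespace Cfsg.Agent.S2624

open Cfsg.Agent.Lib.OrthDisc Cfsg.Agent.Lib.OrthBridge Cfsg.Agent.Lib.OrthBasis Cfsg.Agent.Lib.OrthE Cfsg.Agent.Lib.OrthOrder3

/-- For a quadratic form Q on F^n with non-degenerate polar form, F finite and n ≥ 2 even, every non-zero scalar c is the multiplier of some similarity: there is an invertible linear map g with Q(g v) = c·Q(v) for all v. -/
theorem result {F : Type*} [Field F] [Fintype F] {n : ℕ} (hn : 2 ≤ n) (he : Even n) (Q : QuadraticForm F (Fin n → F)) (hQ : (QuadraticMap.polarBilin Q).Nondegenerate) (c : F) (hc : c ≠ 0) : ∃ g : (Fin n → F) ≃ₗ[F] (Fin n → F), ∀ v, Q (g v) = c * Q v := by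
  have hN := nondeg_of_form Q hQ
  obtain ⟨M, hM⟩ := he
  have hM1 : 1 ≤ M := by omega
  rcases even_basis hN hM1 (by simp; omega) with ⟨b, h1, h2, h3⟩ | ⟨b, ζ, h0, h1, h2, h3, h4, h5, h6, h7⟩
  · refine similarity_of_basis Q hN b (Sum.elim (fun i => c • b (Sum.inl i)) (fun i => b (Sum.inr i))) c hc ?_ ?_
    · rintro (i | i)
      · simp only [Sum.elim_inl]
        rw [Q_smul hN, (h1 i).1]
        ring
      · simp only [Sum.elim_inr]
        rw [(h1 i).2]
        ring
    · rintro (i | i) (j | j)
      · simp only [Sum.elim_inl]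
        rw [B_smul_left hN, B_smul_right hN, (h3 i j).1]
        ring
      · simp only [Sum.elim_inl, Sum.elim_inr]
        rw [B_smul_left hN]
      · simp only [Sum.elim_inl, Sum.elim_inr]
        rw [B_smul_right hN]
      · simp only [Sum.elim_inr]
        rw [(h3 i j).2]
        ring
  · have hab : ∀ z₁ z₂ : F, z₁ ^ 2 + 1 * z₁ * z₂ + ζ * z₂ ^ 2 = 0 → z₁ = 0 ∧ z₂ = 0 := by
      intro z₁ z₂ hz
      by_cases hz2 : z₂ = 0
      · subst hz2
        simp only [mul_zero, add_zero, ne_eq, OfNat.ofNat_ne_zero, not_false_eq_true, zero_pow] at hz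
        exact ⟨by simpa using hz, rfl⟩
      · exfalso
        apply h0 (z₁ / z₂)
        field_simp
        linear_combination hz
    obtain ⟨⟨p, r⟩, hw⟩ := NN_surj hab c hc
    simp only [NN] at hw
    set x := b (Sum.inr 0) with hx
    set y := b (Sum.inr 1) with hy
    have hxx : QuadraticMap.polar ⇑Q x x = 2 := by rw [B_self hN, h5]; ring
    have hyy : QuadraticMap.polar ⇑Q y y = 2 * ζ := by rw [B_self hN, h7]
    have hyx : QuadraticMap.polar ⇑Q y x = 1 := by rw [B_comm hN, h6]
    have hQp : ∀ s u : F, Q (s • x + u • y) = s ^ 2 + s * u + ζ * u ^ 2 := by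
      intro s u
      rw [Q_add hN, Q_smul hN, Q_smul hN, h5, h7, B_smul_left hN, B_smul_right hN, h6]
      ring
    have hBp : ∀ s u s' u' : F, QuadraticMap.polar ⇑Q (s • x + u • y) (s' • x + u' • y) = 2 * s * s' + s * u' + u * s' + 2 * ζ * u * u' := by
      intro s u s' u'
      simp only [B_add_left hN, B_add_right hN, B_smul_left hN, B_smul_right hN, hxx, hyy, hyx, h6]
      ring
    let T : (Fin (M - 1) ⊕ Fin (M - 1)) ⊕ Fin 2 → (Fin n → F) := Sum.elim (Sum.elim (fun i => c • b (Sum.inl (Sum.inl i))) (fun i => b (Sum.inl (Sum.inr i)))) ![p • x + r • y, (-(ζ * r)) • x + (p + r) • y]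
    refine similarity_of_basis Q hN b T c hc ?_ ?_
    · rintro ((i | i) | k)
      · simp only [T, Sum.elim_inl]
        rw [Q_smul hN, (h1 i).1]
        ring
      · simp only [T, Sum.elim_inl, Sum.elim_inr]
        rw [(h1 i).2]
        ring
      · fin_cases k
        · simp only [T, Sum.elim_inr]
          show Q (p • x + r • y) = c * Q x
          rw [hQp, h5, ← hw]
          ring
        · simp only [T, Sum.elim_inr]
          show Q ((-(ζ * r)) • x + (p + r) • y) = c * Q y
          rw [hQp, h7, ← hw]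
          ring
    · have hE : ∀ i (s u : F), QuadraticMap.polar ⇑Q (b (Sum.inl (Sum.inl i))) (s • x + u • y) = 0 := by
        intro i s u
        rw [B_add_right hN, B_smul_right hN, B_smul_right hN, (h4 i 0).1, (h4 i 1).1]
        ring
      have hG : ∀ i (s u : F), QuadraticMap.polar ⇑Q (b (Sum.inl (Sum.inr i))) (s • x + u • y) = 0 := by
        intro i s u
        rw [B_add_right hN, B_smul_right hN, B_smul_right hN, (h4 i 0).2, (h4 i 1).2]
        ring
      have hTk : ∀ k : Fin 2, ∃ s u : F, T (Sum.inr k) = s • x + u • y ∧ ∃ s' u' : F, b (Sum.inr k) = s' • x + u' • y := by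
        intro k
        fin_cases k
        · exact ⟨p, r, rfl, 1, 0, by simp [hx]⟩
        · exact ⟨-(ζ * r), p + r, rfl, 0, 1, by simp [hy]⟩
      rintro ((i | i) | k) ((j | j) | l)
      · simp only [T, Sum.elim_inl]
        rw [B_smul_left hN, B_smul_right hN, (h3 i j).1]
        ring
      · simp only [T, Sum.elim_inl, Sum.elim_inr]
        rw [B_smul_left hN]
      · obtain ⟨s, u, e1, s', u', e2⟩ := hTk l
        simp only [T, Sum.elim_inl] at e1 ⊢
        rw [e1, e2, B_smul_left hN, hE, hE]
      · simp only [T, Sum.elim_inl, Sum.elim_inr]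
        rw [B_smul_right hN]
      · simp only [T, Sum.elim_inl, Sum.elim_inr]
        rw [(h3 i j).2]
        ring
      · obtain ⟨s, u, e1, s', u', e2⟩ := hTk l
        simp only [T, Sum.elim_inl, Sum.elim_inr] at e1 ⊢
        rw [e1, e2, hG, hG]
        ring
      · obtain ⟨s, u, e1, s', u', e2⟩ := hTk k
        simp only [T, Sum.elim_inl, Sum.elim_inr] at e1 ⊢
        rw [e1, e2, B_comm hN, B_smul_left hN, hE, B_comm hN, hE]
      · obtain ⟨s, u, e1, s', u', e2⟩ := hTk k
        simp only [T, Sum.elim_inl, Sum.elim_inr] at e1 ⊢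
        rw [e1, e2, B_comm hN, hG, B_comm hN, hG]
        ring
      · fin_cases k <;> fin_cases l
        · show QuadraticMap.polar ⇑Q (p • x + r • y) (p • x + r • y) = c * QuadraticMap.polar ⇑Q x x
          rw [hBp, hxx, ← hw]
          ring
        · show QuadraticMap.polar ⇑Q (p • x + r • y) ((-(ζ * r)) • x + (p + r) • y) = c * QuadraticMap.polar ⇑Q x y
          rw [hBp, h6, ← hw]
          ring
        · show QuadraticMap.polar ⇑Q ((-(ζ * r)) • x + (p + r) • y) (p • x + r • y) = c * QuadraticMap.polar ⇑Q y x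
          rw [hBp, hyx, ← hw]
          ring
        · show QuadraticMap.polar ⇑Q ((-(ζ * r)) • x + (p + r) • y) ((-(ζ * r)) • x + (p + r) • y) = c * QuadraticMap.polar ⇑Q y y
          rw [hBp, hyy, ← hw]
          ring

end Cfsg.Agent.S2624
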