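import Cfsg.Statements.S2625
import Mathlib

set_option autoImplicit false
open Cfsg

namespace Cfsg.Agent.S2625

/-- For a quadratic form Q on F^n with non-degenerate polar form, F finite and n odd (so |F| is odd), the multiplier of any similarity is a square: if g is an invertible linear map with Q(g v) = c·Q v for all v then c is a square. -/
theorem result {F : Type*} [Field F] [Fintype F] {n : ℕ} (hn : Odd n) (Q : QuadraticForm F (Fin n → F)) (hQ : (QuadraticMap.polarBilin Q).Nondegenerate) (g : (Fin n → F) ≃ₗ[F] (Fin n → F)) (c : F) (hg : ∀ v, Q (g v) = c * Q v) : IsSquare c := by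
  classical
  let B : LinearMap.BilinForm F (Fin n → F) := QuadraticMap.polarBilin Q
  let b := Pi.basisFun F (Fin n)
  have hcomp : LinearMap.BilinForm.comp B (g : (Fin n → F) →ₗ[F] (Fin n → F)) (g : (Fin n → F) →ₗ[F] (Fin n → F)) = c • B := by
    apply LinearMap.BilinForm.ext
    intro x y
    simp only [B, LinearMap.BilinForm.comp_apply, LinearEquiv.coe_coe, QuadraticMap.polarBilin_apply_apply,
      LinearMap.smul_apply, smul_eq_mul, QuadraticMap.polar]
    rw [← map_add, hg, hg, hg]
    ring
  have h1 := LinearMap.BilinForm.toMatrix_comp b b B (g : (Fin n → F) →ₗ[F] (Fin n → F)) (g : (Fin n → F) →ₗ[F] (Fin n → F))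
  have he : LinearMap.BilinForm.toMatrix b (c • B) = c • LinearMap.BilinForm.toMatrix b B := by
    ext i j
    simp [LinearMap.BilinForm.toMatrix_apply]
  rw [hcomp, he] at h1
  set G := LinearMap.BilinForm.toMatrix b B with hG
  set M := LinearMap.toMatrix b b (g : (Fin n → F) →ₗ[F] (Fin n → F)) with hM
  have hdetG : G.det ≠ 0 := by
    have := (LinearMap.BilinForm.nondegenerate_iff_det_ne_zero b).1 hQ
    exact this
  have hdetM : M.det ≠ 0 := by
    rw [hM, LinearMap.det_toMatrix]
    exact (LinearEquiv.isUnit_det' g).ne_zero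
  have h2 := congrArg Matrix.det h1
  rw [Matrix.det_smul, Matrix.det_mul, Matrix.det_mul, Matrix.det_transpose, Fintype.card_fin] at h2
  have h3 : c ^ n = M.det ^ 2 := by
    have : (c ^ n - M.det ^ 2) * G.det = 0 := by linear_combination h2
    have := (mul_eq_zero.1 this).resolve_right hdetG
    linear_combination this
  obtain ⟨k, rfl⟩ := hn
  have hc : c ≠ 0 := by
    rintro rfl
    rw [zero_pow (by omega)] at h3
    exact hdetM (pow_eq_zero_iff (by norm_num) |>.1 h3.symm)
  refine ⟨M.det / c ^ k, ?_⟩
  have : c ^ (2 * k + 1) = (c ^ k) ^ 2 * c := by ring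
  rw [this] at h3
  field_simp
  linear_combination h3

end Cfsg.Agent.S2625
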