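import Cfsg.Statements.S2627
import Cfsg.Agent.Lib.OrthSum2

set_option autoImplicit false
open Cfsg

namespace Cfsg.Agent.S2627

open Cfsg.Agent.Lib.OrthE Cfsg.Agent.Lib.OrthNeg Cfsg.Agent.Lib.OrthChar Cfsg.Agent.Lib.OrthSpin Cfsg.Agent.Lib.OrthSpin2 Cfsg.Agent.Lib.OrthRefl Cfsg.Agent.Lib.OrthDick Cfsg.Agent.Lib.OrthOmega Cfsg.Agent.Lib.OrthTrans Cfsg.Agent.Lib.OrthDiag Cfsg.Agent.Lib.OrthFam Cfsg.Agent.Lib.OrthPairs Cfsg.Agent.Lib.OrthClass Cfsg.Agent.Lib.OrthBridge Cfsg.Agent.Lib.OrthSpin3 Cfsg.Agent.Lib.OrthStd2 Cfsg.Agent.Lib.OrthSum Cfsg.Agent.Lib.OrthSum2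

/-- For an orthogonal direct sum Q = Q₁ ⊕ Q₂ of quadratic forms with non-degenerate polar forms over a finite field, an isometry g₁ of Q₁ extended by the identity on the second summand lies in Ω(Q) (the commutator subgroup of the orthogonal group of Q) if and only if g₁ lies in Ω(Q₁). (Excluded: the field of two elements when the first summand or the whole space has dimension 4, where the commutator subgroup of O⁺₄(2) is smaller than the group usually called Ω.) -/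
theorem result {F : Type*} [Field F] [Fintype F] {k l : ℕ} (h : Fintype.card F ≠ 2 ∨ (k ≠ 4 ∧ k + l ≠ 4)) (Q₁ : QuadraticForm F (Fin k → F)) (Q₂ : QuadraticForm F (Fin l → F)) (h₁ : (QuadraticMap.polarBilin Q₁).Nondegenerate) (h₂ : (QuadraticMap.polarBilin Q₂).Nondegenerate) (g₁ : ↥(Cfsg.isometryGroup F ⇑Q₁)) : (∃ g : ↥(Cfsg.isometryGroup F (fun v : Fin k ⊕ Fin l → F => Q₁ (v ∘ Sum.inl) + Q₂ (v ∘ Sum.inr))), g ∈ Cfsg.Omega F (fun v : Fin k ⊕ Fin l → F => Q₁ (v ∘ Sum.inl) + Q₂ (v ∘ Sum.inr)) ∧ ((g : Matrix.GeneralLinearGroup (Fin k ⊕ Fin l) F) : Matrix (Fin k ⊕ Fin l) (Fin k ⊕ Fin l) F) = Matrix.fromBlocks ((g₁ : Matrix.GeneralLinearGroup (Fin k) F) : Matrix (Fin k) (Fin k) F) 0 0 1) ↔ g₁ ∈ Cfsg.Omega F ⇑Q₁ := by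
  have hN₁ := nondeg_of_form Q₁ h₁
  have hN₂ := nondeg_of_form Q₂ h₂
  have h₁' : Fintype.card F ≠ 2 ∨ Fintype.card (Fin k) ≠ 4 := by
    rcases h with h | h
    · exact Or.inl h
    · right
      simpa using h.1
  have h₂' : Fintype.card F ≠ 2 ∨ Fintype.card (Fin k ⊕ Fin l) ≠ 4 := by
    rcases h with h | h
    · exact Or.inl h
    · right
      simpa using h.2
  have key := blk_omega_iff hN₁ hN₂ h₁' h₂' g₁
  rw [← key]
  constructor
  · rintro ⟨g, hg, he⟩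
    have e : g = blkO (⇑Q₁) (⇑Q₂) (g₁, 1) := by
      apply Subtype.ext
      apply Units.ext
      exact he
    rw [e] at hg
    exact hg
  · intro hg
    exact ⟨blkO (⇑Q₁) (⇑Q₂) (g₁, 1), hg, rfl⟩

end Cfsg.Agent.S2627
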