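import Cfsg.Statements.S2629
import Cfsg.Agent.Lib.OrthClass

set_option autoImplicit false
open Cfsg

namespace Cfsg.Agent.S2629

open Cfsg.Agent.Lib.OrthClass Cfsg.Agent.Lib.OrthChar Cfsg.Agent.Lib.OrthStd2

/-- For the hyperbolic form Σ x_i y_i on F^(2m) over a finite field of odd order (m ≥ 1), an isometry g preserves the class of the maximal totally singular subspace U₀ = {y = 0} (that is, m − dim(U₀ ∩ gU₀) is even) if and only if det g = 1: the stabiliser of each of the two classes of maximal totally singular subspaces is SO. -/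
theorem result {F : Type*} [Field F] [Fintype F] (h2 : (2 : F) ≠ 0) {m : ℕ} (hm : 1 ≤ m) (g : ↥(Cfsg.isometryGroup F (Cfsg.quadFormPlus m F))) : Even (m - Module.finrank F ↥(LinearMap.ker (LinearMap.funLeft F F (Sum.inr : Fin m → Fin m ⊕ Fin m)) ⊓ (LinearMap.ker (LinearMap.funLeft F F (Sum.inr : Fin m → Fin m ⊕ Fin m))).map (Matrix.mulVecLin ((g : Matrix.GeneralLinearGroup (Fin m ⊕ Fin m) F) : Matrix (Fin m ⊕ Fin m) (Fin m ⊕ Fin m) F)))) ↔ ((g : Matrix.GeneralLinearGroup (Fin m ⊕ Fin m) F) : Matrix (Fin m ⊕ Fin m) (Fin m ⊕ Fin m) F).det = 1 := by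
  have hQ := quadFormPlus_nondeg (F := F) (m := m)
  obtain ⟨L, hL, rfl⟩ := exists_list hQ (Or.inl (Cfsg.Agent.Lib.OrthSpin2.card_ne_two h2)) g
  have hc := class_iff L hL
  unfold U0 at hc
  rw [hc, det_prodR hQ h2 L hL]
  have hne : (-1 : F) ≠ 1 := by
    intro h
    apply h2
    linear_combination -h
  rcases Nat.even_or_odd L.length with he | ho
  · simp [he, he.neg_one_pow]
  · rw [ho.neg_one_pow]
    simp [Nat.not_even_iff_odd.2 ho, hne]

end Cfsg.Agent.S2629
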