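import Cfsg.Statements.S2631
import Cfsg.Agent.Lib.OrthTrans

set_option autoImplicit false
open Cfsg

namespace Cfsg.Agent.S2631

open Cfsg.Agent.Lib.OrthE Cfsg.Agent.Lib.OrthNeg Cfsg.Agent.Lib.OrthChar Cfsg.Agent.Lib.OrthSpin Cfsg.Agent.Lib.OrthSpin2 Cfsg.Agent.Lib.OrthRefl Cfsg.Agent.Lib.OrthDick Cfsg.Agent.Lib.OrthOmega Cfsg.Agent.Lib.OrthTrans Cfsg.Agent.Lib.OrthDiag Cfsg.Agent.Lib.OrthFam Cfsg.Agent.Lib.OrthPairs Cfsg.Agent.Lib.OrthClass Cfsg.Agent.Lib.OrthBridge Cfsg.Agent.Lib.OrthSpin3 Cfsg.Agent.Lib.OrthStd2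

/-- For the hyperbolic form Σ x_i y_i on F^(2m) over a finite field (m ≥ 1, excluding m = 2 over the field of two elements), Ω (the commutator subgroup of the orthogonal group) acts transitively on each of the two classes of maximal totally singular subspaces: if U and W are m-dimensional totally singular subspaces with m − dim(U ∩ W) even, some element of Ω carries U to W. -/
theorem result {F : Type*} [Field F] [Fintype F] {m : ℕ} (hm : 1 ≤ m) (h : Fintype.card F ≠ 2 ∨ m ≠ 2) (U W : Submodule F (Fin m ⊕ Fin m → F)) (hU : Module.finrank F U = m) (hW : Module.finrank F W = m) (hU0 : ∀ u ∈ U, Cfsg.quadFormPlus m F u = 0) (hW0 : ∀ w ∈ W, Cfsg.quadFormPlus m F w = 0) (he : Even (m - Module.finrank F ↥(U ⊓ W))) : ∃ g : ↥(Cfsg.isometryGroup F (Cfsg.quadFormPlus m F)), g ∈ Cfsg.Omega F (Cfsg.quadFormPlus m F) ∧ U.map (Matrix.mulVecLin ((g : Matrix.GeneralLinearGroup (Fin m ⊕ Fin m) F) : Matrix (Fin m ⊕ Fin m) (Fin m ⊕ Fin m) F)) = W := by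
  have hN := quadFormPlus_nondeg (F := F) (m := m)
  have h' : Fintype.card F ≠ 2 ∨ Fintype.card (Fin m ⊕ Fin m) ≠ 4 := by
    rcases h with h | h
    · exact Or.inl h
    · right
      simp only [Fintype.card_sum, Fintype.card_fin]
      omega
  have hn : 2 ≤ Fintype.card (Fin m ⊕ Fin m) := by
    simp only [Fintype.card_sum, Fintype.card_fin]
    omega
  obtain ⟨g₀, hg₀⟩ := exists_O_of_ts hN hU0 hW0 (hU.trans hW.symm)
  obtain ⟨L, hL, rfl⟩ := exists_list hN h' g₀
  have hpar := parity_self hN hU0 (by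
    rw [hU]
    simp only [Fintype.card_sum, Fintype.card_fin]
    ring) L hL
  rw [hg₀, hU] at hpar
  have heL := hpar.1 he
  by_cases h2 : (2 : F) = 0
  · haveI : CharP F 2 := CharTwo.of_one_ne_zero_of_two_eq_zero (R := F) one_ne_zero h2
    refine ⟨prodR hN L, (list_mem_omega_iff_even hN (by omega) h' L hL).2 heL, ?_⟩
    rw [map_eq_gm]
    exact hg₀
  · by_cases hs : IsSquare (L.map (Cfsg.quadFormPlus m F)).prod
    · refine ⟨prodR hN L, (list_mem_omega_iff hN h2 hn L hL).2 ⟨heL, hs⟩, ?_⟩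
      rw [map_eq_gm]
      exact hg₀
    · obtain ⟨ν, hν⟩ := FiniteField.exists_nonsquare (ringChar_ne_two h2)
      have hν0 := ne_zero_of_not_sq hν
      have hW0' : W ≠ ⊥ := by
        rintro rfl
        rw [finrank_bot] at hW
        omega
      obtain ⟨e, heW, he'⟩ := Submodule.exists_mem_ne_zero_of_ne_bot hW0'
      obtain ⟨f, hf, hef⟩ := exists_partner hN he' (hW0 e heW)
      have hst := hp_mem_stab hN hW0 heW hf hef hν0
      refine ⟨prodR hN (hpL e f ν) * prodR hN L, ?_, ?_⟩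
      · rw [← prodR_append, list_mem_omega_iff hN h2 hn]
        · constructor
          · rw [List.length_append]
            exact Even.add (by simp [hpL]) heL
          · rw [List.map_append, List.prod_append, hpL_prod hN (hW0 e heW) hf hef hν0]
            exact nonsq_mul h2 hν hs
        · intro v hv
          exact (List.mem_append.1 hv).elim (hpL_Q hN (hW0 e heW) hf hef hν0 v) (hL v)
      · rw [map_eq_gm]
        show gm ((prodR hN (hpL e f ν) : ↥(Cfsg.isometryGroup F (Cfsg.quadFormPlus m F))) * (prodR hN L : ↥(Cfsg.isometryGroup F (Cfsg.quadFormPlus m F))) : ↥(Cfsg.isometryGroup F (Cfsg.quadFormPlus m F))).1 U = W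
        rw [Subgroup.coe_mul, gm_mul, hg₀]
        exact hst

end Cfsg.Agent.S2631
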