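import Cfsg.Statements.S2632
import Cfsg.Agent.Lib.OrthTrans

set_option autoImplicit false
open Cfsg

namespace Cfsg.Agent.S2632

open Cfsg.Agent.Lib.OrthE Cfsg.Agent.Lib.OrthNeg Cfsg.Agent.Lib.OrthChar Cfsg.Agent.Lib.OrthSpin Cfsg.Agent.Lib.OrthSpin2 Cfsg.Agent.Lib.OrthRefl Cfsg.Agent.Lib.OrthDick Cfsg.Agent.Lib.OrthOmega Cfsg.Agent.Lib.OrthTrans Cfsg.Agent.Lib.OrthDiag Cfsg.Agent.Lib.OrthFam Cfsg.Agent.Lib.OrthPairs Cfsg.Agent.Lib.OrthClass Cfsg.Agent.Lib.OrthBridge Cfsg.Agent.Lib.OrthSpin3 Cfsg.Agent.Lib.OrthStd2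

/-- Ω is transitive on non-degenerate subspaces of each isometry type: for a quadratic form Q on F^n, n ≥ 3, with non-degenerate polar form (F finite; excluding dimension 4 over the field of two elements), if U and W are subspaces on which the polar form is non-degenerate and there is a Q-preserving linear isomorphism U → W, then some element of Ω (the commutator subgroup of the orthogonal group) carries U to W. (In dimension 2 this fails: Ω can be {±1}, which fixes every line.) -/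
theorem result {F : Type*} [Field F] [Fintype F] {n : ℕ} (hn : 3 ≤ n) (h : Fintype.card F ≠ 2 ∨ n ≠ 4) (Q : QuadraticForm F (Fin n → F)) (hQ : (QuadraticMap.polarBilin Q).Nondegenerate) (U W : Submodule F (Fin n → F)) (hU : U ⊓ LinearMap.BilinForm.orthogonal (QuadraticMap.polarBilin Q) U = ⊥) (hW : W ⊓ LinearMap.BilinForm.orthogonal (QuadraticMap.polarBilin Q) W = ⊥) (e : U ≃ₗ[F] W) (he : ∀ u : U, Q (e u : Fin n → F) = Q (u : Fin n → F)) : ∃ g : ↥(Cfsg.isometryGroup F ⇑Q), g ∈ Cfsg.Omega F ⇑Q ∧ U.map (Matrix.mulVecLin ((g : Matrix.GeneralLinearGroup (Fin n) F) : Matrix (Fin n) (Fin n) F)) = W := by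
  have hN := nondeg_of_form Q hQ
  have h' : Fintype.card F ≠ 2 ∨ Fintype.card (Fin n) ≠ 4 := by simpa using h
  have hfin : Fintype.card (Fin n) = n := Fintype.card_fin n
  have hn' : 2 ≤ Fintype.card (Fin n) := by omega
  have hW' : W ⊓ perp hN W = ⊥ := hW
  obtain ⟨g₀, hg₀⟩ := exists_O_of_equiv hN e he
  refine transfer hg₀ ?_
  by_cases hd : 2 ≤ Module.finrank F W
  · exact cover_of_X hN h' hn' hW' hd (fun a ha hQa => refl_mem_stab_mem hN ha hQa)
  · have hfW := finrank_perp hN W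
    refine cover_of_X hN h' hn' (X := perp hN W) ?_ (by omega) (fun a ha hQa => refl_mem_stab_perp hN ha hQa)
    rw [perp_perp, inf_comm]
    exact hW'

end Cfsg.Agent.S2632
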