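import Cfsg.Statements.S2633
import Cfsg.Agent.Lib.OrthTrans

set_option autoImplicit false
open Cfsg

namespace Cfsg.Agent.S2633

open Cfsg.Agent.Lib.OrthE Cfsg.Agent.Lib.OrthNeg Cfsg.Agent.Lib.OrthChar Cfsg.Agent.Lib.OrthSpin Cfsg.Agent.Lib.OrthSpin2 Cfsg.Agent.Lib.OrthRefl Cfsg.Agent.Lib.OrthDick Cfsg.Agent.Lib.OrthOmega Cfsg.Agent.Lib.OrthTrans Cfsg.Agent.Lib.OrthDiag Cfsg.Agent.Lib.OrthFam Cfsg.Agent.Lib.OrthPairs Cfsg.Agent.Lib.OrthClass Cfsg.Agent.Lib.OrthBridge Cfsg.Agent.Lib.OrthSpin3 Cfsg.Agent.Lib.OrthStd2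

/-- Ω is transitive on totally singular subspaces of each dimension less than half the dimension: for a quadratic form Q on F^n with non-degenerate polar form (F finite; excluding dimension 4 over the field of two elements), if U and W are subspaces of the same dimension k with 2k < n on which Q vanishes, then some element of Ω (the commutator subgroup of the orthogonal group) carries U to W. -/
theorem result {F : Type*} [Field F] [Fintype F] {n : ℕ} (h : Fintype.card F ≠ 2 ∨ n ≠ 4) (Q : QuadraticForm F (Fin n → F)) (hQ : (QuadraticMap.polarBilin Q).Nondegenerate) (U W : Submodule F (Fin n → F)) {k : ℕ} (hk : 2 * k < n) (hU : Module.finrank F U = k) (hW : Module.finrank F W = k) (hU0 : ∀ u ∈ U, Q u = 0) (hW0 : ∀ w ∈ W, Q w = 0) : ∃ g : ↥(Cfsg.isometryGroup F ⇑Q), g ∈ Cfsg.Omega F ⇑Q ∧ U.map (Matrix.mulVecLin ((g : Matrix.GeneralLinearGroup (Fin n) F) : Matrix (Fin n) (Fin n) F)) = W := by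
  have hN := nondeg_of_form Q hQ
  have h' : Fintype.card F ≠ 2 ∨ Fintype.card (Fin n) ≠ 4 := by simpa using h
  have hn : 2 ≤ Fintype.card (Fin n) ∨ k = 0 := by
    rw [Fintype.card_fin]
    omega
  rcases eq_or_ne k 0 with rfl | hk0
  · refine ⟨1, Subgroup.one_mem _, ?_⟩
    have e1 : U = ⊥ := Submodule.finrank_eq_zero.1 hU
    have e2 : W = ⊥ := Submodule.finrank_eq_zero.1 hW
    rw [e1, e2]
    exact Submodule.map_bot _
  have hn' : 2 ≤ Fintype.card (Fin n) := by
    rw [Fintype.card_fin]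
    omega
  obtain ⟨g₀, hg₀⟩ := exists_O_of_ts hN hU0 hW0 (hU.trans hW.symm)
  refine transfer hg₀ ?_
  have hfW := finrank_perp hN W
  have hfin : Fintype.card (Fin n) = n := Fintype.card_fin n
  obtain ⟨a, haW, ha⟩ := exists_nonsing hN (perp hN W) (by omega)
  refine cover hN h' hn' [a] ?_ (by simp) ?_ ?_
  · simp [ha]
  · have : prodR hN [a] = rr hN a := by simp [prodR]
    rw [this]
    exact refl_mem_stab_perp hN haW ha
  · intro h2
    obtain ⟨ν, hν⟩ := FiniteField.exists_nonsquare (ringChar_ne_two h2)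
    have hν0 := ne_zero_of_not_sq hν
    have hW0' : W ≠ ⊥ := by
      rintro rfl
      rw [finrank_bot] at hW
      exact hk0 hW.symm
    obtain ⟨e, heW, he⟩ := Submodule.exists_mem_ne_zero_of_ne_bot hW0'
    obtain ⟨f, hf, hef⟩ := exists_partner hN he (hW0 e heW)
    refine ⟨hpL e f ν, hpL_Q hN (hW0 e heW) hf hef hν0, by simp [hpL], ?_, hp_mem_stab hN hW0 heW hf hef hν0⟩
    rw [hpL_prod hN (hW0 e heW) hf hef hν0]
    exact hν

end Cfsg.Agent.S2633
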