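import Cfsg.Statements.S2634
import Cfsg.Agent.Lib.OrthTrans

set_option autoImplicit false
open Cfsg

namespace Cfsg.Agent.S2634

open Cfsg.Agent.Lib.OrthE Cfsg.Agent.Lib.OrthNeg Cfsg.Agent.Lib.OrthChar Cfsg.Agent.Lib.OrthSpin Cfsg.Agent.Lib.OrthSpin2 Cfsg.Agent.Lib.OrthRefl Cfsg.Agent.Lib.OrthDick

/-- Over a finite field of characteristic two, Ω (the commutator subgroup of the orthogonal group of a quadratic form Q on F^n with non-degenerate polar form; excluding dimension 4 over the field of two elements) acts transitively on the non-singular 1-spaces: for u, v with Q(u) ≠ 0 and Q(v) ≠ 0 some element of Ω carries the line through u to the line through v. -/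
theorem result {F : Type*} [Field F] [Fintype F] [CharP F 2] {n : ℕ} (h : Fintype.card F ≠ 2 ∨ n ≠ 4) (Q : QuadraticForm F (Fin n → F)) (hQ : (QuadraticMap.polarBilin Q).Nondegenerate) (u v : Fin n → F) (hu : Q u ≠ 0) (hv : Q v ≠ 0) : ∃ g : ↥(Cfsg.isometryGroup F ⇑Q), g ∈ Cfsg.Omega F ⇑Q ∧ (F ∙ ((g : Matrix.GeneralLinearGroup (Fin n) F) : Matrix (Fin n) (Fin n) F).mulVec u) = F ∙ v := by
  have hN := Cfsg.Agent.Lib.OrthBridge.nondeg_of_form Q hQ
  have h' : Fintype.card F ≠ 2 ∨ Fintype.card (Fin n) ≠ 4 := by simpa using h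
  have hr2 : ringChar F = 2 := ringChar.eq F 2
  obtain ⟨t, ht⟩ := FiniteField.isSquare_of_char_two hr2 (Q v / Q u)
  have ht0 : t ≠ 0 := by
    rintro rfl
    rw [mul_zero] at ht
    exact div_ne_zero hv hu ht
  have hval : Q (t • u) = Q v := by
    rw [Q_smul hN]
    have : t ^ 2 = Q v / Q u := by rw [ht]; ring
    rw [this]
    field_simp
  have hu0 : t • u ≠ 0 := by
    intro h0
    rw [h0, Q_zero hN] at hval
    exact hv hval.symm
  have hv0 : v ≠ 0 := by
    rintro rfl
    exact hv (Q_zero hN)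
  obtain ⟨g, hg, hgu⟩ := exists_isom hN hval hu0 hv0
  have hgu' : (g : Matrix (Fin n) (Fin n) F).mulVec u = t⁻¹ • v := by
    rw [← hgu, Matrix.mulVec_smul, smul_smul, inv_mul_cancel₀ ht0, one_smul]
  have hn : 1 ≤ Fintype.card (Fin n) := by
    rw [Fintype.card_fin]
    by_contra hc
    have : n = 0 := by omega
    subst this
    exact hv (by
      have : v = 0 := Subsingleton.elim _ _
      rw [this]
      exact Q_zero hN)
  have hline : ∀ c : F, c ≠ 0 → (Submodule.span F {c • v}) = Submodule.span F {v} := by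
    intro c hc
    exact Submodule.span_singleton_smul_eq (IsUnit.mk0 c hc) v
  have hrv : ((rr hN v : ↥(Cfsg.isometryGroup F ⇑Q)) : Matrix.GeneralLinearGroup (Fin n) F).1.mulVec v = v := by
    rw [rr_mulVec hN hv, B_self hN]
    have h20 : (2 : F) = 0 := CharTwo.two_eq_zero
    rw [h20]
    simp
  have hom := omega_eq_dick hN hn h'
  rcases Int.units_eq_one_or (dickHom hN h' ⟨g, hg⟩) with hd | hd
  · refine ⟨⟨g, hg⟩, ?_, ?_⟩
    · rw [hom]
      exact hd
    · show Submodule.span F {(g : Matrix (Fin n) (Fin n) F).mulVec u} = _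
      rw [hgu']
      exact hline _ (inv_ne_zero ht0)
  · refine ⟨rr hN v * ⟨g, hg⟩, ?_, ?_⟩
    · rw [hom]
      show dickHom hN h' _ = 1
      rw [map_mul, hd, rr_eq hN hv]
      have := dickHom_R hN h' hv
      have e1 : (rfl' hN hv : ↥(Cfsg.isometryGroup F ⇑Q)) = ⟨Cfsg.Agent.Lib.OrthE.R (⇑Q) v, Cfsg.Agent.Lib.OrthE.R_mem_O hN hv⟩ := rfl
      rw [e1, this]
      rfl
    · show Submodule.span F {(((rr hN v : ↥(Cfsg.isometryGroup F ⇑Q)) : Matrix.GeneralLinearGroup (Fin n) F).1 * (g : Matrix (Fin n) (Fin n) F)).mulVec u} = _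
      rw [← Matrix.mulVec_mulVec, hgu', Matrix.mulVec_smul, hrv]
      exact hline _ (inv_ne_zero ht0)

end Cfsg.Agent.S2634
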