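import Cfsg.Statements.S2635
import Cfsg.Agent.Lib.OrthPairs

set_option autoImplicit false
open Cfsg

namespace Cfsg.Agent.S2635

open Cfsg.Agent.Lib.OrthChar Cfsg.Agent.Lib.OrthBridge Cfsg.Agent.Lib.OrthPairs Cfsg.Agent.Lib.OrthNeg Cfsg.Agent.Lib.OrthE

/-- Over a finite field of characteristic two, for a quadratic form Q on F^n with non-degenerate polar form, n ≥ 2, other than dimension 4 over the field of two elements, Ω (the commutator subgroup of the orthogonal group) is exactly the subgroup generated by the products of two reflections (orthogonal transvections) x ↦ x − Q(v)⁻¹ f(x, v) v, Q(v) ≠ 0: the products of an even number of reflections. -/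
theorem result {F : Type*} [Field F] [Fintype F] [CharP F 2] {n : ℕ} (hn : 2 ≤ n) (h : Fintype.card F ≠ 2 ∨ n ≠ 4) (Q : QuadraticForm F (Fin n → F)) (hQ : (QuadraticMap.polarBilin Q).Nondegenerate) : Cfsg.Omega F ⇑Q = Subgroup.closure {g : ↥(Cfsg.isometryGroup F ⇑Q) | ∃ u v : Fin n → F, Q u ≠ 0 ∧ Q v ≠ 0 ∧ ((g : Matrix.GeneralLinearGroup (Fin n) F) : Matrix (Fin n) (Fin n) F) = Cfsg.reflectionMatrix ⇑Q u * Cfsg.reflectionMatrix ⇑Q v} := by
  have hN := nondeg_of_form Q hQ
  have h' : Fintype.card F ≠ 2 ∨ Fintype.card (Fin n) ≠ 4 := by simpa using h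
  have hn' : 1 ≤ Fintype.card (Fin n) := by simp; omega
  apply le_antisymm
  · intro g hg
    obtain ⟨L, hL, rfl⟩ := exists_list hN h' g
    have he := (list_mem_omega_iff_even hN hn' h' L hL).1 hg
    clear hg
    induction hk : L.length using Nat.strong_induction_on generalizing L with
    | _ k ih =>
      match L, hL, he, hk with
      | [], _, _, _ => exact Subgroup.one_mem _
      | [a], _, he, _ => simp at he
      | a :: b :: t, hL, he, hk =>
        have ha : (⇑Q) a ≠ 0 := hL a (by simp)
        have hb : (⇑Q) b ≠ 0 := hL b (by simp)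
        have ht : ∀ v ∈ t, (⇑Q) v ≠ 0 := fun v hv => hL v (by simp [hv])
        have e : prodR hN (a :: b :: t) = prodR hN [a, b] * prodR hN t := by
          rw [← prodR_append]; rfl
        rw [e]
        refine Subgroup.mul_mem _ (Subgroup.subset_closure ⟨a, b, ha, hb, ?_⟩) ?_
        · rw [prodR_val hN _ (by intro v hv; exact hL v (by simp at hv ⊢; tauto))]
          simp
        · have hlen : t.length + 2 = k := by simpa using hk
          have het : Even t.length := by
            have h1 : Even (t.length + 2) := by simpa using he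
            exact (Nat.even_add.1 h1).2 (by norm_num)
          exact ih t.length (by omega) t ht het rfl
  · rw [Subgroup.closure_le]
    rintro g ⟨u, v, hu, hv, hg⟩
    have : g = prodR hN [u, v] := by
      apply Subtype.ext
      apply Units.ext
      rw [hg, prodR_val hN _ (by intro w hw; simp at hw; rcases hw with rfl | rfl <;> assumption)]
      simp
    show g ∈ Cfsg.Omega F ⇑Q
    rw [this, list_mem_omega_iff_even hN hn' h' _ (by intro w hw; simp at hw; rcases hw with rfl | rfl <;> assumption)]
    simp

end Cfsg.Agent.S2635
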