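import Cfsg.Statements.S2636


set_option autoImplicit false
open Cfsg

namespace Cfsg.Agent.S2636


open Matrix

/-- The fixed field has the expected size. -/
theorem exists_fixed_subfield {F : Type*} [Field F] [Fintype F] {q₀ r : ℕ} (hr : r.Prime)
    (hF : Fintype.card F = q₀ ^ r) (σ : F ≃+* F) (hσ : orderOf σ = r) :
    ∃ K : Subfield F, (∀ x, x ∈ K ↔ σ x = x) ∧ Nat.card K = q₀ := by
  classical
  let s : RingAut F := σ
  let G : Subgroup (RingAut F) := Subgroup.zpowers s
  have hfin : Finite G := by
    apply Nat.finite_of_card_ne_zero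
    rw [show Nat.card G = orderOf s from Nat.card_zpowers s]
    show orderOf σ ≠ 0
    rw [hσ]
    exact hr.ne_zero
  letI : Fintype G := Fintype.ofFinite G
  let K : Subfield F := FixedPoints.subfield G F
  have hmem : ∀ x, x ∈ K ↔ σ x = x := by
    intro x
    constructor
    · intro hx
      have := hx ⟨s, Subgroup.mem_zpowers s⟩
      exact this
    · intro hx
      rintro ⟨g, n, rfl⟩
      show (s ^ n) • x = x
      have h1 : s • x = x := hx
      have : s ∈ MulAction.stabilizer (RingAut F) x := MulAction.mem_stabilizer_iff.2 h1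
      have h2 : s ^ n ∈ MulAction.stabilizer (RingAut F) x := Subgroup.zpow_mem _ this n
      exact h2
  refine ⟨K, hmem, ?_⟩
  have hrk : Module.finrank K F = r := by
    have := FixedPoints.finrank_eq_card G F
    rw [this, ← Nat.card_eq_fintype_card]
    rw [show Nat.card G = orderOf s from Nat.card_zpowers s]
    exact hσ
  have hfinK : Fintype K := Fintype.ofFinite K
  have hc : Fintype.card F = Fintype.card K ^ r := by
    rw [← hrk]
    exact Module.card_eq_pow_finrank (K := K) (V := F)
  rw [hF] at hc
  rw [Nat.card_eq_fintype_card]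
  exact (Nat.pow_left_injective (n := r) (by have := hr.one_lt; omega) hc).symm


/-- Centraliser of a field automorphism in PGL_n: let F be the field with q = q₀^r elements, σ a field automorphism of F of prime order r (so its fixed field has q₀ elements) and n ≥ 1. The invertible matrices g whose entrywise image under σ is a scalar multiple of g — those whose coset modulo scalars is fixed by σ — number (q − 1)/(q₀ − 1) · |GL_n(q₀)|; equivalently the centraliser in PGL_n(q) of the induced automorphism has the order of PGL_n(q₀). -/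
theorem result {F : Type*} [Field F] [Fintype F] {q₀ r n : ℕ} (hr : r.Prime) (hn : 1 ≤ n) (hF : Fintype.card F = q₀ ^ r) (σ : F ≃+* F) (hσ : orderOf σ = r) : Nat.card {g : GL (Fin n) F // ∃ c : F, c ≠ 0 ∧ (g : Matrix (Fin n) (Fin n) F).map σ = c • (g : Matrix (Fin n) (Fin n) F)} = (q₀ ^ r - 1) / (q₀ - 1) * ∏ i : Fin n, (q₀ ^ n - q₀ ^ (i : ℕ)) := by
  classical
  obtain ⟨K, hK, hKc⟩ := exists_fixed_subfield hr hF σ hσ
  letI : Fintype K := Fintype.ofFinite K
  have hq : Fintype.card K = q₀ := by rw [← Nat.card_eq_fintype_card, hKc]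
  have hq2 : 2 ≤ q₀ := by rw [← hq]; exact Fintype.one_lt_card
  haveI : Nonempty (Fin n) := ⟨⟨0, hn⟩⟩
  let ι : GL (Fin n) K →* GL (Fin n) F := Matrix.GeneralLinearGroup.map K.subtype
  have hιa : ∀ (h : GL (Fin n) K) (i j : Fin n), ((ι h : GL (Fin n) F) : Matrix (Fin n) (Fin n) F) i j = (((h : Matrix (Fin n) (Fin n) K) i j : K) : F) := fun h i j => rfl
  have hιinj : Function.Injective ι := by
    intro h₁ h₂ he
    apply Units.ext
    ext i j
    have := congrArg (fun g : GL (Fin n) F => (g : Matrix (Fin n) (Fin n) F) i j) he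
    simp only [hιa] at this
    exact_mod_cast Subtype.ext this
  let Θ : Fˣ × GL (Fin n) K →* GL (Fin n) F :=
    MonoidHom.noncommCoprod (Matrix.GeneralLinearGroup.scalar (Fin n)) ι
      (fun a h => Matrix.GeneralLinearGroup.scalar_commute a (ι h))
  have hΘa : ∀ (a : Fˣ) (h : GL (Fin n) K) (i j : Fin n),
      ((Θ (a, h) : GL (Fin n) F) : Matrix (Fin n) (Fin n) F) i j = (a : F) * (((h : Matrix (Fin n) (Fin n) K) i j : K) : F) := by
    intro a h i j
    show ((Matrix.GeneralLinearGroup.scalar (Fin n) a * ι h : GL (Fin n) F) : Matrix (Fin n) (Fin n) F) i j = _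
    rw [Units.val_mul, Matrix.GeneralLinearGroup.coe_scalar]
    simp [Matrix.scalar_apply, Matrix.diagonal_mul, hιa]
  -- description of the set
  have hiff : ∀ g : GL (Fin n) F, (∃ c : F, c ≠ 0 ∧ (g : Matrix (Fin n) (Fin n) F).map σ = c • (g : Matrix (Fin n) (Fin n) F)) ↔ g ∈ Θ.range := by
    intro g
    constructor
    · rintro ⟨c, hc, he⟩
      -- a non-zero entry
      obtain ⟨i₀, j₀, ha⟩ : ∃ i j, (g : Matrix (Fin n) (Fin n) F) i j ≠ 0 := by
        by_contra hcon
        push Not at hcon
        have h0 : (g : Matrix (Fin n) (Fin n) F) = 0 := by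
          ext i j
          exact hcon i j
        have := g.isUnit
        rw [h0] at this
        exact not_isUnit_zero this
      set a : F := (g : Matrix (Fin n) (Fin n) F) i₀ j₀ with hadef
      have hent : ∀ i j, σ ((g : Matrix (Fin n) (Fin n) F) i j) = c * (g : Matrix (Fin n) (Fin n) F) i j := by
        intro i j
        have := congrFun (congrFun he i) j
        simpa using this
      have hfix : ∀ i j, a⁻¹ * (g : Matrix (Fin n) (Fin n) F) i j ∈ K := by
        intro i j
        rw [hK, map_mul, map_inv₀, hent, hent, ← hadef]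
        field_simp
      let hm : Matrix (Fin n) (Fin n) K := fun i j => ⟨_, hfix i j⟩
      have hmm : hm.map K.subtype = a⁻¹ • (g : Matrix (Fin n) (Fin n) F) := by
        ext i j
        rw [Matrix.map_apply, Matrix.smul_apply, smul_eq_mul]
        rfl
      have hdet : hm.det ≠ 0 := by
        intro h0
        have h1 : (hm.map K.subtype).det = K.subtype hm.det := (RingHom.map_det K.subtype hm).symm
        rw [hmm, h0, map_zero, Matrix.det_smul] at h1
        have h2 : (g : Matrix (Fin n) (Fin n) F).det ≠ 0 := by
          have := g.isUnit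
          rw [Matrix.isUnit_iff_isUnit_det] at this
          exact this.ne_zero
        exact (mul_ne_zero (pow_ne_zero _ (inv_ne_zero ha)) h2) h1
      let h' : GL (Fin n) K := Matrix.GeneralLinearGroup.mkOfDetNeZero hm hdet
      refine ⟨(Units.mk0 a ha, h'), ?_⟩
      apply Units.ext
      ext i j
      rw [hΘa]
      show a * (a⁻¹ * _) = _
      rw [mul_inv_cancel_left₀ ha]
    · rintro ⟨⟨a, h⟩, rfl⟩
      refine ⟨σ a / a, div_ne_zero (by simp) (by simp), ?_⟩
      ext i j
      rw [Matrix.map_apply, hΘa, Matrix.smul_apply, hΘa, map_mul]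
      have : σ (((h : Matrix (Fin n) (Fin n) K) i j : K) : F) = (((h : Matrix (Fin n) (Fin n) K) i j : K) : F) :=
        (hK _).1 (SetLike.coe_mem _)
      rw [this, smul_eq_mul]
      field_simp
  rw [Nat.card_congr (Equiv.subtypeEquivRight hiff)]
  show Nat.card Θ.range = _
  -- the kernel
  have hker : Nat.card Θ.ker = Nat.card Kˣ := by
    symm
    let f : Kˣ → Θ.ker := fun u =>
      ⟨(Units.map (K.subtype : K →* F) u⁻¹, Matrix.GeneralLinearGroup.scalar (Fin n) u), by
        rw [MonoidHom.mem_ker]
        apply Units.ext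
        ext i j
        rw [hΘa]
        rw [Matrix.GeneralLinearGroup.coe_scalar]
        by_cases hij : i = j
        · subst hij
          simp [Matrix.scalar_apply]
        · simp [Matrix.scalar_apply, hij, Matrix.one_apply]⟩
    apply Nat.card_eq_of_bijective f
    constructor
    · intro u v huv
      have h1 := congrArg (fun x : Θ.ker => (x.1.1 : Fˣ)) huv
      simp only [f] at h1
      have h2 : (u⁻¹ : Kˣ) = v⁻¹ := by
        apply Units.ext
        apply Subtype.ext
        exact congrArg Units.val h1
      exact inv_injective h2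
    · rintro ⟨⟨a, h⟩, hx⟩
      rw [MonoidHom.mem_ker] at hx
      have hent : ∀ i j, (a : F) * (((h : Matrix (Fin n) (Fin n) K) i j : K) : F) = (1 : Matrix (Fin n) (Fin n) F) i j := by
        intro i j
        rw [← hΘa, hx]
        rfl
      let i₀ : Fin n := ⟨0, hn⟩
      have h00 : (a : F) * (((h : Matrix (Fin n) (Fin n) K) i₀ i₀ : K) : F) = 1 := by
        rw [hent, Matrix.one_apply_eq]
      have hne : (h : Matrix (Fin n) (Fin n) K) i₀ i₀ ≠ 0 := by
        intro h0
        rw [h0] at h00
        simp at h00
      refine ⟨Units.mk0 _ hne, ?_⟩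
      apply Subtype.ext
      apply Prod.ext
      · apply Units.ext
        show (((Units.mk0 _ hne)⁻¹ : Kˣ) : K).val = (a : F)
        simp only [Units.val_inv_eq_inv_val, Units.val_mk0]
        push_cast
        rw [eq_comm]
        exact eq_inv_of_mul_eq_one_left h00
      · apply Units.ext
        ext i j
        rw [Matrix.GeneralLinearGroup.coe_scalar]
        by_cases hij : i = j
        · subst hij
          have h1 := hent i i
          rw [Matrix.one_apply_eq] at h1
          have h2 : (a : F) ≠ 0 := a.ne_zero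
          simp only [Matrix.scalar_apply, Matrix.diagonal_apply_eq, Units.val_mk0]
          exact mul_left_cancel₀ h2 (h00.trans h1.symm)
        · have h1 := hent i j
          rw [Matrix.one_apply_ne hij] at h1
          have h2 : (a : F) ≠ 0 := a.ne_zero
          have h3 := (mul_eq_zero.1 h1).resolve_left h2
          simp only [Matrix.scalar_apply, Matrix.diagonal_apply_ne _ hij]
          exact h3.symm
  -- counting
  have hcount : Nat.card Θ.ker * Nat.card Θ.range = Nat.card (Fˣ × GL (Fin n) K) := by
    rw [← Subgroup.index_ker, Subgroup.card_mul_index]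
  rw [hker, Nat.card_prod, Nat.card_eq_fintype_card (α := Kˣ), Nat.card_eq_fintype_card (α := Fˣ), Fintype.card_units, Fintype.card_units, hq, hF,
    Matrix.card_GL_field, hq] at hcount
  set Γ : ℕ := ∏ i : Fin n, (q₀ ^ n - q₀ ^ (i : ℕ)) with hΓ
  have hd : q₀ - 1 ∣ q₀ ^ r - 1 := by
    have := Nat.sub_dvd_pow_sub_pow q₀ 1 r
    simpa using this
  obtain ⟨k, hk⟩ := hd
  rw [hk, Nat.mul_div_cancel_left _ (by omega : 0 < q₀ - 1)]
  rw [hk, mul_assoc] at hcount
  exact Nat.eq_of_mul_eq_mul_left (by omega : 0 < q₀ - 1) hcount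

end Cfsg.Agent.S2636
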