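import Cfsg.Statements.S2638
import Cfsg.Agent.Lib.IrrEnd

set_option autoImplicit false
open Cfsg

namespace Cfsg.Agent.S2638


open Matrix Cfsg.Agent.Lib.IrrEnd

section
variable {F : Type*} [Field F] [Fintype F] {n r : ℕ}

/-- Counting fixed points on an invariant subspace. -/
theorem modEq_fix [hr : Fact r.Prime] (f : Module.End F (Fin n → F)) (hf : f ^ r = 1)
    (W : Submodule F (Fin n → F)) (hinv : ∀ w ∈ W, f w ∈ W) :
    Nat.card W ≡ Nat.card ↥(W ⊓ LinearMap.ker (f - 1)) [MOD r] := by
  classical
  let f₀ : Function.End W := fun w => ⟨f w, hinv w w.2⟩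
  have hpow : ∀ k (w : W), ((f₀ ^ k) w : Fin n → F) = (f ^ k) w := by
    intro k
    induction k with
    | zero => intro w; rfl
    | succ k ih =>
      intro w
      rw [pow_succ, pow_succ]
      show ((f₀ ^ k) (f₀ w) : Fin n → F) = (f ^ k) (f w)
      rw [ih]
  have h1 : f₀ ^ r ^ 1 = 1 := by
    rw [pow_one]
    funext w
    apply Subtype.ext
    rw [hpow, hf]
    rfl
  have h2 := Equiv.Perm.card_fixedPoints_modEq h1
  rw [Nat.card_eq_fintype_card, Nat.card_eq_fintype_card]
  convert h2 using 1
  apply Fintype.card_congr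
  refine ⟨fun w => ⟨⟨w.1, w.2.1⟩, ?_⟩, fun w => ⟨w.1.1, w.1.2, ?_⟩, ?_, ?_⟩
  · apply Subtype.ext
    have h3 : (f - 1) (w.1) = 0 := w.2.2
    rw [LinearMap.sub_apply, sub_eq_zero] at h3
    exact h3
  · show (f - 1) (w.1.1) = 0
    rw [LinearMap.sub_apply, sub_eq_zero]
    exact congrArg Subtype.val (show f₀ w.1 = w.1 from w.2)
  · intro w
    rfl
  · intro w
    rfl

end


/-- If an element x of GL_n(q), n ≥ 1, has prime order r and the multiplicative order of q modulo r is n (r is a primitive prime divisor of q^n − 1, so x acts irreducibly), then the centraliser of x in GL_n(q) is cyclic of order q^n − 1 (the multiplicative group of the field with q^n elements, a Singer cycle). -/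
theorem result {F : Type*} [Field F] [Fintype F] {p q : ℕ} [Fact p.Prime] [CharP F p] (hF : Fintype.card F = q) {n r : ℕ} (hn : 1 ≤ n) (hr : r.Prime) (hrp : r ≠ p) (hi : orderOf (q : ZMod r) = n) (x : GL (Fin n) F) (hx : orderOf x = r) : IsCyclic ↥(Subgroup.centralizer ({x} : Set (GL (Fin n) F))) ∧ Nat.card ↥(Subgroup.centralizer ({x} : Set (GL (Fin n) F))) = q ^ n - 1 := by
  classical
  subst hF
  haveI : Fact r.Prime := ⟨hr⟩
  haveI : Nonempty (Fin n) := ⟨⟨0, hn⟩⟩
  let X : Matrix (Fin n) (Fin n) F := x
  let f : Module.End F (Fin n → F) := Matrix.toLin' X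
  have hf : f ^ r = 1 := by
    have h1 : x ^ r = 1 := by rw [← hx]; exact pow_orderOf_eq_one x
    have h2 : X ^ r = 1 := by
      have := congrArg Units.val h1
      simpa using this
    have h3 : ∀ k, f ^ k = Matrix.toLin' (X ^ k) := by
      intro k
      induction k with
      | zero => simp; rfl
      | succ k ih =>
        rw [pow_succ, ih, pow_succ, Matrix.toLin'_mul]
        rfl
    rw [h3, h2, Matrix.toLin'_one]
    rfl
  have hcard : ∀ W : Submodule F (Fin n → F), Nat.card W = Fintype.card F ^ Module.finrank F W := by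
    intro W
    rw [Module.natCard_eq_pow_finrank (K := F) (V := W), Nat.card_eq_fintype_card]
  set Q : ZMod r := ((Fintype.card F : ℕ) : ZMod r) with hQ
  have hQ0 : Q ≠ 0 := by
    intro h
    rw [h, orderOf_zero] at hi
    omega
  have hmod : ∀ W : Submodule F (Fin n → F), (∀ w ∈ W, f w ∈ W) →
      Q ^ Module.finrank F W = Q ^ Module.finrank F ↥(W ⊓ LinearMap.ker (f - 1)) := by
    intro W hW
    have h1 := modEq_fix f hf W hW
    rw [hcard, hcard] at h1
    have h2 := (ZMod.natCast_eq_natCast_iff _ _ _).2 h1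
    push_cast at h2
    exact h2
  have hpowdvd : ∀ d : ℕ, Q ^ d = 1 → n ∣ d := by
    intro d hd
    rw [← hi]
    exact orderOf_dvd_of_pow_eq_one hd
  -- no fixed vectors
  have hK : LinearMap.ker (f - 1) = ⊥ := by
    have h1 := hmod ⊤ (fun w _ => trivial)
    rw [top_inf_eq] at h1
    have hV : Module.finrank F ↥(⊤ : Submodule F (Fin n → F)) = n := by
      rw [finrank_top]
      simp
    rw [hV] at h1
    have hle : Module.finrank F ↥(LinearMap.ker (f - 1)) ≤ n := by
      have := Submodule.finrank_le (LinearMap.ker (f - 1))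
      simpa using this
    set u := Module.finrank F ↥(LinearMap.ker (f - 1)) with hu
    by_cases hun : u = n
    · exfalso
      have h2 : LinearMap.ker (f - 1) = ⊤ := by
        apply Submodule.eq_top_of_finrank_eq
        rw [← hu, hun]
        simp
      have h3 : f = 1 := by
        have := LinearMap.ker_eq_top.1 h2
        exact sub_eq_zero.1 this
      have h4 : X = 1 := by
        have h5 : Matrix.toLin' X = Matrix.toLin' (1 : Matrix (Fin n) (Fin n) F) := by
          rw [Matrix.toLin'_one]
          exact h3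
        exact Matrix.toLin'.injective h5
      have h5 : x = 1 := Units.ext h4
      rw [h5, orderOf_one] at hx
      exact hr.one_lt.ne hx
    · have h2 : Q ^ (n - u) = 1 := by
        have h3 : Q ^ u * Q ^ (n - u) = Q ^ u * 1 := by
          rw [← pow_add, mul_one, ← h1]
          congr 1
          omega
        exact mul_left_cancel₀ (pow_ne_zero _ hQ0) h3
      have h3 := Nat.le_of_dvd (by omega) (hpowdvd _ h2)
      have hu0 : u = 0 := by omega
      exact Submodule.finrank_eq_zero.1 hu0
  -- irreducibility
  have hirr : Irr f := by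
    intro W hW hinv
    have h1 := hmod W hinv
    rw [hK, inf_bot_eq, finrank_bot, pow_zero] at h1
    have h2 := hpowdvd _ h1
    have h3 : 0 < Module.finrank F W := Module.finrank_pos_iff.2 (Submodule.nontrivial_iff_ne_bot.2 hW)
    have h4 := Nat.le_of_dvd h3 h2
    have h5 : Module.finrank F W ≤ n := by
      have := Submodule.finrank_le W
      simpa using this
    apply Submodule.eq_top_of_finrank_eq
    rw [le_antisymm h5 h4]
    simp
  obtain ⟨E, _, _, ψ, hψ, hcomm, hmem, -, hfin, hbij⟩ := exists_field hirr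
  let M : E →* Matrix (Fin n) (Fin n) F :=
    ((LinearMap.toMatrixAlgEquiv' : Module.End F (Fin n → F) ≃ₐ[F] Matrix (Fin n) (Fin n) F).toAlgHom.comp ψ : E →ₐ[F] Matrix (Fin n) (Fin n) F)
  have hM : ∀ e, M e = LinearMap.toMatrix' (ψ e) := fun e => rfl
  let Θ : Eˣ →* GL (Fin n) F := Units.map M
  have hΘ : ∀ u, ((Θ u : GL (Fin n) F) : Matrix (Fin n) (Fin n) F) = LinearMap.toMatrix' (ψ u) := fun u => rfl
  have hinj : Function.Injective Θ := by
    intro u v huv
    have h1 := congrArg (fun z : GL (Fin n) F => (z : Matrix (Fin n) (Fin n) F)) huv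
    simp only [hΘ] at h1
    have h2 := hψ (LinearMap.toMatrix'.injective h1)
    exact Units.ext h2
  have hrange : Θ.range = Subgroup.centralizer ({x} : Set (GL (Fin n) F)) := by
    ext g
    rw [Subgroup.mem_centralizer_singleton_iff]
    constructor
    · rintro ⟨u, rfl⟩
      apply Units.ext
      show ((Θ u : GL (Fin n) F) : Matrix (Fin n) (Fin n) F) * X = X * ((Θ u : GL (Fin n) F) : Matrix (Fin n) (Fin n) F)
      rw [hΘ]
      apply Matrix.toLin'.injective
      rw [Matrix.toLin'_mul, Matrix.toLin'_mul, Matrix.toLin'_toMatrix']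
      exact hcomm u
    · intro hg
      have h1 : Matrix.toLin' (g : Matrix (Fin n) (Fin n) F) * f = f * Matrix.toLin' (g : Matrix (Fin n) (Fin n) F) := by
        have h2 : (g : Matrix (Fin n) (Fin n) F) * X = X * (g : Matrix (Fin n) (Fin n) F) := by
          have := congrArg Units.val hg
          simpa using this
        show (Matrix.toLin' (g : Matrix (Fin n) (Fin n) F)).comp (Matrix.toLin' X) = (Matrix.toLin' X).comp (Matrix.toLin' (g : Matrix (Fin n) (Fin n) F))
        rw [← Matrix.toLin'_mul, ← Matrix.toLin'_mul, h2]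
      obtain ⟨e, he⟩ := hmem _ h1
      have he0 : e ≠ 0 := by
        rintro rfl
        rw [map_zero] at he
        have h2 : (g : Matrix (Fin n) (Fin n) F) = 0 := Matrix.toLin'.injective (by rw [← he, map_zero])
        exact g.ne_zero h2
      refine ⟨Units.mk0 e he0, ?_⟩
      apply Units.ext
      rw [hΘ]
      show LinearMap.toMatrix' (ψ e) = _
      rw [he, LinearMap.toMatrix'_toLin']
  let e₁ : Eˣ ≃* Subgroup.centralizer ({x} : Set (GL (Fin n) F)) :=
    (MonoidHom.ofInjective hinj).trans (MulEquiv.subgroupCongr hrange)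
  haveI : Finite E := Module.finite_of_finite F
  obtain ⟨v, hv⟩ := exists_ne (0 : Fin n → F)
  have hEcard : Nat.card E = Fintype.card F ^ n := by
    rw [Nat.card_eq_of_bijective _ (hbij v hv)]
    rw [Nat.card_eq_fintype_card, Fintype.card_fun, Fintype.card_fin]
  constructor
  · exact isCyclic_of_surjective e₁ e₁.surjective
  · rw [← Nat.card_congr e₁.toEquiv, Nat.card_units, hEcard]

end Cfsg.Agent.S2638
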