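import Cfsg.Statements.S2641
import Cfsg.Agent.Lib.FieldEmbed2

set_option autoImplicit false
open Cfsg

namespace Cfsg.Agent.S2641

/-- For m odd, the unitary group GU_m(q) (over the field with q² elements) embeds in the orthogonal group O⁻_2m(q) of an elliptic form (Σ_(i<m−1) x_i y_i plus an anisotropic binary form) over the field with q elements (there is an injective homomorphism). -/
theorem result {K F : Type*} [Field K] [Fintype K] [Field F] [Fintype F] {q : ℕ} (hK : Fintype.card K = q ^ 2) (hF : Fintype.card F = q) (m : ℕ) (hm : Odd m) (a b : F) (hab : ∀ z₁ z₂ : F, z₁ ^ 2 + a * z₁ * z₂ + b * z₂ ^ 2 = 0 → z₁ = 0 ∧ z₂ = 0) : ∃ φ : ↥(Cfsg.GU m K q) →* ↥(Cfsg.isometryGroup F (Cfsg.quadFormMinus (m - 1) F a b)), Function.Injective φ := by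
  obtain ⟨ι, -, -⟩ := Cfsg.Agent.Lib.SubfieldQ.exists_iota hK hF
  letI : Algebra F K := ι.toAlgebra
  obtain ⟨l, rfl⟩ : ∃ l, m = l * 2 + 1 := by
    obtain ⟨l, hl⟩ := hm
    exact ⟨l, by omega⟩
  exact Cfsg.Agent.Lib.FieldEmbed2.embed_minus hF hK l a b hab

end Cfsg.Agent.S2641
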