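import Cfsg.Statements.S2669
import Cfsg.Agent.Lib.Shintani

set_option autoImplicit false
open Cfsg

namespace Cfsg.Agent.S2669


/-- Counting pairs by the first coordinate. -/
theorem count {X : Type*} [Group X] (G' H' Y : Subgroup X) (t : X) :
    Nat.card {p : G' × H' // ((p.1 : X))⁻¹ * t * (p.2 : X) ∈ Y} =
      Nat.card {k : G' // ∃ h : H', (k : X)⁻¹ * t * (h : X) ∈ Y} * Nat.card ↥(Y ⊓ H') := by
  classical
  rw [← Nat.card_prod]
  have h0 : ∀ k : {k : G' // ∃ h : H', (k : X)⁻¹ * t * (h : X) ∈ Y}, ∃ h : H', ((k.1 : G') : X)⁻¹ * t * (h : X) ∈ Y := fun k => k.2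
  choose h₀ hh₀ using h0
  refine Nat.card_congr (Equiv.symm ?_)
  refine
    { toFun := fun q => ⟨(q.1.1, h₀ q.1 * ⟨q.2.1, q.2.2.2⟩), ?_⟩
      invFun := fun p => ⟨⟨p.1.1, ⟨p.1.2, p.2⟩⟩, ⟨((h₀ ⟨p.1.1, ⟨p.1.2, p.2⟩⟩ : H') : X)⁻¹ * (p.1.2 : X), ?_, ?_⟩⟩
      left_inv := ?_
      right_inv := ?_ }
  · have := Y.mul_mem (hh₀ q.1) q.2.2.1
    simpa [mul_assoc] using this
  · have h1 := hh₀ ⟨p.1.1, ⟨p.1.2, p.2⟩⟩
    have h2 := Y.mul_mem (Y.inv_mem h1) p.2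
    have e : (((p.1.1 : G') : X)⁻¹ * t * ((h₀ ⟨p.1.1, ⟨p.1.2, p.2⟩⟩ : H') : X))⁻¹ * (((p.1.1 : G') : X)⁻¹ * t * (p.1.2 : X)) = ((h₀ ⟨p.1.1, ⟨p.1.2, p.2⟩⟩ : H') : X)⁻¹ * (p.1.2 : X) := by
      group
    rw [e] at h2
    exact h2
  · exact H'.mul_mem (H'.inv_mem (h₀ _).2) p.1.2.2
  · rintro ⟨⟨k, hk⟩, u⟩
    apply Prod.ext
    · rfl
    · apply Subtype.ext
      show ((h₀ ⟨k, hk⟩ : H') : X)⁻¹ * (((h₀ ⟨k, hk⟩ : H') * ⟨u.1, u.2.2⟩ : H') : X) = u.1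
      simp
  · rintro ⟨⟨k, h⟩, hp⟩
    apply Subtype.ext
    apply Prod.ext
    · rfl
    · apply Subtype.ext
      show ((h₀ ⟨k, ⟨h, hp⟩⟩ : H') : X) * (((h₀ ⟨k, ⟨h, hp⟩⟩ : H') : X)⁻¹ * (h : X)) = h
      simp


/-- Shintani descent preserves numbers of fixed points on coset spaces (abstract form). Let `σ` be an automorphism of a group `X` and `e ≥ 1`; write `G` for the fixed points of `σᵉ` and `H` for the fixed points of `σ`, and assume `G` is finite. Let `Y` be a `σ`-stable subgroup of `X` on which the maps `a ↦ a σ(a)⁻¹` and `a ↦ a σᵉ(a)⁻¹` are surjective (as for a closed connected `σ`-stable subgroup of an algebraic group). Let `g ∈ G`, let `a ∈ X` satisfy `g = a σ(a)⁻¹` and put `x = σᵉ(a)⁻¹ a` (the Shintani image, an element of `H`). The element `g σ` of the semidirect product acts on the cosets of `Y ∩ G` in `G` by `k (Y ∩ G) ↦ g σ(k) (Y ∩ G)`, fixing that coset exactly when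 `k⁻¹ g σ(k) ∈ Y`; and `x` fixes the coset `h (Y ∩ H)` of `H` exactly when `h⁻¹ x h ∈ Y`. Then the two numbers of fixed cosets agree; in cross-multiplied form, `#{k ∈ G : k⁻¹ g σ(k) ∈ Y} · |Y ∩ H| = #{h ∈ H : h⁻¹ x h ∈ Y} · |Y ∩ G|`. -/
theorem result {X : Type*} [Group X] (σ : MulAut X) (e : ℕ) (he : 1 ≤ e)
    [Finite ↥((MulEquiv.toMonoidHom (σ ^ e)).eqLocus (MonoidHom.id X))]
    (Y : Subgroup X) (hY : ∀ y : X, y ∈ Y ↔ σ y ∈ Y)
    (hYL : ∀ y ∈ Y, ∃ a ∈ Y, y = a * (σ a)⁻¹) (hYLe : ∀ y ∈ Y, ∃ a ∈ Y, y = a * ((σ ^ e) a)⁻¹)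
    (g : X) (hg : g ∈ (MulEquiv.toMonoidHom (σ ^ e)).eqLocus (MonoidHom.id X)) (a : X) (ha : g = a * (σ a)⁻¹) :
    Nat.card {k : ↥((MulEquiv.toMonoidHom (σ ^ e)).eqLocus (MonoidHom.id X)) // (k : X)⁻¹ * g * σ k ∈ Y} *
        Nat.card ↥(Y ⊓ (MulEquiv.toMonoidHom σ).eqLocus (MonoidHom.id X)) =
      Nat.card {h : ↥((MulEquiv.toMonoidHom σ).eqLocus (MonoidHom.id X)) // (h : X)⁻¹ * (((σ ^ e) a)⁻¹ * a) * h ∈ Y} *
        Nat.card ↥(Y ⊓ (MulEquiv.toMonoidHom (σ ^ e)).eqLocus (MonoidHom.id X)) := by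
  classical
  set τ := σ ^ e with hτ
  let G := (MulEquiv.toMonoidHom τ).eqLocus (MonoidHom.id X)
  let H := (MulEquiv.toMonoidHom σ).eqLocus (MonoidHom.id X)
  have hGm : ∀ z : X, z ∈ G ↔ τ z = z := fun z => Iff.rfl
  have hHm : ∀ z : X, z ∈ H ↔ σ z = z := fun z => Iff.rfl
  have hτfix : ∀ z : X, σ z = z → τ z = z := fun z hz => Cfsg.Agent.Lib.Shintani.fix_pow σ hz e
  have hYτ : ∀ (n : ℕ) (y : X), y ∈ Y → (σ ^ n) y ∈ Y := by
    intro n
    induction n with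
    | zero => exact fun y hy => hy
    | succ n ih =>
      intro y hy
      rw [pow_succ]
      exact ih _ ((hY y).1 hy)
  have hg' : τ g = g := hg
  -- the first predicate
  have P1 : ∀ k : G, ((k : X)⁻¹ * g * σ k ∈ Y) ↔ ∃ h : H, (k : X)⁻¹ * a * (h : X) ∈ Y := by
    intro k
    constructor
    · intro hz
      obtain ⟨b, hbY, hb⟩ := hYL _ hz
      have hfix : σ (a⁻¹ * k * b) = a⁻¹ * k * b := by
        rw [ha] at hb
        simp only [map_mul, map_inv]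
        have h1 : (σ a)⁻¹ * σ (k : X) * σ b = a⁻¹ * k * (b * (σ b)⁻¹) * σ b := by
          rw [← hb]
          group
        rw [h1]
        group
      refine ⟨⟨a⁻¹ * k * b, hfix⟩, ?_⟩
      have e1 : (k : X)⁻¹ * a * (a⁻¹ * k * b) = b := by group
      show (k : X)⁻¹ * a * (a⁻¹ * k * b) ∈ Y
      rw [e1]
      exact hbY
    · rintro ⟨h, hh⟩
      have hσh : σ (h : X) = h := h.2
      have e1 : (k : X)⁻¹ * g * σ k = ((k : X)⁻¹ * a * h) * (σ ((k : X)⁻¹ * a * h))⁻¹ := by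
        rw [ha]
        simp only [map_mul, map_inv, hσh]
        group
      rw [e1]
      exact Y.mul_mem hh (Y.inv_mem ((hY _).1 hh))
  -- the second predicate
  have P2 : ∀ h : H, ((h : X)⁻¹ * (τ a⁻¹ * a) * h ∈ Y) ↔ ∃ k : G, (h : X)⁻¹ * a⁻¹ * (k : X) ∈ Y := by
    intro h
    have hτh : τ (h : X) = h := hτfix _ h.2
    constructor
    · intro hw
      obtain ⟨c, hcY, hc⟩ := hYLe _ (Y.inv_mem hw)
      have hw2 : (h : X)⁻¹ * (τ a⁻¹ * a) * h = τ c * c⁻¹ := by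
        have := congrArg (fun z => z⁻¹) hc
        simpa using this
      have hfix : τ (a * h * c) = a * h * c := by
        simp only [map_mul, hτh]
        have h1 : τ c = (h : X)⁻¹ * (τ a⁻¹ * a) * h * c := by
          rw [hw2]
          group
        rw [h1]
        simp only [map_inv]
        group
      refine ⟨⟨a * h * c, hfix⟩, ?_⟩
      have e1 : (h : X)⁻¹ * a⁻¹ * (a * h * c) = c := by group
      show (h : X)⁻¹ * a⁻¹ * (a * h * c) ∈ Y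
      rw [e1]
      exact hcY
    · rintro ⟨k, hk⟩
      have hτk : τ (k : X) = k := k.2
      have e1 : (h : X)⁻¹ * (τ a⁻¹ * a) * h = τ ((h : X)⁻¹ * a⁻¹ * k) * ((h : X)⁻¹ * a⁻¹ * k)⁻¹ := by
        simp only [map_mul, map_inv, hτh, hτk]
        group
      rw [e1]
      exact Y.mul_mem (hYτ e _ hk) (Y.inv_mem hk)
  have hc1 := count G H Y a
  have hc2 := count H G Y a⁻¹
  have hswap : Nat.card {p : G × H // ((p.1 : X))⁻¹ * a * (p.2 : X) ∈ Y} = Nat.card {p : H × G // ((p.1 : X))⁻¹ * a⁻¹ * (p.2 : X) ∈ Y} := by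
    refine Nat.card_congr
      { toFun := fun p => ⟨(p.1.2, p.1.1), ?_⟩
        invFun := fun p => ⟨(p.1.2, p.1.1), ?_⟩
        left_inv := fun _ => rfl
        right_inv := fun _ => rfl }
    · have := Y.inv_mem p.2
      simpa [mul_assoc] using this
    · have := Y.inv_mem p.2
      simpa [mul_assoc] using this
  have hA : Nat.card {k : G // (k : X)⁻¹ * g * σ k ∈ Y} = Nat.card {k : G // ∃ h : H, (k : X)⁻¹ * a * (h : X) ∈ Y} :=
    Nat.card_congr (Equiv.subtypeEquivRight P1)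
  have hB : Nat.card {h : H // (h : X)⁻¹ * ((τ a)⁻¹ * a) * h ∈ Y} = Nat.card {h : H // ∃ k : G, (h : X)⁻¹ * a⁻¹ * (k : X) ∈ Y} :=
    Nat.card_congr (Equiv.subtypeEquivRight (fun h => by
      have := P2 h
      rwa [map_inv] at this))
  show Nat.card {k : G // (k : X)⁻¹ * g * σ k ∈ Y} * Nat.card ↥(Y ⊓ H) = Nat.card {h : H // (h : X)⁻¹ * ((τ a)⁻¹ * a) * h ∈ Y} * Nat.card ↥(Y ⊓ G)
  rw [hA, hB, ← hc1, ← hc2, hswap]

end Cfsg.Agent.S2669
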