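import Cfsg.Statements.S2677
import Cfsg.Agent.S2636
import Cfsg.Agent.Lib.SUBasic

set_option autoImplicit false
open Cfsg

namespace Cfsg.Agent.S2677


open Matrix Cfsg.Agent.Lib.SUBasic Cfsg.Agent.Lib.UnitBasic Cfsg.Agent.Lib.HermStd Cfsg.Agent.Lib.HermBasic

section
variable {F : Type*} [Field F] [Fintype F] {q : ℕ}

/-- The matrix equation implies the isometry condition. -/
theorem gu_of_eq (hF : Fintype.card F = q ^ 2) {n : ℕ} (g : GL (Fin n) F)
    (h : (g : Matrix (Fin n) (Fin n) F)ᵀ * (g : Matrix (Fin n) (Fin n) F).map (sig hF) = 1) : g ∈ GU n F q := by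
  rw [mem_GU_iff]
  intro u v
  have e : ∀ x y : Fin n → F, Cfsg.hermForm n F q x y = x ⬝ᵥ (fun i => sig hF (y i)) := by
    intro x y
    simp [Cfsg.hermForm, dotProduct, sig_apply]
  rw [e, e]
  have h2 : (fun i => sig hF (((g : Matrix (Fin n) (Fin n) F) *ᵥ v) i)) =
      (g : Matrix (Fin n) (Fin n) F).map (sig hF) *ᵥ (fun i => sig hF (v i)) := by
    funext i
    simp [Matrix.mulVec, dotProduct, map_sum]
  rw [h2, ← Matrix.vecMul_transpose, ← Matrix.dotProduct_mulVec, Matrix.mulVec_mulVec, h, Matrix.one_mulVec]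

/-- scalars of norm one are unitary -/
theorem scalar_mem_GU (hF : Fintype.card F = q ^ 2) {n : ℕ} (u : Fˣ) (hu : u ∈ NN F q) :
    Matrix.GeneralLinearGroup.scalar (Fin n) u ∈ GU n F q := by
  apply gu_of_eq hF
  rw [Matrix.GeneralLinearGroup.coe_scalar]
  have hu' := mem_NN.1 hu
  have h1 : (u : F) * sig hF (u : F) = 1 := by
    rw [sig_apply, mul_comm, ← pow_succ]
    exact hu'
  rw [Matrix.scalar_apply, Matrix.diagonal_transpose, Matrix.diagonal_map (map_zero _), Matrix.diagonal_mul_diagonal]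
  simp only [Function.comp, h1]
  exact Matrix.diagonal_one

end


/-- Centraliser of a field automorphism of odd prime order in PGU_n(q): let q = q₀^r with r an odd prime, K the field with q² elements and σ a field automorphism of K of order r (fixed field of order q₀²). The elements g of GU_n(q) whose entrywise image under σ is a scalar multiple of g — those whose coset modulo the q + 1 unitary scalars is fixed by σ — number (q + 1)/(q₀ + 1) · |GU_n(q₀)|; equivalently the centraliser in PGU_n(q) of the induced automorphism has the order of PGU_n(q₀). -/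
theorem result {K : Type*} [Field K] [Fintype K] {q₀ q r n : ℕ} (hr : r.Prime) (hr2 : r ≠ 2) (hn : 1 ≤ n) (hq : q = q₀ ^ r) (hK : Fintype.card K = q ^ 2) (σ : K ≃+* K) (hσ : orderOf σ = r) : (Nat.card {g : ↥(Cfsg.GU n K q) // ∃ c : K, c ≠ 0 ∧ ((g : GL (Fin n) K) : Matrix (Fin n) (Fin n) K).map σ = c • ((g : GL (Fin n) K) : Matrix (Fin n) (Fin n) K)} : ℤ) = ((q + 1) / (q₀ + 1) : ℕ) * ((q₀ : ℤ) ^ (n * (n - 1) / 2) * ∏ i : Fin n, ((q₀ : ℤ) ^ ((i : ℕ) + 1) - (-1) ^ ((i : ℕ) + 1))) := by
  classical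
  haveI : Nonempty (Fin n) := ⟨⟨0, hn⟩⟩
  obtain ⟨t, ht⟩ : ∃ t, r = 2 * t + 1 := hr.odd_of_ne_two hr2
  have hK' : Fintype.card K = (q₀ ^ 2) ^ r := by
    rw [hK, hq]
    ring
  obtain ⟨K₀, hK₀m, hK₀c⟩ := Cfsg.Agent.S2636.exists_fixed_subfield hr hK' σ hσ
  letI : Fintype K₀ := Fintype.ofFinite K₀
  have hc₀ : Fintype.card K₀ = q₀ ^ 2 := by rw [← Nat.card_eq_fintype_card, hK₀c]
  have hq₀ : 1 < q₀ := one_lt_q hc₀
  -- the `q`-power on the subfield
  have hpow : ∀ x : K₀, ((x : K₀) : K) ^ q = ((sig hc₀ x : K₀) : K) := by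
    intro x
    have h1 : q = (q₀ ^ 2) ^ t * q₀ := by
      rw [hq, ht]
      ring
    have h2 : x ^ ((q₀ ^ 2) ^ t) = x := by
      rw [← hc₀]
      exact FiniteField.pow_card_pow t x
    have h3 : ((x : K₀) : K) ^ ((q₀ ^ 2) ^ t) = (x : K) := by
      exact_mod_cast congrArg (fun y : K₀ => (y : K)) h2
    rw [sig_apply, h1, pow_mul, h3]
    rfl
  let ι : GL (Fin n) K₀ →* GL (Fin n) K := Matrix.GeneralLinearGroup.map K₀.subtype
  have hιa : ∀ (h : GL (Fin n) K₀) (i j : Fin n), ((ι h : GL (Fin n) K) : Matrix (Fin n) (Fin n) K) i j = (((h : Matrix (Fin n) (Fin n) K₀) i j : K₀) : K) := fun h i j => rfl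
  have hιGU : ∀ h ∈ GU n K₀ q₀, ι h ∈ GU n K q := by
    intro h hh
    apply gu_of_eq hK
    have h1 := transpose_mul_conj hc₀ hh
    have h2 := congrArg (fun A : Matrix (Fin n) (Fin n) K₀ => A.map K₀.subtype) h1
    simp only [Matrix.map_one _ (map_zero K₀.subtype) (map_one K₀.subtype)] at h2
    rw [← h2]
    ext i j
    simp only [Matrix.mul_apply, Matrix.transpose_apply, Matrix.map_apply, hιa, sig_apply, hpow]
    simp [sig_apply]
  let Θ₀ : (NN K q) × (GU n K₀ q₀) →* GL (Fin n) K :=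
    MonoidHom.noncommCoprod ((Matrix.GeneralLinearGroup.scalar (Fin n)).comp (NN K q).subtype)
      (ι.comp (GU n K₀ q₀).subtype)
      (fun a h => Matrix.GeneralLinearGroup.scalar_commute _ _)
  have hΘ₀ : ∀ x, Θ₀ x ∈ GU n K q := by
    rintro ⟨a, h⟩
    exact (GU n K q).mul_mem (scalar_mem_GU hK _ a.2) (hιGU _ h.2)
  let Θ : (NN K q) × (GU n K₀ q₀) →* GU n K q := Θ₀.codRestrict (GU n K q) hΘ₀
  have hΘa : ∀ (a : NN K q) (h : GU n K₀ q₀) (i j : Fin n),
      (((Θ (a, h) : GU n K q) : GL (Fin n) K) : Matrix (Fin n) (Fin n) K) i j =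
        ((a : Kˣ) : K) * ((((h : GL (Fin n) K₀) : Matrix (Fin n) (Fin n) K₀) i j : K₀) : K) := by
    intro a h i j
    show ((Matrix.GeneralLinearGroup.scalar (Fin n) (a : Kˣ) * ι h : GL (Fin n) K) : Matrix (Fin n) (Fin n) K) i j = _
    rw [Units.val_mul, Matrix.GeneralLinearGroup.coe_scalar]
    simp [Matrix.scalar_apply, Matrix.diagonal_mul, hιa]
  have hiff : ∀ g : GU n K q, (∃ c : K, c ≠ 0 ∧ ((g : GL (Fin n) K) : Matrix (Fin n) (Fin n) K).map σ = c • ((g : GL (Fin n) K) : Matrix (Fin n) (Fin n) K)) ↔ g ∈ Θ.range := by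
    intro g
    constructor
    · rintro ⟨c, hc, he⟩
      set G : Matrix (Fin n) (Fin n) K := ((g : GL (Fin n) K) : Matrix (Fin n) (Fin n) K) with hG
      obtain ⟨i₀, j₀, ha⟩ : ∃ i j, G i j ≠ 0 := by
        by_contra hcon
        push Not at hcon
        have h0 : G = 0 := by
          ext i j
          exact hcon i j
        have := (g : GL (Fin n) K).isUnit
        rw [← hG, h0] at this
        exact not_isUnit_zero this
      set a : K := G i₀ j₀ with hadef
      have hent : ∀ i j, σ (G i j) = c * G i j := by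
        intro i j
        have := congrFun (congrFun he i) j
        simpa using this
      have hfix : ∀ i j, a⁻¹ * G i j ∈ K₀ := by
        intro i j
        rw [hK₀m, map_mul, map_inv₀, hent, hent, ← hadef]
        field_simp
      let A : Matrix (Fin n) (Fin n) K₀ := fun i j => ⟨_, hfix i j⟩
      have hA : ∀ i j, ((A i j : K₀) : K) = a⁻¹ * G i j := fun i j => rfl
      have hGeq : Gᵀ * G.map (sig hK) = 1 := transpose_mul_conj hK g.2
      set μ : K := a⁻¹ * sig hK a⁻¹ with hμ
      have hμ0 : μ ≠ 0 := by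
        rw [hμ, sig_apply]
        exact mul_ne_zero (inv_ne_zero ha) (pow_ne_zero _ (inv_ne_zero ha))
      have hAent : ∀ i j, (((Aᵀ * A.map (sig hc₀)) i j : K₀) : K) = μ * (1 : Matrix (Fin n) (Fin n) K) i j := by
        intro i j
        have h1 := congrFun (congrFun hGeq i) j
        rw [← h1]
        simp only [Matrix.mul_apply, Matrix.transpose_apply, Matrix.map_apply]
        rw [AddSubmonoidClass.coe_finset_sum, Finset.mul_sum]
        refine Finset.sum_congr rfl fun l _ => ?_
        show ((A l i : K₀) : K) * ((sig hc₀ (A l j) : K₀) : K) = _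
        rw [← hpow, hA, hA, hμ]
        simp only [sig_apply, mul_pow]
        ring
      let i₁ : Fin n := ⟨0, hn⟩
      set m₀ : K₀ := (Aᵀ * A.map (sig hc₀)) i₁ i₁ with hm₀
      have hm₀v : (m₀ : K) = μ := by
        rw [hm₀, hAent, Matrix.one_apply_eq, mul_one]
      have hm₀ne : m₀ ≠ 0 := by
        intro h0
        rw [h0] at hm₀v
        exact hμ0 hm₀v.symm
      have hAeq : Aᵀ * A.map (sig hc₀) = m₀ • 1 := by
        ext i j
        rw [hAent, Matrix.smul_apply, smul_eq_mul]
        push_cast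
        rw [hm₀v]
        by_cases hij : i = j
        · subst hij
          simp
        · simp [Matrix.one_apply_ne hij]
      have hm₀fix : sig hc₀ m₀ = m₀ := by
        rw [hm₀]
        simp only [Matrix.mul_apply, Matrix.transpose_apply, Matrix.map_apply, map_sum, map_mul, sig_sig]
        exact Finset.sum_congr rfl fun l _ => mul_comm _ _
      obtain ⟨b, hb0, hb⟩ := norm_surj (sig hc₀) (sig_ne hc₀) (sig_sig hc₀) m₀ hm₀fix hm₀ne
      let B : Matrix (Fin n) (Fin n) K₀ := b⁻¹ • A
      have hBeq : Bᵀ * B.map (sig hc₀) = 1 := by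
        have h1 : B.map (sig hc₀) = (sig hc₀ b⁻¹) • A.map (sig hc₀) := by
          ext i j
          simp [B, Matrix.map_apply]
        rw [h1, Matrix.transpose_smul, Matrix.smul_mul, Matrix.mul_smul, hAeq, smul_smul, smul_smul]
        have h2 : b⁻¹ * (sig hc₀ b⁻¹ * m₀) = 1 := by
          rw [← hb, map_inv₀]
          have : sig hc₀ b ≠ 0 := by
            rw [sig_apply]
            exact pow_ne_zero _ hb0
          field_simp
        have h3 : b⁻¹ * (sig hc₀ b⁻¹ * m₀) = b⁻¹ * sig hc₀ b⁻¹ * m₀ := by ring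
        rw [← h3, h2, one_smul]
      have hBdet : B.det ≠ 0 := by
        intro h0
        have h1 := congrArg Matrix.det hBeq
        rw [Matrix.det_mul, Matrix.det_transpose, h0, zero_mul, Matrix.det_one] at h1
        exact zero_ne_one h1
      let B' : GL (Fin n) K₀ := Matrix.GeneralLinearGroup.mkOfDetNeZero B hBdet
      have hB'GU : B' ∈ GU n K₀ q₀ := gu_of_eq hc₀ B' hBeq
      have hz0 : a * (b : K) ≠ 0 := mul_ne_zero ha (by simpa using hb0)
      have hzNN : Units.mk0 (a * (b : K)) hz0 ∈ NN K q := by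
        rw [mem_NN, Units.val_mk0, pow_succ, mul_pow, hpow b]
        have h1 : (b : K) * ((sig hc₀ b : K₀) : K) = μ := by
          rw [← hm₀v, ← hb]
          rfl
        have h2 : a ^ q * a * μ = 1 := by
          rw [hμ, sig_apply, inv_pow]
          have : a ^ q ≠ 0 := pow_ne_zero _ ha
          field_simp
        calc a ^ q * ((sig hc₀ b : K₀) : K) * (a * (b : K))
            = a ^ q * a * ((b : K) * ((sig hc₀ b : K₀) : K)) := by ring
          _ = 1 := by rw [h1, h2]
      refine ⟨(⟨_, hzNN⟩, ⟨B', hB'GU⟩), ?_⟩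
      apply Subtype.ext
      apply Units.ext
      ext i j
      rw [hΘa]
      show (a * (b : K)) * ((b⁻¹ * A i j : K₀) : K) = G i j
      rw [Subfield.coe_mul, hA, Subfield.coe_inv]
      have : (b : K) ≠ 0 := by simpa using hb0
      field_simp
    · rintro ⟨⟨a, h⟩, rfl⟩
      have ha0 : ((a : Kˣ) : K) ≠ 0 := Units.ne_zero _
      refine ⟨σ ((a : Kˣ) : K) / ((a : Kˣ) : K), div_ne_zero (by simpa using ha0) ha0, ?_⟩
      ext i j
      rw [Matrix.map_apply, hΘa, Matrix.smul_apply, hΘa, map_mul]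
      have : σ ((((h : GL (Fin n) K₀) : Matrix (Fin n) (Fin n) K₀) i j : K₀) : K) = ((((h : GL (Fin n) K₀) : Matrix (Fin n) (Fin n) K₀) i j : K₀) : K) :=
        (hK₀m _).1 (SetLike.coe_mem _)
      rw [this, smul_eq_mul]
      field_simp
  rw [Nat.card_congr (Equiv.subtypeEquivRight hiff)]
  -- the kernel
  have hker : Nat.card Θ.ker = Nat.card (NN K₀ q₀) := by
    symm
    have hinv : ∀ u : NN K₀ q₀, Units.map (K₀.subtype : K₀ →* K) (u : K₀ˣ)⁻¹ ∈ NN K q := by
      intro u
      rw [mem_NN]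
      have h1 := mem_NN.1 u.2
      have h2 : (((u : K₀ˣ) : K₀) : K) ^ (q + 1) = 1 := by
        rw [pow_succ, hpow, sig_apply]
        rw [← Subfield.coe_mul, ← pow_succ, h1]
        rfl
      have h3 : ((Units.map (K₀.subtype : K₀ →* K) (u : K₀ˣ)⁻¹ : Kˣ) : K) = (((u : K₀ˣ) : K₀) : K)⁻¹ := by
        simp
      rw [h3, inv_pow, h2, inv_one]
    let f : NN K₀ q₀ → Θ.ker := fun u =>
      ⟨(⟨_, hinv u⟩, ⟨Matrix.GeneralLinearGroup.scalar (Fin n) (u : K₀ˣ), scalar_mem_GU hc₀ _ u.2⟩), by
        rw [MonoidHom.mem_ker]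
        apply Subtype.ext
        apply Units.ext
        ext i j
        rw [hΘa]
        show ((Units.map (K₀.subtype : K₀ →* K) (u : K₀ˣ)⁻¹ : Kˣ) : K) * (((Matrix.GeneralLinearGroup.scalar (Fin n) (u : K₀ˣ) : GL (Fin n) K₀) : Matrix (Fin n) (Fin n) K₀) i j : K₀) = _
        rw [Matrix.GeneralLinearGroup.coe_scalar]
        by_cases hij : i = j
        · subst hij
          simp [Matrix.scalar_apply]
        · simp [Matrix.scalar_apply, hij, Matrix.one_apply]⟩
    apply Nat.card_eq_of_bijective f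
    constructor
    · intro u v huv
      have h1 := congrArg (fun x : Θ.ker => ((x.1.1 : NN K q) : Kˣ)) huv
      simp only [f] at h1
      have h2 : ((u : K₀ˣ)⁻¹ : K₀ˣ) = (v : K₀ˣ)⁻¹ := by
        apply Units.ext
        apply Subtype.ext
        exact congrArg Units.val h1
      exact Subtype.ext (inv_injective h2)
    · rintro ⟨⟨a, h⟩, hx⟩
      rw [MonoidHom.mem_ker] at hx
      have hent : ∀ i j, ((a : Kˣ) : K) * ((((h : GL (Fin n) K₀) : Matrix (Fin n) (Fin n) K₀) i j : K₀) : K) = (1 : Matrix (Fin n) (Fin n) K) i j := by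
        intro i j
        rw [← hΘa, hx]
        rfl
      let i₀ : Fin n := ⟨0, hn⟩
      have h00 : ((a : Kˣ) : K) * ((((h : GL (Fin n) K₀) : Matrix (Fin n) (Fin n) K₀) i₀ i₀ : K₀) : K) = 1 := by
        rw [hent, Matrix.one_apply_eq]
      have hne : ((h : GL (Fin n) K₀) : Matrix (Fin n) (Fin n) K₀) i₀ i₀ ≠ 0 := by
        intro h0
        rw [h0] at h00
        simp at h00
      set u : K₀ := ((h : GL (Fin n) K₀) : Matrix (Fin n) (Fin n) K₀) i₀ i₀ with hu
      have hmat : ((h : GL (Fin n) K₀) : Matrix (Fin n) (Fin n) K₀) = Matrix.scalar (Fin n) u := by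
        ext i j
        have ha2 : ((a : Kˣ) : K) ≠ 0 := Units.ne_zero _
        by_cases hij : i = j
        · subst hij
          have h1 := hent i i
          rw [Matrix.one_apply_eq] at h1
          simp only [Matrix.scalar_apply, Matrix.diagonal_apply_eq]
          exact mul_left_cancel₀ ha2 (h1.trans h00.symm)
        · have h1 := hent i j
          rw [Matrix.one_apply_ne hij] at h1
          have h3 := (mul_eq_zero.1 h1).resolve_left ha2
          simp only [Matrix.scalar_apply, Matrix.diagonal_apply_ne _ hij]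
          exact h3
      have hunorm : u ^ (q₀ + 1) = 1 := by
        have h1 := transpose_mul_conj hc₀ h.2
        rw [hmat] at h1
        have h2 := congrFun (congrFun h1 i₀) i₀
        simp only [Matrix.scalar_apply, Matrix.mul_apply, Matrix.transpose_apply, Matrix.map_apply, Matrix.one_apply_eq] at h2
        rw [Finset.sum_eq_single i₀] at h2
        · simp only [Matrix.diagonal_apply_eq, sig_apply] at h2
          rw [pow_succ, mul_comm]
          exact h2
        · intro l _ hl
          simp [Matrix.diagonal_apply_ne _ hl]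
        · simp
      refine ⟨⟨Units.mk0 u hne, mem_NN.2 hunorm⟩, ?_⟩
      apply Subtype.ext
      apply Prod.ext
      · apply Subtype.ext
        apply Units.ext
        show (((Units.mk0 u hne)⁻¹ : K₀ˣ) : K₀).val = ((a : Kˣ) : K)
        simp only [Units.val_inv_eq_inv_val, Units.val_mk0]
        push_cast
        rw [eq_comm]
        exact eq_inv_of_mul_eq_one_left h00
      · apply Subtype.ext
        apply Units.ext
        show Matrix.scalar (Fin n) u = _
        exact hmat.symm
  have hcount : Nat.card Θ.ker * Nat.card Θ.range = Nat.card ((NN K q) × (GU n K₀ q₀)) := by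
    rw [← Subgroup.index_ker, Subgroup.card_mul_index]
  rw [hker, Nat.card_prod, card_NN hc₀, card_NN hK, card_GU hc₀] at hcount
  have hd : q₀ + 1 ∣ q + 1 := by
    rw [hq]
    have := (Odd.nat_add_dvd_pow_add_pow q₀ 1 (hr.odd_of_ne_two hr2))
    simpa using this
  obtain ⟨k, hk⟩ := hd
  rw [hk, Nat.mul_div_cancel_left _ (by omega : 0 < q₀ + 1)]
  rw [hk, mul_assoc] at hcount
  have hfinal := Nat.eq_of_mul_eq_mul_left (by omega : 0 < q₀ + 1) hcount
  have hprod : ((∏ x ∈ Finset.range n, (if Even x then q₀ ^ (x + 1) + 1 else q₀ ^ (x + 1) - 1) : ℕ) : ℤ) = ∏ i : Fin n, ((q₀ : ℤ) ^ ((i : ℕ) + 1) - (-1) ^ ((i : ℕ) + 1)) := by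
    rw [← Fin.prod_univ_eq_prod_range (fun i => if Even i then q₀ ^ (i + 1) + 1 else q₀ ^ (i + 1) - 1) n, Nat.cast_prod]
    refine Finset.prod_congr rfl fun i _ => ?_
    by_cases hi : Even (i : ℕ)
    · simp only [if_pos hi]
      rw [Odd.neg_one_pow hi.add_one]
      push_cast
      ring
    · simp only [if_neg hi]
      rw [Even.neg_one_pow (Nat.not_even_iff_odd.1 hi).add_one, Nat.cast_sub (Nat.one_le_pow _ _ (by omega))]
      push_cast
      ring
  show ((Nat.card Θ.range : ℕ) : ℤ) = _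
  rw [hfinal, Nat.cast_mul, Nat.cast_mul, Nat.cast_pow, hprod]

end Cfsg.Agent.S2677
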