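import Cfsg.Statements.S2679
import Cfsg.Agent.Lib.BaseChange

set_option autoImplicit false
open Cfsg Matrix

namespace Cfsg.Agent.S2679

open Polynomial in
/-- Splitting an anisotropic binary form over the quadratic extension. -/
theorem exists_split {F K : Type*} [Field F] [Fintype F] [Field K] [Fintype K] {q : ℕ} (hF : Fintype.card F = q) (hK : Fintype.card K = q ^ 2)
    (a c : F) (hac : ∀ z₁ z₂ : F, z₁ ^ 2 + a * z₁ * z₂ + c * z₂ ^ 2 = 0 → z₁ = 0 ∧ z₂ = 0) :
    ∃ (f : F →+* K) (r : K), r ^ 2 + f a * r + f c = 0 ∧ r ≠ - f a - r := by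
  classical
  let P : F[X] := X ^ 2 + C a * X + C c
  have hPdeg : P.natDegree = 2 := by
    simp only [P]
    compute_degree!
  have hPmon : P.Monic := by
    simp only [P]
    monicity!
  have hroot : ∀ x : F, x ^ 2 + a * x + c ≠ 0 := by
    intro x hx
    have := (hac x 1 (by linear_combination hx)).2
    exact one_ne_zero this
  have hirr : Irreducible P := by
    apply irreducible_of_degree_le_three_of_not_isRoot
    · rw [hPdeg]
      decide
    · intro x hx
      apply hroot x
      simpa [P, IsRoot] using hx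
  haveI : Fact (Irreducible P) := ⟨hirr⟩
  let K' := AdjoinRoot P
  haveI : Module.Finite F K' := (AdjoinRoot.powerBasis hirr.ne_zero).finite
  haveI : Finite K' := Module.finite_of_finite F
  haveI : Fintype K' := Fintype.ofFinite K'
  have hcard : Fintype.card K' = q ^ 2 := by
    have h1 : Module.finrank F K' = 2 := by
      rw [(AdjoinRoot.powerBasis hirr.ne_zero).finrank, AdjoinRoot.powerBasis_dim, hPdeg]
    rw [Module.card_eq_pow_finrank (K := F) (V := K'), h1, hF]
  let e : K' ≃+* K := FiniteField.ringEquivOfCardEq (by rw [hcard, hK])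
  let f : F →+* K := e.toRingHom.comp (algebraMap F K')
  let r : K := e (AdjoinRoot.root P)
  have hr : r ^ 2 + f a * r + f c = 0 := by
    have h1 := AdjoinRoot.eval₂_root P
    simp only [P, eval₂_add, eval₂_mul, eval₂_pow, eval₂_X, eval₂_C] at h1
    have h2 := congrArg e h1
    simp only [map_add, map_mul, map_pow, map_zero] at h2
    exact h2
  refine ⟨f, r, hr, ?_⟩
  intro hrr
  by_cases h2 : (2 : F) = 0
  · -- characteristic two
    have hf2 : (2 : K) = 0 := by
      have := congrArg f h2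
      rwa [map_ofNat, map_zero] at this
    have hfa : f a = 0 := by
      have : f a = - (2 * r) + (r - (- f a - r)) := by ring
      rw [this, hf2, ← hrr]
      ring
    have ha : a = 0 := f.injective (by rw [hfa, map_zero])
    obtain ⟨s, hs⟩ : ∃ s : F, c = s * s := by
      exact FiniteField.isSquare_of_char_two (CharP.ringChar_of_prime_eq_zero Nat.prime_two (by exact_mod_cast h2)) c
    apply hroot s
    rw [ha, hs]
    linear_combination (s * s) * h2
  · -- odd characteristic
    have hf2 : (2 : K) ≠ 0 := by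
      intro h
      apply h2
      apply f.injective
      rw [map_zero, map_ofNat]
      exact h
    have hrs : r = f (- a / 2) := by
      rw [map_div₀, map_neg, map_ofNat]
      field_simp
      linear_combination hrr
    apply hroot (- a / 2)
    apply f.injective
    rw [map_add, map_add, map_pow, map_mul, ← hrs, map_zero]
    exact hr

/-- The matrix of the elliptic form. -/
def CM (k : ℕ) (R : Type*) [CommRing R] (a b : R) : Matrix ((Fin k ⊕ Fin k) ⊕ Fin 2) ((Fin k ⊕ Fin k) ⊕ Fin 2) R :=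
  Matrix.fromBlocks (Matrix.fromBlocks 0 1 0 0) 0 0 !![1, a; 0, b]

theorem quad_eq (k : ℕ) {R : Type*} [Field R] (a b : R) :
    Cfsg.quadFormMinus k R a b = fun v => v ⬝ᵥ ((CM k R a b) *ᵥ v) := by
  funext v
  obtain ⟨x, hx⟩ : ∃ x : Fin k ⊕ Fin k → R, x = fun i => v (Sum.inl i) := ⟨_, rfl⟩
  obtain ⟨z, hz⟩ : ∃ z : Fin 2 → R, z = fun i => v (Sum.inr i) := ⟨_, rfl⟩
  have hv : v = Sum.elim x z := by
    ext i
    cases i <;> simp [hx, hz]
  subst hv
  simp only [CM, Cfsg.quadFormMinus, Matrix.fromBlocks_mulVec, dotProduct, Fintype.sum_sum_type, Sum.elim_inl, Sum.elim_inr, Fin.sum_univ_two]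
  simp [Matrix.mulVec, dotProduct, Fintype.sum_sum_type, Fin.sum_univ_two, Matrix.one_apply, Matrix.fromBlocks]
  ring

theorem CM_map (k : ℕ) {F K : Type*} [Field F] [Field K] (f : F →+* K) (a b : F) :
    (CM k F a b).map f = CM k K (f a) (f b) := by
  ext i j
  rcases i with (i | i) | i <;> rcases j with (j | j) | j <;> simp [CM, Matrix.one_apply, apply_ite f]
  · fin_cases i <;> fin_cases j <;> simp

/-- An elliptic orthogonal group embeds in the hyperbolic orthogonal group of the same dimension over the quadratic extension: for a field F with q elements and a field K with q² elements there is an injective homomorphism from O⁻_2m(F) (isometries of Σ_(j<m−1) x_j y_j + z₁² + a z₁z₂ + c z₂², binary part anisotropic) to O⁺_2m(K) (isometries of Σ_(j<m) x_j y_j over K). -/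
theorem result {F K : Type*} [Field F] [Fintype F] [Field K] [Fintype K] {q : ℕ} (hF : Fintype.card F = q) (hK : Fintype.card K = q ^ 2) {m : ℕ} (hm : 1 ≤ m) (a c : F) (hac : ∀ z₁ z₂ : F, z₁ ^ 2 + a * z₁ * z₂ + c * z₂ ^ 2 = 0 → z₁ = 0 ∧ z₂ = 0) : ∃ φ : ↥(Cfsg.isometryGroup F (Cfsg.quadFormMinus (m - 1) F a c)) →* ↥(Cfsg.isometryGroup K (Cfsg.quadFormPlus m K)), Function.Injective φ := by
  classical
  obtain ⟨k, rfl⟩ : ∃ k, m = k + 1 := ⟨m - 1, by omega⟩
  show ∃ φ : ↥(Cfsg.isometryGroup F (Cfsg.quadFormMinus k F a c)) →* ↥(Cfsg.isometryGroup K (Cfsg.quadFormPlus (k + 1) K)), Function.Injective φ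
  obtain ⟨f, r, hr, hrr⟩ := exists_split hF hK a c hac
  obtain ⟨r', hr'⟩ : ∃ r', r' = - f a - r := ⟨_, rfl⟩
  rw [← hr'] at hrr
  -- base change
  have h₁ : ∃ φ : ↥(Cfsg.isometryGroup F (Cfsg.quadFormMinus k F a c)) →* ↥(Cfsg.isometryGroup K (Cfsg.quadFormMinus k K (f a) (f c))), Function.Injective φ := by
    rw [quad_eq, quad_eq, ← CM_map]
    exact Cfsg.Agent.Lib.BaseChange.base_change_embed (CM k F a c) f
  obtain ⟨φ₁, hφ₁⟩ := h₁
  let τ₀ : (((Fin k ⊕ Fin k) ⊕ Fin 2) → K) →ₗ[K] (Fin (k + 1) ⊕ Fin (k + 1) → K) :=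
    { toFun := fun w => Sum.elim (Fin.cons (w (Sum.inr 0) - r * w (Sum.inr 1)) (fun i => w (Sum.inl (Sum.inl i))))
        (Fin.cons (w (Sum.inr 0) - r' * w (Sum.inr 1)) (fun i => w (Sum.inl (Sum.inr i))))
      map_add' := by
        intro x y
        ext i
        rcases i with i | i <;> refine Fin.cases ?_ (fun j => ?_) i <;> simp <;> ring
      map_smul' := by
        intro x y
        ext i
        rcases i with i | i <;> refine Fin.cases ?_ (fun j => ?_) i <;> simp <;> ring }
  have hinj : Function.Injective τ₀ := by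
    rw [injective_iff_map_eq_zero]
    intro w hw
    have h1 : w (Sum.inr 0) - r * w (Sum.inr 1) = 0 := congrFun hw (Sum.inl 0)
    have h2 : w (Sum.inr 0) - r' * w (Sum.inr 1) = 0 := congrFun hw (Sum.inr 0)
    have h3 : (r - r') * w (Sum.inr 1) = 0 := by linear_combination h2 - h1
    have h4 : w (Sum.inr 1) = 0 := (mul_eq_zero.1 h3).resolve_left (sub_ne_zero.2 hrr)
    have h5 : w (Sum.inr 0) = 0 := by rw [h4, mul_zero, sub_zero] at h1; exact h1
    ext i
    rcases i with (i | i) | i
    · exact congrFun hw (Sum.inl i.succ)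
    · exact congrFun hw (Sum.inr i.succ)
    · fin_cases i
      · exact h5
      · exact h4
  let τ := LinearMap.linearEquivOfInjective τ₀ hinj (by
    simp only [Module.finrank_fintype_fun_eq_card, Fintype.card_sum, Fintype.card_fin]
    omega)
  have hτ : ∀ w, Cfsg.quadFormPlus (k + 1) K (τ w) = Cfsg.quadFormMinus k K (f a) (f c) w := by
    intro w
    show Cfsg.quadFormPlus (k + 1) K (τ₀ w) = _
    simp only [Cfsg.quadFormPlus, Cfsg.quadFormMinus, Fin.sum_univ_succ]
    show (w (Sum.inr 0) - r * w (Sum.inr 1)) * (w (Sum.inr 0) - r' * w (Sum.inr 1)) + ∑ i : Fin k, w (Sum.inl (Sum.inl i)) * w (Sum.inl (Sum.inr i)) = _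
    rw [hr']
    linear_combination (- w (Sum.inr 1) ^ 2) * hr
  obtain ⟨φ₂, hφ₂⟩ := Cfsg.Agent.Lib.BaseChange.transfer_embed τ _ _ hτ
  exact ⟨φ₂.comp φ₁, hφ₂.comp hφ₁⟩

end Cfsg.Agent.S2679
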