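import Cfsg.Statements.S2738
import Cfsg.Agent.Lib.ClassicalBasic
import Cfsg.Agent.Lib.SLGen

set_option autoImplicit false
open Cfsg

namespace Cfsg.Agent.S2738

open scoped commutatorElement

theorem comm_central {G : Type*} [Group G] {a b c d : G} (ha : a ∈ Subgroup.center G)
    (hb : b ∈ Subgroup.center G) : ⁅a * c, b * d⁆ = ⁅c, d⁆ := by
  have h1 : ∀ y, a * y = y * a := fun y => (Subgroup.mem_center_iff.1 ha y).symm
  have h2 : ∀ y, b * y = y * b := fun y => (Subgroup.mem_center_iff.1 hb y).symm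
  rw [commutatorElement_def, commutatorElement_def]
  calc (a * c) * (b * d) * (a * c)⁻¹ * (b * d)⁻¹
      = (a * (c * (b * d) * c⁻¹)) * a⁻¹ * (b * d)⁻¹ := by group
    _ = ((c * (b * d) * c⁻¹) * a) * a⁻¹ * (b * d)⁻¹ := by rw [h1]
    _ = c * (b * d) * c⁻¹ * (d⁻¹ * b⁻¹) := by group
    _ = (c * b) * (d * c⁻¹ * d⁻¹ * b⁻¹) := by group
    _ = (b * c) * (d * c⁻¹ * d⁻¹ * b⁻¹) := by rw [h2 c]
    _ = b * (c * d * c⁻¹ * d⁻¹ * b⁻¹) := by group
    _ = (c * d * c⁻¹ * d⁻¹ * b⁻¹) * b := h2 _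
    _ = c * d * c⁻¹ * d⁻¹ := by group

/-- The special linear group SL(3, 4) has centre of order 3 and does not split over it: no subgroup is a complement to the centre (so SL(3, 4) is a non-split central extension of PSL(3, 4) by a group of order 3). -/
theorem result (F : Type*) [Field F] [Fintype F] (hF : Fintype.card F = 4) : Nat.card ↥(Subgroup.center (Matrix.SpecialLinearGroup (Fin 3) F)) = 3 ∧ ¬ ∃ K : Subgroup (Matrix.SpecialLinearGroup (Fin 3) F), Subgroup.IsComplement' (Subgroup.center (Matrix.SpecialLinearGroup (Fin 3) F)) K := by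
  have hc : Nat.card ↥(Subgroup.center (Matrix.SpecialLinearGroup (Fin 3) F)) = 3 := by
    rw [Cfsg.Agent.Lib.ClassicalBasic.card_center_SL 3 (by norm_num), hF]
    norm_num
  refine ⟨hc, ?_⟩
  rintro ⟨K, hK⟩
  have hsurj := hK.2
  have hcomm : commutator (Matrix.SpecialLinearGroup (Fin 3) F) ≤ K := by
    rw [_root_.commutator_def, Subgroup.commutator_le]
    intro g _ h _
    obtain ⟨⟨z₁, k₁⟩, h₁⟩ := hsurj g
    obtain ⟨⟨z₂, k₂⟩, h₂⟩ := hsurj h
    simp only at h₁ h₂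
    rw [← h₁, ← h₂, comm_central z₁.2 z₂.2]
    exact Subgroup.commutator_mem_commutator k₁.2 k₂.2 |> fun _ => K.mul_mem (K.mul_mem (K.mul_mem k₁.2 k₂.2) (K.inv_mem k₁.2)) (K.inv_mem k₂.2)
  rw [Cfsg.Agent.Lib.SLGen.commutator_SL_eq_top (by norm_num)] at hcomm
  have hKtop : K = ⊤ := top_le_iff.1 hcomm
  have hd := hK.disjoint
  rw [hKtop, disjoint_top] at hd
  rw [hd] at hc
  simp at hc

end Cfsg.Agent.S2738
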