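import Cfsg.Statements.S2739
import Cfsg.Agent.Lib.Psl34b

set_option autoImplicit false
open scoped Pointwise
open Cfsg

namespace Cfsg.Agent.S2739

/-- In the projective special linear group PSL(3, 4) all subgroups of order 3 are conjugate. -/
theorem result (F : Type*) [Field F] [Fintype F] (hF : Fintype.card F = 4) (X Y : Subgroup (Matrix.ProjectiveSpecialLinearGroup (Fin 3) F)) (hX : Nat.card ↥X = 3) (hY : Nat.card ↥Y = 3) : ∃ g : Matrix.ProjectiveSpecialLinearGroup (Fin 3) F, MulAut.conj g • X = Y := by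
  classical
  have hgen : ∀ Z : Subgroup (Matrix.ProjectiveSpecialLinearGroup (Fin 3) F), Nat.card ↥Z = 3 → ∃ x, x ^ 3 = 1 ∧ x ≠ 1 ∧ Z = Subgroup.zpowers x := by
    intro Z hZ
    haveI : Fact (Nat.Prime (Nat.card ↥Z)) := ⟨by rw [hZ]; norm_num⟩
    haveI : IsCyclic ↥Z := isCyclic_of_prime_card rfl
    obtain ⟨⟨x, hx⟩, hg⟩ := IsCyclic.exists_generator (α := ↥Z)
    have hx3 : x ^ 3 = 1 := by
      have := pow_card_eq_one' (x := (⟨x, hx⟩ : ↥Z))
      rw [hZ] at this
      exact congrArg Subtype.val this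
    have hZe : Z = Subgroup.zpowers x := by
      ext y
      constructor
      · intro hy
        obtain ⟨k, hk⟩ := hg ⟨y, hy⟩
        exact ⟨k, congrArg Subtype.val hk⟩
      · rintro ⟨k, rfl⟩
        exact Z.zpow_mem hx k
    refine ⟨x, hx3, ?_, hZe⟩
    rintro rfl
    rw [hZe, Subgroup.zpowers_one_eq_bot] at hZ
    simp at hZ
  obtain ⟨x, hx3, hx1, rfl⟩ := hgen X hX
  obtain ⟨y, hy3, hy1, rfl⟩ := hgen Y hY
  obtain ⟨g, hg⟩ := isConj_iff.1 (Cfsg.Agent.Lib.Psl34b.order_three_conj hF x y hx3 hx1 hy3 hy1)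
  refine ⟨g, ?_⟩
  rw [← hg, Subgroup.pointwise_smul_def]
  exact MonoidHom.map_zpowers ((MulAut.conj g).toMonoidHom) x

end Cfsg.Agent.S2739
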