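import Cfsg.Statements.S2759
import Mathlib
import Cfsg.Agent.Lib.LOff1
import Cfsg.Agent.Lib.FusSubModel
import Cfsg.Agent.Lib.H9SF
import Cfsg.Agent.Lib.FGSBasic

set_option autoImplicit false
open Cfsg

namespace Cfsg.Agent.S2759

open Cfsg.Agent.Lib

universe u

section planeSec
variable {Γ : Type*} [Group Γ] [Finite Γ]

theorem plane_lemma (Z : Subgroup Γ) (hZn : Z.Normal) (hZe : ∀ z ∈ Z, z * z = 1) (y a : Γ) (s : ℕ)
    (has : a ^ 2 ^ s = 1) (hay : a * y * a⁻¹ = y⁻¹)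
    (hy3 : ∀ z ∈ Z, y * (y * (y * z * y⁻¹) * y⁻¹) * y⁻¹ = z)
    (hy : ∃ z ∈ Z, y * z * y⁻¹ ≠ z) : Cfsg.Involves (Equiv.Perm (Fin 4)) Γ := by
  have hcomm : ∀ {u v : Γ}, u ∈ Z → v ∈ Z → u * v = v * u := by
    intro u v hu hv
    have h1 := hZe _ (mul_mem hu hv)
    have h2 := hZe _ hu
    have h3 := hZe _ hv
    calc u * v = u * (u * v * (u * v)) * v := by rw [h1]; simp
      _ = (u * u) * (v * u) * (v * v) := by group
      _ = v * u := by rw [h2, h3]; simp
  have hinv : ∀ {u : Γ}, u ∈ Z → u⁻¹ = u := fun {u} hu => inv_eq_of_mul_eq_one_left (hZe u hu)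
  have hc : ∀ {g u : Γ}, u ∈ Z → g * u * g⁻¹ ∈ Z := fun {g u} hu => hZn.conj_mem u hu g
  let P : Γ → Prop := fun w => w ∈ Z ∧ w * (y * w * y⁻¹) * (y * (y * w * y⁻¹) * y⁻¹) = 1
  have hPmul : ∀ {v w : Γ}, P v → P w → P (v * w) := by
    rintro v w ⟨hv, nv⟩ ⟨hw, nw⟩
    refine ⟨mul_mem hv hw, ?_⟩
    have hC := hc (g := y) hv
    have hD := hc (g := y) hw
    have hE := hc (g := y) hC
    have h1 : w * (y * v * y⁻¹) = (y * v * y⁻¹) * w := hcomm hw hC
    have h2 : (w * (y * w * y⁻¹)) * (y * (y * v * y⁻¹) * y⁻¹) = (y * (y * v * y⁻¹) * y⁻¹) * (w * (y * w * y⁻¹)) :=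
      hcomm (mul_mem hw hD) hE
    calc v * w * (y * (v * w) * y⁻¹) * (y * (y * (v * w) * y⁻¹) * y⁻¹)
        = v * (w * (y * v * y⁻¹)) * (y * w * y⁻¹) * (y * (y * v * y⁻¹) * y⁻¹) * (y * (y * w * y⁻¹) * y⁻¹) := by group
      _ = v * (y * v * y⁻¹) * ((w * (y * w * y⁻¹)) * (y * (y * v * y⁻¹) * y⁻¹)) * (y * (y * w * y⁻¹) * y⁻¹) := by
          rw [h1]; group
      _ = (v * (y * v * y⁻¹) * (y * (y * v * y⁻¹) * y⁻¹)) * (w * (y * w * y⁻¹) * (y * (y * w * y⁻¹) * y⁻¹)) := by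
          rw [h2]; group
      _ = 1 := by rw [nv, nw]; simp
  have hay' : a⁻¹ * y * a = y⁻¹ := by
    have h1 : a * y⁻¹ * a⁻¹ = y := by
      have := congrArg (fun t => t⁻¹) hay
      simpa [mul_assoc] using this
    calc a⁻¹ * y * a = a⁻¹ * (a * y⁻¹ * a⁻¹) * a := by rw [h1]
      _ = y⁻¹ := by group
  have hPa : ∀ {w : Γ}, P w → P (a * w * a⁻¹) := by
    rintro w ⟨hw, nw⟩
    refine ⟨hc hw, ?_⟩
    have e1 : y * (a * w * a⁻¹) * y⁻¹ = a * (y⁻¹ * w * y) * a⁻¹ := by
      have h2 : y = a * y⁻¹ * a⁻¹ := by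
        have := congrArg (fun t => t⁻¹) hay
        simpa [mul_assoc] using this.symm
      conv_lhs => rw [h2]
      group
    have e2 : y⁻¹ * w * y = y * (y * w * y⁻¹) * y⁻¹ := by
      have := hy3 w hw
      calc y⁻¹ * w * y = y⁻¹ * (y * (y * (y * w * y⁻¹) * y⁻¹) * y⁻¹) * y := by rw [this]
        _ = _ := by group
    have hE := hc (g := y) (hc (g := y) hw)
    have hC := hc (g := y) hw
    have e3 : y * (y * (a * w * a⁻¹) * y⁻¹) * y⁻¹ = a * (y * w * y⁻¹) * a⁻¹ := by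
      rw [e1, e2]
      have h2 : y = a * y⁻¹ * a⁻¹ := by
        have := congrArg (fun t => t⁻¹) hay
        simpa [mul_assoc] using this.symm
      have h3 := hy3 w hw
      calc y * (a * (y * (y * w * y⁻¹) * y⁻¹) * a⁻¹) * y⁻¹
          = (y * a) * (y * (y * w * y⁻¹) * y⁻¹) * (y * a)⁻¹ := by group
        _ = (a * y⁻¹) * (y * (y * w * y⁻¹) * y⁻¹) * (a * y⁻¹)⁻¹ := by
            have : y * a = a * y⁻¹ := by
              conv_lhs => rw [h2]
              group
            rw [this]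
        _ = a * (y * w * y⁻¹) * a⁻¹ := by group
    rw [e3, e1, e2]
    have hcm : (y * (y * w * y⁻¹) * y⁻¹) * (y * w * y⁻¹) = (y * w * y⁻¹) * (y * (y * w * y⁻¹) * y⁻¹) := hcomm hE hC
    calc a * w * a⁻¹ * (a * (y * (y * w * y⁻¹) * y⁻¹) * a⁻¹) * (a * (y * w * y⁻¹) * a⁻¹)
        = a * (w * ((y * (y * w * y⁻¹) * y⁻¹) * (y * w * y⁻¹))) * a⁻¹ := by group
      _ = a * (w * (y * w * y⁻¹) * (y * (y * w * y⁻¹) * y⁻¹)) * a⁻¹ := by rw [hcm]; group
      _ = 1 := by rw [nw]; group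
  have hPap : ∀ (n : ℕ) {w : Γ}, P w → P (a ^ n * w * (a ^ n)⁻¹) := by
    intro n
    induction n with
    | zero => intro w hw; simpa using hw
    | succ n ih =>
      intro w hw
      have := ih (hPa hw)
      have e : a ^ (n + 1) * w * (a ^ (n + 1))⁻¹ = a ^ n * (a * w * a⁻¹) * (a ^ n)⁻¹ := by
        rw [pow_succ]; group
      rw [e]; exact this
  -- a nontrivial element of P
  obtain ⟨z₀, hz₀, hz₀ne⟩ := hy
  have hP0 : P (z₀ * (y * z₀ * y⁻¹)) := by
    have hz1 := hc (g := y) hz₀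
    have hz2 := hc (g := y) hz1
    refine ⟨mul_mem hz₀ hz1, ?_⟩
    have e1 : y * (z₀ * (y * z₀ * y⁻¹)) * y⁻¹ = (y * z₀ * y⁻¹) * (y * (y * z₀ * y⁻¹) * y⁻¹) := by group
    have e2 : y * ((y * z₀ * y⁻¹) * (y * (y * z₀ * y⁻¹) * y⁻¹)) * y⁻¹ =
        (y * (y * z₀ * y⁻¹) * y⁻¹) * (y * (y * (y * z₀ * y⁻¹) * y⁻¹) * y⁻¹) := by group
    rw [e1, e2, hy3 z₀ hz₀]
    have h1 := hZe _ hz1
    have h2 := hZe _ hz2
    have h0 := hZe _ hz₀
    calc z₀ * (y * z₀ * y⁻¹) * ((y * z₀ * y⁻¹) * (y * (y * z₀ * y⁻¹) * y⁻¹)) * ((y * (y * z₀ * y⁻¹) * y⁻¹) * z₀)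
        = z₀ * ((y * z₀ * y⁻¹) * (y * z₀ * y⁻¹)) * ((y * (y * z₀ * y⁻¹) * y⁻¹) * (y * (y * z₀ * y⁻¹) * y⁻¹)) * z₀ := by group
      _ = 1 := by rw [h1, h2]; simpa using h0
  have hP0ne : z₀ * (y * z₀ * y⁻¹) ≠ 1 := by
    intro h
    apply hz₀ne
    have : y * z₀ * y⁻¹ = z₀⁻¹ := eq_inv_of_mul_eq_one_right h
    rw [this, hinv hz₀]
  -- doubling
  have hfix : ∀ (m : ℕ) (v : Γ), P v → v ≠ 1 → a ^ 2 ^ m * v * (a ^ 2 ^ m)⁻¹ = v →
      ∃ w, P w ∧ w ≠ 1 ∧ a * w * a⁻¹ = w := by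
    intro m
    induction m with
    | zero =>
      intro v hv hv1 hvf
      exact ⟨v, hv, hv1, by simpa using hvf⟩
    | succ m ih =>
      intro v hv hv1 hvf
      by_cases hb : a ^ 2 ^ m * v * (a ^ 2 ^ m)⁻¹ = v
      · exact ih v hv hv1 hb
      · set b := a ^ 2 ^ m with hbdef
        have hb2 : a ^ 2 ^ (m + 1) = b * b := by rw [hbdef, ← pow_add]; congr 1; rw [pow_succ]; ring
        rw [hb2] at hvf
        have hPb : P (b * v * b⁻¹) := hPap _ hv
        refine ih (v * (b * v * b⁻¹)) (hPmul hv hPb) ?_ ?_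
        · intro h
          apply hb
          have : b * v * b⁻¹ = v⁻¹ := eq_inv_of_mul_eq_one_right h
          rw [this, hinv hv.1]
        · have e : b * (v * (b * v * b⁻¹)) * b⁻¹ = (b * v * b⁻¹) * (b * b * v * (b * b)⁻¹) := by group
          rw [e, hvf]
          exact hcomm hPb.1 hv.1
  obtain ⟨v, hv, hv1, hva⟩ := hfix s _ hP0 hP0ne (by rw [has]; simp)
  obtain ⟨hvZ, hvN⟩ := hv
  have hwZ := hc (g := y) hvZ
  have hw2Z := hc (g := y) hwZ
  refine Cfsg.Agent.Lib.LQd.involves_s4_of_plane v (y * v * y⁻¹) y a (hZe _ hvZ) (hZe _ hwZ) (hcomm hvZ hwZ) hv1 ?_ ?_ rfl ?_ hva ?_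
  · intro h
    apply hv1
    have : y * v * y⁻¹ = 1 := h
    have hvv : v = 1 := by
      have h2 : y * v * y⁻¹ * y⁻¹ = y⁻¹ := by rw [this]; simp
      have h3 : v = y⁻¹ * y := by
        calc v = y⁻¹ * (y * v * y⁻¹) * y := by group
          _ = y⁻¹ * y := by rw [this]; simp
      simpa using h3
    exact hvv
  · intro h
    apply hv1
    have e1 : y * v * y⁻¹ = v := h.symm
    rw [e1, e1] at hvN
    have := hZe _ hvZ
    rw [this] at hvN
    simpa using hvN
  · have h1 : (v * (y * v * y⁻¹)) * (y * (y * v * y⁻¹) * y⁻¹) = 1 := hvN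
    have h2 : y * (y * v * y⁻¹) * y⁻¹ = (v * (y * v * y⁻¹))⁻¹ := eq_inv_of_mul_eq_one_right h1
    rw [h2, hinv (mul_mem hvZ hwZ)]
  · have h1 : y⁻¹ * v * y = y * (y * v * y⁻¹) * y⁻¹ := by
      have := hy3 v hvZ
      calc y⁻¹ * v * y = y⁻¹ * (y * (y * (y * v * y⁻¹) * y⁻¹) * y⁻¹) * y := by rw [this]
        _ = _ := by group
    have h2 : (v * (y * v * y⁻¹)) * (y * (y * v * y⁻¹) * y⁻¹) = 1 := hvN
    have h3 : y * (y * v * y⁻¹) * y⁻¹ = (v * (y * v * y⁻¹))⁻¹ := eq_inv_of_mul_eq_one_right h2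
    have h4 : a * (y * v * y⁻¹) * a⁻¹ = (a * y * a⁻¹) * (a * v * a⁻¹) * (a * y * a⁻¹)⁻¹ := by group
    rw [h4, hay, hva, inv_inv, h1, h3, hinv (mul_mem hvZ hwZ)]

end planeSec

theorem chain_lemma : ∀ (n : ℕ) (Γ : Type u) [Group Γ] [Finite Γ], Nat.card Γ ≤ n → ∀ (T : Subgroup Γ), T.Normal →
    IsPGroup 2 T → ∀ (x a : Γ) (k s : ℕ), x ^ 3 ^ k = 1 → a ^ 2 ^ s = 1 → a * x * a⁻¹ = x⁻¹ →
    (∃ t ∈ T, x * t ≠ t * x) → Cfsg.Involves (Equiv.Perm (Fin 4)) Γ := by
  intro n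
  induction n with
  | zero =>
    intro Γ _ _ h
    exact absurd h (by have := Nat.card_pos (α := Γ); omega)
  | succ n ih =>
    intro Γ _ _ hcard T hTn hT x a k s hxk has hax hxT
    classical
    haveI : Fact (Nat.Prime 2) := ⟨Nat.prime_two⟩
    let Z : Subgroup Γ :=
      { carrier := {z | z ∈ T ∧ (∀ t ∈ T, z * t = t * z) ∧ z * z = 1}
        mul_mem' := by
          rintro u v ⟨hu, cu, su⟩ ⟨hv, cv, sv⟩
          refine ⟨mul_mem hu hv, ?_, ?_⟩
          · intro t ht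
            rw [mul_assoc, cv t ht, ← mul_assoc, cu t ht, mul_assoc]
          · calc u * v * (u * v) = u * (v * u) * v := by group
              _ = u * (u * v) * v := by rw [cv u hu]
              _ = (u * u) * (v * v) := by group
              _ = 1 := by rw [su, sv]; simp
        one_mem' := ⟨one_mem _, by simp, by simp⟩
        inv_mem' := by
          rintro u ⟨hu, cu, su⟩
          have : u⁻¹ = u := inv_eq_of_mul_eq_one_left su
          show u⁻¹ ∈ T ∧ (∀ t ∈ T, u⁻¹ * t = t * u⁻¹) ∧ u⁻¹ * u⁻¹ = 1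
          rw [this]
          exact ⟨hu, cu, su⟩ }
    have hZmem : ∀ z, z ∈ Z ↔ z ∈ T ∧ (∀ t ∈ T, z * t = t * z) ∧ z * z = 1 := fun _ => Iff.rfl
    have hZn : Z.Normal := by
      constructor
      rintro u ⟨hu, cu, su⟩ g
      refine ⟨hTn.conj_mem u hu g, ?_, ?_⟩
      · intro t ht
        have h1 : g⁻¹ * t * g ∈ T := by
          have := hTn.conj_mem t ht g⁻¹
          simpa using this
        have h2 := cu _ h1
        calc g * u * g⁻¹ * t = g * (u * (g⁻¹ * t * g)) * g⁻¹ := by group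
          _ = g * ((g⁻¹ * t * g) * u) * g⁻¹ := by rw [h2]
          _ = t * (g * u * g⁻¹) := by group
      · calc g * u * g⁻¹ * (g * u * g⁻¹) = g * (u * u) * g⁻¹ := by group
          _ = 1 := by rw [su]; simp
    -- Z nontrivial
    obtain ⟨t₀, ht₀, ht₀x⟩ := hxT
    have hZne : ∃ z ∈ Z, z ≠ 1 := by
      have hnt : Nontrivial T := by
        refine ⟨⟨⟨t₀, ht₀⟩, 1, ?_⟩⟩
        intro h
        have h1 : t₀ = 1 := congrArg Subtype.val h
        apply ht₀x
        rw [h1]; simp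
      have hnc : Nontrivial (Subgroup.center T) := hT.center_nontrivial
      have hdv : 2 ∣ Nat.card (Subgroup.center T) := by
        rcases (hT.to_subgroup (Subgroup.center T)).card_eq_or_dvd with h | h
        · exact absurd h (ne_of_gt Finite.one_lt_card)
        · exact h
      obtain ⟨c, hc⟩ := exists_prime_orderOf_dvd_card' 2 hdv
      have hc2 : c ^ 2 = 1 := by rw [← hc]; exact pow_orderOf_eq_one c
      have hc1 : c ≠ 1 := by
        intro h
        rw [h, orderOf_one] at hc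
        omega
      refine ⟨((c : T) : Γ), ⟨(c : T).2, ?_, ?_⟩, ?_⟩
      · intro t ht
        have := (Subgroup.mem_center_iff.1 c.2) ⟨t, ht⟩
        exact (congrArg Subtype.val this).symm
      · have : ((c : T) : Γ) ^ 2 = 1 := by
          have := congrArg (fun w : Subgroup.center T => ((w : T) : Γ)) hc2
          simpa using this
        rw [← pow_two]; exact this
      · intro h
        apply hc1
        exact Subtype.ext (Subtype.ext h)
    by_cases hxZ : ∃ z ∈ Z, x * z * x⁻¹ ≠ z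
    · -- direct case
      have hex : ∃ j : ℕ, ∀ z ∈ Z, x ^ 3 ^ j * z * (x ^ 3 ^ j)⁻¹ = z := ⟨k, by intro z _; rw [hxk]; simp⟩
      let j₀ := Nat.find hex
      have hj₀ : ∀ z ∈ Z, x ^ 3 ^ j₀ * z * (x ^ 3 ^ j₀)⁻¹ = z := Nat.find_spec hex
      have hj₀0 : j₀ ≠ 0 := by
        intro h
        obtain ⟨z, hz, hzne⟩ := hxZ
        have := hj₀ z hz
        rw [h] at this
        simp at this
        exact hzne this
      obtain ⟨i, hi⟩ := Nat.exists_eq_succ_of_ne_zero hj₀0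
      have hmin : ¬ ∀ z ∈ Z, x ^ 3 ^ i * z * (x ^ 3 ^ i)⁻¹ = z :=
        Nat.find_min hex (m := i) (by show i < Nat.find hex; omega)
      push Not at hmin
      obtain ⟨z₁, hz₁, hz₁ne⟩ := hmin
      set y := x ^ 3 ^ i with hy
      have hy3' : y * y * y = x ^ 3 ^ j₀ := by
        rw [hi, hy, pow_succ 3 i, pow_mul]
        group
      have hay : a * y * a⁻¹ = y⁻¹ := by
        rw [hy, ← conj_pow, hax, inv_pow]
      refine plane_lemma Z hZn (fun z hz => hz.2.2) y a s has hay ?_ ⟨z₁, hz₁, hz₁ne⟩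
      intro z hz
      have := hj₀ z hz
      rw [← hy3'] at this
      calc y * (y * (y * z * y⁻¹) * y⁻¹) * y⁻¹ = y * y * y * z * (y * y * y)⁻¹ := by group
        _ = z := this
    · push Not at hxZ
      obtain ⟨z₁, hz₁, hz₁ne⟩ := hZne
      have hcardlt : Nat.card (Γ ⧸ Z) ≤ n := by
        have h1 := Subgroup.card_eq_card_quotient_mul_card_subgroup Z
        have h2 : 1 < Nat.card Z := by
          haveI : Nontrivial Z := ⟨⟨⟨z₁, hz₁⟩, 1, fun h => hz₁ne (congrArg Subtype.val h)⟩⟩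
          exact Finite.one_lt_card
        have h3 : 0 < Nat.card (Γ ⧸ Z) := Nat.card_pos
        have h4 : Nat.card (Γ ⧸ Z) < Nat.card Γ := by
          rw [h1]
          nlinarith
        omega
      haveI := hZn
      have := ih (Γ ⧸ Z) hcardlt (T.map (QuotientGroup.mk' Z))
        (hTn.map _ (QuotientGroup.mk'_surjective Z)) (hT.map _) (QuotientGroup.mk' Z x) (QuotientGroup.mk' Z a) k s
        (by rw [← map_pow, hxk, map_one]) (by rw [← map_pow, has, map_one])
        (by rw [← map_mul, ← map_inv, ← map_mul, hax, map_inv]) ?_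
      · exact Cfsg.Agent.Lib.FusSubModel.involves_of_surjective (QuotientGroup.mk' Z) (QuotientGroup.mk'_surjective Z) this
      · by_contra hcon
        push Not at hcon
        apply ht₀x
        have hm : (QuotientGroup.mk' Z (x * t₀) : Γ ⧸ Z) = QuotientGroup.mk' Z (t₀ * x) := by
          rw [map_mul, map_mul]
          exact hcon _ ⟨t₀, ht₀, rfl⟩
        have hzz : (x * t₀)⁻¹ * (t₀ * x) ∈ Z := by
          exact QuotientGroup.eq.1 hm
        set z := (x * t₀)⁻¹ * (t₀ * x) with hzdef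
        -- t₀ * x = x * t₀ * z
        have e0 : t₀ * x = x * t₀ * z := by rw [hzdef]; group
        have hxz : x * z = z * x := by
          have := hxZ z hzz
          calc x * z = (x * z * x⁻¹) * x := by group
            _ = z * x := by rw [this]
        have hzt : t₀ * z = z * t₀ := (hzz.2.1 t₀ ht₀).symm
        have hpow : ∀ m : ℕ, t₀ * x ^ m = x ^ m * t₀ * z ^ m := by
          intro m
          induction m with
          | zero => simp
          | succ m ihm =>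
            calc t₀ * x ^ (m + 1) = (t₀ * x ^ m) * x := by rw [pow_succ]; group
              _ = x ^ m * t₀ * z ^ m * x := by rw [ihm]
              _ = x ^ m * t₀ * (z ^ m * x) := by group
              _ = x ^ m * t₀ * (x * z ^ m) := by
                  rw [((Commute.pow_left (show Commute z x from hxz.symm) m).eq)]
              _ = x ^ m * (t₀ * x) * z ^ m := by group
              _ = x ^ m * (x * t₀ * z) * z ^ m := by rw [e0]
              _ = x ^ (m + 1) * t₀ * z ^ (m + 1) := by rw [pow_succ x m, pow_succ' z m]; group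
        have h3k := hpow (3 ^ k)
        rw [hxk] at h3k
        simp at h3k
        have hodd : Odd (3 ^ k) := Odd.pow (by decide)
        obtain ⟨r, hr⟩ := hodd
        have hz2 : z * z = 1 := hzz.2.2
        have hzz1 : z = 1 := by
          rw [hr, pow_succ, pow_mul, pow_two, hz2] at h3k
          simpa using h3k
        rw [hzz1, mul_one] at e0
        exact e0.symm

theorem s3a : ∀ τ c : Equiv.Perm (Fin 3), Equiv.Perm.sign τ = -1 → Equiv.Perm.sign c = 1 → c ≠ 1 →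
    c⁻¹ * (τ * c * τ⁻¹) ≠ 1 := by decide +kernel

theorem s3b : ∀ τ : Equiv.Perm (Fin 3), Equiv.Perm.sign τ = -1 → τ * τ = 1 := by decide +kernel

theorem s3c : ∀ c : Equiv.Perm (Fin 3), Equiv.Perm.sign c = 1 → c ^ 3 = 1 := by decide +kernel

theorem s3d : ∀ c : Equiv.Perm (Fin 3), c ^ 3 = 1 → c ≠ 1 → c ^ 2 ≠ 1 := by decide +kernel

theorem s3e : ∃ c : Equiv.Perm (Fin 3), Equiv.Perm.sign c = 1 ∧ c ≠ 1 := by decide +kernel

theorem s3f : ∃ c : Equiv.Perm (Fin 3), Equiv.Perm.sign c = -1 := by decide +kernel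

theorem inv_pair {H : Type*} [Group H] [Finite H] (ρ : H →* Equiv.Perm (Fin 3)) (hρ : Function.Surjective ρ) :
    ∃ (x a : H) (k s : ℕ), x ^ 3 ^ k = 1 ∧ a ^ 2 ^ s = 1 ∧ a * x * a⁻¹ = x⁻¹ ∧ ρ x ≠ 1 := by
  classical
  haveI h3f : Fact (Nat.Prime 3) := ⟨Nat.prime_three⟩
  haveI h2f : Fact (Nat.Prime 2) := ⟨Nat.prime_two⟩
  let sg : H →* ℤˣ := Equiv.Perm.sign.comp ρ
  have hsg : ∀ h, sg h = Equiv.Perm.sign (ρ h) := fun _ => rfl
  let L : Subgroup H := sg.ker
  have hLn : L.Normal := MonoidHom.normal_ker _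
  obtain ⟨c, hcs, hc1⟩ := s3e
  obtain ⟨g₃, hg₃⟩ := hρ c
  obtain ⟨i, m, hm, hord⟩ := Nat.exists_eq_pow_mul_and_not_dvd (orderOf_pos g₃).ne' 3 (by norm_num)
  set q₀ := g₃ ^ m with hq₀
  have hq₀3 : q₀ ^ 3 ^ i = 1 := by
    rw [hq₀, ← pow_mul, mul_comm, ← hord, pow_orderOf_eq_one]
  have hc3 := s3c c hcs
  have hρq : ρ q₀ ≠ 1 := by
    rw [hq₀, map_pow, hg₃]
    have hmod : m % 3 = 1 ∨ m % 3 = 2 := by omega
    have e : c ^ m = c ^ (m % 3) := by
      conv_lhs => rw [← Nat.div_add_mod m 3, pow_add, pow_mul, hc3, one_pow, one_mul]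
    rw [e]
    rcases hmod with h | h <;> rw [h]
    · simpa using hc1
    · exact s3d c hc3 hc1
  have hq₀s : Equiv.Perm.sign (ρ q₀) = 1 := by
    rw [hq₀, map_pow, map_pow, hg₃, hcs, one_pow]
  have hq₀L : q₀ ∈ L := by rw [MonoidHom.mem_ker, hsg]; exact hq₀s
  let q₀' : L := ⟨q₀, hq₀L⟩
  have hzp : IsPGroup 3 (Subgroup.zpowers q₀') := by
    rintro ⟨g, hg⟩
    obtain ⟨j, rfl⟩ := Subgroup.mem_zpowers_iff.1 hg
    refine ⟨i, Subtype.ext ?_⟩
    have h1 : q₀' ^ 3 ^ i = 1 := Subtype.ext hq₀3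
    show (q₀' ^ j) ^ 3 ^ i = 1
    rw [← zpow_natCast, ← zpow_mul, mul_comm, zpow_mul, zpow_natCast, h1, one_zpow]
  obtain ⟨Q, hQ⟩ := hzp.exists_le_sylow
  have hq₀Q : q₀' ∈ Q := hQ (Subgroup.mem_zpowers q₀')
  set Q' : Subgroup H := (Q : Subgroup L).map L.subtype with hQ'
  have hq₀Q' : q₀ ∈ Q' := ⟨q₀', hq₀Q, rfl⟩
  have hQ'p : IsPGroup 3 Q' := Q.isPGroup'.map _
  have hQ'L : Q' ≤ L := by
    rintro _ ⟨w, -, rfl⟩
    exact w.2
  have hfr := Sylow.normalizer_sup_eq_top (p := 3) Q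
  have hQmap : (Subgroup.map L.subtype (Q : Subgroup L)) = Q' := rfl
  -- an element of the normalizer with odd sign
  obtain ⟨τ₀, hτ₀⟩ := s3f
  obtain ⟨g₂, hg₂⟩ := hρ τ₀
  have hex : ∃ b ∈ Subgroup.normalizer (Q' : Set H), Equiv.Perm.sign (ρ b) = -1 := by
    by_contra hcon
    push Not at hcon
    have hle : Subgroup.normalizer (Q' : Set H) ≤ L := by
      intro b hb
      rw [MonoidHom.mem_ker, hsg]
      have h1 := hcon b hb
      rcases Int.units_eq_one_or (Equiv.Perm.sign (ρ b)) with h | h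
      · exact h
      · exact absurd h h1
    have htop : (⊤ : Subgroup H) ≤ L := by
      rw [← hfr]
      exact sup_le hle le_rfl
    have h1 : g₂ ∈ L := htop (Subgroup.mem_top _)
    rw [MonoidHom.mem_ker, hsg, hg₂, hτ₀] at h1
    exact absurd h1 (by decide)
  obtain ⟨b, hbN, hbs⟩ := hex
  obtain ⟨s, m', hm', hord'⟩ := Nat.exists_eq_two_pow_mul_odd (orderOf_pos b).ne'
  set a := b ^ m' with ha
  have has : a ^ 2 ^ s = 1 := by
    rw [ha, ← pow_mul, mul_comm, ← hord', pow_orderOf_eq_one]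
  have haN : a ∈ Subgroup.normalizer (Q' : Set H) := pow_mem hbN _
  have has' : Equiv.Perm.sign (ρ a) = -1 := by
    rw [ha, map_pow, map_pow, hbs, hm'.neg_one_pow]
  have hτ2 := s3b _ has'
  set M : Subgroup H := Subgroup.normalizer (Q' : Set H) with hM
  have hQ'M : Q' ≤ M := Subgroup.le_normalizer
  let a' : M := ⟨a, haN⟩
  let t' : M := ⟨q₀, hQ'M hq₀Q'⟩
  let Zm : Subgroup M := (Q' ⊓ ρ.ker).subgroupOf M
  have hZmem : ∀ w : M, w ∈ Zm ↔ (w : H) ∈ Q' ∧ ρ (w : H) = 1 := fun w => by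
    show (w : H) ∈ Q' ⊓ ρ.ker ↔ _
    rw [Subgroup.mem_inf, MonoidHom.mem_ker]
  have hZmn : Zm.Normal := by
    constructor
    intro w hw g
    rw [hZmem] at hw ⊢
    refine ⟨?_, ?_⟩
    · have := (Subgroup.mem_normalizer_iff.1 g.2 (w : H)).1 hw.1
      simpa using this
    · simp [hw.2]
  have hZmp : IsPGroup 3 Zm := by
    rintro ⟨w, hw⟩
    have h1 := ((hZmem w).1 hw).1
    obtain ⟨j, hj⟩ := hQ'p ⟨(w : H), h1⟩
    refine ⟨j, Subtype.ext (Subtype.ext ?_)⟩
    have h2 := congrArg Subtype.val hj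
    simpa using h2
  have hZodd : Odd (Nat.card Zm) := by
    obtain ⟨n, hn⟩ := IsPGroup.iff_card.1 hZmp
    rw [hn]
    exact Odd.pow (by decide)
  let B : Subgroup M := Subgroup.zpowers (a' * a')
  have hB2 : IsPGroup 2 B := by
    rintro ⟨g, hg⟩
    obtain ⟨j, rfl⟩ := Subgroup.mem_zpowers_iff.1 hg
    refine ⟨s, Subtype.ext ?_⟩
    show ((a' * a') ^ j) ^ 2 ^ s = 1
    have h1 : a' ^ 2 ^ s = 1 := Subtype.ext has
    rw [← zpow_natCast, ← zpow_mul, mul_comm, zpow_mul, zpow_natCast, ← pow_two, ← pow_mul, mul_comm, pow_mul, h1, one_pow, one_zpow]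
  have hBρ : ∀ w ∈ B, ρ ((w : M) : H) = 1 := by
    intro w hw
    obtain ⟨j, rfl⟩ := Subgroup.mem_zpowers_iff.1 hw
    have : ρ ((a' * a' : M) : H) = 1 := by
      show ρ (a * a) = 1
      rw [map_mul]; exact hτ2
    rw [Subgroup.coe_zpow, map_zpow, this, one_zpow]
  obtain ⟨z, hz, hzfix⟩ := Cfsg.Agent.Lib.H9SF.exists_fixed_in_coset Zm hZodd B hB2 t' (by
    intro w hw
    rw [hZmem]
    refine ⟨?_, ?_⟩
    · have h1 : ((w : M) : H) * q₀ * ((w : M) : H)⁻¹ ∈ Q' :=
        (Subgroup.mem_normalizer_iff.1 w.2 q₀).1 hq₀Q'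
      simpa using mul_mem (inv_mem hq₀Q') h1
    · have h1 := hBρ w hw
      simp [t', h1])
  obtain ⟨hzQ, hzρ⟩ := (hZmem z).1 hz
  set q : H := q₀ * (z : H) with hq
  have hqQ : q ∈ Q' := mul_mem hq₀Q' hzQ
  have hρqq : ρ q = ρ q₀ := by rw [hq, map_mul, hzρ, mul_one]
  have hqfix : (a * a) * q * (a * a)⁻¹ = q := by
    have := hzfix (a' * a') (Subgroup.mem_zpowers _)
    exact congrArg Subtype.val this
  have haq : a * q * a⁻¹ ∈ Q' := (Subgroup.mem_normalizer_iff.1 haN q).1 hqQ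
  set x := q⁻¹ * (a * q * a⁻¹) with hx
  have hxQ : x ∈ Q' := mul_mem (inv_mem hqQ) haq
  obtain ⟨k, hk⟩ := hQ'p ⟨x, hxQ⟩
  refine ⟨x, a, k, s, congrArg Subtype.val hk, has, ?_, ?_⟩
  · have e : a * x * a⁻¹ = (a * q * a⁻¹)⁻¹ * ((a * a) * q * (a * a)⁻¹) := by rw [hx]; group
    rw [e, hqfix, hx]; group
  · rw [hx, map_mul, map_mul, map_mul, map_inv, map_inv, hρqq]
    have hs : Equiv.Perm.sign (ρ q₀) = 1 := hq₀s
    exact s3a _ _ has' hs hρq

/-- the map on pairings -/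
def ptF (σ : Equiv.Perm (Fin 4)) (i : Fin 3) : Fin 3 :=
  Fin.ofNat 3 (((σ 0).val ^^^ (σ (Fin.succ i)).val) - 1)

theorem ptF_left : ∀ (σ : Equiv.Perm (Fin 4)) (i : Fin 3), ptF σ⁻¹ (ptF σ i) = i := by decide +kernel

theorem ptF_right : ∀ (σ : Equiv.Perm (Fin 4)) (i : Fin 3), ptF σ (ptF σ⁻¹ i) = i := by decide +kernel

theorem ptF_mul : ∀ (σ τ : Equiv.Perm (Fin 4)) (i : Fin 3), ptF (σ * τ) i = ptF σ (ptF τ i) := by decide +kernel

/-- S₄ onto S₃ -/
def ptH : Equiv.Perm (Fin 4) →* Equiv.Perm (Fin 3) where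
  toFun σ := ⟨ptF σ, ptF σ⁻¹, ptF_left σ, ptF_right σ⟩
  map_one' := by
    ext i
    revert i
    decide +kernel
  map_mul' σ τ := by
    ext i
    exact congrArg Fin.val (ptF_mul σ τ i)

theorem ptH_apply (σ : Equiv.Perm (Fin 4)) (i : Fin 3) : ptH σ i = ptF σ i := rfl

theorem ptH_surj : ∀ τ : Equiv.Perm (Fin 3), ∃ σ : Equiv.Perm (Fin 4), ∀ i, ptF σ i = τ i := by decide +kernel

/-- elements of S₄ centralizing the kernel of ptH are in the kernel -/
theorem ptH_cent : ∀ σ : Equiv.Perm (Fin 4),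
    (∀ v : Equiv.Perm (Fin 4), (∀ i, ptF v i = i) → σ * v = v * σ) → ∀ i, ptF σ i = i := by decide +kernel

theorem ptH_ker_eq : ∀ w v : Equiv.Perm (Fin 4), (∀ i, ptF w i = i) → (∀ i, ptF v i = i) → w * v = v * w := by decide +kernel

theorem ptH_ker_sq : ∀ v : Equiv.Perm (Fin 4), (∀ i, ptF v i = i) → v * v = 1 := by decide +kernel

theorem ptH_conj_pow (w v : Equiv.Perm (Fin 4)) (m : ℕ) (hw : ∀ i, ptF w i = i) (hv : ∀ i, ptF v i = i) (hm : Odd m) :
    w * v ^ m * w⁻¹ = v := by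
  obtain ⟨r, rfl⟩ := hm
  have h2 := ptH_ker_sq v hv
  have e : v ^ (2 * r + 1) = v := by
    rw [pow_succ, pow_mul, pow_two, h2, one_pow, one_mul]
  rw [e, ptH_ker_eq w v hw hv]
  group

set_option maxHeartbeats 1000000

/-- For a finite group G, the symmetric group of degree 4 is involved in G if and only if there is a 2-subgroup T of G such that the symmetric group of degree 3 is involved in N(T)/C(T). -/
theorem result {G : Type*} [Group G] [Finite G] : Cfsg.Involves (Equiv.Perm (Fin 4)) G ↔ ∃ T : Subgroup G, IsPGroup 2 ↥T ∧ Cfsg.Involves (Equiv.Perm (Fin 3)) (↥(Subgroup.normalizer (T : Set G)) ⧸ (Subgroup.centralizer (T : Set G)).subgroupOf (Subgroup.normalizer (T : Set G))) := by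

  classical
  haveI h2f : Fact (Nat.Prime 2) := ⟨Nat.prime_two⟩
  constructor
  · intro hinv
    obtain ⟨K, π, hπ⟩ := Cfsg.Agent.Lib.FusSubModel.involves_iff.1 hinv
    let φ : K →* Equiv.Perm (Fin 3) := ptH.comp π
    let V : Subgroup K := φ.ker
    have hVn : V.Normal := MonoidHom.normal_ker _
    let T₀ : Sylow 2 V := Classical.arbitrary _
    have hfr := Sylow.normalizer_sup_eq_top (p := 2) T₀
    let T' : Subgroup K := (T₀ : Subgroup V).map V.subtype
    have hT'p : IsPGroup 2 T' := T₀.isPGroup'.map _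
    have hT'V : T' ≤ V := by
      rintro _ ⟨w, -, rfl⟩
      exact w.2
    let X : Subgroup K := Subgroup.normalizer (T' : Set K)
    have hφX : ∀ σ : Equiv.Perm (Fin 3), ∃ n ∈ X, φ n = σ := by
      intro σ
      obtain ⟨s₄, hs₄⟩ := ptH_surj σ
      obtain ⟨g, hg⟩ := hπ s₄
      have hgt : g ∈ ((X ⊔ V : Subgroup K) : Set K) := by
        have : X ⊔ V = ⊤ := hfr
        rw [this]; exact Subgroup.mem_top _
      rw [Subgroup.mul_normal] at hgt
      obtain ⟨n, hn, v, hv, rfl⟩ := Set.mem_mul.1 hgt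
      refine ⟨n, hn, ?_⟩
      have hv1 : φ v = 1 := hv
      have : φ (n * v) = σ := by
        show ptH (π (n * v)) = σ
        rw [hg]
        ext i
        exact congrArg Fin.val (hs₄ i)
      rw [map_mul, hv1, mul_one] at this
      exact this
    -- image of T' is the whole kernel of ptH
    have himg : ∀ v, (∀ i, ptF v i = i) → ∃ t ∈ T', π t = v := by
      intro v hv
      obtain ⟨g, hg⟩ := hπ v
      have hgV : g ∈ V := by
        show ptH (π g) = 1
        rw [hg]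
        ext i
        exact congrArg Fin.val (hv i)
      obtain ⟨s, m, hm, hord⟩ := Nat.exists_eq_two_pow_mul_odd (orderOf_pos g).ne'
      let g₂ : V := ⟨g ^ m, pow_mem hgV m⟩
      have hg₂ : g₂ ^ 2 ^ s = 1 := by
        apply Subtype.ext
        show (g ^ m) ^ 2 ^ s = 1
        rw [← pow_mul, mul_comm, ← hord, pow_orderOf_eq_one]
      have hzp : IsPGroup 2 (Subgroup.zpowers g₂) := by
        rintro ⟨w, hw⟩
        obtain ⟨j, rfl⟩ := Subgroup.mem_zpowers_iff.1 hw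
        refine ⟨s, Subtype.ext ?_⟩
        show (g₂ ^ j) ^ 2 ^ s = 1
        rw [← zpow_natCast, ← zpow_mul, mul_comm, zpow_mul, zpow_natCast, hg₂, one_zpow]
      obtain ⟨S₁, hS₁⟩ := hzp.exists_le_sylow
      have hg₂S : g₂ ∈ S₁ := hS₁ (Subgroup.mem_zpowers g₂)
      obtain ⟨u, hu⟩ := MulAction.exists_smul_eq V S₁ T₀
      have hmem : u * g₂ * u⁻¹ ∈ T₀ := by
        rw [← hu]
        refine (Cfsg.Agent.Lib.FGSBasic.mem_smul_sylow_iff _ _ _).2 ?_
        have e : u⁻¹ * (u * g₂ * u⁻¹) * u = g₂ := by group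
        rw [e]
        exact hg₂S
      refine ⟨_, ⟨_, hmem, rfl⟩, ?_⟩
      have hu2 : ∀ i, ptF (π (u : K)) i = i := by
        intro i
        have h1 : φ (u : K) = 1 := u.2
        have := congrArg (fun g : Equiv.Perm (Fin 3) => g i) h1
        exact Fin.ext (by simpa [φ, ptH_apply] using congrArg Fin.val this)
      show π ((u : K) * (g ^ m) * (u : K)⁻¹) = v
      rw [map_mul, map_mul, map_inv, map_pow, hg, ptH_conj_pow (π (u : K)) v m hu2 hv hm]
    let T : Subgroup G := T'.map K.subtype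
    have hTp : IsPGroup 2 T := hT'p.map _
    refine ⟨T, hTp, ?_⟩
    let N : Subgroup G := Subgroup.normalizer (T : Set G)
    let C' : Subgroup N := (Subgroup.centralizer (T : Set G)).subgroupOf N
    have hXN : ∀ n : X, ((n : K) : G) ∈ N := by
      intro n
      rw [Subgroup.mem_normalizer_iff]
      intro h
      constructor
      · rintro ⟨t, ht, rfl⟩
        exact ⟨(n : K) * t * (n : K)⁻¹, (Subgroup.mem_normalizer_iff.1 n.2 t).1 ht, rfl⟩
      · rintro ⟨t, ht, hth⟩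
        have hh : h = (((n : K)⁻¹ * t * (n : K) : K) : G) := by
          have : (t : G) = ((n : K) : G) * h * ((n : K) : G)⁻¹ := hth
          push_cast
          rw [this]
          group
        have h2 : (n : K)⁻¹ * t * (n : K) ∈ T' := by
          have := (Subgroup.mem_normalizer_iff.1 n.2 ((n : K)⁻¹ * t * (n : K))).2 (by
            have e : (n : K) * ((n : K)⁻¹ * t * (n : K)) * (n : K)⁻¹ = t := by group
            rw [e]; exact ht)
          exact this
        exact ⟨_, h2, hh.symm⟩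
    let j₀ : X →* N :=
      { toFun := fun n => ⟨((n : K) : G), hXN n⟩
        map_one' := rfl
        map_mul' := fun _ _ => rfl }
    let j : X →* N ⧸ C' := (QuotientGroup.mk' C').comp j₀
    let f : X →* Equiv.Perm (Fin 3) := φ.comp X.subtype
    have hker : j.ker ≤ f.ker := by
      intro n hn
      have h1 : j₀ n ∈ C' := (QuotientGroup.eq_one_iff _).1 hn
      have h2 : ((n : K) : G) ∈ Subgroup.centralizer (T : Set G) := h1
      rw [Subgroup.mem_centralizer_iff] at h2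
      have h3 : ∀ v : Equiv.Perm (Fin 4), (∀ i, ptF v i = i) → π (n : K) * v = v * π (n : K) := by
        intro v hv
        obtain ⟨t, ht, rfl⟩ := himg v hv
        have h4 := h2 (t : G) ⟨t, ht, rfl⟩
        have h5 : t * (n : K) = (n : K) * t := Subtype.ext h4
        rw [← map_mul, ← map_mul, h5]
      have h6 := ptH_cent _ h3
      show ptH (π (n : K)) = 1
      ext i
      exact congrArg Fin.val (h6 i)
    have h1 : Cfsg.Involves (Equiv.Perm (Fin 3)) (X ⧸ j.ker) :=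
      Cfsg.Agent.Lib.FusSubModel.involves_iff.2 ⟨⊤, (QuotientGroup.lift j.ker f hker).comp (⊤ : Subgroup (X ⧸ j.ker)).subtype, fun σ => by
        obtain ⟨n, hn, hnσ⟩ := hφX σ
        exact ⟨⟨QuotientGroup.mk ⟨n, hn⟩, Subgroup.mem_top _⟩, hnσ⟩⟩
    exact Cfsg.Agent.Lib.FusSubModel.involves_of_injective (QuotientGroup.kerLift j) (QuotientGroup.kerLift_injective j) h1
  · rintro ⟨T, hT, hinv⟩
    obtain ⟨K, π, hπ⟩ := Cfsg.Agent.Lib.FusSubModel.involves_iff.1 hinv
    let N : Subgroup G := Subgroup.normalizer (T : Set G)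
    let C' : Subgroup N := (Subgroup.centralizer (T : Set G)).subgroupOf N
    let mk0 : N →* N ⧸ C' := QuotientGroup.mk' C'
    let Hh : Subgroup N := K.comap mk0
    let r : Hh →* K := (mk0.comp Hh.subtype).codRestrict K (fun x => x.2)
    let ρ : Hh →* Equiv.Perm (Fin 3) := π.comp r
    have hρ : Function.Surjective ρ := by
      refine hπ.comp ?_
      rintro ⟨y, hy⟩
      obtain ⟨x, rfl⟩ := QuotientGroup.mk'_surjective C' y
      exact ⟨⟨x, hy⟩, rfl⟩
    obtain ⟨x, a, k, s, hxk, has, hax, hx1⟩ := inv_pair ρ hρ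
    have hcomm : ∃ t ∈ T.subgroupOf N, (x : N) * t ≠ t * (x : N) := by
      by_contra hcon
      push Not at hcon
      apply hx1
      have hxC : (x : N) ∈ C' := by
        show ((x : N) : G) ∈ Subgroup.centralizer (T : Set G)
        rw [Subgroup.mem_centralizer_iff]
        intro t ht
        have h1 := hcon ⟨t, Subgroup.le_normalizer ht⟩ ht
        exact (congrArg Subtype.val h1).symm
      have h2 : r x = 1 := by
        apply Subtype.ext
        show mk0 (x : N) = 1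
        exact (QuotientGroup.eq_one_iff _).2 hxC
      show π (r x) = 1
      rw [h2, map_one]
    have hTn : (T.subgroupOf N).Normal := Subgroup.normal_in_normalizer
    have hTp : IsPGroup 2 (T.subgroupOf N) := hT.comap_of_injective N.subtype N.subtype_injective
    have := chain_lemma _ N le_rfl (T.subgroupOf N) hTn hTp (x : N) (a : N) k s
      (by simpa using congrArg Subtype.val hxk) (by simpa using congrArg Subtype.val has)
      (by simpa using congrArg Subtype.val hax) hcomm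
    exact Cfsg.Agent.Lib.FusSubModel.involves_of_le this

end Cfsg.Agent.S2759
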