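import Cfsg.Statements.S2762
import Cfsg.Agent.Lib.LdNat
import Cfsg.Agent.Lib.H1Core

set_option autoImplicit false
open Cfsg

namespace Cfsg.Agent.S2762

open Subgroup Matrix Cfsg.Agent.Lib.LdNat Cfsg.Agent.Lib.H1GL2 Cfsg.Agent.Lib.H1SL2 Cfsg.Agent.Lib.H1Core

variable {F : Type*} [Field F]

abbrev SL3 (F : Type*) [Field F] := Matrix.SpecialLinearGroup (Fin 3) F

/-- matrix entry -/
abbrev e (M : SL3 F) (i j : Fin 3) : F := (M : Matrix (Fin 3) (Fin 3) F) i j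

theorem e_mul (M N : SL3 F) (i j : Fin 3) :
    e (M * N) i j = e M i 0 * e N 0 j + e M i 1 * e N 1 j + e M i 2 * e N 2 j := by
  simp [e, Matrix.mul_apply, Fin.sum_univ_three]

theorem e_one_00 : e (1 : SL3 F) 0 0 = 1 := by simp [e]
theorem e_one_01 : e (1 : SL3 F) 0 1 = 0 := by simp [e]
theorem e_one_02 : e (1 : SL3 F) 0 2 = 0 := by simp [e]
theorem e_one_10 : e (1 : SL3 F) 1 0 = 0 := by simp [e]
theorem e_one_11 : e (1 : SL3 F) 1 1 = 1 := by simp [e]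
theorem e_one_12 : e (1 : SL3 F) 1 2 = 0 := by simp [e]
theorem e_one_20 : e (1 : SL3 F) 2 0 = 0 := by simp [e]
theorem e_one_21 : e (1 : SL3 F) 2 1 = 0 := by simp [e]
theorem e_one_22 : e (1 : SL3 F) 2 2 = 1 := by simp [e]

theorem det3 (M : SL3 F) (h0 : e M 2 0 = 0) (h1 : e M 2 1 = 0) (h2 : e M 2 2 = 1) :
    e M 0 0 * e M 1 1 - e M 0 1 * e M 1 0 = 1 := by
  have h := M.2
  rw [Matrix.det_fin_three] at h
  simp only [e] at *
  rw [h0, h1, h2] at h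
  linear_combination h

/-- the subgroup with last row `(0,0,1)` -/
def Qs (F : Type*) [Field F] : Subgroup (SL3 F) where
  carrier := {M | e M 2 0 = 0 ∧ e M 2 1 = 0 ∧ e M 2 2 = 1}
  mul_mem' := by
    rintro M N ⟨h0, h1, h2⟩ ⟨k0, k1, k2⟩
    refine ⟨?_, ?_, ?_⟩ <;> simp only [e_mul, h0, h1, h2, k0, k1, k2] <;> ring
  one_mem' := ⟨e_one_20, e_one_21, e_one_22⟩
  inv_mem' := by
    rintro M ⟨h0, h1, h2⟩
    have hm : M * M⁻¹ = 1 := mul_inv_cancel M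
    have key : ∀ j, e M⁻¹ 2 j = e (1 : SL3 F) 2 j := by
      intro j
      rw [← hm, e_mul, h0, h1, h2]
      ring
    exact ⟨(key 0).trans e_one_20, (key 1).trans e_one_21, (key 2).trans e_one_22⟩

theorem qdOver_eq : Cfsg.qdOver F = Qs F := by
  apply le_antisymm
  · rw [Cfsg.qdOver, Subgroup.closure_le]
    rintro M ⟨h0, h1, h2⟩
    exact ⟨h0, h1, h2⟩
  · intro M hM
    exact Subgroup.subset_closure hM


section main

theorem Qs_ext {M N : ↥(Qs F)} (h00 : e M.1 0 0 = e N.1 0 0) (h01 : e M.1 0 1 = e N.1 0 1)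
    (h02 : e M.1 0 2 = e N.1 0 2) (h10 : e M.1 1 0 = e N.1 1 0) (h11 : e M.1 1 1 = e N.1 1 1)
    (h12 : e M.1 1 2 = e N.1 1 2) : M = N := by
  apply Subtype.ext
  apply Subtype.ext
  ext i j
  fin_cases i <;> fin_cases j
  · exact h00
  · exact h01
  · exact h02
  · exact h10
  · exact h11
  · exact h12
  · exact M.2.1.trans N.2.1.symm
  · exact M.2.2.1.trans N.2.2.1.symm
  · exact M.2.2.2.trans N.2.2.2.symm

theorem Qe (M N : ↥(Qs F)) (i : Fin 3) (j : Fin 3) :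
    e (M * N).1 i j = e M.1 i 0 * e N.1 0 j + e M.1 i 1 * e N.1 1 j + e M.1 i 2 * e N.1 2 j :=
  e_mul _ _ _ _

/-- the projection to `SL₂` -/
def pj : ↥(Qs F) →* SL2 F where
  toFun M := mk (e M.1 0 0) (e M.1 0 1) (e M.1 1 0) (e M.1 1 1) (det3 M.1 M.2.1 M.2.2.1 M.2.2.2)
  map_one' := sl_ext (by simp [e_one_00]) (by simp [e_one_01]) (by simp [e_one_10]) (by simp [e_one_11])
  map_mul' M N := by
    have h0 := N.2.1
    have h1 := N.2.2.1
    apply sl_ext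
    · rw [sl_mul00]
      show e (M.1 * N.1) 0 0 = e M.1 0 0 * e N.1 0 0 + e M.1 0 1 * e N.1 1 0
      rw [e_mul, h0]
      ring
    · rw [sl_mul01]
      show e (M.1 * N.1) 0 1 = e M.1 0 0 * e N.1 0 1 + e M.1 0 1 * e N.1 1 1
      rw [e_mul, h1]
      ring
    · rw [sl_mul10]
      show e (M.1 * N.1) 1 0 = e M.1 1 0 * e N.1 0 0 + e M.1 1 1 * e N.1 1 0
      rw [e_mul, h0]
      ring
    · rw [sl_mul11]
      show e (M.1 * N.1) 1 1 = e M.1 1 0 * e N.1 0 1 + e M.1 1 1 * e N.1 1 1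
      rw [e_mul, h1]
      ring

@[simp] theorem pj00 (M : ↥(Qs F)) : ((pj M : SL2 F) : M2 F) 0 0 = e M.1 0 0 := rfl
@[simp] theorem pj01 (M : ↥(Qs F)) : ((pj M : SL2 F) : M2 F) 0 1 = e M.1 0 1 := rfl
@[simp] theorem pj10 (M : ↥(Qs F)) : ((pj M : SL2 F) : M2 F) 1 0 = e M.1 1 0 := rfl
@[simp] theorem pj11 (M : ↥(Qs F)) : ((pj M : SL2 F) : M2 F) 1 1 = e M.1 1 1 := rfl

/-- the block-diagonal section -/
def sec (g : SL2 F) : ↥(Qs F) :=
  ⟨⟨!![(g : M2 F) 0 0, (g : M2 F) 0 1, 0; (g : M2 F) 1 0, (g : M2 F) 1 1, 0; 0, 0, 1], by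
      rw [Matrix.det_fin_three]
      have := sl_det g
      simp
      linear_combination this⟩, by
      refine ⟨rfl, rfl, rfl⟩⟩

@[simp] theorem sec00 (g : SL2 F) : e (sec g).1 0 0 = (g : M2 F) 0 0 := rfl
@[simp] theorem sec01 (g : SL2 F) : e (sec g).1 0 1 = (g : M2 F) 0 1 := rfl
@[simp] theorem sec02 (g : SL2 F) : e (sec g).1 0 2 = 0 := rfl
@[simp] theorem sec10 (g : SL2 F) : e (sec g).1 1 0 = (g : M2 F) 1 0 := rfl
@[simp] theorem sec11 (g : SL2 F) : e (sec g).1 1 1 = (g : M2 F) 1 1 := rfl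
@[simp] theorem sec12 (g : SL2 F) : e (sec g).1 1 2 = 0 := rfl

theorem pj_sec (g : SL2 F) : pj (sec g) = g := sl_ext rfl rfl rfl rfl

theorem pj_surj : Function.Surjective (pj : ↥(Qs F) →* SL2 F) := fun g => ⟨sec g, pj_sec g⟩

/-- translations -/
def tau (u v : F) : ↥(Qs F) :=
  ⟨⟨!![1, 0, u; 0, 1, v; 0, 0, 1], by
      rw [Matrix.det_fin_three]
      simp⟩, by
      refine ⟨rfl, rfl, rfl⟩⟩

@[simp] theorem tau00 (u v : F) : e (tau u v).1 0 0 = 1 := rfl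
@[simp] theorem tau01 (u v : F) : e (tau u v).1 0 1 = 0 := rfl
@[simp] theorem tau02 (u v : F) : e (tau u v).1 0 2 = u := rfl
@[simp] theorem tau10 (u v : F) : e (tau u v).1 1 0 = 0 := rfl
@[simp] theorem tau11 (u v : F) : e (tau u v).1 1 1 = 1 := rfl
@[simp] theorem tau12 (u v : F) : e (tau u v).1 1 2 = v := rfl

theorem mem_ker_iff (M : ↥(Qs F)) : M ∈ (pj : ↥(Qs F) →* SL2 F).ker ↔
    e M.1 0 0 = 1 ∧ e M.1 0 1 = 0 ∧ e M.1 1 0 = 0 ∧ e M.1 1 1 = 1 := by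
  rw [MonoidHom.mem_ker]
  constructor
  · intro h
    have h0 : ∀ i j, ((pj M : SL2 F) : M2 F) i j = ((1 : SL2 F) : M2 F) i j := by rw [h]; simp
    refine ⟨?_, ?_, ?_, ?_⟩
    · simpa using h0 0 0
    · simpa using h0 0 1
    · simpa using h0 1 0
    · simpa using h0 1 1
  · rintro ⟨h1, h2, h3, h4⟩
    apply sl_ext <;> simp [h1, h2, h3, h4]

variable [Fintype F] {p : ℕ} [Fact p.Prime] [CharP F p]

omit [Fintype F] in
theorem ker_pow (w : ↥(Qs F)) (hw : w ∈ (pj : ↥(Qs F) →* SL2 F).ker) (n : ℕ) :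
    e (w ^ n).1 0 2 = (n : F) * e w.1 0 2 ∧ e (w ^ n).1 1 2 = (n : F) * e w.1 1 2 := by
  obtain ⟨h1, h2, h3, h4⟩ := (mem_ker_iff w).1 hw
  induction n with
  | zero => simp [e_one_02, e_one_12]
  | succ n ih =>
    have hk : w ^ n ∈ (pj : ↥(Qs F) →* SL2 F).ker := pow_mem hw n
    obtain ⟨k1, k2, k3, k4⟩ := (mem_ker_iff _).1 hk
    rw [pow_succ]
    constructor
    · rw [Qe, k1, k2, ih.1, w.2.2.2]
      push_cast
      ring
    · rw [Qe, k3, k4, ih.2, w.2.2.2]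
      push_cast
      ring

omit [Fintype F] in
theorem ker_isP : IsPGroup p (pj : ↥(Qs F) →* SL2 F).ker := by
  rintro ⟨w, hw⟩
  refine ⟨1, ?_⟩
  apply Subtype.ext
  rw [pow_one]
  show w ^ p = 1
  have hk : w ^ p ∈ (pj : ↥(Qs F) →* SL2 F).ker := pow_mem hw p
  obtain ⟨k1, k2, k3, k4⟩ := (mem_ker_iff _).1 hk
  obtain ⟨h1, h2⟩ := ker_pow w hw p
  rw [CharP.cast_eq_zero, zero_mul] at h1 h2
  apply Qs_ext
  · rw [k1]; exact e_one_00.symm
  · rw [k2]; exact e_one_01.symm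
  · rw [h1]; exact e_one_02.symm
  · rw [k3]; exact e_one_10.symm
  · rw [k4]; exact e_one_11.symm
  · rw [h2]; exact e_one_12.symm

omit [CharP F p] in
theorem pCore_SL2 [CharP F p] : pCore p (SL2 F) = ⊥ := by
  classical
  have hpp : p.Prime := Fact.out
  obtain ⟨n, hp', hq⟩ := FiniteField.card F p
  have hq' : Fintype.card F = p ^ (n : ℕ) := hq
  have hUc : Nat.card (Uz F) = p ^ (n : ℕ) := by rw [card_Uz, hq']
  have hUp : IsPGroup p (Uz F) := IsPGroup.of_card hUc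
  have hq1 : 1 < Fintype.card F := Fintype.one_lt_card
  have hn : (n : ℕ) ≠ 0 := n.ne_zero
  have hidx : ¬ p ∣ (Uz F).index := by
    have h1 := (Uz F).card_mul_index
    rw [hUc, card_sl2, ← hq'] at h1
    have h2 : (Uz F).index = Fintype.card F ^ 2 - 1 :=
      Nat.eq_of_mul_eq_mul_left (by omega) h1
    rw [h2]
    intro h3
    have h4 : p ∣ Fintype.card F := by
      rw [hq']
      exact dvd_pow_self p hn
    have h5 : p ∣ Fintype.card F ^ 2 := h4.trans (dvd_pow_self _ two_ne_zero)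
    have h6 : 1 ≤ Fintype.card F ^ 2 := Nat.one_le_pow _ _ (by omega)
    have h7 : p ∣ 1 := by
      have h8 := (Nat.dvd_sub h5 h3)
      rwa [Nat.sub_sub_self h6] at h8
    exact hpp.one_lt.ne' (Nat.dvd_one.1 h7)
  have hle : pCore p (SL2 F) ≤ Uz F := pCore_le_sylow p (hUp.toSylow hidx)
  rw [eq_bot_iff]
  intro x hx
  obtain ⟨β, rfl⟩ := hle hx
  have hn2 := pCore_normal p (SL2 F)
  let w : SL2 F := mk 0 1 (-1) 0 (by ring)
  have h1 : w * tv β * w⁻¹ ∈ pCore p (SL2 F) := hn2.conj_mem _ hx w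
  obtain ⟨γ, hγ⟩ := hle h1
  have h2 := congrArg (fun m : SL2 F => (m : M2 F) 1 0) hγ
  simp [w, sl_inv00, sl_inv01, sl_inv10, sl_inv11] at h2
  have hβ : β = 0 := h2
  rw [hβ, tv_zero]
  exact one_mem _

omit [CharP F p] in
theorem pCore_eq_ker [CharP F p] : pCore p ↥(Qs F) = (pj : ↥(Qs F) →* SL2 F).ker := by
  apply le_antisymm
  · have h1 : (pCore p ↥(Qs F)).map (pj : ↥(Qs F) →* SL2 F) ≤ pCore p (SL2 F) := by
      apply le_pCore
      · exact (pCore_normal p _).map _ pj_surj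
      · exact (pCore_isPGroup p).map _
    rw [pCore_SL2 (p := p), le_bot_iff] at h1
    intro x hx
    have h2 : pj x ∈ (pCore p ↥(Qs F)).map (pj : ↥(Qs F) →* SL2 F) := Subgroup.mem_map_of_mem _ hx
    rw [h1] at h2
    exact h2
  · exact le_pCore (MonoidHom.normal_ker _) ker_isP

/-- the block-diagonal subgroup -/
def Kd (F : Type*) [Field F] : Subgroup ↥(Qs F) where
  carrier := {M | e M.1 0 2 = 0 ∧ e M.1 1 2 = 0}
  mul_mem' := by
    rintro M N ⟨h0, h1⟩ ⟨k0, k1⟩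
    refine ⟨?_, ?_⟩
    · rw [Qe, k0, k1, h0]; ring
    · rw [Qe, k0, k1, h1]; ring
  one_mem' := ⟨e_one_02, e_one_12⟩
  inv_mem' := by
    rintro M ⟨h0, h1⟩
    have hd := det3 M.1 M.2.1 M.2.2.1 M.2.2.2
    have hm : M * M⁻¹ = 1 := mul_inv_cancel M
    have k0 : e (M * M⁻¹).1 0 2 = 0 := by rw [hm]; exact e_one_02
    have k1 : e (M * M⁻¹).1 1 2 = 0 := by rw [hm]; exact e_one_12
    rw [Qe, h0, zero_mul, add_zero] at k0
    rw [Qe, h1, zero_mul, add_zero] at k1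
    constructor
    · linear_combination (e M.1 1 1) * k0 - (e M.1 0 1) * k1 + (-e (M⁻¹).1 0 2) * hd
    · linear_combination (e M.1 0 0) * k1 - (e M.1 1 0) * k0 + (-e (M⁻¹).1 1 2) * hd

omit [Fintype F] [Fact p.Prime] [CharP F p] in
theorem Kd_ker (M : ↥(Qs F)) (h1 : M ∈ Kd F) (h2 : pj M = 1) : M = 1 := by
  obtain ⟨a, b, c, d⟩ := (mem_ker_iff M).1 h2
  apply Qs_ext
  · rw [a]; exact e_one_00.symm
  · rw [b]; exact e_one_01.symm
  · rw [h1.1]; exact e_one_02.symm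
  · rw [c]; exact e_one_10.symm
  · rw [d]; exact e_one_11.symm
  · rw [h1.2]; exact e_one_12.symm

/-- the translation part -/
def psiK : Additive ↥((pj : ↥(Qs F) →* SL2 F).ker) ≃+ (Fin 2 → F) where
  toFun w := ![e (Additive.toMul w).1.1 0 2, e (Additive.toMul w).1.1 1 2]
  invFun a := Additive.ofMul ⟨tau (a 0) (a 1), (mem_ker_iff _).2 ⟨rfl, rfl, rfl, rfl⟩⟩
  left_inv w := by
    apply Additive.toMul.injective
    apply Subtype.ext
    obtain ⟨h1, h2, h3, h4⟩ := (mem_ker_iff _).1 (Additive.toMul w).2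
    apply Qs_ext
    · exact h1.symm
    · exact h2.symm
    · rfl
    · exact h3.symm
    · exact h4.symm
    · rfl
  right_inv a := by
    funext i
    fin_cases i <;> rfl
  map_add' x y := by
    funext i
    obtain ⟨h1, h2, h3, h4⟩ := (mem_ker_iff _).1 (Additive.toMul x).2
    have hy := (Additive.toMul y).1.2.2.2
    fin_cases i
    · show e ((Additive.toMul x).1 * (Additive.toMul y).1).1 0 2 = e (Additive.toMul x).1.1 0 2 + e (Additive.toMul y).1.1 0 2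
      rw [Qe, h1, h2, hy]
      ring
    · show e ((Additive.toMul x).1 * (Additive.toMul y).1).1 1 2 = e (Additive.toMul x).1.1 1 2 + e (Additive.toMul y).1.1 1 2
      rw [Qe, h3, h4, hy]
      ring

omit [Fintype F] [Fact p.Prime] [CharP F p] in
theorem natural : Cfsg.IsNaturalSL2Module F (pj : ↥(Qs F) →* SL2 F).ker (Kd F) := by
  have hnorm : ((pj : ↥(Qs F) →* SL2 F).ker).Normal := MonoidHom.normal_ker _
  refine ⟨?_, pj.comp (Kd F).subtype, psiK, ?_, ?_, ?_⟩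
  · rw [normalizer_eq_top]
    exact le_top
  · intro g
    exact ⟨⟨sec g, rfl, rfl⟩, pj_sec g⟩
  · ext k
    rw [MonoidHom.mem_ker, Subgroup.mem_subgroupOf]
    constructor
    · intro h
      have h1 : k = 1 := Subtype.ext (Kd_ker k.1 k.2 h)
      rw [h1]
      exact one_mem _
    · intro h
      have hk := k.2
      have ht1 := mem_centralizer_iff.1 h (tau 1 0) ((mem_ker_iff _).2 ⟨rfl, rfl, rfl, rfl⟩)
      have ht2 := mem_centralizer_iff.1 h (tau 0 1) ((mem_ker_iff _).2 ⟨rfl, rfl, rfl, rfl⟩)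
      have a1 := congrArg (fun M : ↥(Qs F) => e M.1 0 2) ht1
      have a2 := congrArg (fun M : ↥(Qs F) => e M.1 1 2) ht1
      have a3 := congrArg (fun M : ↥(Qs F) => e M.1 0 2) ht2
      have a4 := congrArg (fun M : ↥(Qs F) => e M.1 1 2) ht2
      simp only [Qe, tau00, tau01, tau02, tau10, tau11, tau12, k.1.2.2.2, hk.1, hk.2] at a1 a2 a3 a4
      have t22 : ∀ u v : F, e (tau u v).1 2 2 = 1 := fun _ _ => rfl
      simp only [t22] at a1 a2 a3 a4
      have hk00 : e k.1.1 0 0 = 1 := by linear_combination -a1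
      have hk10 : e k.1.1 1 0 = 0 := by linear_combination -a2
      have hk01 : e k.1.1 0 1 = 0 := by linear_combination -a3
      have hk11 : e k.1.1 1 1 = 1 := by linear_combination -a4
      show pj k.1 = 1
      exact (mem_ker_iff _).2 ⟨hk00, hk01, hk10, hk11⟩
  · intro l v
    have hw : (l : ↥(Qs F)) * (v : ↥(Qs F)) * (l : ↥(Qs F))⁻¹ ∈ (pj : ↥(Qs F) →* SL2 F).ker :=
      hnorm.conj_mem _ v.2 _
    refine ⟨⟨_, hw⟩, rfl, ?_⟩
    generalize hw₀ : (l : ↥(Qs F)) * (v : ↥(Qs F)) * (l : ↥(Qs F))⁻¹ = w₀ at hw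
    have hwl : w₀ * (l : ↥(Qs F)) = (l : ↥(Qs F)) * (v : ↥(Qs F)) := by
      rw [← hw₀]
      group
    have hl := l.2
    have hl22 : e l.1.1 2 2 = 1 := l.1.2.2.2
    have a1 : e (w₀ * (l : ↥(Qs F))).1 0 2 = e ((l : ↥(Qs F)) * (v : ↥(Qs F))).1 0 2 := by rw [hwl]
    have a2 : e (w₀ * (l : ↥(Qs F))).1 1 2 = e ((l : ↥(Qs F)) * (v : ↥(Qs F))).1 1 2 := by rw [hwl]
    rw [Qe, Qe, hl.1, hl.2, hl22] at a1 a2
    funext i
    fin_cases i
    · show e w₀.1 0 2 = _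
      simp only [Matrix.mulVec, dotProduct, Fin.sum_univ_two]
      show _ = e l.1.1 0 0 * e v.1.1 0 2 + e l.1.1 0 1 * e v.1.1 1 2
      linear_combination a1
    · show e w₀.1 1 2 = _
      simp only [Matrix.mulVec, dotProduct, Fin.sum_univ_two]
      show _ = e l.1.1 1 0 * e v.1.1 0 2 + e l.1.1 1 1 * e v.1.1 1 2
      linear_combination a2

end main

/-- Structure of Qd over a finite field F of characteristic p (the affine subgroup of SL₃(F)): its largest normal p-subgroup is the group of translations (matrices with upper-left block the identity), the block-diagonal matrices form a complement isomorphic to SL₂(F), and the translation subgroup is a natural SL₂(F)-module for that complement. -/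
theorem result {F : Type*} [Field F] [Fintype F] {p : ℕ} [Fact p.Prime] [CharP F p] : (∀ M : ↥(Cfsg.qdOver F), M ∈ Cfsg.pCore p ↥(Cfsg.qdOver F) ↔ ((M : Matrix.SpecialLinearGroup (Fin 3) F) : Matrix (Fin 3) (Fin 3) F) 0 0 = 1 ∧ ((M : Matrix.SpecialLinearGroup (Fin 3) F) : Matrix (Fin 3) (Fin 3) F) 0 1 = 0 ∧ ((M : Matrix.SpecialLinearGroup (Fin 3) F) : Matrix (Fin 3) (Fin 3) F) 1 0 = 0 ∧ ((M : Matrix.SpecialLinearGroup (Fin 3) F) : Matrix (Fin 3) (Fin 3) F) 1 1 = 1) ∧ ∃ K : Subgroup ↥(Cfsg.qdOver F), (∀ M : ↥(Cfsg.qdOver F), M ∈ K ↔ ((M : Matrix.SpecialLinearGroup (Fin 3) F) : Matrix (Fin 3) (Fin 3) F) 0 2 = 0 ∧ ((M : Matrix.SpecialLinearGroup (Fin 3) F) : Matrix (Fin 3) (Fin 3) F) 1 2 = 0) ∧ K ⊓ Cfsg.pCore p ↥(Cfsg.qdOver F) = ⊥ ∧ K ⊔ Cfsg.pCore p ↥(Cfsg.qdOver F) = ⊤ ∧ Nonempty (↥K ≃* Matrix.SpecialLinearGroup (Fin 2) F) ∧ Cfsg.IsNaturalSL2Module F (Cfsg.pCore p ↥(Cfsg.qdOver F)) K := by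
  have key : ∀ Q : Subgroup (SL3 F), Q = Qs F →
      ((∀ M : ↥Q, M ∈ Cfsg.pCore p ↥Q ↔ ((M : SL3 F) : Matrix (Fin 3) (Fin 3) F) 0 0 = 1 ∧ ((M : SL3 F) : Matrix (Fin 3) (Fin 3) F) 0 1 = 0 ∧ ((M : SL3 F) : Matrix (Fin 3) (Fin 3) F) 1 0 = 0 ∧ ((M : SL3 F) : Matrix (Fin 3) (Fin 3) F) 1 1 = 1) ∧ ∃ K : Subgroup ↥Q, (∀ M : ↥Q, M ∈ K ↔ ((M : SL3 F) : Matrix (Fin 3) (Fin 3) F) 0 2 = 0 ∧ ((M : SL3 F) : Matrix (Fin 3) (Fin 3) F) 1 2 = 0) ∧ K ⊓ Cfsg.pCore p ↥Q = ⊥ ∧ K ⊔ Cfsg.pCore p ↥Q = ⊤ ∧ Nonempty (↥K ≃* Matrix.SpecialLinearGroup (Fin 2) F) ∧ Cfsg.IsNaturalSL2Module F (Cfsg.pCore p ↥Q) K) := by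
    rintro _ rfl
    have hW := pCore_eq_ker (F := F) (p := p)
    rw [hW]
    refine ⟨mem_ker_iff, Kd F, fun M => Iff.rfl, ?_, ?_, ?_, natural⟩
    · rw [eq_bot_iff]
      rintro M ⟨h1, h2⟩
      exact Kd_ker M h1 h2
    · rw [eq_top_iff]
      intro M _
      have h1 : M * (sec (pj M))⁻¹ ∈ (pj : ↥(Qs F) →* SL2 F).ker := by
        rw [MonoidHom.mem_ker, map_mul, map_inv, pj_sec, mul_inv_cancel]
      have h2 : sec (pj M) ∈ Kd F := ⟨rfl, rfl⟩
      have h3 : M = sec (pj M) * ((sec (pj M))⁻¹ * M * (sec (pj M))⁻¹ * sec (pj M)) := by group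
      have h4 : M = (M * (sec (pj M))⁻¹) * sec (pj M) := by group
      have h5 : M * (sec (pj M))⁻¹ ∈ Kd F ⊔ (pj : ↥(Qs F) →* SL2 F).ker := mem_sup_right h1
      have h6 : sec (pj M) ∈ Kd F ⊔ (pj : ↥(Qs F) →* SL2 F).ker := mem_sup_left h2
      rw [h4]
      exact mul_mem h5 h6
    · refine ⟨MulEquiv.ofBijective (pj.comp (Kd F).subtype) ⟨?_, ?_⟩⟩
      · rw [injective_iff_map_eq_one]
        rintro ⟨k, hk⟩ h
        exact Subtype.ext (Kd_ker k hk h)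
      · intro g
        exact ⟨⟨sec g, rfl, rfl⟩, pj_sec g⟩
  exact key _ qdOver_eq

end Cfsg.Agent.S2762
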