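import Cfsg.Statements.S2780
import Cfsg.Agent.Lib.LdNat
import Cfsg.Agent.Lib.LDick2

set_option autoImplicit false
open Cfsg

namespace Cfsg.Agent.S2780

open Subgroup Matrix Cfsg.Agent.Lib.LdNat Cfsg.Agent.Lib.H1GL2 Cfsg.Agent.Lib.H1SL2

section nat

variable {F : Type*} [Field F] {G : Type*} [Group G] [Finite G] {p : ℕ} [Fact p.Prime] [Fintype F]

theorem from_nat2 (n : ℕ) (hF : Fintype.card F = p ^ n) (V L : Subgroup G)
    (hnat : Cfsg.IsNaturalSL2Module F V L)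
    (hf : L ⊓ centralizer (V : Set G) = ⊥) (S : Sylow p ↥L) (T : Subgroup G)
    (hT : T = (S : Subgroup ↥L).map L.subtype) :
    L ≤ normalizer (V : Set G) ∧
    ∃ (ψ : Additive V ≃+ (Fin 2 → F)) (ρ' : ↥L →* SL2 F), Function.Bijective ρ' ∧
      (∀ (l : ↥L) (v : ↥V), ∃ w : ↥V, (w : G) = (l : G) * (v : G) * (l : G)⁻¹ ∧
        ψ (Additive.ofMul w) = ((ρ' l : SL2 F) : M2 F).mulVec (ψ (Additive.ofMul v))) ∧
      ∀ l : ↥L, (l : G) ∈ T ↔ ρ' l ∈ Uz F := by
  classical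
  have hpp : p.Prime := Fact.out
  obtain ⟨hnorm, ρ, ψ₀, hsurj, hker, hact₀⟩ := hnat
  have hinj : Function.Injective ρ := by
    rw [injective_iff_map_eq_one]
    intro l hl
    have h1 : l ∈ ρ.ker := hl
    rw [hker] at h1
    have h2 : (l : G) ∈ L ⊓ centralizer (V : Set G) := ⟨l.2, h1⟩
    rw [hf] at h2
    exact Subtype.ext h2
  have hcardL : Nat.card L = Fintype.card F * (Fintype.card F ^ 2 - 1) := by
    rw [← card_sl2]
    exact Nat.card_congr (Equiv.ofBijective ρ ⟨hinj, hsurj⟩)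
  let UL : Subgroup ↥L := (Uz F).comap ρ
  have hULcard : Nat.card UL = p ^ n := by
    rw [← hF, ← card_Uz (F := F)]
    have h1 : UL.map ρ = Uz F := Subgroup.map_comap_eq_self_of_surjective hsurj _
    rw [← h1, Subgroup.card_map_of_injective hinj]
  have hULp : IsPGroup p UL := IsPGroup.of_card hULcard
  have hq1 : 1 < Fintype.card F := Fintype.one_lt_card
  have hn : n ≠ 0 := by
    rintro rfl
    rw [hF, pow_zero] at hq1
    exact lt_irrefl _ hq1
  have hidx : ¬ p ∣ UL.index := by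
    have h1 := UL.card_mul_index
    rw [hULcard, hcardL, ← hF] at h1
    have h2 : UL.index = Fintype.card F ^ 2 - 1 :=
      Nat.eq_of_mul_eq_mul_left (by omega) h1
    rw [h2]
    intro h3
    have h4 : p ∣ Fintype.card F := by
      rw [hF]
      exact dvd_pow_self p hn
    have h5 : p ∣ Fintype.card F ^ 2 := h4.trans (dvd_pow_self _ two_ne_zero)
    have h6 : 1 ≤ Fintype.card F ^ 2 := Nat.one_le_pow _ _ (by omega)
    have h7 : p ∣ 1 := by
      have h8 := (Nat.dvd_sub h5 h3)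
      rwa [Nat.sub_sub_self h6] at h8
    exact hpp.one_lt.ne' (Nat.dvd_one.1 h7)
  let SU : Sylow p ↥L := hULp.toSylow hidx
  obtain ⟨l, hl⟩ := MulAction.exists_smul_eq ↥L S SU
  have hconj : ∀ s : ↥L, s ∈ (S : Subgroup ↥L) ↔ l * s * l⁻¹ ∈ UL := by
    intro s
    have h1 : ((l • S : Sylow p ↥L) : Subgroup ↥L) = UL := by
      rw [hl]
      rfl
    rw [← h1, Sylow.coe_subgroup_smul]
    exact (Subgroup.smul_mem_pointwise_smul_iff (a := MulAut.conj l) (S := (S : Subgroup ↥L)) (x := s)).symm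
  set g := ρ l with hg
  let ρ' : ↥L →* SL2 F := (MulAut.conj g).toMonoidHom.comp ρ
  have hρ' : ∀ x, ρ' x = g * ρ x * g⁻¹ := fun x => rfl
  refine ⟨hnorm, ψ₀.trans (mv g), ρ', ⟨?_, ?_⟩, ?_, ?_⟩
  · intro a c h
    rw [hρ', hρ'] at h
    exact hinj (mul_left_cancel (mul_right_cancel h))
  · intro d
    obtain ⟨x, hx⟩ := hsurj (g⁻¹ * d * g)
    refine ⟨x, ?_⟩
    rw [hρ', hx]
    group
  · intro t v
    obtain ⟨w, hw, hw2⟩ := hact₀ t v
    refine ⟨w, hw, ?_⟩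
    show (g : M2 F).mulVec (ψ₀ (Additive.ofMul w)) = ((ρ' t : SL2 F) : M2 F).mulVec ((g : M2 F).mulVec (ψ₀ (Additive.ofMul v)))
    have hm : ((ρ' t : SL2 F) : M2 F) * (g : M2 F) = (g : M2 F) * (ρ t : M2 F) := by
      have h0 : ρ' t * g = g * ρ t := by
        calc ρ' t * g = g * ρ t * g⁻¹ * g := by rw [hρ']
          _ = g * ρ t := by rw [inv_mul_cancel_right]
      rw [← Matrix.SpecialLinearGroup.coe_mul, ← Matrix.SpecialLinearGroup.coe_mul, h0]
    rw [hw2, Matrix.mulVec_mulVec, Matrix.mulVec_mulVec, hm]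
  · intro t
    have h1 : (t : G) ∈ T ↔ t ∈ (S : Subgroup ↥L) := by
      rw [hT]
      constructor
      · rintro ⟨s, hs, hst⟩
        have h2 : t = s := Subtype.ext hst.symm
        rwa [h2]
      · intro h
        exact ⟨t, h, rfl⟩
    rw [h1, hconj]
    show ρ (l * t * l⁻¹) ∈ Uz F ↔ ρ' t ∈ Uz F
    rw [hρ', map_mul, map_mul, map_inv]

end nat

/-- Let L act on the elementary abelian p-group V (inside a finite group, faithfully) as SL₂(F) on its natural module, F a field with p^n elements, S a Sylow p-subgroup of L. Then: for every g ∈ L not normalizing S, V is the internal direct product of C_V(S) and C_V(gSg⁻¹); every nonidentity element of L of order prime to p acts on V without nonidentity fixed points; and C_V(S) and V/C_V(S) are irreducible for N_L(S): the only N_L(S)-invariant subgroups of C_V(S) are 1 and C_V(S), and the only N_L(S)-invariant subgroups between C_V(S) and V are those two. -/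
theorem result {G : Type*} [Group G] [Finite G] {p : ℕ} [Fact p.Prime] {F : Type*} [Field F] [Fintype F] (n : ℕ) (hF : Fintype.card F = p ^ n) (V L : Subgroup G) (hnat : Cfsg.IsNaturalSL2Module F V L) (hf : L ⊓ Subgroup.centralizer (V : Set G) = ⊥) (S : Sylow p ↥L) (T : Subgroup G) (hT : T = ((S : Subgroup ↥L).map L.subtype)) : (∀ g ∈ L, g ∉ Subgroup.normalizer (T : Set G) → Cfsg.IsInternalDirectProduct (V ⊓ Subgroup.centralizer ((T : Subgroup G) : Set G)) (V ⊓ Subgroup.centralizer ((T.map (MulAut.conj g).toMonoidHom : Subgroup G) : Set G)) V) ∧ (∀ x ∈ L, x ≠ 1 → (orderOf x).Coprime p → (V ⊓ Subgroup.centralizer ({x} : Set G)) = ⊥) ∧ (∀ U : Subgroup G, U ≤ (V ⊓ Subgroup.centralizer ((T : Subgroup G) : Set G)) → L ⊓ Subgroup.normalizer (T : Set G) ≤ Subgroup.normalizer (U : Set G) → U = ⊥ ∨ U = (V ⊓ Subgroup.centralizer ((T : Subgroup G) : Set G))) ∧ (∀ U : Subgroup G, (V ⊓ Subgroup.centralizer ((T : Subgroup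 G) : Set G)) ≤ U → U ≤ V → L ⊓ Subgroup.normalizer (T : Set G) ≤ Subgroup.normalizer (U : Set G) → U = (V ⊓ Subgroup.centralizer ((T : Subgroup G) : Set G)) ∨ U = V) := by
  classical
  have hpp : p.Prime := Fact.out
  haveI hch : CharP F p := by
    have hq1 : 1 < Fintype.card F := Fintype.one_lt_card
    have hn : n ≠ 0 := by
      rintro rfl
      rw [hF, pow_zero] at hq1
      exact lt_irrefl _ hq1
    exact (charP_of_card_eq_prime_pow hF)
  obtain ⟨hLV, ψ, ρ', ⟨hinj, hsurj⟩, hact, hTmem⟩ := from_nat2 n hF V L hnat hf S T hT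
  have hTL : T ≤ L := by
    rw [hT]
    rintro _ ⟨s, -, rfl⟩
    exact s.2
  -- coordinates of the action
  have hcoord : ∀ (l : ↥L) (v : ↥V), ∃ w : ↥V, (w : G) = (l : G) * (v : G) * (l : G)⁻¹ ∧
      X ψ w = ((ρ' l : SL2 F) : M2 F) 0 0 * X ψ v + ((ρ' l : SL2 F) : M2 F) 0 1 * Y ψ v ∧
      Y ψ w = ((ρ' l : SL2 F) : M2 F) 1 0 * X ψ v + ((ρ' l : SL2 F) : M2 F) 1 1 * Y ψ v := by
    intro l v
    obtain ⟨w, hw, hw2⟩ := hact l v
    refine ⟨w, hw, ?_, ?_⟩
    · show ψ (Additive.ofMul w) 0 = _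
      rw [hw2]
      simp only [X, Y, Matrix.mulVec, dotProduct, Fin.sum_univ_two]
    · show ψ (Additive.ofMul w) 1 = _
      rw [hw2]
      simp only [X, Y, Matrix.mulVec, dotProduct, Fin.sum_univ_two]
  -- the transvection coordinate
  let tL : ↥T → ↥L := fun t => ⟨t.1, hTL t.2⟩
  have htU : ∀ t : ↥T, ρ' (tL t) ∈ Uz F := fun t => (hTmem (tL t)).1 t.2
  have htv : ∀ t : ↥T, ρ' (tL t) = tv (((ρ' (tL t) : SL2 F) : M2 F) 0 1) := by
    intro t
    obtain ⟨β, hβ⟩ := htU t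
    rw [← hβ]
    simp
  let b : ↥T → F := fun t => ((ρ' (tL t) : SL2 F) : M2 F) 0 1
  have hactT : ∀ (t : ↥T) (v : ↥V), ∃ w : ↥V, (w : G) = (t : G) * (v : G) * (t : G)⁻¹ ∧
      X ψ w = X ψ v + b t * Y ψ v ∧ Y ψ w = Y ψ v := by
    intro t v
    obtain ⟨w, hw, h1, h2⟩ := hcoord (tL t) v
    refine ⟨w, hw, ?_, ?_⟩
    · rw [h1, htv t]
      simp [b]
    · rw [h2, htv t]
      simp
  have hbs : Function.Surjective b := by
    intro β
    obtain ⟨x, hx⟩ := hsurj (tv β)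
    have h1 : (x : G) ∈ T := (hTmem x).2 (by rw [hx]; exact ⟨β, rfl⟩)
    refine ⟨⟨x, h1⟩, ?_⟩
    show ((ρ' (tL ⟨x, h1⟩) : SL2 F) : M2 F) 0 1 = β
    have h2 : tL ⟨x, h1⟩ = x := rfl
    rw [h2, hx]
    simp
  have hb0 : ∀ t, b t = 0 → t = 1 := by
    intro t ht
    have h1 := htv t
    have ht' : ((ρ' (tL t) : SL2 F) : M2 F) 0 1 = 0 := ht
    rw [ht', tv_zero] at h1
    have h2 : tL t = 1 := hinj (by rw [h1, map_one])
    have h3 : (t : G) = 1 := congrArg Subtype.val h2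
    exact Subtype.ext h3
  have hZ := mem_Z ψ b hactT hbs
  -- upper triangular elements normalize T
  have hconjT : ∀ l : ↥L, ((ρ' l : SL2 F) : M2 F) 1 0 = 0 → ∀ t ∈ T, (l : G) * t * (l : G)⁻¹ ∈ T := by
    intro l hl t ht
    have h0 := sl_det (ρ' l)
    rw [hl, mul_zero, sub_zero] at h0
    have h1 : ρ' ⟨t, hTL ht⟩ ∈ Uz F := (hTmem ⟨t, hTL ht⟩).1 ht
    obtain ⟨β, hβ⟩ := h1
    have h2 : (l : G) * t * (l : G)⁻¹ = ((l * ⟨t, hTL ht⟩ * l⁻¹ : ↥L) : G) := rfl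
    rw [h2, hTmem, map_mul, map_mul, map_inv, ← hβ]
    refine ⟨((ρ' l : SL2 F) : M2 F) 0 0 * β * ((ρ' l : SL2 F) : M2 F) 0 0, ?_⟩
    apply sl_ext
    · simp [sl_inv00, sl_inv01, sl_inv10, sl_inv11, hl]
      linear_combination -h0
    · simp [sl_inv00, sl_inv01, sl_inv10, sl_inv11, hl]
      ring
    · simp [sl_inv00, sl_inv01, sl_inv10, sl_inv11, hl]
    · simp [sl_inv00, sl_inv01, sl_inv10, sl_inv11, hl]
      linear_combination -h0
  have hnormT : ∀ l : ↥L, ((ρ' l : SL2 F) : M2 F) 1 0 = 0 → (l : G) ∈ normalizer (T : Set G) := by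
    intro l hl
    rw [mem_normalizer_iff]
    intro h
    constructor
    · exact hconjT l hl h
    · intro h1
      have hl' : ((ρ' l⁻¹ : SL2 F) : M2 F) 1 0 = 0 := by
        rw [map_inv, sl_inv10, hl, neg_zero]
      have h2 := hconjT l⁻¹ hl' _ h1
      have h3 : ((l⁻¹ : ↥L) : G) * ((l : G) * h * (l : G)⁻¹) * ((l⁻¹ : ↥L) : G)⁻¹ = h := by
        rw [Subgroup.coe_inv]
        group
      rwa [h3] at h2
  -- diagonal elements
  have hdiag : ∀ a : F, a ≠ 0 → ∃ l : ↥L, ((ρ' l : SL2 F) : M2 F) 0 0 = a ∧ ((ρ' l : SL2 F) : M2 F) 0 1 = 0 ∧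
      ((ρ' l : SL2 F) : M2 F) 1 0 = 0 ∧ ((ρ' l : SL2 F) : M2 F) 1 1 = a⁻¹ := by
    intro a ha
    obtain ⟨l, hl⟩ := hsurj (mk a 0 0 a⁻¹ (by field_simp; ring))
    exact ⟨l, by rw [hl]; rfl, by rw [hl]; rfl, by rw [hl]; rfl, by rw [hl]; rfl⟩
  have hVcomm : ∀ u ∈ V, ∀ v ∈ V, u * v = v * u := by
    intro u hu v hv
    exact congrArg Subtype.val (V_comm ψ ⟨u, hu⟩ ⟨v, hv⟩)
  refine ⟨?_, ?_, ?_, ?_⟩
  · -- direct product
    intro g hg hgn
    let gL : ↥L := ⟨g, hg⟩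
    have hc : ((ρ' gL : SL2 F) : M2 F) 1 0 ≠ 0 := fun h => hgn (hnormT gL h)
    have hZ' : ∀ u : G, u ∈ V ⊓ centralizer ((T.map (MulAut.conj g).toMonoidHom : Subgroup G) : Set G) ↔
        u ∈ V ∧ g⁻¹ * u * g ∈ V ⊓ centralizer (T : Set G) := by
      intro u
      constructor
      · rintro ⟨h1, h2⟩
        have h3 : g⁻¹ * u * g ∈ V := by
          have h4 := (mem_normalizer_iff.1 (hLV (inv_mem hg)) u).1 h1
          simpa using h4
        refine ⟨h1, h3, ?_⟩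
        show g⁻¹ * u * g ∈ centralizer (T : Set G)
        rw [mem_centralizer_iff]
        intro t ht
        have h4 : g * t * g⁻¹ * u = u * (g * t * g⁻¹) :=
          mem_centralizer_iff.1 h2 _ ⟨t, ht, rfl⟩
        calc t * (g⁻¹ * u * g) = g⁻¹ * (g * t * g⁻¹ * u) * g := by group
          _ = g⁻¹ * (u * (g * t * g⁻¹)) * g := by rw [h4]
          _ = g⁻¹ * u * g * t := by group
      · rintro ⟨h1, h2, h3⟩
        refine ⟨h1, ?_⟩
        show u ∈ centralizer ((T.map (MulAut.conj g).toMonoidHom : Subgroup G) : Set G)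
        rw [mem_centralizer_iff]
        rintro _ ⟨t, ht, rfl⟩
        have h4 : t * (g⁻¹ * u * g) = g⁻¹ * u * g * t := mem_centralizer_iff.1 h3 t ht
        show g * t * g⁻¹ * u = u * (g * t * g⁻¹)
        calc g * t * g⁻¹ * u = g * (t * (g⁻¹ * u * g)) * g⁻¹ := by group
          _ = g * (g⁻¹ * u * g * t) * g⁻¹ := by rw [h4]
          _ = u * (g * t * g⁻¹) := by group
    refine ⟨inf_le_left, inf_le_left, ?_, ?_, ?_⟩
    · intro a ha c hc'
      exact hVcomm a ha.1 c hc'.1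
    · -- trivial intersection
      rw [eq_bot_iff]
      intro u hu
      obtain ⟨hu1, hu2⟩ := hu
      obtain ⟨hV, hY⟩ := (hZ u).1 hu1
      obtain ⟨-, hz⟩ := (hZ' u).1 hu2
      obtain ⟨hzV, hzY⟩ := (hZ _).1 hz
      obtain ⟨w, hw, hw1, hw2⟩ := hcoord gL ⟨_, hzV⟩
      have hwu : w = ⟨u, hV⟩ := by
        apply Subtype.ext
        rw [hw]
        show g * (g⁻¹ * u * g) * g⁻¹ = u
        group
      rw [hwu, hY, hzY, mul_zero, add_zero] at hw2
      have hX : X ψ ⟨_, hzV⟩ = 0 := (mul_eq_zero.1 hw2.symm).resolve_left hc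
      rw [hwu, hX, hzY, mul_zero, mul_zero, add_zero] at hw1
      have h5 : (⟨u, hV⟩ : ↥V) = 1 := coord_ext ψ (by rw [hw1, X_one]) (by rw [hY, Y_one])
      have h6 : u = 1 := congrArg Subtype.val h5
      rw [h6]
      exact one_mem _
    · -- the join
      apply le_antisymm (sup_le inf_le_left inf_le_left)
      intro v hv
      set c := ((ρ' gL : SL2 F) : M2 F) 1 0 with hcdef
      obtain ⟨z₁, hz₁X, hz₁Y⟩ := exists_coord ψ (Y ψ ⟨v, hv⟩ / c) (0 : F)
      obtain ⟨w, hw, hw1, hw2⟩ := hcoord gL z₁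
      have hw3 : Y ψ w = Y ψ ⟨v, hv⟩ := by
        rw [hw2, hz₁X, hz₁Y, mul_zero, add_zero, ← hcdef]
        field_simp
      have hwZ' : (w : G) ∈ V ⊓ centralizer ((T.map (MulAut.conj g).toMonoidHom : Subgroup G) : Set G) := by
        rw [hZ']
        refine ⟨w.2, ?_⟩
        have h1 : g⁻¹ * (w : G) * g = z₁ := by
          rw [hw]
          show g⁻¹ * (g * (z₁ : G) * g⁻¹) * g = z₁
          group
        rw [h1]
        exact (hZ _).2 ⟨z₁.2, hz₁Y⟩
      have hz₂ : v * (w : G)⁻¹ ∈ V ⊓ centralizer (T : Set G) := by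
        have h1 : v * (w : G)⁻¹ ∈ V := mul_mem hv (inv_mem w.2)
        rw [hZ]
        refine ⟨h1, ?_⟩
        have h2 : (⟨v * (w : G)⁻¹, h1⟩ : ↥V) = ⟨v, hv⟩ * w⁻¹ := rfl
        rw [h2, Y_mul, Y_inv, hw3]
        ring
      have h3 : v = (v * (w : G)⁻¹) * w := by group
      rw [h3]
      exact mul_mem (mem_sup_left hz₂) (mem_sup_right hwZ')
  · -- fixed points of p'-elements
    intro x hx hx1 hxc
    rw [eq_bot_iff]
    rintro v ⟨hv, hvc⟩
    rw [Subgroup.mem_bot]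
    by_contra hv1
    let xL : ↥L := ⟨x, hx⟩
    have hvc' : v * x = x * v := mem_centralizer_singleton_iff.1 hvc
    obtain ⟨w, hw, hw1, hw2⟩ := hcoord xL ⟨v, hv⟩
    have hwv : w = ⟨v, hv⟩ := by
      apply Subtype.ext
      rw [hw]
      show x * v * x⁻¹ = v
      rw [← hvc']
      group
    rw [hwv] at hw1 hw2
    set A := ((ρ' xL : SL2 F) : M2 F) with hA
    set x₀ := X ψ ⟨v, hv⟩ with hx₀
    set y₀ := Y ψ ⟨v, hv⟩ with hy₀
    have hne : x₀ ≠ 0 ∨ y₀ ≠ 0 := by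
      by_contra hcon
      push Not at hcon
      apply hv1
      have h5 : (⟨v, hv⟩ : ↥V) = 1 := coord_ext ψ (by rw [X_one]; exact hcon.1) (by rw [Y_one]; exact hcon.2)
      exact congrArg Subtype.val h5
    have hD : (A 0 0 - 1) * (A 1 1 - 1) - A 0 1 * A 1 0 = 0 := by
      rcases hne with h | h
      · apply (mul_eq_zero.1 (?_ : _ * x₀ = 0)).resolve_right h
        linear_combination (-(A 1 1 - 1)) * hw1 + A 0 1 * hw2
      · apply (mul_eq_zero.1 (?_ : _ * y₀ = 0)).resolve_right h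
        linear_combination (-(A 0 0 - 1)) * hw2 + A 1 0 * hw1
    have hdet := sl_det (ρ' xL)
    have htr : Cfsg.Agent.Lib.LDick.tr (ρ' xL) = 2 := by
      show A 0 0 + A 1 1 = 2
      rw [← hA] at hdet
      linear_combination hdet - hD
    have hpow := Cfsg.Agent.Lib.LDick.pow_char_of_tr2 p htr
    have h6 : xL ^ p = 1 := hinj (by rw [map_pow, hpow, map_one])
    have h7 : x ^ p = 1 := by
      have := congrArg Subtype.val h6
      simpa using this
    have h8 : orderOf x ∣ p := orderOf_dvd_of_pow_eq_one h7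
    have h9 : orderOf x = 1 := Nat.eq_one_of_dvd_coprimes hxc (dvd_refl _) h8
    exact hx1 (orderOf_eq_one_iff.1 h9)
  · -- invariant subgroups of Z
    intro U hUZ hB
    by_cases hU : U = ⊥
    · exact Or.inl hU
    right
    apply le_antisymm hUZ
    obtain ⟨⟨z₀, hz₀⟩, hz₀1'⟩ := (Subgroup.ne_bot_iff_exists_ne_one.1 hU)
    have hz₀1 : z₀ ≠ 1 := fun h => hz₀1' (Subtype.ext h)
    have hz₀Z := hUZ hz₀
    obtain ⟨hz₀V, hz₀Y⟩ := (hZ _).1 hz₀Z
    have hz₀X : X ψ ⟨z₀, hz₀V⟩ ≠ 0 := by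
      intro h
      apply hz₀1
      have h5 : (⟨z₀, hz₀V⟩ : ↥V) = 1 := coord_ext ψ (by rw [h, X_one]) (by rw [hz₀Y, Y_one])
      exact congrArg Subtype.val h5
    intro z hz
    obtain ⟨hzV, hzY⟩ := (hZ _).1 hz
    by_cases hzX : X ψ ⟨z, hzV⟩ = 0
    · have h5 : (⟨z, hzV⟩ : ↥V) = 1 := coord_ext ψ (by rw [hzX, X_one]) (by rw [hzY, Y_one])
      have h6 : z = 1 := congrArg Subtype.val h5
      rw [h6]
      exact one_mem _
    set a := X ψ ⟨z, hzV⟩ / X ψ ⟨z₀, hz₀V⟩ with ha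
    have ha0 : a ≠ 0 := div_ne_zero hzX hz₀X
    obtain ⟨l, hl00, hl01, hl10, hl11⟩ := hdiag a ha0
    have hlN : (l : G) ∈ L ⊓ normalizer (T : Set G) := ⟨l.2, hnormT l hl10⟩
    have h1 : (l : G) * z₀ * (l : G)⁻¹ ∈ U := (mem_normalizer_iff.1 (hB hlN) z₀).1 hz₀
    obtain ⟨w, hw, hw1, hw2⟩ := hcoord l ⟨z₀, hz₀V⟩
    have h2 : w = ⟨z, hzV⟩ := by
      apply coord_ext ψ
      · rw [hw1, hl00, hl01, hz₀Y, mul_zero, add_zero, ha]
        field_simp
      · rw [hw2, hl10, hl11, hz₀Y, hzY, mul_zero, zero_mul, add_zero]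
    have h3 : z = (l : G) * z₀ * (l : G)⁻¹ := by
      rw [← hw]
      exact (congrArg Subtype.val h2).symm
    rw [h3]
    exact h1
  · -- invariant subgroups above Z
    intro U hZU hUV hB
    by_cases hU : U = V ⊓ centralizer (T : Set G)
    · exact Or.inl hU
    right
    apply le_antisymm hUV
    obtain ⟨v₀, hv₀, hv₀Z⟩ := SetLike.exists_of_lt (lt_of_le_of_ne hZU (Ne.symm hU))
    have hv₀V := hUV hv₀
    have hv₀Y : Y ψ ⟨v₀, hv₀V⟩ ≠ 0 := by
      intro h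
      exact hv₀Z ((hZ _).2 ⟨hv₀V, h⟩)
    intro v hv
    by_cases hvY : Y ψ ⟨v, hv⟩ = 0
    · exact hZU ((hZ _).2 ⟨hv, hvY⟩)
    set a := Y ψ ⟨v₀, hv₀V⟩ / Y ψ ⟨v, hv⟩ with ha
    have ha0 : a ≠ 0 := div_ne_zero hv₀Y hvY
    obtain ⟨l, hl00, hl01, hl10, hl11⟩ := hdiag a ha0
    have hlN : (l : G) ∈ L ⊓ normalizer (T : Set G) := ⟨l.2, hnormT l hl10⟩
    have h1 : (l : G) * v₀ * (l : G)⁻¹ ∈ U := (mem_normalizer_iff.1 (hB hlN) v₀).1 hv₀
    obtain ⟨w, hw, hw1, hw2⟩ := hcoord l ⟨v₀, hv₀V⟩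
    have hwU : (w : G) ∈ U := by
      rw [hw]
      exact h1
    have hw3 : Y ψ w = Y ψ ⟨v, hv⟩ := by
      rw [hw2, hl10, hl11, zero_mul, zero_add, ha]
      field_simp
    have hz₂ : v * (w : G)⁻¹ ∈ U := by
      have h2 : v * (w : G)⁻¹ ∈ V := mul_mem hv (inv_mem w.2)
      apply hZU
      rw [hZ]
      refine ⟨h2, ?_⟩
      have h3 : (⟨v * (w : G)⁻¹, h2⟩ : ↥V) = ⟨v, hv⟩ * w⁻¹ := rfl
      rw [h3, Y_mul, Y_inv, hw3]
      ring
    have h3 : v = (v * (w : G)⁻¹) * w := by group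
    rw [h3]
    exact mul_mem hz₂ hwU

end Cfsg.Agent.S2780
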