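import Cfsg.Statements.S2941
import Cfsg.Agent.Lib.PGlaub
import Cfsg.Agent.Lib.H1Quat
-- import your own Cfsg.Agent.* helpers here

set_option autoImplicit false
open Cfsg

namespace Cfsg.Agent.S2941

/-- Let G be a finite group of characteristic 2 type in which every 2-local subgroup is solvable and the centralizer of Ω₁(Z(S)) lies in N_G(S) for every Sylow 2-subgroup S, and let T be a nontrivial 2-subgroup and K a J(T)-component (J the Thompson subgroup generated by the elementary abelian 2-subgroups of largest order). If a subgroup Q is normalized by ⟨K, J(T)⟩ and normalizes J(T), then Q normalizes K. -/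
theorem result {G : Type*} [Group G] [Finite G] (hL : Cfsg.IsCharacteristicTwoType G) (hN : ∀ N : Subgroup G, Cfsg.IsTwoLocal N → Group.IsSolvable ↥N)
    (hZ : ∀ S : Sylow 2 G, Subgroup.centralizer (Cfsg.omegaCenterOf (S : Subgroup G) : Set G) ≤ Subgroup.normalizer ((S : Subgroup G) : Set G)) (T : Subgroup G) (hT : IsPGroup 2 ↥T) (hT1 : T ≠ ⊥) (K : Subgroup G) (hK : Cfsg.IsJComponent T K)
    (Q : Subgroup G) (hQ1 : K ⊔ Cfsg.thompsonSubgroupOf 2 T ≤ Subgroup.normalizer (Q : Set G)) (hQ2 : Q ≤ Subgroup.normalizer (Cfsg.thompsonSubgroupOf 2 T : Set G)) :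
    Q ≤ Subgroup.normalizer (K : Set G) := by
  classical
  set J := Cfsg.thompsonSubgroupOf 2 T with hJ
  have hJp : IsPGroup 2 ↥J := by
    have h1 : J ≤ T := by
      rw [hJ, Cfsg.thompsonSubgroupOf]
      exact Subgroup.map_subtype_le _
    exact hT.to_le h1
  obtain ⟨hgen, hcomm, -, -, -, -⟩ := hK
  -- `J` normalizes `K`
  have hJK : ∀ j ∈ J, ∀ k ∈ K, j * k * j⁻¹ ∈ K := by
    intro j hj k hk
    have h1 : k⁻¹ * j * k * j⁻¹ ∈ K := by
      rw [← hcomm]
      have := Subgroup.commutator_mem_commutator (inv_mem hk) hj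
      rw [commutatorElement_def] at this
      simpa using this
    have e : j * k * j⁻¹ = k * (k⁻¹ * j * k * j⁻¹) := by group
    rw [e]
    exact mul_mem hk h1
  -- elements of `K ⊔ J` are products
  have hprod : ∀ x ∈ K ⊔ J, ∃ k ∈ K, ∃ j ∈ J, x = k * j := by
    intro x hx
    rw [Subgroup.sup_eq_closure] at hx
    induction hx using Subgroup.closure_induction with
    | mem x hx =>
      rcases hx with hx | hx
      · exact ⟨x, hx, 1, one_mem _, by simp⟩
      · exact ⟨1, one_mem _, x, hx, by simp⟩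
    | one => exact ⟨1, one_mem _, 1, one_mem _, by simp⟩
    | mul a b _ _ ha hb =>
      obtain ⟨k, hk, j, hj, rfl⟩ := ha
      obtain ⟨k', hk', j', hj', rfl⟩ := hb
      refine ⟨k * (j * k' * j⁻¹), mul_mem hk (hJK j hj k' hk'), j * j', mul_mem hj hj', by group⟩
    | inv a _ ha =>
      obtain ⟨k, hk, j, hj, rfl⟩ := ha
      refine ⟨j⁻¹ * k⁻¹ * j⁻¹⁻¹, hJK j⁻¹ (inv_mem hj) k⁻¹ (inv_mem hk), j⁻¹, inv_mem hj, by group⟩
  -- odd order elements of `K ⊔ J` lie in `K`
  have hodd : ∀ x ∈ K ⊔ J, Odd (orderOf x) → x ∈ K := by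
    intro x hx hox
    obtain ⟨k, hk, j, hj, rfl⟩ := hprod x hx
    have hpow : ∀ n : ℕ, ∃ k' ∈ K, (k * j) ^ n = k' * j ^ n := by
      intro n
      induction n with
      | zero => exact ⟨1, one_mem _, by simp⟩
      | succ n ih =>
        obtain ⟨k', hk', he⟩ := ih
        refine ⟨k' * (j ^ n * k * (j ^ n)⁻¹), mul_mem hk' (hJK _ (pow_mem hj n) k hk), ?_⟩
        rw [pow_succ, he]
        group
    obtain ⟨k', hk', he⟩ := hpow (orderOf (k * j))
    rw [pow_orderOf_eq_one] at he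
    have hjm : j ^ orderOf (k * j) ∈ K := by
      have e : j ^ orderOf (k * j) = k'⁻¹ := by
        have := he
        calc j ^ orderOf (k * j) = k'⁻¹ * (k' * j ^ orderOf (k * j)) := by group
          _ = k'⁻¹ := by rw [← he]; group
      rw [e]
      exact inv_mem hk'
    obtain ⟨a, ha⟩ := IsPGroup.iff_orderOf.1 hJp ⟨j, hj⟩
    rw [Subgroup.orderOf_mk] at ha
    have hcop : Nat.Coprime (orderOf (k * j)) (orderOf j) := by
      rw [ha]
      exact Nat.Coprime.pow_right a (Nat.coprime_two_right.2 hox)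
    have hjz := Cfsg.Agent.Lib.H1Quat.mem_zpowers_pow_of_coprime hcop
    have hjK : j ∈ K := (Subgroup.zpowers_le.2 hjm) hjz
    exact mul_mem hk hjK
  intro q hq
  have hqJ : ∀ j ∈ J, q * j * q⁻¹ ∈ J := fun j hj => (Subgroup.mem_normalizer_iff.1 (hQ2 hq) j).1 hj
  have hqJ' : ∀ q' ∈ Q, ∀ j ∈ J, q' * j * q'⁻¹ ∈ J := fun q' hq' j hj => (Subgroup.mem_normalizer_iff.1 (hQ2 hq') j).1 hj
  have hKQ : ∀ k ∈ K, k ∈ Subgroup.normalizer (Q : Set G) := fun k hk => hQ1 ((le_sup_left : K ≤ K ⊔ J) hk)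
  -- conjugates by `q` of commutators lie in `K ⊔ J`
  have hqK : ∀ k ∈ K, q * k * q⁻¹ ∈ K ⊔ J := by
    have hle : K ≤ (K ⊔ J).comap (MulAut.conj q).toMonoidHom := by
      conv_lhs => rw [← hcomm]
      rw [Subgroup.commutator_le]
      intro k hk j hj
      show q * (k * j * k⁻¹ * j⁻¹) * q⁻¹ ∈ K ⊔ J
      have hq' : k⁻¹ * q * k ∈ Q := by
        have := (Subgroup.mem_normalizer_iff.1 (hKQ k⁻¹ (inv_mem hk)) q).1 hq
        simpa using this
      have e : q * (k * j * k⁻¹ * j⁻¹) * q⁻¹ = (k * ((k⁻¹ * q * k) * j * (k⁻¹ * q * k)⁻¹) * k⁻¹) * (q * j⁻¹ * q⁻¹) := by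
        group
      rw [e]
      refine mul_mem (mul_mem (mul_mem ((le_sup_left : K ≤ K ⊔ J) hk) ?_) (inv_mem ((le_sup_left : K ≤ K ⊔ J) hk))) ?_
      · exact (le_sup_right : J ≤ K ⊔ J) (hqJ' _ hq' j hj)
      · exact (le_sup_right : J ≤ K ⊔ J) (hqJ _ (inv_mem hj))
    exact fun k hk => hle hk
  refine Cfsg.Agent.Lib.PGlaub.mem_normalizer_of_conj_mem (fun k hk => ?_)
  have hle : K ≤ K.comap (MulAut.conj q).toMonoidHom := by
    conv_lhs => rw [← hgen]
    rw [Subgroup.closure_le]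
    rintro g ⟨hg, hgo⟩
    show q * g * q⁻¹ ∈ K
    refine hodd _ (hqK g hg) ?_
    have : orderOf (q * g * q⁻¹) = orderOf g := MulEquiv.orderOf_eq (MulAut.conj q) g
    rw [this]
    exact hgo
  exact hle hk

end Cfsg.Agent.S2941
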