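import Cfsg.Statements.S2947
import Cfsg.Agent.Lib.PGlaub
import Cfsg.Agent.Lib.PZJ7
import Cfsg.Agent.Lib.H1Core
-- import your own Cfsg.Agent.* helpers here

set_option autoImplicit false
open Cfsg

namespace Cfsg.Agent.S2947

/-- Let G be a finite group of characteristic 2 type in which every 2-local subgroup is solvable and the centralizer of Ω₁(Z(S)) lies in N_G(S) for every Sylow 2-subgroup S; suppose O₂(G) = 1, fix a Sylow 2-subgroup S and a 2-local subgroup M containing N_G(J(S)) (J the Thompson subgroup generated by the elementary abelian 2-subgroups of largest order). Then M is strongly embedded in G (a proper subgroup of even order whose intersection with each conjugate by an element outside M has odd order) if and only if no nontrivial 2-subgroup of M lies in a 2-local subgroup of G not contained in M. -/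
theorem result {G : Type*} [Group G] [Finite G] (hL : Cfsg.IsCharacteristicTwoType G) (hN : ∀ N : Subgroup G, Cfsg.IsTwoLocal N → Group.IsSolvable ↥N)
    (hZ : ∀ S : Sylow 2 G, Subgroup.centralizer (Cfsg.omegaCenterOf (S : Subgroup G) : Set G) ≤ Subgroup.normalizer ((S : Subgroup G) : Set G)) (hO : Cfsg.pCore 2 G = ⊥) (S : Sylow 2 G) (M : Subgroup G) (hM : Cfsg.IsTwoLocal M)
    (hMJ : Subgroup.normalizer (Cfsg.thompsonSubgroupOf 2 (S : Subgroup G) : Set G) ≤ M) :
    Cfsg.IsStronglyEmbedded M ↔ Cfsg.straddlingTwoSubgroups M = ∅ := by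
  classical
  constructor
  · intro hE
    ext T
    simp only [Set.mem_empty_iff_false, iff_false]
    rintro ⟨hT2, hTne, hTM, L, ⟨Q₂, hQ₂, hQ₂ne, rfl⟩, hTL, hLM⟩
    have hA : ∀ U : Subgroup G, IsPGroup 2 U → U ≠ ⊥ → U ≤ M → Subgroup.normalizer (U : Set G) ≤ M := by
      intro U hU hUne hUM g hg
      by_contra hgM
      have hodd := hE.2.2 g hgM
      have hUle : U ≤ M ⊓ M.map (MulAut.conj g).toMonoidHom := by
        refine le_inf hUM ?_
        intro u hu
        have h1 : g⁻¹ * u * g ∈ U := by
          have := (Subgroup.mem_normalizer_iff.1 (inv_mem hg) u).1 hu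
          simpa using this
        exact ⟨g⁻¹ * u * g, hUM h1, by simp [mul_assoc]⟩
      have hd := Subgroup.card_dvd_of_le hUle
      obtain ⟨k, hk⟩ := (IsPGroup.iff_card).1 hU
      have hk0 : k ≠ 0 := by
        rintro rfl
        apply hUne
        rw [pow_zero] at hk
        exact Subgroup.card_eq_one.1 hk
      have h2 : 2 ∣ Nat.card U := by
        rw [hk]
        exact dvd_pow_self 2 hk0
      obtain ⟨m, hm⟩ := hodd
      have h3 := h2.trans hd
      omega
    have hR : IsPGroup 2 ↥(T ⊔ Q₂) := IsPGroup.to_sup_of_normal_right' hT2 hQ₂ hTL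
    have hRM : T ⊔ Q₂ ≤ M := by
      by_contra hne
      have hlt : (T ⊔ Q₂) ⊓ M < T ⊔ Q₂ := lt_of_le_of_ne inf_le_left (fun h => hne (inf_eq_left.1 h))
      obtain ⟨x, hxR, hxT, hxN⟩ := Cfsg.Agent.Lib.PZJ.exists_normalizing_elt hR hlt
      have hne2 : (T ⊔ Q₂) ⊓ M ≠ ⊥ := by
        intro h
        apply hTne
        rw [eq_bot_iff, ← h]
        exact le_inf le_sup_left hTM
      have h4 := hA _ (hR.to_le inf_le_left) hne2 inf_le_right hxN
      exact hxT (Subgroup.mem_inf.2 ⟨hxR, h4⟩)
    exact hLM (hA Q₂ hQ₂ hQ₂ne (le_sup_right.trans hRM))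
  · intro hS
    have hno : ∀ U : Subgroup G, IsPGroup 2 U → U ≠ ⊥ → U ≤ M → ∀ L : Subgroup G, Cfsg.IsTwoLocal L → U ≤ L → L ≤ M := by
      intro U hU hUne hUM L hL hUL
      by_contra hLM
      have : U ∈ Cfsg.straddlingTwoSubgroups M := ⟨hU, hUne, hUM, L, hL, hUL, hLM⟩
      rw [hS] at this
      exact this
    obtain ⟨Q, hQ, hQne, hMQ⟩ := hM
    have hQM : Q ≤ M := by
      rw [hMQ]
      exact Subgroup.le_normalizer
    have hQ2 : 2 ∣ Nat.card Q := by
      obtain ⟨k, hk⟩ := (IsPGroup.iff_card).1 hQ
      have hk0 : k ≠ 0 := by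
        rintro rfl
        apply hQne
        rw [pow_zero] at hk
        exact Subgroup.card_eq_one.1 hk
      rw [hk]
      exact dvd_pow_self 2 hk0
    refine ⟨?_, ?_, ?_⟩
    · intro htop
      apply hQne
      have hn : Q.Normal := by
        rw [htop] at hMQ
        exact Subgroup.normalizer_eq_top_iff.1 hMQ.symm
      have h1 := Cfsg.Agent.Lib.H1Core.le_pCore hn hQ
      rw [hO] at h1
      exact le_bot_iff.1 h1
    · exact (even_iff_two_dvd).2 (hQ2.trans (Subgroup.card_dvd_of_le hQM))
    · intro g hg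
      by_contra hodd
      rw [Nat.not_odd_iff_even] at hodd
      have h2 : 2 ∣ Nat.card ↥(M ⊓ M.map (MulAut.conj g).toMonoidHom) := even_iff_two_dvd.1 hodd
      obtain ⟨t, ht⟩ := exists_prime_orderOf_dvd_card' (p := 2) h2
      have ht2 : orderOf (t : G) = 2 := by
        rw [Subgroup.orderOf_coe]
        exact ht
      obtain ⟨htM, htM'⟩ := Subgroup.mem_inf.1 t.2
      have hZ2 : IsPGroup 2 (Subgroup.zpowers (t : G)) := by
        apply IsPGroup.of_card (n := 1)
        rw [Nat.card_zpowers, ht2, pow_one]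
      have hZne : Subgroup.zpowers (t : G) ≠ ⊥ := by
        intro h
        have := Subgroup.zpowers_eq_bot.1 h
        rw [this, orderOf_one] at ht2
        omega
      have hMg : M.map (MulAut.conj g).toMonoidHom = Subgroup.normalizer (((Q.map (MulAut.conj g).toMonoidHom : Subgroup G)) : Set G) := by
        rw [hMQ]
        ext y
        constructor
        · rintro ⟨n, hn, rfl⟩
          refine Cfsg.Agent.Lib.PGlaub.mem_normalizer_of_conj_mem ?_
          rintro _ ⟨q, hq, rfl⟩
          refine ⟨n * q * n⁻¹, (Subgroup.mem_normalizer_iff.1 hn q).1 hq, ?_⟩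
          simp only [MulEquiv.coe_toMonoidHom, MulAut.conj_apply]
          group
        · intro hy
          refine ⟨g⁻¹ * y * g, ?_, by simp [mul_assoc]⟩
          refine Cfsg.Agent.Lib.PGlaub.mem_normalizer_of_conj_mem (fun q hq => ?_)
          have h1 : g * q * g⁻¹ ∈ Q.map (MulAut.conj g).toMonoidHom := ⟨q, hq, by simp⟩
          obtain ⟨b, hb, he⟩ := (Subgroup.mem_normalizer_iff.1 hy _).1 h1
          have he' : g * b * g⁻¹ = y * (g * q * g⁻¹) * y⁻¹ := by simpa using he
          have e : g⁻¹ * y * g * q * (g⁻¹ * y * g)⁻¹ = b := by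
            have h2 : g⁻¹ * (y * (g * q * g⁻¹) * y⁻¹) * g = b := by
              rw [← he']
              group
            rw [← h2]
            group
          rw [e]
          exact hb
      have hL : Cfsg.IsTwoLocal (M.map (MulAut.conj g).toMonoidHom) := by
        refine ⟨Q.map (MulAut.conj g).toMonoidHom, hQ.map _, ?_, hMg⟩
        intro h
        apply hQne
        exact (Subgroup.map_eq_bot_iff_of_injective _ (MulAut.conj g).injective).1 h
      have hLM := hno _ hZ2 hZne ((Subgroup.zpowers_le).2 htM) _ hL ((Subgroup.zpowers_le).2 htM')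
      -- `g` normalizes `M`
      have hMe : M.map (MulAut.conj g).toMonoidHom = M := by
        apply Subgroup.eq_of_le_of_card_ge hLM
        rw [Subgroup.card_map_of_injective (MulAut.conj g).injective]
      -- the core of `M`
      obtain ⟨R, hR⟩ := IsPGroup.exists_le_sylow (hQ.comap_subtype (K := M) : IsPGroup 2 (Q.comap M.subtype))
      let R₀ : Subgroup G := (R : Subgroup ↥M).map M.subtype
      have hR₀2 : IsPGroup 2 R₀ := R.2.map _
      have hR₀M : R₀ ≤ M := Subgroup.map_subtype_le _
      have hR₀ne : R₀ ≠ ⊥ := by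
        intro h
        apply hQne
        rw [eq_bot_iff]
        intro q hq
        have h1 : q ∈ R₀ := ⟨⟨q, hQM hq⟩, hR hq, rfl⟩
        rw [h] at h1
        exact h1
      -- conjugate of `R₀` by `g` is a Sylow subgroup of `M`
      let c : ↥M →* ↥M :=
        { toFun := fun m => ⟨g * m.1 * g⁻¹, by
            have : g * m.1 * g⁻¹ ∈ M.map (MulAut.conj g).toMonoidHom := ⟨m.1, m.2, by simp⟩
            rwa [hMe] at this⟩
          map_one' := by
            apply Subtype.ext
            simp
          map_mul' := fun a b => by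
            apply Subtype.ext
            show g * (a.1 * b.1) * g⁻¹ = (g * a.1 * g⁻¹) * (g * b.1 * g⁻¹)
            group }
      have hcs : Function.Surjective c := by
        rintro ⟨y, hy⟩
        have hy' : y ∈ M.map (MulAut.conj g).toMonoidHom := by
          rw [hMe]
          exact hy
        obtain ⟨m, hm, hme⟩ := hy'
        exact ⟨⟨m, hm⟩, Subtype.ext hme⟩
      obtain ⟨m, hm⟩ := MulAction.exists_smul_eq ↥M R (R.mapSurjective hcs)
      have hn : (m : G)⁻¹ * g ∈ Subgroup.normalizer (R₀ : Set G) := by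
        refine Cfsg.Agent.Lib.PGlaub.mem_normalizer_of_conj_mem ?_
        rintro _ ⟨r, hr, rfl⟩
        have h1 : c r ∈ ((R.mapSurjective hcs : Sylow 2 ↥M) : Subgroup ↥M) := ⟨r, hr, rfl⟩
        rw [← hm, Sylow.coe_subgroup_smul] at h1
        obtain ⟨r', hr', he⟩ := h1
        have he' : m * r' * m⁻¹ = c r := he
        have he2 : (m : G) * (r' : G) * (m : G)⁻¹ = g * r.1 * g⁻¹ := congrArg Subtype.val he'
        refine ⟨r', hr', ?_⟩
        have e : (m : G)⁻¹ * g * r.1 * ((m : G)⁻¹ * g)⁻¹ = r' := by
          have h3 : (m : G)⁻¹ * (g * r.1 * g⁻¹) * m = r' := by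
            rw [← he2]
            group
          rw [← h3]
          group
        exact e.symm
      have hnM := hno R₀ hR₀2 hR₀ne hR₀M _ ⟨R₀, hR₀2, hR₀ne, rfl⟩ Subgroup.le_normalizer hn
      apply hg
      have := mul_mem m.2 hnM
      simpa using this

end Cfsg.Agent.S2947
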