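import Cfsg.Statements.S3116
import Mathlib

set_option autoImplicit false
open Cfsg

namespace Cfsg.Agent.S3116

theorem odd_pow_dvd (a : ℤ) (ha : Odd a) (k : ℕ) : (2 ^ (k + 1) : ℤ) ∣ a ^ (2 ^ k) - 1 := by
  induction k with
  | zero =>
    obtain ⟨t, rfl⟩ := ha
    exact ⟨t, by ring⟩
  | succ k ih =>
    obtain ⟨t, ht⟩ := ih
    obtain ⟨u, hu⟩ : Even (a ^ (2 ^ k) + 1) := by
      have : Odd (a ^ (2 ^ k)) := ha.pow
      exact this.add_one
    refine ⟨t * u, ?_⟩
    have h1 : a ^ (2 ^ (k + 1)) = a ^ (2 ^ k) * a ^ (2 ^ k) := by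
      rw [pow_succ, pow_mul, sq]
    rw [h1]
    have h2 : a ^ (2 ^ k) * a ^ (2 ^ k) - 1 = (a ^ (2 ^ k) - 1) * (a ^ (2 ^ k) + 1) := by ring
    rw [h2, ht, hu]
    ring

theorem pow_apply_r {X : Type*} [Group X] (φ : MulAut X) (r : X) (a : ℤ) (h : φ r = r ^ a) (k : ℕ) :
    (φ ^ k) r = r ^ (a ^ k) := by
  induction k with
  | zero => simp
  | succ k ih =>
    rw [pow_succ', MulAut.mul_apply, ih, map_zpow, h, ← zpow_mul, pow_succ']

theorem pow_apply_s {X : Type*} [Group X] (ψ : MulAut X) (s c : X) (hc : ψ s = s * c)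
    (hcc : ψ c = c) (k : ℕ) : (ψ ^ k) s = s * c ^ k := by
  induction k with
  | zero => simp
  | succ k ih =>
    rw [pow_succ', MulAut.mul_apply, ih, map_mul, map_pow, hc, hcc, mul_assoc, pow_succ']

theorem main {X : Type*} [Group X] [Finite X] (r : X) (n : ℕ) (hn : 1 ≤ n)
    (hr : orderOf r = 2 ^ n) (hcard : Nat.card X = 2 ^ (n + 1))
    (hout : ∀ x, x ∉ Subgroup.zpowers r → x ^ (2 ^ (n - 1)) = 1) : IsPGroup 2 (MulAut X) := by
  have hpow : (2 : ℕ) ^ n = 2 * 2 ^ (n - 1) := by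
    rw [← pow_succ']
    congr 1
    omega
  intro φ
  have hφr : orderOf (φ r) = 2 ^ n := by
    rw [MulEquiv.orderOf_eq, hr]
  have hmem : φ r ∈ Subgroup.zpowers r := by
    by_contra hc
    have h1 := hout _ hc
    have h2 : 2 ^ n ∣ 2 ^ (n - 1) := by
      rw [← hφr]
      exact orderOf_dvd_of_pow_eq_one h1
    have h3 := Nat.le_of_dvd (by positivity) h2
    rw [hpow] at h3
    have : 0 < 2 ^ (n - 1) := by positivity
    omega
  obtain ⟨a, ha⟩ := Subgroup.mem_zpowers_iff.mp hmem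
  have ha' : φ r = r ^ a := ha.symm
  have haodd : Odd a := by
    rw [← Int.not_even_iff_odd]
    rintro ⟨b, hb⟩
    have h1 : (φ r) ^ (2 ^ (n - 1)) = 1 := by
      rw [ha', ← zpow_natCast, ← zpow_mul]
      have h2 : a * ((2 ^ (n - 1) : ℕ) : ℤ) = b * ((2 ^ n : ℕ) : ℤ) := by
        rw [hb, hpow]
        push_cast
        ring
      rw [h2, zpow_mul', zpow_natCast, ← hr, pow_orderOf_eq_one, one_zpow]
    have h2 : 2 ^ n ∣ 2 ^ (n - 1) := by
      rw [← hφr]
      exact orderOf_dvd_of_pow_eq_one h1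
    have h3 := Nat.le_of_dvd (by positivity) h2
    rw [hpow] at h3
    have : 0 < 2 ^ (n - 1) := by positivity
    omega
  set ψ := φ ^ (2 ^ n) with hψdef
  have hψr : ψ r = r := by
    rw [hψdef, pow_apply_r φ r a ha']
    obtain ⟨t, ht⟩ := odd_pow_dvd a haodd n
    have h1 : a ^ (2 ^ n) = 1 + ((2 ^ n : ℕ) : ℤ) * (2 * t) := by
      have : a ^ (2 ^ n) = (a ^ (2 ^ n) - 1) + 1 := by ring
      rw [this, ht]
      push_cast
      ring
    rw [h1, zpow_add, zpow_one, zpow_mul, zpow_natCast, ← hr, pow_orderOf_eq_one, one_zpow, mul_one]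
  have hψC : ∀ c ∈ Subgroup.zpowers r, ψ c = c := by
    intro c hc
    obtain ⟨i, rfl⟩ := Subgroup.mem_zpowers_iff.mp hc
    rw [map_zpow, hψr]
  have hcardC : Nat.card (Subgroup.zpowers r) = 2 ^ n := by
    rw [Nat.card_zpowers, hr]
  have hidx : (Subgroup.zpowers r).index = 2 := by
    have h1 := Subgroup.card_mul_index (Subgroup.zpowers r)
    rw [hcardC, hcard, pow_succ] at h1
    exact Nat.eq_of_mul_eq_mul_left (by positivity) h1
  have hψout : ∀ x, x ∉ Subgroup.zpowers r → ψ x ∉ Subgroup.zpowers r := by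
    intro x hx hc
    have h1 : ψ.symm (ψ x) ∈ Subgroup.zpowers r := by
      obtain ⟨i, hi⟩ := Subgroup.mem_zpowers_iff.mp hc
      have h2 : ψ.symm r = r := by
        apply ψ.injective
        rw [MulEquiv.apply_symm_apply, hψr]
      rw [← hi, map_zpow, h2]
      exact Subgroup.zpow_mem_zpowers _ _
    rw [MulEquiv.symm_apply_apply] at h1
    exact hx h1
  refine ⟨n + n, ?_⟩
  rw [pow_add, pow_mul]
  change ψ ^ (2 ^ n) = 1
  ext x
  rw [MulAut.one_apply]
  have hχC : ∀ c ∈ Subgroup.zpowers r, (ψ ^ (2 ^ n)) c = c := by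
    intro c hc
    have : ∀ k : ℕ, (ψ ^ k) c = c := by
      intro k
      induction k with
      | zero => simp
      | succ k ih => rw [pow_succ', MulAut.mul_apply, ih, hψC c hc]
    exact this _
  by_cases hx : x ∈ Subgroup.zpowers r
  · exact hχC x hx
  · have hψx := hψout x hx
    have hc : x⁻¹ * ψ x ∈ Subgroup.zpowers r := by
      rw [Subgroup.mul_mem_iff_of_index_two hidx]
      simp [hx, hψx]
    have h1 := pow_apply_s ψ x (x⁻¹ * ψ x) (by group) (hψC _ hc) (2 ^ n)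
    rw [h1]
    have h2 : (x⁻¹ * ψ x) ^ (2 ^ n) = 1 := by
      have h3 : orderOf (x⁻¹ * ψ x) ∣ 2 ^ n := by
        have := orderOf_dvd_natCard (G := Subgroup.zpowers r) (x := ⟨_, hc⟩)
        rw [hcardC] at this
        rwa [Subgroup.orderOf_mk] at this
      exact orderOf_dvd_iff_pow_eq_one.mp h3
    rw [h2, mul_one]

theorem dihedral_case {X : Type*} [Group X] [Finite X] (h2 : IsPGroup 2 X) (m : ℕ) (hm : 4 ≤ m)
    (e : X ≃* DihedralGroup m) : IsPGroup 2 (MulAut X) := by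
  haveI : NeZero m := ⟨by omega⟩
  have hcard : Nat.card X = 2 * m := by
    rw [Nat.card_congr e.toEquiv, DihedralGroup.nat_card]
  haveI : Fact (Nat.Prime 2) := ⟨Nat.prime_two⟩
  obtain ⟨k, hk⟩ := IsPGroup.iff_card.mp h2
  have hk1 : 1 ≤ k := by
    rcases Nat.eq_zero_or_pos k with h0 | h0
    · rw [h0, pow_zero, hcard] at hk
      omega
    · exact h0
  obtain ⟨n, rfl⟩ : ∃ n, k = n + 1 := ⟨k - 1, by omega⟩
  have hmn : m = 2 ^ n := by
    rw [hcard, pow_succ'] at hk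
    omega
  have hn : 2 ≤ n := by
    by_contra hc
    have : n = 0 ∨ n = 1 := by omega
    rcases this with h | h <;> rw [h] at hmn <;> omega
  refine main (e.symm (DihedralGroup.r 1)) n (by omega) ?_ ?_ ?_
  · rw [MulEquiv.orderOf_eq, DihedralGroup.orderOf_r_one, hmn]
  · rw [hcard, hmn, pow_succ']
  · intro x hx
    have hcases : ∃ i, e x = DihedralGroup.sr i := by
      rcases hex : e x with i | i
      · exfalso
        apply hx
        rw [Subgroup.mem_zpowers_iff]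
        refine ⟨(i.val : ℤ), ?_⟩
        apply e.injective
        rw [map_zpow, MulEquiv.apply_symm_apply, hex, DihedralGroup.r_one_zpow]
        simp
      · exact ⟨i, rfl⟩
    obtain ⟨i, hi⟩ := hcases
    have h3 : orderOf x = 2 := by
      rw [← MulEquiv.orderOf_eq e, hi, DihedralGroup.orderOf_sr]
    have h4 : (2 : ℕ) ∣ 2 ^ (n - 1) := dvd_pow_self 2 (by omega)
    rw [← orderOf_dvd_iff_pow_eq_one, h3]
    exact h4

theorem quasi_case {X : Type*} [Group X] [Finite X] (h : Cfsg.IsQuasiDihedral X) :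
    IsPGroup 2 (MulAut X) := by
  obtain ⟨n, hn, hcard, x, y, hx, hy, hyx⟩ := h
  refine main x n (by omega) hx hcard ?_
  have hpow : (2 : ℕ) ^ n = 2 * 2 ^ (n - 1) := by
    rw [← pow_succ']
    congr 1
    omega
  have hy2 : y ^ 2 = 1 := by
    rw [← orderOf_dvd_iff_pow_eq_one, hy]
  have hyy : y * y = 1 := by rw [← sq]; exact hy2
  have hyinv : y⁻¹ = y := by
    rw [inv_eq_iff_mul_eq_one]; exact hyy
  have hp : 1 ≤ 2 ^ (n - 1) := Nat.one_le_two_pow
  have hn4 : 4 ≤ 2 ^ (n - 1) := by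
    calc 4 = 2 ^ 2 := by norm_num
      _ ≤ 2 ^ (n - 1) := Nat.pow_le_pow_right (by norm_num) (by omega)
  have hxord : x ^ (2 ^ n) = 1 := by
    rw [← hx]; exact pow_orderOf_eq_one x
  have hyC : y ∉ Subgroup.zpowers x := by
    intro hmem
    obtain ⟨i, hi⟩ := Subgroup.mem_zpowers_iff.mp hmem
    have h1 : y * x * y⁻¹ = x := by
      rw [← hi]
      have : (x ^ i) * x = x * (x ^ i) := by
        rw [← zpow_add_one, ← zpow_one_add, add_comm]
      rw [this, mul_assoc, mul_inv_cancel, mul_one]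
    rw [hyx] at h1
    have h2 : x ^ (2 ^ (n - 1) - 2) = 1 := by
      have h3 : x ^ (2 ^ (n - 1) - 2) * x = 1 * x := by
        rw [← pow_succ, one_mul]
        have h4 : 2 ^ (n - 1) - 2 + 1 = 2 ^ (n - 1) - 1 := by omega
        rw [h4]; exact h1
      exact mul_right_cancel h3
    have h3 := orderOf_dvd_of_pow_eq_one h2
    rw [hx] at h3
    have h4 := Nat.le_of_dvd (by omega) h3
    omega
  have hcardC : Nat.card (Subgroup.zpowers x) = 2 ^ n := by
    rw [Nat.card_zpowers, hx]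
  have hidx : (Subgroup.zpowers x).index = 2 := by
    have h1 := Subgroup.card_mul_index (Subgroup.zpowers x)
    rw [hcardC, hcard, pow_succ] at h1
    exact Nat.eq_of_mul_eq_mul_left (by positivity) h1
  intro z hz
  have hmem : y * z ∈ Subgroup.zpowers x := by
    rw [Subgroup.mul_mem_iff_of_index_two hidx]
    simp [hz, hyC]
  obtain ⟨i, hi⟩ := Subgroup.mem_zpowers_iff.mp hmem
  have hz' : z = y * x ^ i := by
    rw [hi, ← mul_assoc, hyy, one_mul]
  have hconj : y * x ^ i * y = x ^ (((2 ^ (n - 1) - 1 : ℕ) : ℤ) * i) := by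
    have h1 : y * x ^ i * y⁻¹ = (y * x * y⁻¹) ^ i := by
      rw [conj_zpow]
    rw [hyinv] at h1 hyx
    rw [h1, hyx, ← zpow_natCast, ← zpow_mul]
  have hz2 : z ^ 2 = x ^ (((2 ^ (n - 1) : ℕ) : ℤ) * i) := by
    rw [sq, hz']
    calc y * x ^ i * (y * x ^ i) = (y * x ^ i * y) * x ^ i := by group
      _ = x ^ (((2 ^ (n - 1) - 1 : ℕ) : ℤ) * i) * x ^ i := by rw [hconj]
      _ = x ^ (((2 ^ (n - 1) : ℕ) : ℤ) * i) := by
        rw [← zpow_add]
        congr 1
        have : ((2 ^ (n - 1) - 1 : ℕ) : ℤ) = ((2 ^ (n - 1) : ℕ) : ℤ) - 1 := by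
          rw [Nat.cast_sub hp]; simp
        rw [this]
        ring
  have hz4 : z ^ 4 = 1 := by
    have : z ^ 4 = (z ^ 2) ^ 2 := by rw [← pow_mul]
    rw [this, hz2, ← zpow_natCast, ← zpow_mul]
    have h5 : ((2 ^ (n - 1) : ℕ) : ℤ) * i * ((2 : ℕ) : ℤ) = ((2 ^ n : ℕ) : ℤ) * i := by
      rw [hpow]
      push_cast
      ring
    rw [h5, zpow_mul, zpow_natCast, hxord, one_zpow]
  have h4 : 4 ∣ 2 ^ (n - 1) := by
    have : (4 : ℕ) = 2 ^ 2 := by norm_num
    rw [this]
    exact pow_dvd_pow 2 (by omega)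
  obtain ⟨c, hc⟩ := h4
  rw [hc, pow_mul, hz4, one_pow]

/-- The automorphism group of a dihedral 2-group of order at least 8, or of a quasi-dihedral (semidihedral) 2-group of order at least 16, is a 2-group. -/
theorem result {X : Type*} [Group X] [Finite X] (h2 : IsPGroup 2 X)
    (h : (∃ n : ℕ, 4 ≤ n ∧ Nonempty (X ≃* DihedralGroup n)) ∨ Cfsg.IsQuasiDihedral X) : IsPGroup 2 (MulAut X) := by
  rcases h with ⟨m, hm, ⟨e⟩⟩ | h
  · exact dihedral_case h2 m hm e
  · exact quasi_case h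

end Cfsg.Agent.S3116
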