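import Cfsg.Statements.S3370
import Cfsg.Agent.Lib.H1Quat
import Cfsg.Agent.Lib.H1Small
import Cfsg.Agent.Lib.SubCount
import Cfsg.Agent.Lib.PermOrb

set_option autoImplicit false
open Cfsg

namespace Cfsg.Agent.S3370

theorem num1 {p a d : ℕ} (hp : p.Prime) (hp2 : p ≠ 2) (ha : 1 ≤ a) (hd : 2 ≤ d)
    (h : 2 ^ d = p ^ a + 1) : a = 1 := by
  have hodd : Odd p := hp.odd_of_ne_two hp2
  have h4 : 2 ^ d = 4 * 2 ^ (d - 2) := by
    obtain ⟨e, rfl⟩ := Nat.exists_eq_add_of_le hd
    simp [pow_add, mul_comm]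
  have ha_odd : Odd a := by
    by_contra hne
    obtain ⟨b, rfl⟩ := Nat.not_odd_iff_even.mp hne
    obtain ⟨y, hy⟩ := hodd.pow (n := b)
    have h1 : p ^ (b + b) = 4 * (y * y + y) + 1 := by
      rw [pow_add, hy]
      ring
    omega
  obtain ⟨b, rfl⟩ := ha_odd
  have hS : ∀ b : ℕ, ∃ S, Odd S ∧ p ^ (2 * b + 1) + 1 = (p + 1) * S := by
    intro b
    induction b with
    | zero => exact ⟨1, odd_one, by simp⟩
    | succ k ih =>
      obtain ⟨S, hSo, hS⟩ := ih
      obtain ⟨u, hu⟩ := hodd.mul hSo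
      refine ⟨2 * p * u + 1, ⟨p * u, by ring⟩, ?_⟩
      have e : p ^ (2 * (k + 1) + 1) = p ^ 2 * p ^ (2 * k + 1) := by ring
      rw [e]
      zify at hS hu ⊢
      linear_combination (p : ℤ) ^ 2 * hS + ((p : ℤ) + 1) * p * hu
  obtain ⟨S, hSo, hS⟩ := hS b
  have hS1 : S = 1 := by
    have h1 : S ∣ 2 ^ d := by
      rw [h, hS]
      exact dvd_mul_left _ _
    have h2 : Nat.Coprime S (2 ^ d) := (Nat.Coprime.pow_right _ hSo.coprime_two_right)
    exact Nat.Coprime.eq_one_of_dvd h2 h1
  rw [hS1, mul_one] at hS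
  have h5 : p ^ (2 * b + 1) = p ^ 1 := by
    rw [pow_one]
    omega
  exact Nat.pow_right_injective hp.two_le h5

theorem num2 {q a d : ℕ} (hq : q.Prime) (hq2 : q ≠ 2) (hd : 2 ≤ d) (h : q ^ d = 2 ^ a + 1) :
    q = 3 ∧ d = 2 := by
  have hodd : Odd q := hq.odd_of_ne_two hq2
  obtain ⟨r, hr⟩ := hodd
  rcases Nat.even_or_odd' d with ⟨e, rfl | rfl⟩
  · -- even
    have he : 1 ≤ e := by omega
    have hx3 : 3 ≤ q ^ e := by
      have h1 : q ≤ q ^ e := Nat.le_self_pow (by omega) q
      have h2 := hq.two_le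
      have h3 : q ≠ 2 := hq2
      omega
    obtain ⟨y, hy⟩ : ∃ y, q ^ e = y + 1 := ⟨q ^ e - 1, by omega⟩
    have h1 : y * (y + 2) = 2 ^ a := by
      have h2 : q ^ (2 * e) = (q ^ e) ^ 2 := by rw [← pow_mul, mul_comm]
      rw [h2, hy] at h
      nlinarith
    have hy1 : y ∣ 2 ^ a := Dvd.intro _ h1
    have hy2 : y + 2 ∣ 2 ^ a := Dvd.intro_left _ h1
    obtain ⟨b, -, hb⟩ := (Nat.dvd_prime_pow Nat.prime_two).mp hy1
    obtain ⟨c, -, hc⟩ := (Nat.dvd_prime_pow Nat.prime_two).mp hy2
    have hb1 : b = 1 := by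
      have hb0 : b ≠ 0 := by
        rintro rfl
        simp at hb
        omega
      by_contra hne
      obtain ⟨b', rfl⟩ : ∃ b', b = b' + 2 := ⟨b - 2, by omega⟩
      have hc0 : c ≠ 0 := by
        rintro rfl
        simp at hc
      have hc1 : c ≠ 1 := by
        rintro rfl
        have : 1 ≤ 2 ^ (b' + 2) := Nat.one_le_two_pow
        simp at hc
        omega
      obtain ⟨c', rfl⟩ : ∃ c', c = c' + 2 := ⟨c - 2, by omega⟩
      have e1 : 2 ^ (b' + 2) = 4 * 2 ^ b' := by ring
      have e2 : 2 ^ (c' + 2) = 4 * 2 ^ c' := by ring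
      omega
    subst hb1
    have hy2' : y = 2 := by simpa using hb
    have h3 : q ^ e = 3 := by omega
    have h4 := (Nat.Prime.pow_eq_iff Nat.prime_three).mp h3
    exact ⟨h4.1, by omega⟩
  · -- odd: impossible
    exfalso
    have hT : ∀ f : ℕ, ∃ T, Odd T ∧ (2 * r + 1) ^ (2 * f + 1) = 2 * r * T + 1 ∧ (1 ≤ f → 1 < T) := by
      intro f
      induction f with
      | zero => exact ⟨1, odd_one, by ring, by omega⟩
      | succ k ih =>
        obtain ⟨T, hTo, hT, -⟩ := ih
        refine ⟨(2 * r + 1) ^ 2 * T + 2 * r + 2, ?_, ?_, ?_⟩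
        · have h1 : Odd ((2 * r + 1) ^ 2 * T) := (Odd.pow ⟨r, rfl⟩).mul hTo
          obtain ⟨w, hw⟩ := h1
          exact ⟨w + r + 1, by omega⟩
        · have e : (2 * r + 1) ^ (2 * (k + 1) + 1) = (2 * r + 1) ^ 2 * (2 * r + 1) ^ (2 * k + 1) := by ring
          rw [e, hT]
          ring
        · intro _
          omega
    obtain ⟨T, hTo, hT, hT1⟩ := hT e
    have h1 : 1 < T := hT1 (by omega)
    rw [hr] at h
    rw [hT] at h
    have h2 : 2 * r * T = 2 ^ a := by omega
    have h3 : T ∣ 2 ^ a := Dvd.intro_left _ h2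
    have h4 : Nat.Coprime T (2 ^ a) := Nat.Coprime.pow_right _ hTo.coprime_two_right
    have h5 := Nat.Coprime.eq_one_of_dvd h4 h3
    omega

section
variable {q : ℕ} [Fact q.Prime] {V : Type*} [AddCommGroup V] [Module (ZMod q) V] [Finite V]
  {G : Type*} [Group G] [Finite G] (ρ : G →* (V ≃ₗ[ZMod q] V))

/-- the action attached to `ρ` -/
def act : MulAction G V where
  smul g v := ρ g v
  one_smul v := by
    show ρ 1 v = v
    simp
  mul_smul g h v := by
    show ρ (g * h) v = ρ g (ρ h v)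
    rw [map_mul]
    rfl

/-- stabilizer of a vector -/
def stab (v : V) : Subgroup G := @MulAction.stabilizer G V _ (act ρ) v

theorem mem_stab {v : V} {g : G} : g ∈ stab ρ v ↔ ρ g v = v := Iff.rfl

theorem card_stab (htrans : ∀ v w : V, v ≠ 0 → w ≠ 0 → ∃ g : G, ρ g v = w) {v₀ : V} (hv₀ : v₀ ≠ 0) :
    Nat.card G = (Nat.card V - 1) * Nat.card (stab ρ v₀) := by
  letI := act ρ
  have h1 : MulAction.orbit G v₀ = ({0} : Set V)ᶜ := by
    ext w
    constructor
    · rintro ⟨g, rfl⟩
      show ρ g v₀ ∉ ({0} : Set V)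
      simpa using hv₀
    · intro hw
      obtain ⟨g, hg⟩ := htrans v₀ w hv₀ (by simpa using hw)
      exact ⟨g, hg⟩
  have h2 : (stab ρ v₀).index = Nat.card V - 1 := by
    show (MulAction.stabilizer G v₀).index = _
    rw [MulAction.index_stabilizer, h1, Set.ncard_compl, Set.ncard_singleton]
  rw [← h2, Subgroup.index_mul_card]

theorem eq_one_of_fix (hρ : Function.Injective ρ) {g : G} (h : ∀ v, ρ g v = v) : g = 1 := by
  apply hρ
  rw [map_one]
  ext v
  exact h v

theorem stab_bot_of_succ {p : ℕ} [Fact p.Prime] (hG : IsPGroup p G) (hρ : Function.Injective ρ)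
    (hn : Nat.card V = p + 1) {v₀ : V} (hv₀ : v₀ ≠ 0) : stab ρ v₀ = ⊥ := by
  letI := act ρ
  have hS : IsPGroup p (stab ρ v₀) := hG.to_subgroup _
  have h1 := hS.card_modEq_card_fixedPoints V
  rw [hn] at h1
  set c := Nat.card (MulAction.fixedPoints (stab ρ v₀) V) with hc
  have hp := (Fact.out : p.Prime)
  have hc2 : 1 < c := by
    rw [hc, Finite.one_lt_card_iff_nontrivial]
    refine ⟨⟨⟨0, ?_⟩, ⟨v₀, ?_⟩, ?_⟩⟩
    · intro s
      show ρ s 0 = 0
      simp
    · intro s
      exact s.2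
    · intro h
      exact hv₀ (congrArg Subtype.val h).symm
  have hcle : c ≤ p + 1 := by
    rw [hc, ← hn]
    exact Finite.card_subtype_le _
  have hceq : c = p + 1 := by
    have h2 : (c - 1) % p = 0 := by
      have h3 : c % p = (p + 1) % p := h1.symm
      have h4 : (p + 1) % p = 1 % p := by simp
      have h5 : c ≡ 1 [MOD p] := h3.trans h4
      exact (Nat.modEq_iff_dvd' (by omega)).mp h5.symm |> Nat.mod_eq_zero_of_dvd
    obtain ⟨j, hj⟩ := Nat.dvd_of_mod_eq_zero h2
    have hj0 : j ≠ 0 := by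
      rintro rfl
      omega
    have : p ≤ p * j := Nat.le_mul_of_pos_right p (Nat.pos_of_ne_zero hj0)
    omega
  have hall : ∀ s : stab ρ v₀, ∀ v : V, ρ (s : G) v = v := by
    intro s v
    have h2 : MulAction.fixedPoints (stab ρ v₀) V = Set.univ := by
      apply Set.eq_of_subset_of_ncard_le (Set.subset_univ _) _ Set.finite_univ
      rw [Set.ncard_univ, ← Nat.card_coe_set_eq, ← hc, hceq, hn]
    have h3 : v ∈ MulAction.fixedPoints (stab ρ v₀) V := by rw [h2]; trivial
    exact h3 s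
  rw [eq_bot_iff]
  intro s hs
  have := eq_one_of_fix ρ hρ (hall ⟨s, hs⟩)
  simpa using this

/-- one dimensional spaces -/
theorem one_dim (hρ : Function.Injective ρ) (hn : Nat.card V = q) {v₀ : V} (hv₀ : v₀ ≠ 0) :
    stab ρ v₀ = ⊥ ∧ IsCyclic G := by
  classical
  have hq := (Fact.out : q.Prime)
  haveI : Module.Finite (ZMod q) V := Module.Finite.of_finite
  have hf : Module.finrank (ZMod q) V = 1 := by
    have h1 := Module.natCard_eq_pow_finrank (K := ZMod q) (V := V)
    rw [hn, Nat.card_zmod] at h1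
    have h2 : q ^ 1 = q ^ Module.finrank (ZMod q) V := by rw [pow_one]; exact h1
    exact (Nat.pow_right_injective hq.two_le h2).symm
  have hw := (finrank_eq_one_iff_of_nonzero' v₀ hv₀).mp hf
  choose c hc using fun g : G => hw (ρ g v₀)
  have hinj : Function.Injective (fun a : ZMod q => a • v₀) := smul_left_injective _ hv₀
  let C : G →* ZMod q :=
    { toFun := c
      map_one' := by
        apply hinj
        show c 1 • v₀ = (1 : ZMod q) • v₀
        rw [hc, one_smul, map_one]
        rfl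
      map_mul' := fun g h => by
        apply hinj
        show c (g * h) • v₀ = (c g * c h) • v₀
        rw [hc, map_mul, LinearEquiv.mul_apply, ← hc h, map_smul, ← hc g, mul_comm, mul_smul] }
  have hCinj : Function.Injective C := by
    intro g h hgh
    apply hρ
    apply LinearEquiv.ext
    intro w
    obtain ⟨a, rfl⟩ := hw w
    have h1 : ρ g v₀ = ρ h v₀ := by
      rw [← hc, ← hc]
      exact congrArg (· • v₀) hgh
    rw [map_smul, map_smul, h1]
  refine ⟨?_, isCyclic_of_injective_ringHom C hCinj⟩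
  rw [eq_bot_iff]
  intro s hs
  apply hCinj
  rw [map_one]
  apply hinj
  show c s • v₀ = (1 : ZMod q) • v₀
  rw [hc, one_smul]
  exact hs

end

section Nine

variable {V : Type*} [AddCommGroup V] [Fact (Nat.Prime 3)] [Module (ZMod 3) V] [Finite V]
  {G : Type*} [Group G] [Finite G] (ρ : G →* (V ≃ₗ[ZMod 3] V))

theorem finrank_nine (hn : Nat.card V = 9) : Module.finrank (ZMod 3) V = 2 := by
  haveI : Module.Finite (ZMod 3) V := Module.Finite.of_finite
  have h1 := Module.natCard_eq_pow_finrank (K := ZMod 3) (V := V)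
  rw [hn, Nat.card_zmod] at h1
  have h2 : 3 ^ 2 = 3 ^ Module.finrank (ZMod 3) V := by rw [← h1]; norm_num
  exact (Nat.pow_right_injective (by norm_num : 2 ≤ 3) h2).symm

/-- `s` fixing `v₀` and a vector outside its line is trivial. -/
theorem fix_all (hn : Nat.card V = 9) {v₀ x : V} (hv₀ : v₀ ≠ 0)
    (hx : x ∉ Submodule.span (ZMod 3) {v₀}) {s : G} (h1 : ρ s v₀ = v₀) (h2 : ρ s x = x) (v : V) :
    ρ s v = v := by
  haveI : Module.Finite (ZMod 3) V := Module.Finite.of_finite
  have hf := finrank_nine hn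
  set U : Submodule (ZMod 3) V := LinearMap.ker ((ρ s : V →ₗ[ZMod 3] V) - LinearMap.id) with hU
  have hmem : ∀ w, w ∈ U ↔ ρ s w = w := by
    intro w
    rw [hU, LinearMap.mem_ker, LinearMap.sub_apply, sub_eq_zero]
    rfl
  have hT : U = ⊤ := by
    by_contra hne
    have h3 := Submodule.finrank_lt hne
    rw [hf] at h3
    have hL : Module.finrank (ZMod 3) (Submodule.span (ZMod 3) {v₀}) = 1 := finrank_span_singleton hv₀
    have hle : Submodule.span (ZMod 3) {v₀} ≤ U := by
      rw [Submodule.span_singleton_le_iff_mem]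
      exact (hmem v₀).mpr h1
    have heq := Submodule.eq_of_le_of_finrank_le hle (by omega)
    exact hx (heq ▸ (hmem x).mpr h2)
  have h3 : v ∈ U := by rw [hT]; trivial
  exact (hmem v).mp h3

theorem stab_dvd_six (hρ : Function.Injective ρ) (hn : Nat.card V = 9) {v₀ : V} (hv₀ : v₀ ≠ 0) :
    Nat.card (stab ρ v₀) ∣ 6 := by
  classical
  haveI : Module.Finite (ZMod 3) V := Module.Finite.of_finite
  letI := act ρ
  set L : Submodule (ZMod 3) V := Submodule.span (ZMod 3) {v₀} with hL
  have hLcard : Nat.card L = 3 := by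
    have := Module.natCard_eq_pow_finrank (K := ZMod 3) (V := L)
    rw [hL, finrank_span_singleton hv₀, Nat.card_zmod, pow_one] at this
    exact this
  have hA : Nat.card {x // x ∉ L} = 6 := by
    have h1 : Nat.card {x // x ∈ L} + Nat.card {x // x ∉ L} = Nat.card V := by
      rw [← Nat.card_sum, Nat.card_congr (Equiv.sumCompl (· ∈ L))]
    have h2 : Nat.card {x // x ∈ L} = Nat.card L := rfl
    omega
  have hinv : ∀ (s : stab ρ v₀) (x : V), x ∉ L → s • x ∉ L := by
    intro s x hx hs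
    apply hx
    obtain ⟨a, ha⟩ := Submodule.mem_span_singleton.mp hs
    have h1 : x = a • v₀ := by
      apply (ρ (s : G)).injective
      have hs2 : ρ (s : G) v₀ = v₀ := s.2
      rw [map_smul, hs2, ha]
      rfl
    rw [h1]
    exact Submodule.smul_mem _ _ (Submodule.mem_span_singleton_self _)
  have h3 := Cfsg.Agent.Lib.SubCount.dvd_card_of_invariant (G := stab ρ v₀) (X := V) (fun x => x ∉ L) hinv
    (Nat.card (stab ρ v₀)) (by
      intro x hx
      have h := Cfsg.Agent.Lib.PermOrb.card_orbit_mul_stab (G := stab ρ v₀) x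
      have h4 : MulAction.stabilizer (stab ρ v₀) x = ⊥ := by
        rw [eq_bot_iff]
        intro s hs
        have h5 : ρ (s : G) x = x := hs
        have h6 := eq_one_of_fix ρ hρ (fix_all ρ hn hv₀ hx (s.2 : ρ (s : G) v₀ = v₀) h5)
        exact Subtype.ext h6
      rw [h4, Subgroup.card_bot, mul_one] at h
      rw [h])
  rwa [hA] at h3

/-- order 8 -/
theorem case_eight (hG : IsPGroup 2 G) (hρ : Function.Injective ρ)
    (htrans : ∀ v w : V, v ≠ 0 → w ≠ 0 → ∃ g : G, ρ g v = w) (hn : Nat.card V = 9)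
    (hc : Nat.card G = 8) : IsCyclic G ∨ Nonempty (G ≃* QuaternionGroup 2) := by
  classical
  haveI : Fact (Nat.Prime 2) := ⟨Nat.prime_two⟩
  have hstab : ∀ w : V, w ≠ 0 → stab ρ w = ⊥ := by
    intro w hw
    have h1 := card_stab ρ htrans hw
    rw [hc, hn] at h1
    exact Subgroup.eq_bot_of_card_eq _ (by omega)
  have hneg : ∀ H : Subgroup G, Nat.card H = 2 → ∀ x ∈ H, x ≠ 1 → ∀ v, ρ x v = -v := by
    intro H hH x hx hx1 v
    have h2 : x ^ 2 = 1 := by
      have := pow_card_eq_one' (x := (⟨x, hx⟩ : H))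
      rw [hH] at this
      exact congrArg Subtype.val this
    have h3 : ρ x (ρ x v) = v := by
      rw [← LinearEquiv.mul_apply, ← map_mul, ← sq, h2, map_one]
      rfl
    by_contra hne
    have h4 : v + ρ x v ≠ 0 := by
      intro h5
      apply hne
      exact eq_neg_of_add_eq_zero_right h5
    have h5 : x ∈ stab ρ (v + ρ x v) := by
      show ρ x (v + ρ x v) = v + ρ x v
      rw [map_add, h3, add_comm]
    rw [hstab _ h4] at h5
    exact hx1 h5
  have huniq : ∀ H K : Subgroup G, Nat.card H = 2 → Nat.card K = 2 → H = K := by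
    intro H K hH hK
    rcases Subgroup.bot_or_exists_ne_one K with h | ⟨t, htK, ht1⟩
    · rw [h, Subgroup.card_bot] at hK
      omega
    apply Subgroup.eq_of_le_of_card_ge _ (by omega)
    intro x hx
    by_cases hx1 : x = 1
    · rw [hx1]; exact K.one_mem
    have h1 := hneg H hH x hx hx1
    have h2 := hneg K hK t htK ht1
    have h3 : x = t := by
      apply hρ
      apply LinearEquiv.ext
      intro v
      rw [h1, h2]
    rw [h3]
    exact htK
  rcases Cfsg.Agent.Lib.H1Quat.cyclic_or_quaternion 2 hG huniq with h | ⟨-, n, ⟨e⟩⟩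
  · exact Or.inl h
  · right
    have h1 := Nat.card_congr e.toEquiv
    rw [hc, Nat.card_eq_fintype_card, QuaternionGroup.card] at h1
    have h2 : 2 ^ n = 2 ^ 1 := by omega
    have h3 : n = 1 := Nat.pow_right_injective (le_refl 2) h2
    subst h3
    exact ⟨e⟩

end Nine

section Matrices

abbrev M3 := Matrix (Fin 2) (Fin 2) (ZMod 3)

/-- generator of the nonsplit torus -/
def x0 : M3 := !![1, 2; 1, 1]

theorem x0_8 : x0 ^ 8 = 1 := by decide +kernel
theorem x0_4 : x0 ^ 4 ≠ 1 := by decide +kernel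
theorem x0_7 : x0 * x0 ^ 7 = 1 := by decide +kernel
theorem x0_7' : x0 ^ 7 * x0 = 1 := by decide +kernel

set_option maxRecDepth 100000 in
theorem key_m : ∀ m : M3, m * m = 1 → m ≠ 1 → m ≠ -1 → ∀ k : Fin 8, m * x0 = x0 ^ (k : ℕ) * m → (k : ℕ) = 3 := by
  decide +kernel

theorem two_ne : (2 : ZMod 3) ≠ 0 := by decide

/-- `x0` as a unit -/
def X0 : M3ˣ := ⟨x0, x0 ^ 7, x0_7, x0_7'⟩

theorem X0_order : orderOf X0 = 2 ^ 3 := by
  apply orderOf_eq_prime_pow (p := 2) (n := 2)
  · intro h
    exact x0_4 (congrArg Units.val h)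
  · exact Units.ext x0_8

theorem card_units : Nat.card M3ˣ = 48 := by
  have h := Matrix.card_GL_field (𝔽 := ZMod 3) 2
  rw [ZMod.card, Fin.prod_univ_two] at h
  exact h

end Matrices

section Sixteen

variable {V : Type*} [AddCommGroup V] [Fact (Nat.Prime 3)] [Module (ZMod 3) V] [Finite V]
  {G : Type*} [Group G] [Finite G] (ρ : G →* (V ≃ₗ[ZMod 3] V))

/-- order 16 -/
theorem case_sixteen (hρ : Function.Injective ρ) (hn : Nat.card V = 9) (hc : Nat.card G = 16)
    {v₀ : V} (hv₀ : v₀ ≠ 0) (hS : Nat.card (stab ρ v₀) = 2) : Cfsg.IsQuasiDihedral G := by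
  classical
  haveI : Fact (Nat.Prime 2) := ⟨Nat.prime_two⟩
  haveI : Module.Finite (ZMod 3) V := Module.Finite.of_finite
  have hf := finrank_nine hn
  let b : V ≃ₗ[ZMod 3] (Fin 2 → ZMod 3) := LinearEquiv.ofFinrankEq _ _ (by simp [hf])
  let τ : G → ((Fin 2 → ZMod 3) →ₗ[ZMod 3] (Fin 2 → ZMod 3)) := fun g =>
    b.toLinearMap ∘ₗ (ρ g).toLinearMap ∘ₗ b.symm.toLinearMap
  have hτ1 : τ 1 = LinearMap.id := by
    ext w
    simp [τ]
  have hτm : ∀ g h, τ (g * h) = τ g ∘ₗ τ h := by
    intro g h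
    apply LinearMap.ext
    intro w
    simp [τ, LinearEquiv.mul_apply]
  let φ₀ : G →* M3 :=
    { toFun := fun g => LinearMap.toMatrix' (τ g)
      map_one' := by rw [hτ1, LinearMap.toMatrix'_id]
      map_mul' := fun g h => by rw [hτm, LinearMap.toMatrix'_comp] }
  let φ : G →* M3ˣ := φ₀.toHomUnits
  have hφ₀ : ∀ g, ((φ g : M3ˣ) : M3) = LinearMap.toMatrix' (τ g) := fun g => rfl
  have hφ : Function.Injective φ := by
    intro g h hgh
    have h1 : LinearMap.toMatrix' (τ g) = LinearMap.toMatrix' (τ h) := by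
      rw [← hφ₀, ← hφ₀, hgh]
    have h2 : τ g = τ h := LinearMap.toMatrix'.injective h1
    apply hρ
    apply LinearEquiv.ext
    intro v
    have h3 := LinearMap.congr_fun h2 (b v)
    simp only [τ, LinearMap.comp_apply, LinearEquiv.coe_coe, LinearEquiv.symm_apply_apply] at h3
    exact b.injective h3
  obtain ⟨s, hs, hs1⟩ : ∃ s ∈ stab ρ v₀, s ≠ 1 := by
    rcases Subgroup.bot_or_exists_ne_one (stab ρ v₀) with h | h
    · rw [h, Subgroup.card_bot] at hS
      omega
    · exact h
  have hsfix : ρ s v₀ = v₀ := hs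
  have hs2 : s ^ 2 = 1 := by
    have := pow_card_eq_one' (x := (⟨s, hs⟩ : stab ρ v₀))
    rw [hS] at this
    exact congrArg Subtype.val this
  have hso : orderOf s = 2 := orderOf_eq_prime hs2 hs1
  have hsneg : ((φ s : M3ˣ) : M3) ≠ -1 := by
    intro h
    have h1 : LinearMap.toMatrix' (τ s) = LinearMap.toMatrix' (-LinearMap.id) := by
      rw [← hφ₀, h, map_neg, LinearMap.toMatrix'_id]
    have h2 : τ s = -LinearMap.id := LinearMap.toMatrix'.injective h1
    have h3 := LinearMap.congr_fun h2 (b v₀)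
    simp only [τ, LinearMap.comp_apply, LinearEquiv.coe_coe, LinearEquiv.symm_apply_apply, hsfix,
      LinearMap.neg_apply, LinearMap.id_apply] at h3
    have h4 : (2 : ZMod 3) • b v₀ = 0 := by
      rw [two_smul]
      nth_rw 1 [h3]
      simp
    have h5 : (2 : ZMod 3) ≠ 0 := two_ne
    rcases smul_eq_zero.mp h4 with h6 | h6
    · exact h5 h6
    · exact hv₀ (b.map_eq_zero_iff.mp h6)
  have hcφ : Nat.card φ.range = 16 := by
    rw [← hc]
    exact (Nat.card_congr (MonoidHom.ofInjective hφ).toEquiv).symm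
  have hfac : (48 : ℕ).factorization 2 = 4 := by
    rw [show (48 : ℕ) = 2 ^ 4 * 3 by norm_num, Nat.factorization_mul (by norm_num) (by norm_num),
      Nat.Prime.factorization_pow Nat.prime_two]
    simp [Nat.factorization_eq_zero_of_not_dvd (by norm_num : ¬ 2 ∣ 3)]
  let H₀ : Sylow 2 M3ˣ := Sylow.ofCard φ.range (by rw [hcφ, card_units, hfac]; norm_num)
  have hH₀ : (H₀ : Subgroup M3ˣ) = φ.range := rfl
  have hQ : IsPGroup 2 (Subgroup.zpowers X0) :=
    IsPGroup.of_card (n := 3) (by rw [Nat.card_zpowers, X0_order])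
  obtain ⟨P, hP⟩ := hQ.exists_le_sylow
  obtain ⟨g, hg⟩ := MulAction.exists_smul_eq M3ˣ P H₀
  have hz : g * X0 * g⁻¹ ∈ (H₀ : Subgroup M3ˣ) := by
    rw [← hg, Cfsg.Agent.Lib.H1Small.mem_smul_sylow]
    have h1 : X0 ∈ (P : Subgroup M3ˣ) := hP (Subgroup.mem_zpowers X0)
    simpa [mul_assoc] using h1
  rw [hH₀] at hz
  obtain ⟨x, hx⟩ := hz
  have hxo : orderOf x = 2 ^ 3 := by
    rw [← orderOf_injective φ hφ x, hx, ← X0_order]
    exact orderOf_injective (MulAut.conj g).toMonoidHom (MulAut.conj g).injective X0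
  have hxc : Nat.card (Subgroup.zpowers x) = 8 := by rw [Nat.card_zpowers, hxo]; norm_num
  have hidx : (Subgroup.zpowers x).index = 2 := by
    have h1 := (Subgroup.zpowers x).index_mul_card
    rw [hxc, hc] at h1
    omega
  have hnorm : (Subgroup.zpowers x).Normal := Subgroup.normal_of_index_eq_two hidx
  have hmem : s * x * s⁻¹ ∈ Subgroup.zpowers x := hnorm.conj_mem x (Subgroup.mem_zpowers x) s
  obtain ⟨k0, hk0⟩ := Cfsg.Agent.Lib.H1Quat.exists_pow_of_mem_zpowers hmem
  have hk8 : k0 % 8 < 8 := Nat.mod_lt _ (by norm_num)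
  have hk : x ^ (k0 % 8) = s * x * s⁻¹ := by
    rw [← hk0]
    have := pow_mod_orderOf x k0
    rwa [hxo] at this
  set k := k0 % 8 with hkdef
  -- the matrix relation
  set t : M3ˣ := φ s with ht
  set m : M3ˣ := g⁻¹ * t * g with hm
  have ht2 : t * t = 1 := by
    rw [ht, ← map_mul, ← sq, hs2, map_one]
  have hm1 : m * X0 = X0 ^ k * m := by
    have h1 : t * (g * X0 * g⁻¹) * t⁻¹ = g * X0 ^ k * g⁻¹ := by
      have h2 := congrArg φ hk
      rw [map_mul, map_mul, map_inv, map_pow, hx] at h2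
      rw [← h2, conj_pow]
    have h3 : t * (g * X0 * g⁻¹) = g * X0 ^ k * g⁻¹ * t := by
      rw [← h1]
      group
    rw [hm]
    calc g⁻¹ * t * g * X0 = g⁻¹ * (t * (g * X0 * g⁻¹)) * g := by group
      _ = g⁻¹ * (g * X0 ^ k * g⁻¹ * t) * g := by rw [h3]
      _ = X0 ^ k * (g⁻¹ * t * g) := by group
  have hmm : (m : M3) * (m : M3) = 1 := by
    have h1 : m * m = 1 := by
      calc m * m = g⁻¹ * (t * t) * g := by rw [hm]; group
        _ = 1 := by rw [ht2]; group
    have := congrArg Units.val h1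
    simpa using this
  have hm2 : (m : M3) ≠ 1 := by
    intro h
    have h1 : m = 1 := Units.ext h
    have h2 : t = 1 := by
      have : t = g * m * g⁻¹ := by rw [hm]; group
      rw [this, h1]
      group
    apply hs1
    apply hφ
    rw [map_one]
    exact h2
  have hm3 : (m : M3) ≠ -1 := by
    intro h
    apply hsneg
    have h1 : t = g * m * g⁻¹ := by rw [hm]; group
    rw [h1, Units.val_mul, Units.val_mul, h]
    simp
  have hm4 : (m : M3) * x0 = x0 ^ k * (m : M3) := by
    have := congrArg Units.val hm1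
    simpa [X0] using this
  have hk3 := key_m (m : M3) hmm hm2 hm3 ⟨k, hk8⟩ hm4
  have hk3' : k = 3 := hk3
  refine ⟨3, le_refl _, by rw [hc]; norm_num, x, s, hxo, hso, ?_⟩
  rw [← hk, hk3']
  norm_num

end Sixteen

/-- Let q be a prime, V a non-trivial finite vector space over the field with q elements, and G a non-trivial finite p-group (p prime) acting faithfully and linearly on V and transitively on the non-zero vectors. Then either q = 2 and G has prime order p = |V| − 1; or p = 2, V has q elements with q = 2^m + 1 and G is cyclic of order 2^m; or p = 2, q = 3, V has 9 elements and G is cyclic of order 8, quaternion of order 8, or semidihedral of order 16. -/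
theorem result (q : ℕ) [Fact q.Prime] {V : Type*} [AddCommGroup V] [Module (ZMod q) V] [Finite V] [Nontrivial V]
    {G : Type*} [Group G] [Finite G] [Nontrivial G] (p : ℕ) [Fact p.Prime] (hG : IsPGroup p G)
    (ρ : G →* (V ≃ₗ[ZMod q] V)) (hρ : Function.Injective ρ)
    (htrans : ∀ v w : V, v ≠ 0 → w ≠ 0 → ∃ g : G, ρ g v = w) :
    (q = 2 ∧ p = Nat.card V - 1 ∧ Nat.card G = p) ∨
    (p = 2 ∧ Nat.card V = q ∧ (∃ m : ℕ, q = 2 ^ m + 1 ∧ Nat.card G = 2 ^ m) ∧ IsCyclic G) ∨
    (p = 2 ∧ q = 3 ∧ Nat.card V = 9 ∧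
      ((IsCyclic G ∧ Nat.card G = 8) ∨ Nonempty (G ≃* QuaternionGroup 2) ∨ (Cfsg.IsQuasiDihedral G ∧ Nat.card G = 16))) := by

  classical
  have hq := (Fact.out : q.Prime)
  have hp := (Fact.out : p.Prime)
  obtain ⟨v₀, hv₀⟩ := exists_ne (0 : V)
  have hcs := card_stab ρ htrans hv₀
  obtain ⟨k, hk⟩ := IsPGroup.iff_card.mp hG
  have hn2 : 1 < Nat.card V := Finite.one_lt_card
  obtain ⟨a, ha⟩ : ∃ a, Nat.card V - 1 = p ^ a := by
    have h1 : Nat.card V - 1 ∣ p ^ k := hk ▸ Dvd.intro _ hcs.symm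
    obtain ⟨a, -, ha⟩ := (Nat.dvd_prime_pow hp).mp h1
    exact ⟨a, ha⟩
  haveI : Module.Finite (ZMod q) V := Module.Finite.of_finite
  obtain ⟨d, hd⟩ : ∃ d, Nat.card V = q ^ d :=
    ⟨_, by simpa using Module.natCard_eq_pow_finrank (K := ZMod q) (V := V)⟩
  have hd1 : 1 ≤ d := by
    rcases Nat.eq_zero_or_pos d with rfl | h
    · simp at hd
      omega
    · exact h
  by_cases hq2 : q = 2
  · left
    rcases Nat.eq_zero_or_pos a with rfl | ha0
    · exfalso
      rw [pow_zero] at ha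
      rw [ha, one_mul] at hcs
      have h1 : stab ρ v₀ = ⊤ := Subgroup.eq_top_of_card_eq _ hcs.symm
      have h2 : ∀ g : G, ρ g v₀ = v₀ := by
        intro g
        have : g ∈ stab ρ v₀ := by rw [h1]; trivial
        exact this
      have h3 : ∀ g : G, g = 1 := by
        intro g
        apply eq_one_of_fix ρ hρ
        intro v
        by_cases hv : v = 0
        · rw [hv]; simp
        · obtain ⟨g', hg'⟩ := htrans v₀ v hv₀ hv
          rw [← hg', h2 g', h2 g]
      obtain ⟨g, hg⟩ := exists_ne (1 : G)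
      exact hg (h3 g)
    · have hn3 : Nat.card V = p ^ a + 1 := by omega
      have hd2 : 2 ≤ d := by
        by_contra hlt
        have : d = 1 := by omega
        rw [this, hq2, pow_one] at hd
        have h1 : 1 < p ^ a := Nat.one_lt_pow ha0.ne' hp.one_lt
        omega
      have hp2 : p ≠ 2 := by
        rintro rfl
        have h1 : 2 ∣ 2 ^ a := dvd_pow_self 2 ha0.ne'
        have h2 : 2 ∣ 2 ^ d := dvd_pow_self 2 (by omega)
        rw [hq2] at hd
        omega
      have h2d : 2 ^ d = p ^ a + 1 := by rw [← hn3, hd, hq2]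
      have ha1 := num1 hp hp2 ha0 hd2 h2d
      subst ha1
      rw [pow_one] at hn3 ha
      have h1 := stab_bot_of_succ ρ hG hρ hn3 hv₀
      rw [h1, Subgroup.card_bot, mul_one, ha] at hcs
      exact ⟨hq2, ha.symm, hcs⟩
  · right
    have hqodd : Odd q := hq.odd_of_ne_two hq2
    have hnodd : Odd (Nat.card V) := by rw [hd]; exact hqodd.pow
    have ha0 : 1 ≤ a := by
      rcases Nat.eq_zero_or_pos a with rfl | h
      · exfalso
        rw [pow_zero] at ha
        obtain ⟨w, hw⟩ := hnodd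
        omega
      · exact h
    have hp2 : p = 2 := by
      have h1 : 2 ∣ p ^ a := by
        rw [← ha]
        obtain ⟨w, hw⟩ := hnodd
        omega
      exact ((Nat.prime_dvd_prime_iff_eq Nat.prime_two hp).mp (Nat.prime_two.dvd_of_dvd_pow h1)).symm
    subst hp2
    rcases Nat.lt_or_ge d 2 with hd2 | hd2
    · left
      have hd1' : d = 1 := by omega
      rw [hd1', pow_one] at hd
      obtain ⟨h1, h2⟩ := one_dim ρ hρ hd hv₀
      rw [h1, Subgroup.card_bot, mul_one, ha] at hcs
      exact ⟨rfl, hd, ⟨a, by omega, hcs⟩, h2⟩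
    · right
      have h1 : q ^ d = 2 ^ a + 1 := by omega
      obtain ⟨rfl, rfl⟩ := num2 hq hq2 hd2 h1
      have hn : Nat.card V = 9 := by rw [hd]; norm_num
      refine ⟨rfl, rfl, hn, ?_⟩
      have h6 := stab_dvd_six ρ hρ hn hv₀
      obtain ⟨e, he⟩ := IsPGroup.iff_card.mp (hG.to_subgroup (stab ρ v₀))
      have hcard2 : Nat.card (stab ρ v₀) = 1 ∨ Nat.card (stab ρ v₀) = 2 := by
        rw [he] at h6 ⊢
        rcases e with _ | _ | e
        · simp
        · simp
        · exfalso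
          have h7 : 4 ∣ 2 ^ (e + 1 + 1) := ⟨2 ^ e, by ring⟩
          have h8 := h7.trans h6
          omega
      rw [hn] at hcs
      rcases hcard2 with h7 | h7
      · have hc8 : Nat.card G = 8 := by rw [hcs, h7]
        rcases case_eight ρ hG hρ htrans hn hc8 with h | h
        · exact Or.inl ⟨h, hc8⟩
        · exact Or.inr (Or.inl h)
      · have hc16 : Nat.card G = 16 := by rw [hcs, h7]
        exact Or.inr (Or.inr ⟨case_sixteen ρ hρ hn hc16 hv₀ h7, hc16⟩)

end Cfsg.Agent.S3370
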