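import Cfsg.Statements.S3374
import Mathlib

set_option autoImplicit false
open Cfsg

namespace Cfsg.Agent.S3374

abbrev SL25 := Matrix.SpecialLinearGroup (Fin 2) (ZMod 5)

def tbl : ℕ := 1695013707417454494914841519447841325950049820066746263258441986475444816576461325951142760791705701480695529676108579085447263778867171484873605185264275960716702523891689445488163541627148728047452562765745607862104802841491077844730850293858485487715158878459207048595853283679127785407386170974515502541996969614483350657937710688055726002530876889887968470961189474899505791687460264048930018161707362411101740011209724345877823754478365927712744137448539847129516606265740423165722931772388093691935471162650611239458429271102596687458423511604490124585279515857586397864548169173819748142228611549659402079634833599233423624597459563822804687291177561755762021459277999948167515053760377500210952754266660804661786779542822859477082194260445124457875172837164121968379936143881325884229275891153055153924336894292528048224141179432172001149540919345533936022888734006874317484251058929500435616115731922784391267262747473109847120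2008372776051011388487560352325509114542924241227810772291725555786737908682487884106857776194339088730847157398429698420103634823087781734008234727140206691251608985529428042568540489113184142644439791630604957899156438816988987037141792765078641015046270748317681121261686560462695437307538070845147823257440294183035328689142692917651691838870122429018507741698542873320673729053665328465860736372753841423387078402293130265467047661818404103475782675131806096526416335353665056870603310242197987361054975329818124934061163765202219317504759713822108388545741022149347618999308938543841058356954200551333863447404937741087167742641928307042495686289679832012576071952257060573813842621070086666496713977965633400612826525678846269854129844614848455754034440751555113226324264291720925173936280460709811353598863150556960941445544576281761403579906436945030239360801502201680542305575688183778633677697809869537565654483796766659666824398777969307091418663990383023941143671697568957535527052698989553889151676117873416888938412734690001056199685648380376217713810280636995891554638008259509703105286726405191784953621753156108303205172415679664139966324399457248420386572440666122816702264394212486806340202431675689539535537522715888212227961871633748225273151276368178327202183757239163246321189980480650665110339217695872120595102356542686715312111450168210248871636271542713882069166739974709510542887681735788451974668212764644937601677686563305935151454132096479218671057997614507261978972828509717583205928548694434355426098208493774588341576775062329683482452333625779424942039352483304361979378177937273202059582820375338958673922297432050805537568280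

def ent (a b c d : ZMod 5) : ℕ :=
  (tbl / 14641 ^ (a.val + 5 * b.val + 25 * c.val + 125 * d.val)) % 14641

def e00 (a b c d : ZMod 5) : ZMod 11 := ((ent a b c d % 11 : ℕ) : ZMod 11)
def e01 (a b c d : ZMod 5) : ZMod 11 := ((ent a b c d / 11 % 11 : ℕ) : ZMod 11)
def e10 (a b c d : ZMod 5) : ZMod 11 := ((ent a b c d / 121 % 11 : ℕ) : ZMod 11)
def e11 (a b c d : ZMod 5) : ZMod 11 := ((ent a b c d / 1331 % 11 : ℕ) : ZMod 11)

set_option maxRecDepth 100000 in
theorem hom_check : ∀ a b c d a' b' c' d' : ZMod 5, a * d - b * c = 1 → a' * d' - b' * c' = 1 →
    e00 (a * a' + b * c') (a * b' + b * d') (c * a' + d * c') (c * b' + d * d')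
      = e00 a b c d * e00 a' b' c' d' + e01 a b c d * e10 a' b' c' d' ∧
    e01 (a * a' + b * c') (a * b' + b * d') (c * a' + d * c') (c * b' + d * d')
      = e00 a b c d * e01 a' b' c' d' + e01 a b c d * e11 a' b' c' d' ∧
    e10 (a * a' + b * c') (a * b' + b * d') (c * a' + d * c') (c * b' + d * d')
      = e10 a b c d * e00 a' b' c' d' + e11 a b c d * e10 a' b' c' d' ∧
    e11 (a * a' + b * c') (a * b' + b * d') (c * a' + d * c') (c * b' + d * d')
      = e10 a b c d * e01 a' b' c' d' + e11 a b c d * e11 a' b' c' d' := by
  decide +kernel


set_option maxRecDepth 100000 in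
set_option synthInstance.maxSize 100000 in
set_option synthInstance.maxHeartbeats 0 in
theorem fpf_check' : ∀ (a b c d : ZMod 5) (x y : ZMod 11), a * d - b * c = 1 →
    e00 a b c d * x + e01 a b c d * y = x → e10 a b c d * x + e11 a b c d * y = y →
      (x = 0 ∧ y = 0) ∨ (a = 1 ∧ b = 0 ∧ c = 0 ∧ d = 1) := by
  decide +kernel

theorem one_check : e00 1 0 0 1 = 1 ∧ e01 1 0 0 1 = 0 ∧ e10 1 0 0 1 = 0 ∧ e11 1 0 0 1 = 1 := by
  decide +kernel

lemma det_eq (A : SL25) : A.1 0 0 * A.1 1 1 - A.1 0 1 * A.1 1 0 = 1 := by
  have := A.2
  rwa [Matrix.det_fin_two] at this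

/-- the action on the plane -/
def actFun (A : SL25) (v : ZMod 11 × ZMod 11) : ZMod 11 × ZMod 11 :=
  (e00 (A.1 0 0) (A.1 0 1) (A.1 1 0) (A.1 1 1) * v.1 + e01 (A.1 0 0) (A.1 0 1) (A.1 1 0) (A.1 1 1) * v.2,
   e10 (A.1 0 0) (A.1 0 1) (A.1 1 0) (A.1 1 1) * v.1 + e11 (A.1 0 0) (A.1 0 1) (A.1 1 0) (A.1 1 1) * v.2)

lemma actFun_mul (A B : SL25) (v : ZMod 11 × ZMod 11) :
    actFun (A * B) v = actFun A (actFun B v) := by
  have h := hom_check (A.1 0 0) (A.1 0 1) (A.1 1 0) (A.1 1 1) (B.1 0 0) (B.1 0 1) (B.1 1 0) (B.1 1 1)
    (det_eq A) (det_eq B)
  obtain ⟨h1, h2, h3, h4⟩ := h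
  have c00 : (A * B).1 0 0 = A.1 0 0 * B.1 0 0 + A.1 0 1 * B.1 1 0 := by
    simp [Matrix.SpecialLinearGroup.coe_mul, Matrix.mul_apply, Fin.sum_univ_two]
  have c01 : (A * B).1 0 1 = A.1 0 0 * B.1 0 1 + A.1 0 1 * B.1 1 1 := by
    simp [Matrix.SpecialLinearGroup.coe_mul, Matrix.mul_apply, Fin.sum_univ_two]
  have c10 : (A * B).1 1 0 = A.1 1 0 * B.1 0 0 + A.1 1 1 * B.1 1 0 := by
    simp [Matrix.SpecialLinearGroup.coe_mul, Matrix.mul_apply, Fin.sum_univ_two]
  have c11 : (A * B).1 1 1 = A.1 1 0 * B.1 0 1 + A.1 1 1 * B.1 1 1 := by
    simp [Matrix.SpecialLinearGroup.coe_mul, Matrix.mul_apply, Fin.sum_univ_two]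
  unfold actFun
  rw [c00, c01, c10, c11, h1, h2, h3, h4]
  ext <;> simp only <;> ring

lemma actFun_one (v : ZMod 11 × ZMod 11) : actFun 1 v = v := by
  obtain ⟨h1, h2, h3, h4⟩ := one_check
  have c00 : (1 : SL25).1 0 0 = 1 := by simp
  have c01 : (1 : SL25).1 0 1 = 0 := by simp
  have c10 : (1 : SL25).1 1 0 = 0 := by simp
  have c11 : (1 : SL25).1 1 1 = 1 := by simp
  unfold actFun
  rw [c00, c01, c10, c11, h1, h2, h3, h4]
  ext <;> simp

lemma actFun_add (A : SL25) (v w : ZMod 11 × ZMod 11) :
    actFun A (v + w) = actFun A v + actFun A w := by
  unfold actFun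
  ext <;> simp only [Prod.fst_add, Prod.snd_add] <;> ring

lemma actFun_fpf (A : SL25) (v : ZMod 11 × ZMod 11) (h : actFun A v = v) : v = 0 ∨ A = 1 := by
  have h1 : _ = v.1 := congrArg Prod.fst h
  have h2 : _ = v.2 := congrArg Prod.snd h
  rcases fpf_check' _ _ _ _ v.1 v.2 (det_eq A) h1 h2 with h3 | ⟨h3, h4, h5, h6⟩
  · left; exact Prod.ext h3.1 h3.2
  · right
    apply Subtype.ext
    ext i j
    fin_cases i <;> fin_cases j <;> simp [h3, h4, h5, h6]

abbrev VV := Multiplicative (ZMod 11 × ZMod 11)

/-- the action as a homomorphism to the automorphism group -/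
def phi : SL25 →* MulAut VV :=
  MonoidHom.mk' (fun A =>
    { toFun := fun v => Multiplicative.ofAdd (actFun A (Multiplicative.toAdd v))
      invFun := fun v => Multiplicative.ofAdd (actFun A⁻¹ (Multiplicative.toAdd v))
      left_inv := by
        intro v
        simp only [toAdd_ofAdd]
        rw [← actFun_mul, inv_mul_cancel, actFun_one]; rfl
      right_inv := by
        intro v
        simp only [toAdd_ofAdd]
        rw [← actFun_mul, mul_inv_cancel, actFun_one]; rfl
      map_mul' := by
        intro v w
        simp only [toAdd_mul]
        rw [actFun_add]; rfl })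
    (by
      intro A B
      apply MulEquiv.ext
      intro v
      rw [MulAut.mul_apply]
      show Multiplicative.ofAdd (actFun (A * B) (Multiplicative.toAdd v))
        = Multiplicative.ofAdd (actFun A (actFun B (Multiplicative.toAdd v)))
      rw [actFun_mul])

lemma phi_apply (A : SL25) (v : VV) :
    phi A v = Multiplicative.ofAdd (actFun A (Multiplicative.toAdd v)) := rfl

abbrev LL := VV ⋊[phi] SL25

instance : Finite LL := Finite.of_equiv _ SemidirectProduct.equivProd.symm

/-- SL(2,5) occurs as a Frobenius complement: there is a finite group L with a subgroup H isomorphic to SL(2,5) which is a non-trivial proper subgroup meeting each conjugate gHg⁻¹ with g outside H trivially. -/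
theorem result :
    ∃ (L : Type) (_ : Group L) (_ : Finite L) (H : Subgroup L),
      Cfsg.IsFrobeniusComplement H ∧ Nonempty (H ≃* Matrix.SpecialLinearGroup (Fin 2) (ZMod 5)) := by
  refine ⟨LL, inferInstance, inferInstance,
    (SemidirectProduct.inr : SL25 →* LL).range, ⟨?_, ?_, ?_⟩, ?_⟩
  · intro hbot
    obtain ⟨A, hA⟩ : ∃ A : SL25, A ≠ 1 := by
      refine ⟨⟨!![1, 1; 0, 1], by simp [Matrix.det_fin_two]⟩, ?_⟩
      intro h
      have h2 := congrArg (fun M : SL25 => M.1 0 1) h
      simp at h2
      exact absurd h2 (by decide)
    have hmem : (SemidirectProduct.inr A : LL) ∈ (SemidirectProduct.inr : SL25 →* LL).range := ⟨A, rfl⟩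
    rw [hbot, Subgroup.mem_bot] at hmem
    apply hA
    have := congrArg SemidirectProduct.right hmem
    simpa using this
  · intro htop
    let v : VV := Multiplicative.ofAdd ((1 : ZMod 11), (0 : ZMod 11))
    have hmem : (SemidirectProduct.inl v : LL) ∈ (SemidirectProduct.inr : SL25 →* LL).range := by
      rw [htop]; trivial
    obtain ⟨A, hA⟩ := hmem
    have h1 := congrArg SemidirectProduct.left hA
    simp only [SemidirectProduct.left_inr, SemidirectProduct.left_inl] at h1
    have h2 : ((1 : ZMod 11), (0 : ZMod 11)) = 0 := (Multiplicative.ofAdd.injective h1).symm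
    have h3 := congrArg Prod.fst h2
    simp only [Prod.fst_zero] at h3
    exact absurd h3 (by decide)
  · intro g hg
    rw [eq_bot_iff]
    intro x hx
    obtain ⟨hx1, hx2⟩ := Subgroup.mem_inf.mp hx
    obtain ⟨k, rfl⟩ := hx1
    obtain ⟨s, ⟨k', rfl⟩, hs⟩ := (Subgroup.mem_smul_pointwise_iff_exists _ _ _).mp hx2
    rw [MulAut.smul_def, MulAut.conj_apply] at hs
    have hv : g.left ≠ 1 := by
      intro hl
      apply hg
      refine ⟨g.right, ?_⟩
      apply SemidirectProduct.ext
      · simp [hl]
      · simp
    have hs2 : g * SemidirectProduct.inr k' = SemidirectProduct.inr k * g := by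
      rw [← hs]; group
    have hl := congrArg SemidirectProduct.left hs2
    simp only [SemidirectProduct.mul_left, SemidirectProduct.left_inr, map_one, mul_one, one_mul,
      SemidirectProduct.right_inr] at hl
    rw [phi_apply] at hl
    have hfix : actFun k (Multiplicative.toAdd g.left) = Multiplicative.toAdd g.left := by
      have := congrArg Multiplicative.toAdd hl
      simpa using this.symm
    rcases actFun_fpf k _ hfix with h0 | h1
    · exact absurd (Multiplicative.toAdd.injective (by simpa using h0)) hv
    · subst h1
      simp
  · exact ⟨(MonoidHom.ofInjective SemidirectProduct.inr_injective).symm⟩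

end Cfsg.Agent.S3374
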