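import Cfsg.Statements.S3375

set_option autoImplicit false
open Cfsg

namespace Cfsg.Agent.S3375

/-- Let γ be an automorphism of order 2 of a finite group H. (i) If γ fixes only the identity, then H is abelian and γ inverts every element. (ii) If γ has exactly two fixed points and H has a subgroup of index 2, then H has a γ-invariant abelian subgroup of index 2 on which γ acts by inversion. -/
theorem result {H : Type*} [Group H] [Finite H] (γ : MulAut H) (hγ : orderOf γ = 2) :
    ((∀ h : H, γ h = h → h = 1) → (∀ a b : H, a * b = b * a) ∧ ∀ h : H, γ h = h⁻¹) ∧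
    ((Nat.card {h : H // γ h = h} = 2 ∧ ∃ M : Subgroup H, M.index = 2) →
      ∃ A : Subgroup H, A.index = 2 ∧ IsMulCommutative A ∧ (∀ a ∈ A, γ a ∈ A) ∧ ∀ a ∈ A, γ a = a⁻¹) := by
  classical
  have hγ2 : ∀ x : H, γ (γ x) = x := by
    intro x
    have : γ ^ 2 = 1 := by rw [← hγ]; exact pow_orderOf_eq_one γ
    have h := congrArg (fun f : MulAut H => f x) this
    simpa [sq, MulAut.mul_apply] using h
  have hinv_comm : ∀ (L : Subgroup H), (∀ a ∈ L, γ a = a⁻¹) → ∀ a ∈ L, ∀ b ∈ L, a * b = b * a := by
    intro L hL a ha b hb
    have h1 := hL _ (L.mul_mem ha hb)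
    rw [map_mul, hL a ha, hL b hb, ← mul_inv_rev] at h1
    exact (inv_injective h1).symm
  constructor
  · intro hfpf
    have hinj : Function.Injective (fun x : H => (γ x) * x⁻¹) := by
      intro x y hxy
      have h1 : γ x * x⁻¹ = γ y * y⁻¹ := hxy
      have h2 : γ (y⁻¹ * x) = y⁻¹ * x := by
        rw [map_mul, map_inv]
        calc (γ y)⁻¹ * γ x = (γ y)⁻¹ * (γ x * x⁻¹) * x := by group
          _ = (γ y)⁻¹ * (γ y * y⁻¹) * x := by rw [h1]
          _ = y⁻¹ * x := by group
      have := hfpf _ h2
      exact (inv_mul_eq_one.1 this).symm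
    have hsurj := Finite.surjective_of_injective hinj
    have hall : ∀ h : H, γ h = h⁻¹ := by
      intro h
      obtain ⟨x, rfl⟩ := hsurj h
      simp only [map_mul, map_inv, hγ2, mul_inv_rev, inv_inv]
    refine ⟨fun a b => hinv_comm ⊤ (fun a _ => hall a) a (Subgroup.mem_top a) b (Subgroup.mem_top b), hall⟩
  · rintro ⟨hC, M, hM⟩
    -- a γ-invariant subgroup of index 2
    have hmm := fun a b => Subgroup.mul_mem_iff_of_index_two hM (a := a) (b := b)
    obtain ⟨M', hM', hinv⟩ : ∃ M' : Subgroup H, M'.index = 2 ∧ ∀ x ∈ M', γ x ∈ M' := by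
      by_cases h : ∀ a ∈ M, γ a ∈ M
      · exact ⟨M, hM, h⟩
      · push Not at h
        obtain ⟨a, ha, hga⟩ := h
        let M₃ : Subgroup H :=
          { carrier := {x | x ∈ M ↔ γ x ∈ M}
            mul_mem' := by
              intro x y hx hy
              simp only [Set.mem_setOf_eq] at hx hy ⊢
              rw [hmm, map_mul, hmm, hx, hy]
            one_mem' := by simp
            inv_mem' := by
              intro x hx
              simp only [Set.mem_setOf_eq] at hx ⊢
              rw [map_inv, Subgroup.inv_mem_iff, Subgroup.inv_mem_iff]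
              exact hx }
        refine ⟨M₃, ?_, ?_⟩
        · rw [Subgroup.index_eq_two_iff]
          refine ⟨a, fun b => ?_⟩
          show Xor' (b * a ∈ M ↔ γ (b * a) ∈ M) (b ∈ M ↔ γ b ∈ M)
          rw [map_mul, hmm, hmm]
          simp only [ha, hga, iff_true, iff_false]
          tauto
        · intro x hx
          show γ x ∈ M ↔ γ (γ x) ∈ M
          rw [hγ2]
          exact hx.symm
    have hmm' := fun a b => Subgroup.mul_mem_iff_of_index_two hM' (a := a) (b := b)
    -- the fixed subgroup
    let C : Subgroup H :=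
      { carrier := {x | γ x = x}
        mul_mem' := by
          intro x y hx hy
          simp only [Set.mem_setOf_eq] at hx hy ⊢
          rw [map_mul, hx, hy]
        one_mem' := by simp
        inv_mem' := by
          intro x hx
          simp only [Set.mem_setOf_eq] at hx ⊢
          rw [map_inv, hx] }
    have hCcard : Nat.card C = 2 := hC
    -- the map ψ
    have hψ : ∀ x : H, γ x * x⁻¹ ∈ M' := by
      intro x
      rw [hmm', Subgroup.inv_mem_iff]
      constructor
      · intro h
        have := hinv _ h
        rwa [hγ2] at this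
      · exact hinv x
    let ψ : H ⧸ C → M' := Quotient.lift (s := QuotientGroup.leftRel C) (fun x => ⟨γ x * x⁻¹, hψ x⟩) (by
      intro x y hxy
      have hxy' : x⁻¹ * y ∈ C := QuotientGroup.leftRel_apply.1 hxy
      apply Subtype.ext
      have h1 : γ (x⁻¹ * y) = x⁻¹ * y := hxy'
      rw [map_mul, map_inv] at h1
      show γ x * x⁻¹ = γ y * y⁻¹
      have h2 : γ y = γ x * (x⁻¹ * y) := by
        rw [← h1]; group
      rw [h2]; group)
    have hinjψ : Function.Injective ψ := by
      intro x y
      induction x using QuotientGroup.induction_on with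
      | H x =>
        induction y using QuotientGroup.induction_on with
        | H y =>
          intro h
          have h1 : γ x * x⁻¹ = γ y * y⁻¹ := congrArg Subtype.val h
          rw [QuotientGroup.eq]
          show γ (x⁻¹ * y) = x⁻¹ * y
          rw [map_mul, map_inv]
          calc (γ x)⁻¹ * γ y = (γ x)⁻¹ * (γ y * y⁻¹) * y := by group
            _ = (γ x)⁻¹ * (γ x * x⁻¹) * y := by rw [h1]
            _ = x⁻¹ * y := by group
    have hc1 : Nat.card (H ⧸ C) * 2 = Nat.card H := by
      rw [← hCcard]
      exact C.index_mul_card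
    have hc2 : 2 * Nat.card M' = Nat.card H := by
      rw [← hM']
      exact M'.index_mul_card
    have hcard : Nat.card M' ≤ Nat.card (H ⧸ C) := by omega
    have hbij := hinjψ.bijective_of_nat_card_le hcard
    have hall : ∀ a ∈ M', γ a = a⁻¹ := by
      intro a ha
      obtain ⟨x, hx⟩ := hbij.2 ⟨a, ha⟩
      induction x using QuotientGroup.induction_on with
      | H x =>
        have h1 : γ x * x⁻¹ = a := congrArg Subtype.val hx
        rw [← h1]
        simp only [map_mul, map_inv, hγ2, mul_inv_rev, inv_inv]
    refine ⟨M', hM', ⟨⟨fun a b => Subtype.ext (hinv_comm M' hall a.1 a.2 b.1 b.2)⟩⟩, hinv, hall⟩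

end Cfsg.Agent.S3375
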