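import Cfsg.Statements.S3377

set_option autoImplicit false
open Cfsg

namespace Cfsg.Agent.S3377

theorem table_core {G : Type*} [Group G] (a A b B : G)
    (h1 : ∀ z : G, a * (A * z) = z) (h2 : ∀ z : G, A * (a * z) = z)
    (h3 : ∀ z : G, b * (B * z) = z) (h4 : ∀ z : G, B * (b * z) = z)
    (h5 : ∀ z : G, a * (a * (a * z)) = z) (h6 : ∀ z : G, b * (b * (b * (b * (b * z)))) = z)
    (h7 : ∀ z : G, a * (b * (a * (b * z))) = z) :
    (∀ z : G, a * (z) = a * (z)) ∧
    (∀ z : G, a * (a * (z)) = A * (z)) ∧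
    (∀ z : G, a * (A * (z)) = z) ∧
    (∀ z : G, a * (b * (A * (z))) = B * (a * (z))) ∧
    (∀ z : G, a * (B * (a * (z))) = a * (B * (a * (z)))) ∧
    (∀ z : G, a * (b * (b * (A * (z)))) = a * (b * (b * (A * (z))))) ∧
    (∀ z : G, a * (a * (B * (a * (z)))) = b * (A * (z))) ∧
    (∀ z : G, a * (a * (b * (b * (A * (z))))) = A * (B * (B * (a * (b * (z)))))) ∧
    (∀ z : G, a * (A * (B * (B * (a * (z))))) = b * (b * (A * (b * (b * (b * (b * (z)))))))) ∧
    (∀ z : G, a * (b * (A * (B * (B * (a * (z)))))) = B * (a * (B * (B * (a * (z)))))) ∧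
    (∀ z : G, a * (B * (a * (B * (B * (a * (z)))))) = a * (B * (a * (B * (B * (a * (z))))))) ∧
    (∀ z : G, a * (a * (B * (a * (B * (B * (a * (z))))))) = b * (A * (B * (B * (a * (z)))))) ∧
    (∀ z : G, b * (z) = b * (z)) ∧
    (∀ z : G, b * (a * (z)) = A * (b * (b * (b * (b * (z)))))) ∧
    (∀ z : G, b * (A * (z)) = b * (A * (z))) ∧
    (∀ z : G, b * (b * (A * (z))) = b * (b * (A * (z)))) ∧
    (∀ z : G, b * (B * (a * (z))) = a * (z)) ∧
    (∀ z : G, b * (b * (b * (A * (z)))) = B * (a * (b * (z)))) ∧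
    (∀ z : G, b * (a * (B * (a * (z)))) = A * (B * (B * (a * (z))))) ∧
    (∀ z : G, b * (a * (b * (b * (A * (z))))) = a * (B * (a * (z)))) ∧
    (∀ z : G, b * (A * (B * (B * (a * (z))))) = b * (A * (B * (B * (a * (z)))))) ∧
    (∀ z : G, b * (b * (A * (B * (B * (a * (z)))))) = B * (a * (B * (B * (a * (b * (z))))))) ∧
    (∀ z : G, b * (B * (a * (B * (B * (a * (z)))))) = a * (b * (b * (A * (b * (b * (b * (b * (z))))))))) ∧
    (∀ z : G, b * (a * (B * (a * (B * (B * (a * (z))))))) = a * (B * (a * (B * (B * (a * (b * (b * (b * (b * (z))))))))))) := by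
  have R1 : ∀ z : G, a * (A * (z)) = z := fun z => h1 z
  have R2 : ∀ z : G, A * (a * (z)) = z := fun z => h2 z
  have R3 : ∀ z : G, b * (B * (z)) = z := fun z => h3 z
  have R4 : ∀ z : G, B * (b * (z)) = z := fun z => h4 z
  have R5 : ∀ z : G, a * (a * (a * (z))) = z := fun z => h5 z
  have R6 : ∀ z : G, b * (b * (b * (b * (b * (z))))) = z := fun z => h6 z
  have R7 : ∀ z : G, a * (b * (a * (b * (z)))) = z := fun z => h7 z
  have R8 : ∀ z : G, a * (a * (z)) = A * (z) := fun z => ((R2 (a * (a * (z)))).symm.trans (by rw [R5 z]))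
  have R9 : ∀ z : G, A * (A * (z)) = a * (z) := fun z => ((R8 (A * (z))).symm.trans (by rw [R1 z]))
  have R10 : ∀ z : G, A * (b * (a * (b * (z)))) = a * (z) := fun z => ((R8 (b * (a * (b * (z))))).symm.trans (by rw [R7 z]))
  have R11 : ∀ z : G, b * (a * (b * (z))) = A * (z) := fun z => (((R1 (b * (a * (b * (z))))).symm.trans (by rw [R10 z]))).trans (show a * (a * (z)) = A * (z) from by rw [R8 (z)])
  have R12 : ∀ z : G, B * (A * (z)) = a * (b * (z)) := fun z => (((R4 (a * (b * (z)))).symm.trans (by rw [R11 z]))).symm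
  have R13 : ∀ z : G, a * (b * (a * (z))) = B * (z) := fun z => ((R12 (a * (z))).symm.trans (by rw [R2 z]))
  have R14 : ∀ z : G, A * (b * (a * (z))) = a * (B * (z)) := fun z => ((R8 (b * (a * (z)))).symm.trans (by rw [R13 z]))
  have R15 : ∀ z : G, b * (a * (z)) = A * (B * (z)) := fun z => (((R1 (b * (a * (z)))).symm.trans (by rw [R14 z]))).trans (show a * (a * (B * (z))) = A * (B * (z)) from by rw [R8 (B * (z))])
  have R16 : ∀ z : G, A * (B * (a * (z))) = b * (A * (z)) := fun z => ((R15 (a * (z))).symm.trans (by rw [R8 z]))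
  have R17 : ∀ z : G, a * (b * (A * (z))) = B * (a * (z)) := fun z => (((R1 (B * (a * (z)))).symm.trans (by rw [R16 z]))).symm
  have R18 : ∀ z : G, A * (b * (A * (z))) = a * (B * (a * (z))) := fun z => ((R8 (b * (A * (z)))).symm.trans (by rw [R17 z]))
  have R19 : ∀ z : G, B * (a * (B * (a * (z)))) = a * (b * (b * (A * (z)))) := fun z => (((R12 (b * (A * (z)))).symm.trans (by rw [R18 z]))).symm
  have R20 : ∀ z : G, b * (b * (b * (b * (z)))) = B * (z) := fun z => ((R4 (b * (b * (b * (b * (z)))))).symm.trans (by rw [R6 z]))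
  have R21 : ∀ z : G, b * (b * (b * (z))) = B * (B * (z)) := fun z => ((R4 (b * (b * (b * (z))))).symm.trans (by rw [R20 z]))
  have R22 : ∀ z : G, B * (B * (B * (z))) = b * (b * (z)) := fun z => (((R4 (b * (b * (z)))).symm.trans (by rw [R21 z]))).symm
  have R23 : ∀ z : G, b * (b * (A * (B * (z)))) = B * (B * (a * (z))) := fun z => (((R21 (a * (z))).symm.trans (by rw [R15 z]))).symm
  have R24 : ∀ z : G, B * (B * (a * (b * (z)))) = b * (b * (A * (z))) := fun z => (((R22 (A * (z))).symm.trans (by rw [R12 z]))).symm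
  have R25 : ∀ z : G, B * (B * (a * (B * (B * (z))))) = b * (b * (A * (b * (b * (z))))) := fun z => ((R23 (B * (B * (z)))).symm.trans (by rw [R22 z]))
  have R26 : ∀ z : G, B * (a * (b * (b * (A * (b * (z)))))) = b * (b * (A * (b * (b * (A * (z)))))) := fun z => (show B * (B * (a * (B * (a * (b * (z)))))) = B * (a * (b * (b * (A * (b * (z)))))) from by rw [R19 (b * (z))]).symm.trans (((R23 (B * (a * (b * (z))))).symm.trans (by rw [R24 z])))
  have R27 : ∀ z : G, A * (b * (b * (A * (b * (b * (A * (z))))))) = b * (A * (b * (b * (A * (b * (z)))))) := fun z => (((R16 (b * (b * (A * (b * (z)))))).symm.trans (by rw [R26 z]))).symm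
  have R28 : ∀ z : G, b * (b * (A * (b * (b * (A * (b * (b * (z)))))))) = B * (a * (B * (B * (a * (B * (z)))))) := fun z => ((show B * (B * (a * (B * (a * (B * (B * (z))))))) = B * (a * (B * (B * (a * (B * (z)))))) from by rw [R19 (B * (B * (z))), R23 (B * (z))]).symm.trans (((R23 (B * (a * (B * (B * (z)))))).symm.trans (by rw [R25 z])))).symm
  refine ⟨?_, ?_, ?_, ?_, ?_, ?_, ?_, ?_, ?_, ?_, ?_, ?_, ?_, ?_, ?_, ?_, ?_, ?_, ?_, ?_, ?_, ?_, ?_, ?_⟩
  · intro z; simp only [R8, R1, R2, R9, R15, R3, R12, R4, R17, R18, R16, R21, R22, R23, R19, R24, R25, R26, R27, R28]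
  · intro z; simp only [R8, R1, R2, R9, R15, R3, R12, R4, R17, R18, R16, R21, R22, R23, R19, R24, R25, R26, R27, R28]
  · intro z; simp only [R8, R1, R2, R9, R15, R3, R12, R4, R17, R18, R16, R21, R22, R23, R19, R24, R25, R26, R27, R28]
  · intro z; simp only [R8, R1, R2, R9, R15, R3, R12, R4, R17, R18, R16, R21, R22, R23, R19, R24, R25, R26, R27, R28]
  · intro z; simp only [R8, R1, R2, R9, R15, R3, R12, R4, R17, R18, R16, R21, R22, R23, R19, R24, R25, R26, R27, R28]
  · intro z; simp only [R8, R1, R2, R9, R15, R3, R12, R4, R17, R18, R16, R21, R22, R23, R19, R24, R25, R26, R27, R28]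
  · intro z; simp only [R8, R1, R2, R9, R15, R3, R12, R4, R17, R18, R16, R21, R22, R23, R19, R24, R25, R26, R27, R28]
  · intro z; simp only [R8, R1, R2, R9, R15, R3, R12, R4, R17, R18, R16, R21, R22, R23, R19, R24, R25, R26, R27, R28]
  · intro z; simp only [R8, R1, R2, R9, R15, R3, R12, R4, R17, R18, R16, R21, R22, R23, R19, R24, R25, R26, R27, R28]
  · intro z; simp only [R8, R1, R2, R9, R15, R3, R12, R4, R17, R18, R16, R21, R22, R23, R19, R24, R25, R26, R27, R28]
  · intro z; simp only [R8, R1, R2, R9, R15, R3, R12, R4, R17, R18, R16, R21, R22, R23, R19, R24, R25, R26, R27, R28]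
  · intro z; simp only [R8, R1, R2, R9, R15, R3, R12, R4, R17, R18, R16, R21, R22, R23, R19, R24, R25, R26, R27, R28]
  · intro z; simp only [R8, R1, R2, R9, R15, R3, R12, R4, R17, R18, R16, R21, R22, R23, R19, R24, R25, R26, R27, R28]
  · intro z; simp only [R8, R1, R2, R9, R15, R3, R12, R4, R17, R18, R16, R21, R22, R23, R19, R24, R25, R26, R27, R28]
  · intro z; simp only [R8, R1, R2, R9, R15, R3, R12, R4, R17, R18, R16, R21, R22, R23, R19, R24, R25, R26, R27, R28]
  · intro z; simp only [R8, R1, R2, R9, R15, R3, R12, R4, R17, R18, R16, R21, R22, R23, R19, R24, R25, R26, R27, R28]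
  · intro z; simp only [R8, R1, R2, R9, R15, R3, R12, R4, R17, R18, R16, R21, R22, R23, R19, R24, R25, R26, R27, R28]
  · intro z; simp only [R8, R1, R2, R9, R15, R3, R12, R4, R17, R18, R16, R21, R22, R23, R19, R24, R25, R26, R27, R28]
  · intro z; simp only [R8, R1, R2, R9, R15, R3, R12, R4, R17, R18, R16, R21, R22, R23, R19, R24, R25, R26, R27, R28]
  · intro z; simp only [R8, R1, R2, R9, R15, R3, R12, R4, R17, R18, R16, R21, R22, R23, R19, R24, R25, R26, R27, R28]
  · intro z; simp only [R8, R1, R2, R9, R15, R3, R12, R4, R17, R18, R16, R21, R22, R23, R19, R24, R25, R26, R27, R28]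
  · intro z; simp only [R8, R1, R2, R9, R15, R3, R12, R4, R17, R18, R16, R21, R22, R23, R19, R24, R25, R26, R27, R28]
  · intro z; simp only [R8, R1, R2, R9, R15, R3, R12, R4, R17, R18, R16, R21, R22, R23, R19, R24, R25, R26, R27, R28]
  · intro z; simp only [R8, R1, R2, R9, R15, R3, R12, R4, R17, R18, R16, R21, R22, R23, R19, R24, R25, R26, R27, R28]


/-- coset representatives -/
def cw {G : Type*} [Group G] (a A b B : G) : Fin 12 → G := ![1, a, A, b * (A), B * (a), b * (b * (A)), a * (B * (a)), a * (b * (b * (A))), A * (B * (B * (a))), b * (A * (B * (B * (a)))), B * (a * (B * (B * (a)))), a * (B * (a * (B * (B * (a)))))]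

lemma map_cw {G H : Type*} [Group G] [Group H] (φ : G →* H) (a A b B : G) (i : Fin 12) :
    φ (cw a A b B i) = cw (φ a) (φ A) (φ b) (φ B) i := by
  fin_cases i <;> simp [cw]

lemma table_a {G : Type*} [Group G] (a A b B : G)
    (h1 : ∀ z : G, a * (A * z) = z) (h2 : ∀ z : G, A * (a * z) = z)
    (h3 : ∀ z : G, b * (B * z) = z) (h4 : ∀ z : G, B * (b * z) = z)
    (h5 : ∀ z : G, a * (a * (a * z)) = z) (h6 : ∀ z : G, b * (b * (b * (b * (b * z)))) = z)
    (h7 : ∀ z : G, a * (b * (a * (b * z))) = z) (g : G) (hg : g = a ∨ g = b) (i : Fin 12) :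
    ∃ (j : Fin 12) (l : ℕ), g * cw a A b B i = cw a A b B j * b ^ l := by
  obtain ⟨t0, t1, t2, t3, t4, t5, t6, t7, t8, t9, t10, t11, t12, t13, t14, t15, t16, t17, t18, t19, t20, t21, t22, t23⟩ := table_core a A b B h1 h2 h3 h4 h5 h6 h7
  rcases hg with hg | hg
  · rw [hg]; fin_cases i
    · refine ⟨1, 0, ?_⟩
      show a * (1) = (a) * b ^ 0
      have e := t0 1
      simpa only [mul_one, mul_assoc, pow_succ, pow_zero, one_mul] using e
    · refine ⟨2, 0, ?_⟩
      show a * (a) = (A) * b ^ 0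
      have e := t1 1
      simpa only [mul_one, mul_assoc, pow_succ, pow_zero, one_mul] using e
    · refine ⟨0, 0, ?_⟩
      show a * (A) = (1) * b ^ 0
      have e := t2 1
      simpa only [mul_one, mul_assoc, pow_succ, pow_zero, one_mul] using e
    · refine ⟨4, 0, ?_⟩
      show a * (b * (A)) = (B * (a)) * b ^ 0
      have e := t3 1
      simpa only [mul_one, mul_assoc, pow_succ, pow_zero, one_mul] using e
    · refine ⟨6, 0, ?_⟩
      show a * (B * (a)) = (a * (B * (a))) * b ^ 0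
      have e := t4 1
      simpa only [mul_one, mul_assoc, pow_succ, pow_zero, one_mul] using e
    · refine ⟨7, 0, ?_⟩
      show a * (b * (b * (A))) = (a * (b * (b * (A)))) * b ^ 0
      have e := t5 1
      simpa only [mul_one, mul_assoc, pow_succ, pow_zero, one_mul] using e
    · refine ⟨3, 0, ?_⟩
      show a * (a * (B * (a))) = (b * (A)) * b ^ 0
      have e := t6 1
      simpa only [mul_one, mul_assoc, pow_succ, pow_zero, one_mul] using e
    · refine ⟨8, 1, ?_⟩
      show a * (a * (b * (b * (A)))) = (A * (B * (B * (a)))) * b ^ 1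
      have e := t7 1
      simpa only [mul_one, mul_assoc, pow_succ, pow_zero, one_mul] using e
    · refine ⟨5, 4, ?_⟩
      show a * (A * (B * (B * (a)))) = (b * (b * (A))) * b ^ 4
      have e := t8 1
      simpa only [mul_one, mul_assoc, pow_succ, pow_zero, one_mul] using e
    · refine ⟨10, 0, ?_⟩
      show a * (b * (A * (B * (B * (a))))) = (B * (a * (B * (B * (a))))) * b ^ 0
      have e := t9 1
      simpa only [mul_one, mul_assoc, pow_succ, pow_zero, one_mul] using e
    · refine ⟨11, 0, ?_⟩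
      show a * (B * (a * (B * (B * (a))))) = (a * (B * (a * (B * (B * (a)))))) * b ^ 0
      have e := t10 1
      simpa only [mul_one, mul_assoc, pow_succ, pow_zero, one_mul] using e
    · refine ⟨9, 0, ?_⟩
      show a * (a * (B * (a * (B * (B * (a)))))) = (b * (A * (B * (B * (a))))) * b ^ 0
      have e := t11 1
      simpa only [mul_one, mul_assoc, pow_succ, pow_zero, one_mul] using e
  · rw [hg]; fin_cases i
    · refine ⟨0, 1, ?_⟩
      show b * (1) = (1) * b ^ 1
      have e := t12 1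
      simpa only [mul_one, mul_assoc, pow_succ, pow_zero, one_mul] using e
    · refine ⟨2, 4, ?_⟩
      show b * (a) = (A) * b ^ 4
      have e := t13 1
      simpa only [mul_one, mul_assoc, pow_succ, pow_zero, one_mul] using e
    · refine ⟨3, 0, ?_⟩
      show b * (A) = (b * (A)) * b ^ 0
      have e := t14 1
      simpa only [mul_one, mul_assoc, pow_succ, pow_zero, one_mul] using e
    · refine ⟨5, 0, ?_⟩
      show b * (b * (A)) = (b * (b * (A))) * b ^ 0
      have e := t15 1
      simpa only [mul_one, mul_assoc, pow_succ, pow_zero, one_mul] using e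
    · refine ⟨1, 0, ?_⟩
      show b * (B * (a)) = (a) * b ^ 0
      have e := t16 1
      simpa only [mul_one, mul_assoc, pow_succ, pow_zero, one_mul] using e
    · refine ⟨4, 1, ?_⟩
      show b * (b * (b * (A))) = (B * (a)) * b ^ 1
      have e := t17 1
      simpa only [mul_one, mul_assoc, pow_succ, pow_zero, one_mul] using e
    · refine ⟨8, 0, ?_⟩
      show b * (a * (B * (a))) = (A * (B * (B * (a)))) * b ^ 0
      have e := t18 1
      simpa only [mul_one, mul_assoc, pow_succ, pow_zero, one_mul] using e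
    · refine ⟨6, 0, ?_⟩
      show b * (a * (b * (b * (A)))) = (a * (B * (a))) * b ^ 0
      have e := t19 1
      simpa only [mul_one, mul_assoc, pow_succ, pow_zero, one_mul] using e
    · refine ⟨9, 0, ?_⟩
      show b * (A * (B * (B * (a)))) = (b * (A * (B * (B * (a))))) * b ^ 0
      have e := t20 1
      simpa only [mul_one, mul_assoc, pow_succ, pow_zero, one_mul] using e
    · refine ⟨10, 1, ?_⟩
      show b * (b * (A * (B * (B * (a))))) = (B * (a * (B * (B * (a))))) * b ^ 1
      have e := t21 1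
      simpa only [mul_one, mul_assoc, pow_succ, pow_zero, one_mul] using e
    · refine ⟨7, 4, ?_⟩
      show b * (B * (a * (B * (B * (a))))) = (a * (b * (b * (A)))) * b ^ 4
      have e := t22 1
      simpa only [mul_one, mul_assoc, pow_succ, pow_zero, one_mul] using e
    · refine ⟨11, 4, ?_⟩
      show b * (a * (B * (a * (B * (B * (a)))))) = (a * (B * (a * (B * (B * (a)))))) * b ^ 4
      have e := t23 1
      simpa only [mul_one, mul_assoc, pow_succ, pow_zero, one_mul] using e

lemma surj_of_rel {G : Type*} [Group G] (a b : G) (ha : a ^ 3 = 1) (hb : b ^ 5 = 1)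
    (hab : (a * b) ^ 2 = 1) (hgen : Subgroup.closure ({a, b} : Set G) = ⊤) :
    Function.Surjective (fun p : Fin 12 × Fin 5 => cw a a⁻¹ b b⁻¹ p.1 * b ^ p.2.val) := by
  have hainv : a⁻¹ = a * a := by
    rw [inv_eq_iff_mul_eq_one, ← ha]
    simp only [pow_succ, pow_zero, one_mul, mul_assoc]
  have hbinv : b⁻¹ = b * (b * (b * b)) := by
    rw [inv_eq_iff_mul_eq_one, ← hb]
    simp only [pow_succ, pow_zero, one_mul, mul_assoc]
  have h1 : ∀ z : G, a * (a⁻¹ * z) = z := fun z => by group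
  have h2 : ∀ z : G, a⁻¹ * (a * z) = z := fun z => by group
  have h3 : ∀ z : G, b * (b⁻¹ * z) = z := fun z => by group
  have h4 : ∀ z : G, b⁻¹ * (b * z) = z := fun z => by group
  have h5 : ∀ z : G, a * (a * (a * z)) = z := fun z => by
    have : a * (a * (a * z)) = a ^ 3 * z := by simp only [pow_succ, pow_zero, one_mul, mul_assoc]
    rw [this, ha, one_mul]
  have h6 : ∀ z : G, b * (b * (b * (b * (b * z)))) = z := fun z => by
    have : b * (b * (b * (b * (b * z)))) = b ^ 5 * z := by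
      simp only [pow_succ, pow_zero, one_mul, mul_assoc]
    rw [this, hb, one_mul]
  have h7 : ∀ z : G, a * (b * (a * (b * z))) = z := fun z => by
    have : a * (b * (a * (b * z))) = (a * b) ^ 2 * z := by
      simp only [pow_succ, pow_zero, one_mul, mul_assoc]
    rw [this, hab, one_mul]
  set X : Set G := {g | ∃ (i : Fin 12) (k : ℕ), g = cw a a⁻¹ b b⁻¹ i * b ^ k} with hX
  have hstep : ∀ g : G, (g = a ∨ g = b) → ∀ x ∈ X, g * x ∈ X := by
    rintro g hg _ ⟨i, k, rfl⟩
    obtain ⟨j, l, e⟩ := table_a a a⁻¹ b b⁻¹ h1 h2 h3 h4 h5 h6 h7 g hg i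
    exact ⟨j, l + k, by rw [← mul_assoc, e, mul_assoc, pow_add]⟩
  have hall : ∀ g ∈ Subgroup.closure ({a, b} : Set G),
      (∀ x ∈ X, g * x ∈ X) ∧ (∀ x ∈ X, g⁻¹ * x ∈ X) := by
    intro g hg
    induction hg using Subgroup.closure_induction with
    | mem g hg =>
      rcases hg with rfl | hg
      · refine ⟨hstep _ (Or.inl rfl), fun x hx => ?_⟩
        rw [hainv, mul_assoc]
        exact hstep _ (Or.inl rfl) _ (hstep _ (Or.inl rfl) _ hx)
      · rw [Set.mem_singleton_iff] at hg
        subst hg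
        refine ⟨hstep _ (Or.inr rfl), fun x hx => ?_⟩
        rw [hbinv]
        simp only [mul_assoc]
        exact hstep _ (Or.inr rfl) _ (hstep _ (Or.inr rfl) _ (hstep _ (Or.inr rfl) _
          (hstep _ (Or.inr rfl) _ hx)))
    | one => simp
    | mul g h _ _ ihg ihh =>
      refine ⟨fun x hx => ?_, fun x hx => ?_⟩
      · rw [mul_assoc]
        exact ihg.1 _ (ihh.1 _ hx)
      · rw [mul_inv_rev, mul_assoc]
        exact ihh.2 _ (ihg.2 _ hx)
    | inv g _ ih =>
      rw [inv_inv]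
      exact ⟨ih.2, ih.1⟩
  intro g
  have h1X : (1 : G) ∈ X := ⟨0, 0, by simp [cw]⟩
  have hgX := (hall g (by rw [hgen]; trivial)).1 1 h1X
  rw [mul_one] at hgX
  obtain ⟨i, k, e⟩ := hgX
  refine ⟨(i, ⟨k % 5, Nat.mod_lt _ (by norm_num)⟩), ?_⟩
  show _ = g
  rw [e]
  show cw a a⁻¹ b b⁻¹ i * b ^ (k % 5) = cw a a⁻¹ b b⁻¹ i * b ^ k
  rw [← pow_eq_pow_mod k hb]

/-- The generators of `A₅`. -/
def x5 : alternatingGroup (Fin 5) := ⟨Equiv.swap 0 3 * Equiv.swap 3 2, by
  rw [Equiv.Perm.mem_alternatingGroup]; decide⟩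
/-- The generators of `A₅`. -/
def y5 : alternatingGroup (Fin 5) :=
  ⟨Equiv.swap 0 1 * Equiv.swap 1 2 * Equiv.swap 2 3 * Equiv.swap 3 4, by
    rw [Equiv.Perm.mem_alternatingGroup]; decide⟩

lemma inj5 : Function.Injective
    (fun p : Fin 12 × Fin 5 => cw x5 x5⁻¹ y5 y5⁻¹ p.1 * y5 ^ p.2.val) := by
  decide +kernel
/-- The alternating group of degree 5 has the presentation ⟨x, y | x³ = 1, y⁵ = 1, (xy)² = 1⟩: the group so presented is isomorphic to Alt(5). -/
theorem result :
    Nonempty (PresentedGroup ({FreeGroup.of (0 : Fin 2) ^ 3, FreeGroup.of (1 : Fin 2) ^ 5,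
        (FreeGroup.of (0 : Fin 2) * FreeGroup.of 1) ^ 2} : Set (FreeGroup (Fin 2))) ≃* alternatingGroup (Fin 5)) := by

  classical
  have h : ∀ r ∈ ({FreeGroup.of (0 : Fin 2) ^ 3, FreeGroup.of (1 : Fin 2) ^ 5,
        (FreeGroup.of (0 : Fin 2) * FreeGroup.of 1) ^ 2} : Set (FreeGroup (Fin 2))),
      FreeGroup.lift (![x5, y5] : Fin 2 → alternatingGroup (Fin 5)) r = 1 := by
    rintro r (rfl | rfl | rfl)
    · simp only [map_pow, FreeGroup.lift_apply_of]
      decide
    · simp only [map_pow, FreeGroup.lift_apply_of]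
      decide
    · simp only [map_pow, map_mul, FreeGroup.lift_apply_of]
      decide
  let φ := PresentedGroup.toGroup h
  set a : PresentedGroup ({FreeGroup.of (0 : Fin 2) ^ 3, FreeGroup.of (1 : Fin 2) ^ 5,
        (FreeGroup.of (0 : Fin 2) * FreeGroup.of 1) ^ 2} : Set (FreeGroup (Fin 2))) :=
    PresentedGroup.of 0 with ha
  set b : PresentedGroup ({FreeGroup.of (0 : Fin 2) ^ 3, FreeGroup.of (1 : Fin 2) ^ 5,
        (FreeGroup.of (0 : Fin 2) * FreeGroup.of 1) ^ 2} : Set (FreeGroup (Fin 2))) :=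
    PresentedGroup.of 1 with hb
  have ha3 : a ^ 3 = 1 := by
    have := PresentedGroup.one_of_mem (rels := ({FreeGroup.of (0 : Fin 2) ^ 3,
      FreeGroup.of (1 : Fin 2) ^ 5, (FreeGroup.of (0 : Fin 2) * FreeGroup.of 1) ^ 2} :
        Set (FreeGroup (Fin 2)))) (x := FreeGroup.of (0 : Fin 2) ^ 3) (Or.inl rfl)
    rw [map_pow] at this
    exact this
  have hb5 : b ^ 5 = 1 := by
    have := PresentedGroup.one_of_mem (rels := ({FreeGroup.of (0 : Fin 2) ^ 3,
      FreeGroup.of (1 : Fin 2) ^ 5, (FreeGroup.of (0 : Fin 2) * FreeGroup.of 1) ^ 2} :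
        Set (FreeGroup (Fin 2)))) (x := FreeGroup.of (1 : Fin 2) ^ 5) (Or.inr (Or.inl rfl))
    rw [map_pow] at this
    exact this
  have hab : (a * b) ^ 2 = 1 := by
    have := PresentedGroup.one_of_mem (rels := ({FreeGroup.of (0 : Fin 2) ^ 3,
      FreeGroup.of (1 : Fin 2) ^ 5, (FreeGroup.of (0 : Fin 2) * FreeGroup.of 1) ^ 2} :
        Set (FreeGroup (Fin 2)))) (x := (FreeGroup.of (0 : Fin 2) * FreeGroup.of 1) ^ 2)
        (Or.inr (Or.inr rfl))
    rw [map_pow, map_mul] at this
    exact this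
  have hgen : Subgroup.closure ({a, b} : Set _) = ⊤ := by
    rw [← PresentedGroup.closure_range_of]
    congr 1
    ext z
    constructor
    · rintro (rfl | rfl)
      · exact ⟨0, rfl⟩
      · exact ⟨1, rfl⟩
    · rintro ⟨i, rfl⟩
      fin_cases i
      · exact Or.inl rfl
      · exact Or.inr rfl
  have hsurj := surj_of_rel a b ha3 hb5 hab hgen
  have hφa : φ a = x5 := PresentedGroup.toGroup.of h
  have hφb : φ b = y5 := PresentedGroup.toGroup.of h
  have hcard5 : Nat.card (alternatingGroup (Fin 5)) = 60 := by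
    rw [nat_card_alternatingGroup]; simp; decide
  -- φ surjective
  have hcomp : ∀ p : Fin 12 × Fin 5, φ (cw a a⁻¹ b b⁻¹ p.1 * b ^ p.2.val)
      = cw x5 x5⁻¹ y5 y5⁻¹ p.1 * y5 ^ p.2.val := by
    intro p
    rw [map_mul, map_cw, map_pow, map_inv, map_inv, hφa, hφb]
  have hinj5 := inj5
  have hbij5 : Function.Bijective
      (fun p : Fin 12 × Fin 5 => cw x5 x5⁻¹ y5 y5⁻¹ p.1 * y5 ^ p.2.val) :=
    hinj5.bijective_of_nat_card_le (by rw [hcard5]; simp)
  have hφs : Function.Surjective φ := by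
    intro g
    obtain ⟨p, rfl⟩ := hbij5.2 g
    exact ⟨_, hcomp p⟩
  haveI : Finite (PresentedGroup ({FreeGroup.of (0 : Fin 2) ^ 3, FreeGroup.of (1 : Fin 2) ^ 5,
        (FreeGroup.of (0 : Fin 2) * FreeGroup.of 1) ^ 2} : Set (FreeGroup (Fin 2)))) :=
    Finite.of_surjective _ hsurj
  have hle : Nat.card (PresentedGroup ({FreeGroup.of (0 : Fin 2) ^ 3, FreeGroup.of (1 : Fin 2) ^ 5,
        (FreeGroup.of (0 : Fin 2) * FreeGroup.of 1) ^ 2} : Set (FreeGroup (Fin 2)))) ≤ 60 := by
    have := Nat.card_le_card_of_surjective _ hsurj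
    simpa using this
  exact ⟨MulEquiv.ofBijective φ (hφs.bijective_of_nat_card_le (by rw [hcard5]; exact hle))⟩

end Cfsg.Agent.S3377
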