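import Cfsg.Statements.S3379

set_option autoImplicit false
open Cfsg

namespace Cfsg.Agent.S3379

/-- Let G be a finite group all of whose Sylow subgroups are cyclic. Then G is generated by two elements x and y of coprime orders n and m with x⁻¹yx = y^r, where gcd(r − 1, m) = 1 and r^n ≡ 1 (mod m). -/
theorem result {G : Type*} [Group G] [Finite G]
    (hZ : ∀ (p : ℕ) [Fact p.Prime] (P : Sylow p G), IsCyclic (P : Subgroup G)) :
    ∃ (x y : G) (n m r : ℕ), Subgroup.closure {x, y} = ⊤ ∧ orderOf x = n ∧ orderOf y = m ∧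
      x⁻¹ * y * x = y ^ r ∧ Nat.Coprime (r - 1) m ∧ Nat.Coprime n m ∧ 1 ≤ r ∧ r ^ n % m = 1 % m := by
  classical
  haveI hG : IsZGroup G := ⟨fun p hp P => by haveI := Fact.mk hp; exact hZ p P⟩
  obtain ⟨H, hH⟩ := Subgroup.exists_right_complement'_of_coprime hG.coprime_commutator_index
  have h1 : Abelianization G ≃* H := hH.symm.QuotientMulEquiv
  haveI hHc : IsCyclic H := isCyclic_of_surjective _ h1.surjective
  haveI hNc : IsCyclic (commutator G) := IsZGroup.isCyclic_commutator G
  have hcop : (Nat.card (commutator G)).Coprime (Nat.card H) :=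
    Nat.card_congr h1.toEquiv ▸ hG.coprime_commutator_index
  obtain ⟨x', hx'⟩ := IsCyclic.exists_generator (α := H)
  obtain ⟨y', hy'⟩ := IsCyclic.exists_generator (α := commutator G)
  have hox : orderOf (x' : G) = Nat.card H := by
    rw [Subgroup.orderOf_coe, orderOf_eq_card_of_forall_mem_zpowers hx']
  have hoy : orderOf (y' : G) = Nat.card (commutator G) := by
    rw [Subgroup.orderOf_coe, orderOf_eq_card_of_forall_mem_zpowers hy']
  set x : G := (x' : G) with hxdef
  set y : G := (y' : G) with hydef
  have hNz : ∀ z ∈ commutator G, z ∈ Subgroup.zpowers y := by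
    intro z hz
    obtain ⟨k, hk⟩ := Subgroup.mem_zpowers_iff.mp (hy' ⟨z, hz⟩)
    refine Subgroup.mem_zpowers_iff.mpr ⟨k, ?_⟩
    have := congrArg Subtype.val hk
    simpa using this
  have hHz : ∀ z ∈ H, z ∈ Subgroup.zpowers x := by
    intro z hz
    obtain ⟨k, hk⟩ := Subgroup.mem_zpowers_iff.mp (hx' ⟨z, hz⟩)
    refine Subgroup.mem_zpowers_iff.mpr ⟨k, ?_⟩
    have := congrArg Subtype.val hk
    simpa using this
  have hyN : y ∈ commutator G := y'.2
  have hxH : x ∈ H := x'.2
  have hcl : Subgroup.closure {x, y} = ⊤ := by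
    rw [eq_top_iff]
    rintro g -
    obtain ⟨⟨n, h'⟩, rfl, -⟩ := hH.existsUnique g
    apply Subgroup.mul_mem
    · exact (Subgroup.zpowers_le.mpr (Subgroup.subset_closure (by simp))) (hNz n n.2)
    · exact (Subgroup.zpowers_le.mpr (Subgroup.subset_closure (by simp))) (hHz h' h'.2)
  -- conjugation on `y`
  have hconjN : ∀ g : G, ∃ s : ℕ, g * y * g⁻¹ = y ^ s := by
    intro g
    have h2 : g * y * g⁻¹ ∈ commutator G := (inferInstance : (commutator G).Normal).conj_mem y hyN g
    have h3 := hNz _ h2
    rw [← mem_powers_iff_mem_zpowers] at h3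
    obtain ⟨s, hs⟩ := h3
    exact ⟨s, hs.symm⟩
  obtain ⟨k, hk⟩ := hconjN x⁻¹
  have hmpos : 0 < Nat.card (commutator G) := Nat.card_pos
  have hr1 : 1 ≤ k + Nat.card (commutator G) := by omega
  have hxy : x⁻¹ * y * x = y ^ (k + Nat.card (commutator G)) := by
    rw [pow_add, ← hoy, pow_orderOf_eq_one, mul_one]
    simpa using hk
  refine ⟨x, y, Nat.card H, Nat.card (commutator G), k + Nat.card (commutator G), hcl, hox, hoy, hxy, ?_, hcop.symm, hr1, ?_⟩
  · -- coprimality of `r - 1`
    set r := k + Nat.card (commutator G) with hr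
    set K := Subgroup.zpowers (y ^ (r - 1)) with hK
    haveI hKn : K.Normal := by
      constructor
      intro n hn g
      obtain ⟨j, rfl⟩ := Subgroup.mem_zpowers_iff.mp hn
      obtain ⟨s, hs⟩ := hconjN g
      have h4 : g * (y ^ (r - 1)) ^ j * g⁻¹ = (y ^ (r - 1)) ^ ((s : ℤ) * j) := by
        have e1 : (y ^ (r - 1)) ^ j = y ^ (((r - 1 : ℕ) : ℤ) * j) := by rw [zpow_mul, zpow_natCast]
        rw [e1, ← conj_zpow, hs, ← zpow_natCast y s, ← zpow_mul, ← zpow_natCast y (r - 1), ← zpow_mul]
        congr 1
        ring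
      rw [h4]
      exact Subgroup.zpow_mem_zpowers _ _
    let φ := QuotientGroup.mk' K
    have hφ : ∀ a : G, a ∈ K → φ a = 1 := fun a ha => (QuotientGroup.eq_one_iff a).mpr ha
    have hcomm : φ x * φ y = φ y * φ x := by
      have h5 : y * x = x * y * y ^ (r - 1) := by
        have h6 : y ^ r = y * y ^ (r - 1) := by
          rw [← pow_succ', Nat.sub_add_cancel hr1]
        calc y * x = x * (x⁻¹ * y * x) := by group
          _ = x * y ^ r := by rw [hxy]
          _ = x * y * y ^ (r - 1) := by rw [h6, mul_assoc]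
      have h7 : φ (y ^ (r - 1)) = 1 := hφ _ (Subgroup.mem_zpowers _)
      rw [← map_mul, ← map_mul, h5, map_mul _ (x * y), h7, mul_one]
    have hsurj : Function.Surjective φ := QuotientGroup.mk'_surjective K
    have hC1 : ∀ a : G, φ a * φ x = φ x * φ a ∧ φ a * φ y = φ y * φ a := by
      intro a
      have hmem : a ∈ Subgroup.closure {x, y} := by rw [hcl]; trivial
      have hle : Subgroup.closure {x, y} ≤ (Subgroup.centralizer {φ x, φ y}).comap φ := by
        rw [Subgroup.closure_le]
        rintro b (rfl | rfl)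
        · simp only [Subgroup.coe_comap, Set.mem_preimage, SetLike.mem_coe, Subgroup.mem_centralizer_iff]
          rintro c (rfl | rfl)
          · rfl
          · exact hcomm.symm
        · simp only [Subgroup.coe_comap, Set.mem_preimage, SetLike.mem_coe, Subgroup.mem_centralizer_iff]
          rintro c (rfl | rfl)
          · exact hcomm
          · rfl
      have h8 := hle hmem
      simp only [Subgroup.mem_comap, Subgroup.mem_centralizer_iff] at h8
      exact ⟨(h8 (φ x) (by simp)).symm, (h8 (φ y) (by simp)).symm⟩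
    have hC2 : ∀ a b : G, φ a * φ b = φ b * φ a := by
      intro a b
      have hmem : a ∈ Subgroup.closure {x, y} := by rw [hcl]; trivial
      have hle : Subgroup.closure {x, y} ≤ (Subgroup.centralizer {φ b}).comap φ := by
        rw [Subgroup.closure_le]
        rintro c (rfl | rfl)
        · simp only [Subgroup.coe_comap, Set.mem_preimage, SetLike.mem_coe, Subgroup.mem_centralizer_iff]
          rintro d rfl
          exact (hC1 b).1
        · simp only [Subgroup.coe_comap, Set.mem_preimage, SetLike.mem_coe, Subgroup.mem_centralizer_iff]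
          rintro d rfl
          exact (hC1 b).2
      have h8 := hle hmem
      simp only [Subgroup.mem_comap, Subgroup.mem_centralizer_iff] at h8
      exact (h8 (φ b) (by simp)).symm
    have hNK : commutator G ≤ K := by
      rw [commutator_def, Subgroup.commutator_le]
      rintro a - b -
      rw [← QuotientGroup.eq_one_iff]
      change φ (a * b * a⁻¹ * b⁻¹) = 1
      rw [map_mul, map_mul, map_mul, map_inv, map_inv, hC2 a b]
      group
    obtain ⟨j, hj⟩ := Subgroup.mem_zpowers_iff.mp (hNK hyN)
    have h9 : y ^ (((r - 1 : ℕ) : ℤ) * j - 1) = 1 := by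
      rw [zpow_sub, zpow_one, zpow_mul, zpow_natCast, hj, mul_inv_cancel]
    have h10 := orderOf_dvd_iff_zpow_eq_one.mpr h9
    rw [hoy] at h10
    obtain ⟨c, hc⟩ := h10
    rw [Nat.Coprime, ← Int.gcd_natCast_natCast, ← Int.isCoprime_iff_gcd_eq_one]
    exact ⟨j, -c, by rw [mul_comm (j : ℤ), mul_comm (-c)]; linarith⟩
  · -- `r ^ n ≡ 1`
    set r := k + Nat.card (commutator G) with hr
    have hstep : ∀ t : ℕ, (x⁻¹) ^ t * y * x ^ t = y ^ (r ^ t) := by
      intro t
      induction t with
      | zero => simp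
      | succ t ih =>
        have h11 : (x⁻¹) ^ (t + 1) * y * x ^ (t + 1) = x⁻¹ * ((x⁻¹) ^ t * y * x ^ t) * x := by
          rw [pow_succ' x⁻¹, pow_succ]
          group
        rw [h11, ih]
        have h12 : x⁻¹ * y ^ r ^ t * x = (x⁻¹ * y * x) ^ r ^ t := by
          have := conj_pow (a := x⁻¹) (b := y) (i := r ^ t)
          simpa using this.symm
        rw [h12, hxy, ← pow_mul, pow_succ', ]
    have h13 := hstep (Nat.card H)
    rw [← hox, pow_orderOf_eq_one, inv_pow, pow_orderOf_eq_one] at h13
    simp only [inv_one, one_mul, mul_one] at h13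
    have h14 : y ^ (r ^ orderOf x) = y ^ 1 := by rw [← h13, pow_one]
    rw [pow_eq_pow_iff_modEq, hoy] at h14
    rw [hox] at h14
    exact h14

end Cfsg.Agent.S3379
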