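import Cfsg.Statements.S3381
import Mathlib

set_option autoImplicit false
open Cfsg

namespace Cfsg.Agent.S3381

open Cfsg

section
variable {q : ℕ} [Fact q.Prime] {V : Type*} [AddCommGroup V] [Module (ZMod q) V] [Finite V]
    {G : Type*} [Group G] [Finite G] (ρ : G →* (V ≃ₗ[ZMod q] V))

lemma rho_mul (g h : G) (v : V) : ρ (g * h) v = ρ g (ρ h v) := by
  rw [map_mul]; rfl

lemma rho_one (v : V) : ρ 1 v = v := by
  rw [map_one]; rfl

lemma rho_add (g : G) (v w : V) : ρ g (v + w) = ρ g v + ρ g w := map_add _ _ _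

lemma rho_neg (g : G) (v : V) : ρ g (-v) = - ρ g v := map_neg _ _

/-- The stabilizer of a vector. -/
def stabV (v : V) : Subgroup G where
  carrier := {g | ρ g v = v}
  one_mem' := rho_one ρ v
  mul_mem' := fun {a b} ha hb => by
    show ρ (a * b) v = v
    rw [rho_mul, hb, ha]
  inv_mem' := fun {a} ha => by
    show ρ a⁻¹ v = v
    have h1 : ρ a⁻¹ (ρ a v) = v := by rw [← rho_mul, inv_mul_cancel, rho_one]
    rwa [show ρ a v = v from ha] at h1

variable (hstab : ∀ v : V, v ≠ 0 → Nat.card {g : G // ρ g v = v} = 2)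
include hstab

lemma three_not (v : V) (hv : v ≠ 0) {a b : G} (ha : ρ a v = v) (hb : ρ b v = v) (ha1 : a ≠ 1) (hb1 : b ≠ 1) : a = b := by
  classical
  by_contra hab
  have hc := hstab v hv
  rw [Nat.card_eq_two_iff] at hc
  obtain ⟨x, y, hxy, huniv⟩ := hc
  have h1 : (⟨1, rho_one ρ v⟩ : {g : G // ρ g v = v}) ∈ ({x, y} : Set _) := by rw [huniv]; trivial
  have h2 : (⟨a, ha⟩ : {g : G // ρ g v = v}) ∈ ({x, y} : Set _) := by rw [huniv]; trivial
  have h3 : (⟨b, hb⟩ : {g : G // ρ g v = v}) ∈ ({x, y} : Set _) := by rw [huniv]; trivial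
  simp only [Set.mem_insert_iff, Set.mem_singleton_iff] at h1 h2 h3
  have e1 : ∀ u w : {g : G // ρ g v = v}, u = w → u.1 = w.1 := fun _ _ h => congrArg _ h
  rcases h1 with h1 | h1 <;> rcases h2 with h2 | h2 <;> rcases h3 with h3 | h3 <;>
    first
    | exact ha1 (by have := h1.trans h2.symm; exact (e1 _ _ this).symm)
    | exact hb1 (by have := h1.trans h3.symm; exact (e1 _ _ this).symm)
    | exact hab (by have := h2.trans h3.symm; exact e1 _ _ this)

lemma exists_t (v : V) (hv : v ≠ 0) : ∃ t : G, t ≠ 1 ∧ ρ t v = v ∧ t * t = 1 := by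
  classical
  have hc := hstab v hv
  haveI : Nontrivial {g : G // ρ g v = v} := by
    apply (Finite.one_lt_card_iff_nontrivial).mp
    omega
  obtain ⟨⟨t, ht⟩, hne⟩ := exists_ne (⟨1, rho_one ρ v⟩ : {g : G // ρ g v = v})
  have ht1 : t ≠ 1 := fun e => hne (Subtype.ext e)
  refine ⟨t, ht1, ht, ?_⟩
  by_contra htt
  have h2 : ρ (t * t) v = v := by rw [rho_mul, ht, ht]
  have h3 := three_not ρ hstab v hv h2 ht htt ht1
  exact ht1 (mul_eq_left.mp h3)

/-- A central involution acts as `-1`. -/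
lemma neg_of_central (hρ : Function.Injective ρ) {z : G} (hz : z * z = 1) (hz1 : z ≠ 1) (hzc : ∀ g : G, g * z = z * g) (v : V) :
    ρ z v = - v := by
  classical
  have hzz : ∀ v : V, ρ z (ρ z v) = v := fun v => by rw [← rho_mul, hz, rho_one]
  -- dichotomy
  have hdich : ∀ v : V, ρ z v = v ∨ v + ρ z v = 0 := by
    intro v
    by_contra hcon
    push Not at hcon
    obtain ⟨h1, h2⟩ := hcon
    have hv : v ≠ 0 := by
      rintro rfl
      exact h1 (map_zero _)
    obtain ⟨t, ht1, htv, _⟩ := exists_t ρ hstab v hv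
    have hw1 : ρ t (v + ρ z v) = v + ρ z v := by
      rw [rho_add, htv, ← rho_mul, hzc, rho_mul, htv]
    have hw2 : ρ z (v + ρ z v) = v + ρ z v := by
      rw [rho_add, hzz, add_comm]
    have := three_not ρ hstab _ h2 hw1 hw2 ht1 hz1
    rw [this] at htv
    exact h1 htv
  have hex : ∃ v₀ : V, ρ z v₀ ≠ v₀ := by
    by_contra hcon
    push Not at hcon
    apply hz1
    apply hρ
    rw [map_one]
    ext w
    exact hcon w
  obtain ⟨v₀, hv₀⟩ := hex
  have hv₀' : ρ z v₀ = - v₀ := eq_neg_of_add_eq_zero_right ((hdich v₀).resolve_left hv₀)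
  rcases hdich v with h | h
  · -- `v` is fixed
    rcases hdich (v₀ + v) with h1 | h1
    · rw [rho_add, hv₀', h] at h1
      exfalso
      apply hv₀
      rw [hv₀']
      have : - v₀ = v₀ := by
        have := add_right_cancel h1
        exact this
      exact this
    · rw [rho_add, hv₀', h] at h1
      have h2 : v + v = 0 := by
        have e : v₀ + v + (-v₀ + v) = v + v := by abel
        rw [← e]; exact h1
      rw [h]
      exact eq_neg_of_add_eq_zero_left h2
  · exact eq_neg_of_add_eq_zero_right h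

/-- fixed points as an additive subgroup -/
def fixA (t : G) : AddSubgroup V where
  carrier := {v | ρ t v = v}
  add_mem' := fun {a b} ha hb => by
    show ρ t (a + b) = a + b
    rw [rho_add, show ρ t a = a from ha, show ρ t b = b from hb]
  zero_mem' := map_zero _
  neg_mem' := fun {a} ha => by
    show ρ t (-a) = -a
    rw [rho_neg, show ρ t a = a from ha]

omit hstab in
lemma mem_fixA {t : G} {v : V} : v ∈ fixA ρ t ↔ ρ t v = v := Iff.rfl

/-- the intersection of fixed spaces is zero -/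
lemma card_mul_le {t t' : G} (ht : t ≠ 1) (ht' : t' ≠ 1) (hne : t ≠ t') :
    Nat.card (fixA ρ t) * Nat.card (fixA ρ t') ≤ Nat.card V := by
  classical
  rw [← Nat.card_prod]
  apply Nat.card_le_card_of_injective (fun p : fixA ρ t × fixA ρ t' => (p.1 : V) + p.2)
  rintro ⟨⟨a, ha⟩, ⟨b, hb⟩⟩ ⟨⟨a', ha'⟩, ⟨b', hb'⟩⟩ h
  have h' : a + b = a' + b' := h
  have e1 : a - a' = b' - b := by
    rw [sub_eq_sub_iff_add_eq_add, add_comm b']
    exact h'
  have hm1 : a - a' ∈ fixA ρ t := AddSubgroup.sub_mem _ ha ha'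
  have hm2 : a - a' ∈ fixA ρ t' := by
    rw [e1]
    exact AddSubgroup.sub_mem _ hb' hb
  have hz : a - a' = 0 := by
    by_contra hn
    exact hne (three_not ρ hstab _ hn hm1 hm2 ht ht')
  have e2 : a = a' := sub_eq_zero.mp hz
  have e3 : b' - b = 0 := by rw [← e1]; exact hz
  have e4 : b = b' := (sub_eq_zero.mp e3).symm
  subst e2 e4
  rfl
end

/-- Let G be a finite group acting faithfully and linearly on a non-trivial finite vector space V over the field with q elements (q prime) so that every non-zero vector has a stabilizer of order 2, and suppose G has a central involution. Then V has q^(2r) elements for some r and G contains exactly q^r + 1 non-central involutions. -/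
theorem result
    (q : ℕ) [Fact q.Prime] {V : Type*} [AddCommGroup V] [Module (ZMod q) V] [Finite V] [Nontrivial V]
    {G : Type*} [Group G] [Finite G] (ρ : G →* (V ≃ₗ[ZMod q] V)) (hρ : Function.Injective ρ)
    (hstab : ∀ v : V, v ≠ 0 → Nat.card {g : G // ρ g v = v} = 2)
    (z : G) (hz : orderOf z = 2) (hzc : z ∈ Subgroup.center G) :
    ∃ r : ℕ, Nat.card V = q ^ (2 * r) ∧
      Nat.card {g : G // orderOf g = 2 ∧ g ∉ Subgroup.center G} = q ^ r + 1 := by
  classical
  have hzz : z * z = 1 := by rw [← pow_two, ← hz, pow_orderOf_eq_one]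
  have hz1 : z ≠ 1 := by
    rintro rfl
    rw [orderOf_one] at hz
    omega
  have hzc' : ∀ g : G, g * z = z * g := fun g => (Subgroup.mem_center_iff.mp hzc g)
  have hneg := neg_of_central ρ hstab hρ hzz hz1 hzc'
  -- `q` is odd
  obtain ⟨v₀, hv₀⟩ := exists_ne (0 : V)
  have hinvol : ∀ g : G, orderOf g = 2 ↔ g * g = 1 ∧ g ≠ 1 := by
    intro g
    constructor
    · intro h
      refine ⟨by rw [← pow_two, ← h, pow_orderOf_eq_one], ?_⟩
      rintro rfl
      rw [orderOf_one] at h
      omega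
    · rintro ⟨h1, h2⟩
      exact orderOf_eq_prime (by rw [pow_two]; exact h1) h2
  have hv2 : ∀ v : V, v ≠ 0 → v ≠ - v := by
    intro v hv he
    obtain ⟨t, ht1, htv, _⟩ := exists_t ρ hstab v hv
    -- if `-v = v` then `z` fixes everything
    have hq2 : ∀ w : V, - w = w := by
      intro w
      have h2 : (2 : ZMod q) • v = 0 := by
        rw [two_smul]
        nth_rw 1 [he]
        simp
      have h3 : (2 : ZMod q) = 0 := by
        by_contra hne
        exact hv ((smul_eq_zero.mp h2).resolve_left hne)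
      have h4 : (2 : ZMod q) • w = 0 := by rw [h3, zero_smul]
      rw [two_smul] at h4
      exact neg_eq_of_add_eq_zero_right h4 |>.symm ▸ by
        have := neg_eq_of_add_eq_zero_left h4
        exact this ▸ rfl
    apply hz1
    apply hρ
    rw [map_one]
    ext w
    rw [hneg, hq2]
    rfl
  have h2ne : (2 : ZMod q) ≠ 0 := by
    intro h2
    apply hv2 v₀ hv₀
    have h3 : (2 : ZMod q) • v₀ = 0 := by rw [h2, zero_smul]
    rw [two_smul] at h3
    exact eq_neg_of_add_eq_zero_left h3
  -- the set `I`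
  have hIc : ∀ t : G, (orderOf t = 2 ∧ t ∉ Subgroup.center G) ↔ (t * t = 1 ∧ t ≠ 1 ∧ t ≠ z) := by
    intro t
    rw [hinvol]
    constructor
    · rintro ⟨⟨h1, h2⟩, h3⟩
      refine ⟨h1, h2, ?_⟩
      rintro rfl
      exact h3 hzc
    · rintro ⟨h1, h2, h3⟩
      refine ⟨⟨h1, h2⟩, ?_⟩
      intro hc
      apply h3
      apply hρ
      ext v
      have h4 := neg_of_central ρ hstab hρ h1 h2 (fun g => Subgroup.mem_center_iff.mp hc g) v
      rw [h4, hneg]
  -- `z t`
  have hzt : ∀ t : G, t * t = 1 → t ≠ 1 → t ≠ z → (z * t) * (z * t) = 1 ∧ z * t ≠ 1 ∧ z * t ≠ z := by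
    intro t h1 h2 h3
    refine ⟨?_, ?_, ?_⟩
    · calc (z * t) * (z * t) = z * (t * z) * t := by group
        _ = z * (z * t) * t := by rw [hzc' t]
        _ = (z * z) * (t * t) := by group
        _ = 1 := by rw [hzz, h1, one_mul]
    · intro e
      apply h3
      have h4 : t = z⁻¹ := eq_inv_of_mul_eq_one_right e
      rw [h4]
      exact inv_eq_of_mul_eq_one_left hzz
    · intro e
      exact h2 (mul_eq_left.mp e)
  have hrzt : ∀ (t : G) (v : V), ρ (z * t) v = - ρ t v := by
    intro t v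
    rw [rho_mul, hneg]
  have hzz' : ∀ t : G, z * (z * t) = t := fun t => by rw [← mul_assoc, hzz, one_mul]
  -- non-trivial fixed spaces
  have hfixne : ∀ t : G, t * t = 1 → t ≠ 1 → t ≠ z → ∃ v : V, v ≠ 0 ∧ ρ t v = v := by
    intro t h1 h2 h3
    by_contra hcon
    push Not at hcon
    apply h3
    apply hρ
    ext v
    have h4 : v + ρ t v = 0 := by
      by_contra hn
      apply hcon _ hn
      rw [rho_add, ← rho_mul, h1, rho_one, add_comm]
    show ρ t v = ρ z v
    rw [hneg]
    exact eq_neg_of_add_eq_zero_right h4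
  -- the product formula
  have hprod : ∀ t : G, t * t = 1 → Nat.card (fixA ρ t) * Nat.card (fixA ρ (z * t)) = Nat.card V := by
    intro t h1
    have htt : ∀ v : V, ρ t (ρ t v) = v := fun v => by rw [← rho_mul, h1, rho_one]
    let ψ : V →+ V :=
      { toFun := fun v => v + ρ t v
        map_zero' := by simp
        map_add' := fun a b => by
          rw [rho_add]
          abel }
    have hψ : ∀ v, ψ v = v + ρ t v := fun v => rfl
    have hker : ψ.ker = fixA ρ (z * t) := by
      ext v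
      rw [AddMonoidHom.mem_ker, hψ, mem_fixA, hrzt]
      constructor
      · intro h
        rw [eq_neg_of_add_eq_zero_right h, neg_neg]
      · intro h
        have h' : ρ t v = - v := by rw [← neg_eq_iff_eq_neg]; exact h
        rw [h']; simp
    have hrange : ψ.range = fixA ρ t := by
      ext v
      rw [AddMonoidHom.mem_range, mem_fixA]
      constructor
      · rintro ⟨w, rfl⟩
        rw [hψ, rho_add, htt, add_comm]
      · intro h
        refine ⟨(2 : ZMod q)⁻¹ • v, ?_⟩
        rw [hψ, map_smul, h, ← two_smul (ZMod q), smul_smul, mul_inv_cancel₀ h2ne, one_smul]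
    have h3 := AddSubgroup.card_mul_index ψ.ker
    rw [AddSubgroup.index_ker, hker, hrange, mul_comm] at h3
    exact h3
  -- the key inequality
  have hkey : ∀ t t' : G, t * t = 1 → t ≠ 1 → t ≠ z → t' * t' = 1 → t' ≠ 1 → t' ≠ t → t' ≠ z * t →
      Nat.card (fixA ρ t') ≤ Nat.card (fixA ρ t) := by
    intro t t' h1 h2 h3 h4 h5 h6 h7
    obtain ⟨e1, e2, e3⟩ := hzt t h1 h2 h3
    have h8 := card_mul_le ρ hstab e2 h5 (Ne.symm h7)
    have h9 := hprod t h1
    rw [← h9, mul_comm] at h8
    exact Nat.le_of_mul_le_mul_right h8 Nat.card_pos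
  -- another involution exists
  have hother : ∀ t : G, t * t = 1 → t ≠ 1 → t ≠ z → ∃ t' : G, t' * t' = 1 ∧ t' ≠ 1 ∧ t' ≠ z ∧ t' ≠ t ∧ t' ≠ z * t := by
    intro t h1 h2 h3
    obtain ⟨e1, e2, e3⟩ := hzt t h1 h2 h3
    obtain ⟨a, ha0, ha⟩ := hfixne t h1 h2 h3
    obtain ⟨b, hb0, hb⟩ := hfixne (z * t) e1 e2 e3
    have hb' : ρ t b = - b := by
      rw [hrzt] at hb
      exact neg_eq_iff_eq_neg.mp hb
    have hab : a + b ≠ 0 := by
      intro e
      have h4 : b = - a := eq_neg_of_add_eq_zero_right e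
      rw [h4, rho_neg, ha, neg_neg] at hb'
      have h5 : a = - a := by
        have := neg_eq_iff_eq_neg.mp hb'
        exact this
      exact hv2 a ha0 h5
    obtain ⟨t', ht'1, ht'v, ht'2⟩ := exists_t ρ hstab (a + b) hab
    refine ⟨t', ht'2, ht'1, ?_, ?_, ?_⟩
    · rintro rfl
      rw [hneg] at ht'v
      exact hv2 _ hab ht'v.symm
    · rintro rfl
      rw [rho_add, ha, hb'] at ht'v
      have : - b = b := add_left_cancel ht'v
      exact hv2 b hb0 this.symm
    · rintro rfl
      rw [rho_add, hb, hrzt, ha] at ht'v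
      have : - a = a := add_right_cancel ht'v
      exact hv2 a ha0 this.symm
  -- equality of the sizes
  have hsq : ∀ t : G, t * t = 1 → t ≠ 1 → t ≠ z → Nat.card (fixA ρ t) * Nat.card (fixA ρ t) = Nat.card V := by
    intro t h1 h2 h3
    obtain ⟨e1, e2, e3⟩ := hzt t h1 h2 h3
    obtain ⟨t', f1, f2, f3, f4, f5⟩ := hother t h1 h2 h3
    obtain ⟨g1, g2, g3⟩ := hzt t' f1 f2 f3
    have hzt_inj : ∀ x y : G, z * x = z * y → x = y := fun x y h => mul_left_cancel h
    have i1 : Nat.card (fixA ρ t') ≤ Nat.card (fixA ρ t) := hkey t t' h1 h2 h3 f1 f2 f4 f5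
    have i2 : Nat.card (fixA ρ t) ≤ Nat.card (fixA ρ t') := hkey t' t f1 f2 f3 h1 h2 f4.symm (by
      intro h
      apply f5
      rw [h, hzz'])
    have i3 : Nat.card (fixA ρ t') ≤ Nat.card (fixA ρ (z * t)) := hkey (z * t) t' e1 e2 e3 f1 f2 f5 (by
      rw [hzz']; exact f4)
    have i4 : Nat.card (fixA ρ (z * t)) ≤ Nat.card (fixA ρ t') := hkey t' (z * t) f1 f2 f3 e1 e2 f5.symm (by
      intro h
      exact f4 (hzt_inj _ _ h).symm)
    have h5 := hprod t h1
    have h6 : Nat.card (fixA ρ (z * t)) = Nat.card (fixA ρ t) := by omega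
    rwa [h6] at h5
  -- counting
  haveI : Fintype G := Fintype.ofFinite G
  let I : Finset G := Finset.univ.filter (fun t : G => t * t = 1 ∧ t ≠ 1 ∧ t ≠ z)
  have hIcard : Nat.card {g : G // orderOf g = 2 ∧ g ∉ Subgroup.center G} = I.card := by
    rw [Nat.card_eq_fintype_card, Fintype.card_subtype]
    congr 1
    ext t
    simp only [Finset.mem_filter, Finset.mem_univ, true_and, I]
    exact hIc t
  -- choose the involution for every nonzero vector
  have hτ : ∀ v : V, ∃ t : G, v ≠ 0 → (t ∈ I ∧ ρ t v = v) := by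
    intro v
    by_cases hv : v = 0
    · exact ⟨1, fun h => absurd hv h⟩
    · obtain ⟨t, ht1, htv, ht2⟩ := exists_t ρ hstab v hv
      refine ⟨t, fun _ => ?_⟩
      refine ⟨?_, htv⟩
      simp only [Finset.mem_filter, Finset.mem_univ, true_and, I]
      refine ⟨ht2, ht1, ?_⟩
      rintro rfl
      rw [hneg] at htv
      exact hv2 v hv htv.symm
  choose τ hτ using hτ
  haveI : Fintype V := Fintype.ofFinite V
  let S : Finset V := Finset.univ.filter (fun v : V => v ≠ 0)
  have hScard : S.card + 1 = Nat.card V := by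
    have : S = (Finset.univ : Finset V).erase 0 := by
      ext v; simp [S]
    rw [this, Finset.card_erase_of_mem (Finset.mem_univ _), Nat.card_eq_fintype_card, Finset.card_univ]
    have : 0 < Fintype.card V := Fintype.card_pos
    omega
  -- all fixed spaces have the same size
  obtain ⟨t₀, ht₀⟩ : ∃ t₀, t₀ ∈ I := ⟨τ v₀, (hτ v₀ hv₀).1⟩
  have hI_mem : ∀ t, t ∈ I ↔ (t * t = 1 ∧ t ≠ 1 ∧ t ≠ z) := by
    intro t
    simp only [Finset.mem_filter, Finset.mem_univ, true_and, I]
  set f₀ := Nat.card (fixA ρ t₀) with hf₀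
  have hfsq : f₀ * f₀ = Nat.card V := by
    obtain ⟨a, b, c⟩ := (hI_mem t₀).mp ht₀
    exact hsq t₀ a b c
  have hf_eq : ∀ t ∈ I, Nat.card (fixA ρ t) = f₀ := by
    intro t ht
    obtain ⟨a, b, c⟩ := (hI_mem t).mp ht
    have h := hsq t a b c
    rw [← hfsq] at h
    exact Nat.mul_self_inj.mp h
  -- fibre counts
  have hfib : ∀ t ∈ I, (S.filter (fun v => τ v = t)).card + 1 = f₀ := by
    intro t ht
    obtain ⟨a, b, c⟩ := (hI_mem t).mp ht
    rw [← hf_eq t ht]
    have hfe : S.filter (fun v => τ v = t) = (Finset.univ.filter (fun v : V => ρ t v = v)).erase 0 := by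
      ext v
      simp only [Finset.mem_filter, Finset.mem_univ, true_and, S, Finset.mem_erase, ne_eq]
      constructor
      · rintro ⟨hv, rfl⟩
        exact ⟨hv, (hτ v hv).2⟩
      · rintro ⟨hv, hv'⟩
        refine ⟨hv, ?_⟩
        obtain ⟨hI, hf⟩ := hτ v hv
        obtain ⟨a', b', c'⟩ := (hI_mem _).mp hI
        exact three_not ρ hstab v hv hf hv' b' b
    rw [hfe, Finset.card_erase_of_mem (by simp)]
    have hpos : 0 < (Finset.univ.filter (fun v : V => ρ t v = v)).card :=
      Finset.card_pos.mpr ⟨0, by simp⟩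
    have hcard : Nat.card (fixA ρ t) = (Finset.univ.filter (fun v : V => ρ t v = v)).card := by
      rw [Nat.card_eq_fintype_card (α := fixA ρ t)]
      rw [← Fintype.card_subtype]
      exact Fintype.card_congr (Equiv.refl _)
    rw [hcard]
    omega
  have hsum : S.card = ∑ t ∈ I, (S.filter (fun v => τ v = t)).card := by
    apply Finset.card_eq_sum_card_fiberwise
    intro v hv
    have hv' : v ≠ 0 := by simpa [S] using hv
    exact (hτ v hv').1
  have hsum2 : ∑ t ∈ I, (S.filter (fun v => τ v = t)).card = I.card * (f₀ - 1) := by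
    rw [Finset.sum_congr rfl (g := fun _ => f₀ - 1) (fun t ht => by
      have := hfib t ht
      show _ = f₀ - 1
      omega)]
    simp
  have hf1 : 1 < f₀ := by
    obtain ⟨a, b, c⟩ := (hI_mem t₀).mp ht₀
    obtain ⟨v, hv, hvf⟩ := hfixne t₀ a b c
    rw [hf₀]
    haveI : Nontrivial (fixA ρ t₀) := ⟨⟨⟨v, hvf⟩, 0, fun e => hv (congrArg Subtype.val e)⟩⟩
    exact Finite.one_lt_card
  have hIf : I.card = f₀ + 1 := by
    obtain ⟨k, hk⟩ : ∃ k, f₀ = k + 1 := ⟨f₀ - 1, by omega⟩
    have e : S.card = I.card * (f₀ - 1) := by rw [hsum, hsum2]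
    rw [hk] at e hfsq hf1 ⊢
    rw [← hScard, e] at hfsq
    simp only [Nat.add_sub_cancel] at hfsq
    have hk0 : 0 < k := by omega
    have : (k + 1) * (k + 1) = (k + 1 + 1) * k + 1 := by ring
    have h3 : (k + 1 + 1) * k + 1 = I.card * k + 1 := by
      rw [← this]; exact hfsq
    have h4 : (k + 1 + 1) * k = I.card * k := by omega
    exact (Nat.eq_of_mul_eq_mul_right hk0 h4).symm
  -- `f₀` is a power of `q`
  have hVq : ∃ n, Nat.card V = q ^ n := by
    haveI : Module.Finite (ZMod q) V := Module.Finite.of_finite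
    exact ⟨Module.finrank (ZMod q) V, by rw [Module.natCard_eq_pow_finrank (K := ZMod q), Nat.card_zmod]⟩
  obtain ⟨n, hn⟩ := hVq
  have hdvd : f₀ ∣ q ^ n := by rw [← hn, ← hfsq]; exact Dvd.intro _ rfl
  obtain ⟨r, -, hr⟩ := (Nat.dvd_prime_pow (Fact.out : q.Prime)).mp hdvd
  refine ⟨r, ?_, ?_⟩
  · rw [← hfsq, hr, two_mul, pow_add]
  · rw [hIcard, hIf, hr]

end Cfsg.Agent.S3381
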