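import Cfsg.Statements.S3382
import Mathlib
import Cfsg.Agent.Lib.H9Two

set_option autoImplicit false
open Cfsg

namespace Cfsg.Agent.S3382

section aut
variable {T : Type*} [Group T]

lemma fixed_key (α : MulAut T) (hα : Odd (orderOf α)) {x c : T} {k : ℕ} (hc : c = α x * x⁻¹)
    (hcf : α c = c) (hck : c ^ 2 ^ k = 1) : α x = x := by
  have e0 : α x = c * x := by rw [hc]; group
  have hpow : ∀ j : ℕ, (α ^ j) x = c ^ j * x := by
    intro j
    induction j with
    | zero => simp
    | succ j ih =>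
      have e1 : (α ^ (j + 1)) x = α ((α ^ j) x) := by
        rw [pow_succ']; rfl
      rw [e1, ih, map_mul, map_pow, hcf, e0, pow_succ]
      group
  have h1 := hpow (orderOf α)
  rw [pow_orderOf_eq_one] at h1
  have h2 : c ^ orderOf α = 1 := by
    have h20 : c ^ orderOf α * x = 1 * x := by rw [← h1, one_mul]; rfl
    exact mul_right_cancel h20
  have hcop : Nat.Coprime (orderOf α) (2 ^ k) := by
    apply Nat.Coprime.pow_right
    exact hα.coprime_two_right
  have h3 : c = 1 := by
    have h4 := orderOf_dvd_of_pow_eq_one h2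
    have h5 := orderOf_dvd_of_pow_eq_one hck
    have h6 : orderOf c ∣ Nat.gcd (orderOf α) (2 ^ k) := Nat.dvd_gcd h4 h5
    rw [hcop] at h6
    exact orderOf_eq_one_iff.mp (Nat.dvd_one.mp h6)
  rw [e0, h3, one_mul]

/-- the abstract reduction -/
lemma L1 (α : MulAut T) (hα : Odd (orderOf α)) (P : T → Prop)
    (hmul : ∀ x y, P x → P y → P (x * y)) (hinv : ∀ x, P x → P x⁻¹)
    (hcomm : ∀ x y, P x → P y → x * y = y * x) (hst : ∀ x, P x → P (α x))
    (h2 : ∀ x y, ¬ P x → ¬ P y → P (x * y⁻¹))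
    (hT2 : ∀ x : T, ∃ k : ℕ, x ^ 2 ^ k = 1)
    (hΩ : ∀ x, P x → x * x = 1 → α x = x) : α = 1 := by
  have stepA : ∀ (k : ℕ) (x : T), P x → x ^ 2 ^ k = 1 → α x = x := by
    intro k
    induction k with
    | zero =>
      intro x _ hx
      rw [pow_zero, pow_one] at hx
      rw [hx, map_one]
    | succ k ih =>
      intro x hx hxk
      have hx2 : P (x * x) := hmul x x hx hx
      have hx2' : (x * x) ^ 2 ^ k = 1 := by
        rw [← pow_two, ← pow_mul, ← hxk, pow_succ' 2 k]
      have h3 : α (x * x) = x * x := ih _ hx2 hx2'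
      have hax : P (α x) := hst x hx
      have hxi : P x⁻¹ := hinv x hx
      have hc : P (α x * x⁻¹) := hmul _ _ hax hxi
      have hcc : (α x * x⁻¹) * (α x * x⁻¹) = 1 := by
        have e1 : α x * x⁻¹ * (α x * x⁻¹) = α x * (x⁻¹ * α x) * x⁻¹ := by group
        rw [e1, hcomm _ _ hxi hax, ← mul_assoc]
        have e2 : α x * α x = x * x := by rw [← map_mul, h3]
        rw [e2]
        group
      have hcf := hΩ _ hc hcc
      exact fixed_key α hα (c := α x * x⁻¹) (k := 1) rfl hcf (by rw [pow_one, pow_two]; exact hcc)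
  have stepB : ∀ x, ¬ P x → ¬ P (α x) := by
    intro x hx hax
    apply hx
    have hj : ∀ (j : ℕ) (y : T), P y → P ((α ^ j) y) := by
      intro j
      induction j with
      | zero => intro y hy; simpa using hy
      | succ j ih =>
        intro y hy
        have e1 : (α ^ (j + 1)) y = α ((α ^ j) y) := by
          rw [pow_succ']; rfl
        rw [e1]
        exact hst _ (ih y hy)
    have hu : 0 < orderOf α := by
      rcases hα with ⟨r, hr⟩
      omega
    have e : (α ^ (orderOf α - 1)) (α x) = x := by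
      have e1 : (α ^ (orderOf α - 1)) (α x) = (α ^ (orderOf α - 1 + 1)) x := by
        rw [pow_succ]; rfl
      rw [e1, Nat.sub_add_cancel hu, pow_orderOf_eq_one]
      rfl
    rw [← e]
    exact hj _ _ hax
  ext x
  show α x = x
  by_cases hx : P x
  · obtain ⟨k, hk⟩ := hT2 x
    exact stepA k x hx hk
  · have hc : P (α x * x⁻¹) := h2 _ _ (stepB x hx) hx
    obtain ⟨k, hk⟩ := hT2 (α x * x⁻¹)
    exact fixed_key α hα rfl (stepA k _ hc hk) hk

end aut

lemma zmod2_one : ∀ a : ZMod 2, a ≠ 0 → a = 1 := by decide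
lemma zmod3_sq : ∀ a : ZMod 3, a ≠ 0 → a * a = 1 := by decide

section mono
variable {q : ℕ} [Fact q.Prime]

/-- the plane -/
abbrev VV (q : ℕ) := Fin 2 → ZMod q

/-- diagonal form -/
def DG (f : VV q ≃ₗ[ZMod q] VV q) (a s : ZMod q) : Prop := ∀ v, f v = ![a * v 0, s * a⁻¹ * v 1]
/-- off-diagonal form -/
def OG (f : VV q ≃ₗ[ZMod q] VV q) (a s : ZMod q) : Prop := ∀ v, f v = ![s * a⁻¹ * v 1, a * v 0]

omit [Fact q.Prime] in
lemma vv_ext {u w : VV q} (h0 : u 0 = w 0) (h1 : u 1 = w 1) : u = w := by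
  ext i; fin_cases i
  · exact h0
  · exact h1

variable {f g : VV q ≃ₗ[ZMod q] VV q} {a s b r : ZMod q}

lemma DD (hf : DG f a s) (hg : DG g b r) : DG (f * g) (a * b) (s * r) := by
  intro v
  rw [LinearEquiv.mul_apply, hg v, hf]
  apply vv_ext
  · simp; ring
  · simp [mul_inv]; ring

lemma DO (hs : s * s = 1) (ha : a ≠ 0) (hf : DG f a s) (hg : OG g b r) : OG (f * g) (s * a⁻¹ * b) (s * r) := by
  intro v
  rw [LinearEquiv.mul_apply, hg v, hf]
  have hs0 : s ≠ 0 := by
    rintro rfl
    simp at hs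
  have hsi : s⁻¹ = s := by
    rw [inv_eq_iff_eq_inv]; exact eq_inv_of_mul_eq_one_left hs
  apply vv_ext
  · simp [mul_inv, hsi, ha]
    linear_combination (-(a * r * b⁻¹ * v 1)) * hs
  · simp; ring

lemma OD (hf : OG f a s) (hg : DG g b r) : OG (f * g) (a * b) (s * r) := by
  intro v
  rw [LinearEquiv.mul_apply, hg v, hf]
  apply vv_ext
  · simp [mul_inv]; ring
  · simp; ring

lemma OO (hs : s * s = 1) (ha : a ≠ 0) (hf : OG f a s) (hg : OG g b r) : DG (f * g) (s * a⁻¹ * b) (s * r) := by
  intro v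
  rw [LinearEquiv.mul_apply, hg v, hf]
  have hs0 : s ≠ 0 := by
    rintro rfl
    simp at hs
  have hsi : s⁻¹ = s := by
    rw [inv_eq_iff_eq_inv]; exact eq_inv_of_mul_eq_one_left hs
  apply vv_ext
  · simp
    ring
  · simp [mul_inv, hsi, ha]
    linear_combination (-(a * r * b⁻¹ * v 1)) * hs

lemma apply_inv (f : VV q ≃ₗ[ZMod q] VV q) (v : VV q) : f (f⁻¹ v) = v := by
  rw [← LinearEquiv.mul_apply, mul_inv_cancel]; rfl

lemma DG_inv (hs : s * s = 1) (ha : a ≠ 0) (hf : DG f a s) : DG f⁻¹ a⁻¹ s := by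
  intro v
  apply f.injective
  rw [apply_inv, hf]
  apply vv_ext
  · simp [ha]
  · simp [ha]
    field_simp
    linear_combination (- v 1) * hs

lemma OG_inv (hs : s * s = 1) (ha : a ≠ 0) (hf : OG f a s) : OG f⁻¹ (s * a) s := by
  intro v
  have hs0 : s ≠ 0 := by
    rintro rfl
    simp at hs
  apply f.injective
  rw [apply_inv, hf]
  apply vv_ext
  · simp [ha, hs0]
    field_simp
    linear_combination (- v 0) * hs
  · simp [ha, hs0]
    field_simp

lemma DG_pow (hf : DG f a s) (n : ℕ) : DG (f ^ n) (a ^ n) (s ^ n) := by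
  induction n with
  | zero =>
    intro v
    simp only [pow_zero, LinearEquiv.coe_one, id_eq]
    apply vv_ext <;> simp
  | succ n ih =>
    rw [pow_succ, pow_succ, pow_succ]
    exact DD ih hf

lemma DG_one_eq (hf : DG f 1 1) : f = 1 := by
  ext v i
  rw [hf v]
  fin_cases i <;> simp

lemma DG_congr (hf : DG f a s) (hg : DG g a s) : f = g := by
  ext v i
  rw [hf v, hg v]

lemma OG_congr (hf : OG f a s) (hg : OG g a s) : f = g := by
  ext v i
  rw [hf v, hg v]

lemma DG_e1 (hf : DG f a s) : f ![1, 0] = ![a, 0] := by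
  rw [hf]
  apply vv_ext <;> simp

lemma DG_e2 (hf : DG f a s) : f ![0, 1] = ![0, s * a⁻¹] := by
  rw [hf]
  apply vv_ext <;> simp

lemma OG_e1 (hf : OG f a s) : f ![1, 0] = ![0, a] := by
  rw [hf]
  apply vv_ext <;> simp

lemma OG_e2 (hf : OG f a s) : f ![0, 1] = ![s * a⁻¹, 0] := by
  rw [hf]
  apply vv_ext <;> simp

lemma e1_ne : (![1, 0] : VV q) ≠ 0 := by
  intro h
  have := congrFun h 0
  simp at this

lemma DG_ne (hf : DG f a s) : a ≠ 0 := by
  rintro rfl
  have h := DG_e1 hf
  have h0 : (![0, 0] : VV q) = 0 := by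
    apply vv_ext <;> simp
  rw [h0] at h
  exact e1_ne ((map_eq_zero_iff f f.injective).mp h)

lemma OG_ne (hf : OG f a s) : a ≠ 0 := by
  rintro rfl
  have h := OG_e1 hf
  have h0 : (![0, 0] : VV q) = 0 := by
    apply vv_ext <;> simp
  rw [h0] at h
  exact e1_ne ((map_eq_zero_iff f f.injective).mp h)

lemma DG_a_unique (hf : DG f a s) (hg : DG f b r) : a = b := by
  have h1 := DG_e1 hf
  have h2 := DG_e1 hg
  rw [h1] at h2
  have := congrFun h2 0
  simpa using this

/-- diagonal element -/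
def mkD (a s : ZMod q) (ha : a ≠ 0) (hs : s * s = 1) : VV q ≃ₗ[ZMod q] VV q where
  toFun v := ![a * v 0, s * a⁻¹ * v 1]
  invFun v := ![a⁻¹ * v 0, s * a * v 1]
  map_add' u v := by
    apply vv_ext <;> simp <;> ring
  map_smul' c v := by
    apply vv_ext <;> simp <;> ring
  left_inv v := by
    apply vv_ext
    · simp [ha]
    · simp
      field_simp
      linear_combination (v 1) * hs
  right_inv v := by
    apply vv_ext
    · simp [ha]
    · simp
      field_simp
      linear_combination (v 1) * hs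

lemma mkD_DG (ha : a ≠ 0) (hs : s * s = 1) : DG (mkD a s ha hs) a s := fun _ => rfl

/-- off-diagonal element -/
def mkO (a s : ZMod q) (ha : a ≠ 0) (hs : s * s = 1) : VV q ≃ₗ[ZMod q] VV q where
  toFun v := ![s * a⁻¹ * v 1, a * v 0]
  invFun v := ![a⁻¹ * v 1, s * a * v 0]
  map_add' u v := by
    apply vv_ext <;> simp <;> ring
  map_smul' c v := by
    apply vv_ext <;> simp <;> ring
  left_inv v := by
    apply vv_ext
    · simp [ha]
    · simp
      field_simp
      linear_combination (v 1) * hs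
  right_inv v := by
    apply vv_ext
    · simp
      field_simp
      linear_combination (v 0) * hs
    · simp [ha]

lemma mkO_OG (ha : a ≠ 0) (hs : s * s = 1) : OG (mkO a s ha hs) a s := fun _ => rfl

end mono

/-- Let q = 2^m + 1 be a prime other than 5. Then the automorphism group of the group of linear maps of F_q² of the forms (x, y) ↦ (a x, ± a⁻¹ y) and (x, y) ↦ (± a⁻¹ y, a x) with a ≠ 0 is itself a 2-group. -/
theorem result (q m : ℕ) [Fact q.Prime] (hq : q = 2 ^ m + 1) (hq5 : q ≠ 5)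
    (T : Subgroup ((Fin 2 → ZMod q) ≃ₗ[ZMod q] (Fin 2 → ZMod q)))
    (hT : ∀ f, f ∈ T ↔ ∃ a s : ZMod q, a ≠ 0 ∧ (s = 1 ∨ s = -1) ∧
      ((∀ v, f v = ![a * v 0, s * a⁻¹ * v 1]) ∨ (∀ v, f v = ![s * a⁻¹ * v 1, a * v 0]))) :
    IsPGroup 2 (MulAut T) := by
  classical
  have hq0 : (1 : ZMod q) ≠ 0 := one_ne_zero
  have h11 : (1 : ZMod q) * 1 = 1 := mul_one 1
  haveI : Finite (VV q ≃ₗ[ZMod q] VV q) :=
    Finite.of_injective (fun f => (f : VV q → VV q)) (fun f g h => LinearEquiv.ext (congrFun h))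
  haveI : Finite T := inferInstance
  haveI : Finite (MulAut T) :=
    Finite.of_injective (fun f => (f : T → T)) (fun f g h => MulEquiv.ext (congrFun h))
  apply Cfsg.Agent.Lib.H9Two.isPGroup_two_of
  intro α hα
  have hform : ∀ x : T, ∃ a s : ZMod q, a ≠ 0 ∧ s * s = 1 ∧ (s = 1 ∨ s = -1) ∧ (DG x.1 a s ∨ OG x.1 a s) := by
    intro x
    obtain ⟨a, s, ha, hs, h⟩ := (hT x.1).mp x.2
    refine ⟨a, s, ha, ?_, hs, ?_⟩
    · rcases hs with rfl | rfl <;> simp
    · exact h
  have hx1 : ∀ x : T, (1 : T).1 = 1 := fun _ => rfl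
  -- two-power order
  have hT2 : ∀ x : T, ∃ k : ℕ, x ^ 2 ^ k = 1 := by
    intro x
    refine ⟨m + 1, ?_⟩
    have hxx : ∃ a s : ZMod q, a ≠ 0 ∧ s * s = 1 ∧ DG (x * x).1 a s := by
      obtain ⟨a, s, ha, hs, _, h⟩ := hform x
      rcases h with h | h
      · exact ⟨a * a, s * s, mul_ne_zero ha ha, by rw [hs]; simp, DD h h⟩
      · refine ⟨s * a⁻¹ * a, s * s, ?_, by rw [hs]; simp, OO hs ha h h⟩
        rw [inv_mul_cancel_right₀ ha]
        rintro rfl
        simp at hs
    obtain ⟨a, s, ha, hs, h⟩ := hxx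
    have hs0 : s ≠ 0 := by
      rintro rfl
      simp at hs
    have h1 : q - 1 = 2 ^ m := by rw [hq, Nat.add_sub_cancel]
    have e1 : a ^ 2 ^ m = 1 := by rw [← h1]; exact ZMod.pow_card_sub_one_eq_one ha
    have e2 : s ^ 2 ^ m = 1 := by rw [← h1]; exact ZMod.pow_card_sub_one_eq_one hs0
    have h2 := DG_pow h (2 ^ m)
    rw [e1, e2] at h2
    have h3 := DG_one_eq h2
    apply Subtype.ext
    rw [Subgroup.coe_pow, Subgroup.coe_one, pow_succ', pow_mul]
    have : (x.1 ^ 2) = (x * x).1 := by rw [pow_two]; rfl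
    rw [this]
    exact h3
  have hTw : ∀ f : VV q ≃ₗ[ZMod q] VV q, ∀ a s : ZMod q, a ≠ 0 → (s = 1 ∨ s = -1) → (DG f a s ∨ OG f a s) → f ∈ T :=
    fun f a s ha hs h => (hT f).mpr ⟨a, s, ha, hs, h⟩
  have hneg1 : ∀ s : ZMod q, (s = 1 ∨ s = -1) → s * s = 1 := by
    rintro s (rfl | rfl) <;> simp
  -- case split
  by_cases hq2 : q = 2
  · -- `q = 2`
    subst hq2
    have h1 : ∀ a : ZMod 2, a ≠ 0 → a = 1 := zmod2_one
    have h2 : ∀ x : T, DG x.1 1 1 ∨ OG x.1 1 1 := by
      intro x
      obtain ⟨a, s, ha, hs, _, h⟩ := hform x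
      have hs0 : s ≠ 0 := by
        rintro rfl
        simp at hs
      rwa [h1 a ha, h1 s hs0] at h
    apply L1 α hα (fun x => x = 1)
    · rintro x y rfl rfl; simp
    · rintro x rfl; simp
    · rintro x y rfl rfl; rfl
    · rintro x rfl; simp
    · intro x y hx hy
      have e1 : ∀ z : T, z ≠ 1 → OG z.1 1 1 := by
        intro z hz
        rcases h2 z with h | h
        · exact absurd (Subtype.ext (DG_one_eq h)) hz
        · exact h
      have : x = y := Subtype.ext (OG_congr (e1 x hx) (e1 y hy))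
      rw [this]
      simp
    · exact hT2
    · rintro x rfl _; simp
  have h2ne : (2 : ZMod q) ≠ 0 := by
    intro h
    apply hq2
    have h' : ((2 : ℕ) : ZMod q) = 0 := by exact_mod_cast h
    rw [ZMod.natCast_eq_zero_iff] at h'
    exact (Nat.prime_dvd_prime_iff_eq Fact.out Nat.prime_two).mp h'
  have hm1 : (-1 : ZMod q) ≠ 1 := by
    intro h
    apply h2ne
    linear_combination -h
  have hm0 : (-1 : ZMod q) ≠ 0 := neg_ne_zero.mpr one_ne_zero
  have hmm : (-1 : ZMod q) * (-1) = 1 := by simp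
  let z₀ : T := ⟨mkD (-1) 1 hm0 h11, hTw _ (-1) 1 hm0 (Or.inl rfl) (Or.inl (mkD_DG hm0 h11))⟩
  let w : T := ⟨mkO 1 1 hq0 h11, hTw _ 1 1 hq0 (Or.inl rfl) (Or.inr (mkO_OG hq0 h11))⟩
  let d : T := ⟨mkD 1 (-1) hq0 hmm, hTw _ 1 (-1) hq0 (Or.inr rfl) (Or.inl (mkD_DG hq0 hmm))⟩
  have hz₀ : DG z₀.1 (-1) 1 := mkD_DG hm0 h11
  have hw : OG w.1 1 1 := mkO_OG hq0 h11
  have hd : DG d.1 1 (-1) := mkD_DG hq0 hmm
  have hz1 : z₀ ≠ 1 := by
    intro h
    have e1 := DG_e1 hz₀
    rw [h] at e1
    have e2 : (![1, 0] : VV q) = ![-1, 0] := e1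
    have e3 := congrFun e2 0
    simp only [Matrix.cons_val_zero] at e3
    exact hm1 e3.symm
  have hzneg : ∀ v, z₀.1 v = - v := by
    intro v
    rw [hz₀ v]
    apply vv_ext <;> simp
  have hzz : z₀ * z₀ = 1 := by
    apply Subtype.ext
    ext v i
    show z₀.1 (z₀.1 v) i = v i
    rw [hzneg, hzneg, neg_neg]
  have hzc : ∀ x : T, z₀ * x = x * z₀ := by
    intro x
    apply Subtype.ext
    ext v i
    show z₀.1 (x.1 v) i = x.1 (z₀.1 v) i
    rw [hzneg, hzneg, map_neg]
  have hcentral : ∀ y : T, (∀ x : T, y * x = x * y) → y * y = 1 → y ≠ 1 → y = z₀ := by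
    intro y hc hyy hy1
    obtain ⟨a, s, ha, hs, hs', h⟩ := hform y
    rcases h with h | h
    · have e1 : DG (y * y).1 (a * a) (s * s) := DD h h
      rw [hyy] at e1
      have e2 : DG (1 : T).1 1 1 := fun v => by
        show v = _
        apply vv_ext <;> simp
      have haa : a * a = 1 := DG_a_unique e1 e2
      have hinv : a⁻¹ = a := by
        rw [inv_eq_iff_eq_inv]; exact eq_inv_of_mul_eq_one_left haa
      have hcw := hc w
      have e3 : (y * w).1 ![0, 1] = (w * y).1 ![0, 1] := by rw [hcw]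
      have e4 : (y * w).1 ![0, 1] = y.1 (w.1 ![0, 1]) := rfl
      have e5 : (w * y).1 ![0, 1] = w.1 (y.1 ![0, 1]) := rfl
      rw [e4, e5, OG_e2 hw, DG_e2 h, hw] at e3
      have e6 : (![1 * 1⁻¹, 0] : VV q) = ![1, 0] := by
        apply vv_ext <;> simp
      rw [e6, DG_e1 h] at e3
      have e7 := congrFun e3 0
      simp [hinv] at e7
      have hs1 : s = 1 := by
        have e8 : s * a = 1 * a := by rw [one_mul]; exact e7.symm
        exact mul_right_cancel₀ ha e8
      subst hs1
      rcases mul_self_eq_one_iff.mp haa with rfl | rfl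
      · exact absurd (Subtype.ext (DG_one_eq h)) hy1
      · exact Subtype.ext (DG_congr h hz₀)
    · exfalso
      have hcd := hc d
      have e3 : (y * d).1 ![1, 0] = (d * y).1 ![1, 0] := by rw [hcd]
      have e4 : (y * d).1 ![1, 0] = y.1 (d.1 ![1, 0]) := rfl
      have e5 : (d * y).1 ![1, 0] = d.1 (y.1 ![1, 0]) := rfl
      rw [e4, e5, DG_e1 hd, OG_e1 h, hd] at e3
      have e7 := congrFun e3 1
      simp at e7
      apply ha
      have e8 : 2 * a = 0 := by linear_combination e7
      exact (mul_eq_zero.mp e8).resolve_left h2ne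
  have hαz : α z₀ = z₀ := by
    apply hcentral
    · intro x
      obtain ⟨x', rfl⟩ := α.surjective x
      rw [← map_mul, ← map_mul, hzc]
    · rw [← map_mul, hzz, map_one]
    · intro h
      apply hz1
      apply α.injective
      rw [h, map_one]
  by_cases hq3 : q = 3
  · subst hq3
    have hsq : ∀ a : ZMod 3, a ≠ 0 → a * a = 1 := zmod3_sq
    have hai : ∀ a : ZMod 3, a ≠ 0 → a⁻¹ = a := by
      intro a ha
      rw [inv_eq_iff_eq_inv]; exact eq_inv_of_mul_eq_one_left (hsq a ha)
    -- scalar form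
    have hscal : ∀ x : T, ∀ a : ZMod 3, DG x.1 a 1 → x = 1 ∨ x = z₀ := by
      intro x a h
      have haa := hsq a (DG_ne h)
      rcases mul_self_eq_one_iff.mp haa with rfl | rfl
      · left; exact Subtype.ext (DG_one_eq h)
      · right; exact Subtype.ext (DG_congr h hz₀)
    have hscal1 : ∀ {f : VV 3 ≃ₗ[ZMod 3] VV 3} {a : ZMod 3}, DG f a 1 → ∀ v, f v = a • v := by
      intro f a h v
      rw [h v, hai a (DG_ne h)]
      apply vv_ext <;> simp
    apply L1 α hα (fun x => (∃ a, DG x.1 a 1) ∨ (∃ a, OG x.1 a (-1)))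
    · -- closure
      rintro x y (⟨a, hx⟩ | ⟨a, hx⟩) (⟨b, hy⟩ | ⟨b, hy⟩)
      · left
        have := DD hx hy
        rw [one_mul] at this
        exact ⟨_, this⟩
      · right
        have := DO h11 (DG_ne hx) hx hy
        rw [one_mul (-1 : ZMod 3)] at this
        exact ⟨_, this⟩
      · right
        have := OD hx hy
        rw [mul_one (-1 : ZMod 3)] at this
        exact ⟨_, this⟩
      · left
        have := OO hmm (OG_ne hx) hx hy
        rw [hmm] at this
        exact ⟨_, this⟩
    · rintro x (⟨a, hx⟩ | ⟨a, hx⟩)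
      · left; exact ⟨_, DG_inv h11 (DG_ne hx) hx⟩
      · right; exact ⟨_, OG_inv hmm (OG_ne hx) hx⟩
    · rintro x y (⟨a, hx⟩ | ⟨a, hx⟩) (⟨b, hy⟩ | ⟨b, hy⟩)
      · have e1 := DD hx hy
        have e2 := DD hy hx
        rw [mul_comm b a] at e2
        exact Subtype.ext (DG_congr e1 e2)
      · apply Subtype.ext
        ext v i
        show x.1 (y.1 v) i = y.1 (x.1 v) i
        rw [hscal1 hx, hscal1 hx, map_smul]
      · apply Subtype.ext
        ext v i
        show x.1 (y.1 v) i = y.1 (x.1 v) i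
        rw [hscal1 hy, hscal1 hy, map_smul]
      · have e1 := OO hmm (OG_ne hx) hx hy
        have e2 := OO hmm (OG_ne hy) hy hx
        rw [hai a (OG_ne hx)] at e1
        rw [hai b (OG_ne hy)] at e2
        rw [mul_assoc, mul_comm a b, ← mul_assoc] at e1
        exact Subtype.ext (DG_congr e1 e2)
    · -- stability
      rintro x (⟨a, hx⟩ | ⟨a, hx⟩)
      · rcases hscal x a hx with rfl | rfl
        · left; rw [map_one]; exact ⟨a, hx⟩
        · left; rw [hαz]; exact ⟨_, hz₀⟩
      · have hxx : x * x = z₀ := by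
          have e1 := OO hmm (OG_ne hx) hx hx
          rw [hmm, inv_mul_cancel_right₀ (OG_ne hx)] at e1
          exact Subtype.ext (DG_congr e1 hz₀)
        have hax : α x * α x = z₀ := by rw [← map_mul, hxx, hαz]
        obtain ⟨b, s, hb, hs, hs', h⟩ := hform (α x)
        rcases h with h | h
        · exfalso
          have e1 := DD h h
          rw [hs, hsq b hb] at e1
          apply hz1
          rw [← hax]
          exact Subtype.ext (DG_one_eq e1)
        · right
          have e1 := OO hs hb h h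
          rw [hs, inv_mul_cancel_right₀ hb] at e1
          have e2 : DG (α x * α x).1 (-1) 1 := by rw [hax]; exact hz₀
          have e3 : s = -1 := DG_a_unique e1 e2
          rw [e3] at h
          exact ⟨b, h⟩
    · -- index two
      have hnot : ∀ x : T, ¬ ((∃ a, DG x.1 a 1) ∨ (∃ a, OG x.1 a (-1))) → (∃ a, DG x.1 a (-1)) ∨ (∃ a, OG x.1 a 1) := by
        intro x hx
        push Not at hx
        obtain ⟨a, s, ha, hs, hs', h⟩ := hform x
        rcases h with h | h
        · rcases hs' with rfl | rfl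
          · exact absurd h (hx.1 a)
          · left; exact ⟨a, h⟩
        · rcases hs' with rfl | rfl
          · right; exact ⟨a, h⟩
          · exact absurd h (hx.2 a)
      intro x y hx hy
      rcases hnot x hx with ⟨a, hx'⟩ | ⟨a, hx'⟩ <;> rcases hnot y hy with ⟨b, hy'⟩ | ⟨b, hy'⟩
      · left
        have := DD hx' (DG_inv hmm (DG_ne hy') hy')
        rw [hmm] at this
        exact ⟨_, this⟩
      · right
        have := DO hmm (DG_ne hx') hx' (OG_inv h11 (OG_ne hy') hy')
        rw [mul_one (-1 : ZMod 3)] at this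
        exact ⟨_, this⟩
      · right
        have := OD hx' (DG_inv hmm (DG_ne hy') hy')
        rw [one_mul (-1 : ZMod 3)] at this
        exact ⟨_, this⟩
      · left
        have := OO h11 (OG_ne hx') hx' (OG_inv h11 (OG_ne hy') hy')
        rw [h11] at this
        exact ⟨_, this⟩
    · exact hT2
    · rintro x (⟨a, hx⟩ | ⟨a, hx⟩) hxx
      · rcases hscal x a hx with rfl | rfl
        · rw [map_one]
        · exact hαz
      · exfalso
        have e1 := OO hmm (OG_ne hx) hx hx
        rw [hmm, inv_mul_cancel_right₀ (OG_ne hx)] at e1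
        have e1' : DG (x * x).1 (-1) 1 := e1
        rw [hxx] at e1'
        have e2 : DG (1 : T).1 1 1 := fun v => by
          show v = _
          apply vv_ext <;> simp
        exact hm1 (DG_a_unique e1' e2)
  have hq15 : (16 : ZMod q) ≠ 1 := by
    intro h
    have h' : ((15 : ℕ) : ZMod q) = 0 := by
      push_cast
      linear_combination h
    rw [ZMod.natCast_eq_zero_iff] at h'
    have hqp : q.Prime := Fact.out
    have h3 : q ∣ 3 * 5 := h'
    rcases (Nat.Prime.dvd_mul hqp).mp h3 with h4 | h4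
    · exact hq3 ((Nat.prime_dvd_prime_iff_eq hqp Nat.prime_three).mp h4)
    · exact hq5 ((Nat.prime_dvd_prime_iff_eq hqp Nat.prime_five).mp h4)
  have h2i : (2 : ZMod q) ≠ 0 := h2ne
  let t : T := ⟨mkD 2 1 h2ne h11, hTw _ 2 1 h2ne (Or.inl rfl) (Or.inl (mkD_DG h2ne h11))⟩
  have ht : DG t.1 2 1 := mkD_DG h2ne h11
  have hOG4 : ∀ x : T, ∀ a s : ZMod q, s * s = 1 → OG x.1 a s → (x * x) * (x * x) = 1 := by
    intro x a s hs hx
    have e1 := OO hs (OG_ne hx) hx hx
    rw [hs, inv_mul_cancel_right₀ (OG_ne hx)] at e1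
    have e2 := DD e1 e1
    rw [hs, h11] at e2
    exact Subtype.ext (DG_one_eq e2)
  have ht4 : (t * t) * (t * t) ≠ 1 := by
    intro h
    have e1 := DD (DD ht ht) (DD ht ht)
    have e2 : DG ((t * t) * (t * t)).1 (2 * 2 * (2 * 2)) (1 * 1 * (1 * 1)) := e1
    rw [h] at e2
    have e3 : DG (1 : T).1 1 1 := fun v => by
      show v = _
      apply vv_ext <;> simp
    have e4 := DG_a_unique e2 e3
    apply hq15
    rw [← e4]
    norm_num
  have hbig : ∀ x : T, (x * x) * (x * x) ≠ 1 → ∃ a s, s * s = 1 ∧ DG x.1 a s := by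
    intro x hx
    obtain ⟨a, s, ha, hs, hs', h⟩ := hform x
    rcases h with h | h
    · exact ⟨a, s, hs, h⟩
    · exact absurd (hOG4 x a s hs h) hx
  have hαbig : ∀ x : T, (x * x) * (x * x) ≠ 1 → (α x * α x) * (α x * α x) ≠ 1 := by
    intro x hx h
    apply hx
    apply α.injective
    rw [map_one, map_mul, map_mul]
    exact h
  have hcom : ∀ x y : T, (∃ a s, s * s = 1 ∧ DG x.1 a s) → (∃ a s, s * s = 1 ∧ DG y.1 a s) → x * y = y * x := by
    rintro x y ⟨a, s, hs, hx⟩ ⟨b, r, hr, hy⟩
    have e1 := DD hx hy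
    have e2 := DD hy hx
    rw [mul_comm b a, mul_comm r s] at e2
    exact Subtype.ext (DG_congr e1 e2)
  have hpmul : ∀ x y : T, (∃ a s, s * s = 1 ∧ DG x.1 a s) → (∃ a s, s * s = 1 ∧ DG y.1 a s) → (∃ a s, s * s = 1 ∧ DG (x * y).1 a s) := by
    rintro x y ⟨a, s, hs, hx⟩ ⟨b, r, hr, hy⟩
    refine ⟨a * b, s * r, ?_, DD hx hy⟩
    calc s * r * (s * r) = (s * s) * (r * r) := by ring
      _ = 1 := by rw [hs, hr, h11]
  have hpinv : ∀ x : T, (∃ a s, s * s = 1 ∧ DG x.1 a s) → (∃ a s, s * s = 1 ∧ DG x⁻¹.1 a s) := by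
    rintro x ⟨a, s, hs, hx⟩
    exact ⟨a⁻¹, s, hs, DG_inv hs (DG_ne hx) hx⟩
  have htP : ∃ a s, s * s = 1 ∧ DG t.1 a s := ⟨2, 1, h11, ht⟩
  have hst : ∀ x : T, (∃ a s, s * s = 1 ∧ DG x.1 a s) → (∃ a s, s * s = 1 ∧ DG (α x).1 a s) := by
    intro x hx
    by_cases hx4 : (x * x) * (x * x) = 1
    · have e0 : x * t = t * x := hcom x t hx htP
      have e1 : (x * t) * (x * t) * ((x * t) * (x * t)) ≠ 1 := by
        intro h
        apply ht4
        have e2 : (x * t) * (x * t) = (x * x) * (t * t) := by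
          calc (x * t) * (x * t) = x * (t * x) * t := by group
            _ = x * (x * t) * t := by rw [e0]
            _ = (x * x) * (t * t) := by group
        have e3 : (x * x) * (t * t) = (t * t) * (x * x) := by
          calc (x * x) * (t * t) = x * (x * t) * t := by group
            _ = x * (t * x) * t := by rw [e0]
            _ = (x * t) * (x * t) := by group
            _ = (t * x) * (t * x) := by rw [e0]
            _ = t * (x * t) * x := by group
            _ = t * (t * x) * x := by rw [e0]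
            _ = (t * t) * (x * x) := by group
        rw [e2] at h
        calc (t * t) * (t * t) = (t * t) * (t * t) * ((x * x) * (x * x)) := by rw [hx4, mul_one]
          _ = (t * t) * ((t * t) * (x * x)) * (x * x) := by group
          _ = (t * t) * ((x * x) * (t * t)) * (x * x) := by rw [e3]
          _ = (t * t) * (x * x) * ((t * t) * (x * x)) := by group
          _ = (x * x) * (t * t) * ((x * x) * (t * t)) := by rw [e3]
          _ = 1 := h
      have e2 := hbig _ (hαbig _ e1)
      have e3 := hbig _ (hαbig _ ht4)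
      have e4 := hpmul _ _ e2 (hpinv _ e3)
      have e5 : α (x * t) * (α t)⁻¹ = α x := by
        rw [map_mul]; group
      rwa [e5] at e4
    · exact hbig _ (hαbig _ hx4)
  apply L1 α hα (fun x => ∃ a s, s * s = 1 ∧ DG x.1 a s) hpmul hpinv hcom hst
  · -- index two
    have hnot : ∀ x : T, ¬ (∃ a s, s * s = 1 ∧ DG x.1 a s) → ∃ a s, s * s = 1 ∧ OG x.1 a s := by
      intro x hx
      obtain ⟨a, s, ha, hs, hs', h⟩ := hform x
      rcases h with h | h
      · exact absurd ⟨a, s, hs, h⟩ hx
      · exact ⟨a, s, hs, h⟩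
    intro x y hx hy
    obtain ⟨a, s, hs, hx'⟩ := hnot x hx
    obtain ⟨b, r, hr, hy'⟩ := hnot y hy
    have hyi : OG (y⁻¹).1 (r * b) r := OG_inv hr (OG_ne hy') hy'
    refine ⟨_, s * r, ?_, OO hs (OG_ne hx') hx' hyi⟩
    calc s * r * (s * r) = (s * s) * (r * r) := by ring
      _ = 1 := by rw [hs, hr, h11]
  · exact hT2
  · -- involutions
    -- normal form of involutions
    have hnf : ∀ x : T, (∃ a s, s * s = 1 ∧ DG x.1 a s) → x * x = 1 → x ≠ 1 → x ≠ z₀ →
        ∃ a, a * a = 1 ∧ DG x.1 a (-1) := by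
      rintro x ⟨a, s, hs, hx⟩ hxx hx1' hxz
      have e1 := DD hx hx
      have e2 : DG (1 : T).1 1 1 := fun v => by
        show v = _
        apply vv_ext <;> simp
      have haa : a * a = 1 := by
        have e3 : DG (x * x).1 (a * a) (s * s) := e1
        rw [hxx] at e3
        exact DG_a_unique e3 e2
      rcases mul_self_eq_one_iff.mp hs with rfl | rfl
      · exfalso
        rcases mul_self_eq_one_iff.mp haa with rfl | rfl
        · exact hx1' (Subtype.ext (DG_one_eq hx))
        · exact hxz (Subtype.ext (DG_congr hx hz₀))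
      · exact ⟨a, haa, hx⟩
    intro x hx hxx
    by_cases hx1' : x = 1
    · rw [hx1', map_one]
    by_cases hxz : x = z₀
    · rw [hxz, hαz]
    have hy1 : α x ≠ 1 := by
      intro h
      apply hx1'
      apply α.injective
      rw [h, map_one]
    have hyz : α x ≠ z₀ := by
      intro h
      apply hxz
      apply α.injective
      rw [h, hαz]
    obtain ⟨a, haa, hx'⟩ := hnf x hx hxx hx1' hxz
    obtain ⟨b, hbb, hy'⟩ := hnf (α x) (hst x hx) (by rw [← map_mul, hxx, map_one]) hy1 hyz
    have hcases : α x = x ∨ α x = z₀ * x := by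
      have hai : a⁻¹ = a := by
        rw [inv_eq_iff_eq_inv]; exact eq_inv_of_mul_eq_one_left haa
      have hbi : b⁻¹ = b := by
        rw [inv_eq_iff_eq_inv]; exact eq_inv_of_mul_eq_one_left hbb
      have hab : b = a ∨ b = - a := by
        have : (b - a) * (b + a) = 0 := by linear_combination hbb - haa
        rcases mul_eq_zero.mp this with h | h
        · left; exact sub_eq_zero.mp h
        · right; exact eq_neg_of_add_eq_zero_left h
      rcases hab with rfl | rfl
      · left; exact Subtype.ext (DG_congr hy' hx')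
      · right
        apply Subtype.ext
        ext v i
        show (α x).1 v i = z₀.1 (x.1 v) i
        rw [hzneg, hy', hx']
        fin_cases i <;> simp [hai, hbi]
    rcases hcases with h | h
    · exact h
    · -- order argument
      have h2 : α (α x) = x := by
        rw [h, map_mul, hαz, h, ← mul_assoc, hzz, one_mul]
      have hpw : ∀ j : ℕ, (α ^ (2 * j + 1)) x = α x := by
        intro j
        induction j with
        | zero => simp
        | succ j ih =>
          have e1 : (α ^ (2 * (j + 1) + 1)) x = (α ^ (2 * j + 1)) (α (α x)) := by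
            have : 2 * (j + 1) + 1 = (2 * j + 1) + 2 := by ring
            rw [this, pow_add, pow_two]; rfl
          rw [e1, h2, ih]
      obtain ⟨j, hj⟩ := hα
      have h3 := hpw j
      rw [← hj, pow_orderOf_eq_one] at h3
      exact h3.symm

end Cfsg.Agent.S3382
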