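import Cfsg.Statements.S3383
import Cfsg.Agent.Lib.H1Frob

set_option autoImplicit false
open Cfsg

namespace Cfsg.Agent.S3383

/-- Let H be a Frobenius complement in a finite group L and K the Frobenius kernel (as a subgroup). Then K is characteristic in L, and every normal subgroup of L either contains K or is contained in K. -/
theorem result {L : Type*} [Group L] [Finite L]
    (H : Subgroup L) (hH : Cfsg.IsFrobeniusComplement H)
    (K : Subgroup L) (hK : (K : Set L) = Cfsg.frobeniusKernel H) :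
    K.Characteristic ∧ ∀ N : Subgroup L, N.Normal → K ≤ N ∨ N ≤ K := by
  classical
  open Cfsg.Agent.Lib.H1Frob Cfsg.Agent.Lib.H1Conj in
  have hmem : ∀ x, x ∈ K ↔ x ∈ frobeniusKernel H := fun x => by rw [← hK]; rfl
  have hKn : K.Normal := by
    refine ⟨fun x hx g => ?_⟩
    rw [hmem] at hx ⊢
    by_contra hcon
    rw [not_mem_kernel_iff] at hcon
    obtain ⟨h1, y, hy⟩ := hcon
    have hx' : x ∉ frobeniusKernel H := by
      rw [not_mem_kernel_iff]
      refine ⟨?_, g⁻¹ * y, ?_⟩
      · rintro rfl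
        simp at h1
      · have e : (g⁻¹ * y)⁻¹ * x * (g⁻¹ * y) = y⁻¹ * (g * x * g⁻¹) * y := by group
        rwa [e]
    exact hx' hx
  have hcardK : Nat.card K = H.index := by
    rw [← card_kernel hH]
    exact Nat.card_congr (Equiv.setCongr hK)
  have hinter : ∀ x ∈ K, x ∈ H → x = 1 := by
    intro x hx hxH
    by_contra hne
    rw [hmem] at hx
    apply (not_mem_kernel_iff.2 ⟨hne, 1, by simpa using hxH⟩) hx
  have hcop : Nat.Coprime (Nat.card K) (Nat.card H) := by
    rw [hcardK]
    have hm : H.index ≡ 1 [MOD Nat.card H] := index_mod hH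
    have := hm.gcd_eq
    rw [Nat.Coprime, this, Nat.gcd_one_left]
  have hcardQ : Nat.card (L ⧸ K) = Nat.card H := by
    have h1 := K.card_mul_index
    have h2 := H.index_mul_card
    rw [hcardK] at h1
    have hpos : 0 < H.index := Nat.pos_of_ne_zero Subgroup.index_ne_zero_of_finite
    have : H.index * K.index = H.index * Nat.card H := by rw [h1, h2]
    have h3 := Nat.eq_of_mul_eq_mul_left hpos this
    rw [← h3]
    rfl
  have hpow : ∀ x : L, x ^ Nat.card K = 1 → x ∈ K := by
    intro x hx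
    have h1 : orderOf (QuotientGroup.mk x : L ⧸ K) ∣ Nat.card K := by
      apply orderOf_dvd_of_pow_eq_one
      rw [← QuotientGroup.mk_pow, hx]
      rfl
    have h2 : orderOf (QuotientGroup.mk x : L ⧸ K) ∣ Nat.card H := by
      rw [← hcardQ]
      exact orderOf_dvd_natCard _
    have h3 : orderOf (QuotientGroup.mk x : L ⧸ K) = 1 := Nat.eq_one_of_dvd_coprimes hcop h1 h2
    rw [orderOf_eq_one_iff, QuotientGroup.eq_one_iff] at h3
    exact h3
  have hchar : K.Characteristic := by
    rw [Subgroup.characteristic_iff_comap_le]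
    intro φ x hx
    rw [Subgroup.mem_comap] at hx
    apply hpow
    apply φ.injective
    rw [map_pow, map_one]
    have := pow_card_eq_one' (G := K) (x := ⟨_, hx⟩)
    exact congrArg Subtype.val this
  refine ⟨hchar, ?_⟩
  intro N hN
  by_cases hle : N ≤ K
  · exact Or.inr hle
  left
  obtain ⟨x, hxN, hxK⟩ := Set.not_subset.1 hle
  have hxK' : x ∉ frobeniusKernel H := fun h => hxK ((hmem x).2 h)
  obtain ⟨hx1, g, hg⟩ := not_mem_kernel_iff.1 hxK'
  set h := g⁻¹ * x * g with hh
  have hhN : h ∈ N := by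
    have := hN.conj_mem x hxN g⁻¹
    simpa [hh] using this
  have hh1 : h ≠ 1 := by
    intro e
    apply hx1
    have : x = g * h * g⁻¹ := by rw [hh]; group
    rw [this, e]; group
  -- the commutator map is injective on `K`
  let f : K → K := fun k => ⟨k.1 * (h * k.1⁻¹ * h⁻¹), K.mul_mem k.2 (hKn.conj_mem _ (K.inv_mem k.2) h)⟩
  have hinj : Function.Injective f := by
    rintro ⟨k, hk⟩ ⟨k', hk'⟩ e
    have e' : k * (h * k⁻¹ * h⁻¹) = k' * (h * k'⁻¹ * h⁻¹) := congrArg Subtype.val e
    have e2 : (k'⁻¹ * k) * h = h * (k'⁻¹ * k) := by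
      have e3 : k * h * k⁻¹ = k' * h * k'⁻¹ := by
        have : k * h * k⁻¹ * h⁻¹ = k' * h * k'⁻¹ * h⁻¹ := by
          simpa [mul_assoc] using e'
        exact mul_right_cancel this
      calc (k'⁻¹ * k) * h = k'⁻¹ * (k * h * k⁻¹) * k := by group
        _ = k'⁻¹ * (k' * h * k'⁻¹) * k := by rw [e3]
        _ = h * (k'⁻¹ * k) := by group
    have hq : (k⁻¹ * k') ∈ K := K.mul_mem (K.inv_mem hk) hk'
    have hqq : (k⁻¹ * k')⁻¹ * h * (k⁻¹ * k') ∈ H := by
      have : (k⁻¹ * k')⁻¹ * h * (k⁻¹ * k') = h := by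
        have : (k⁻¹ * k')⁻¹ = k'⁻¹ * k := by group
        rw [this, e2]
        group
      rw [this]; exact hg
    have := frob_eq hH hh1 (p := 1) (q := k⁻¹ * k') (by simpa using hg) hqq
    have hq2 : (k⁻¹ * k') ∈ H := by
      have h3 := H.inv_mem this
      simpa using h3
    have h4 := hinter _ hq hq2
    apply Subtype.ext
    exact inv_mul_eq_one.1 h4
  have hsurj : Function.Surjective f := Finite.surjective_of_injective hinj
  intro y hy
  obtain ⟨k, hk⟩ := hsurj ⟨y, hy⟩
  have e : y = (k.1 * h * k.1⁻¹) * h⁻¹ := by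
    have := congrArg Subtype.val hk
    simp only [f] at this
    rw [← this]; group
  rw [e]
  exact N.mul_mem (hN.conj_mem h hhN k.1) (N.inv_mem hhN)

end Cfsg.Agent.S3383
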