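import Cfsg.Statements.S3704
import Mathlib

set_option autoImplicit false
open Cfsg

namespace Cfsg.Agent.S3704

section lin
variable {m n : Type*} [Fintype m] [Fintype n] [DecidableEq m] [DecidableEq n]

/-- constant-one matrix -/
def J1 (m n : Type*) : Matrix m n ℚ := Matrix.of fun _ _ => 1

lemma J1_apply (i : m) (j : n) : J1 m n i j = 1 := rfl

lemma lin_key (e : m ≃ n) (A B : Matrix m n ℚ) (N μ : ℚ) (hN : N = Fintype.card n) (hN0 : N ≠ 0)
    (hμ : μ ≠ 0)
    (h1 : ∀ i, ∑ j, A i j = 0) (h2 : ∀ j, ∑ i, A i j = 0) (h3 : ∀ i, ∑ j, B i j = 0)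
    (h4 : ∀ i k, (A * A.transpose) i k = μ * ((if i = k then N else 0) - 1))
    (h5 : B * A.transpose = 0) : B = 0 := by
  have hcm : (Fintype.card m : ℚ) = N := by rw [hN, Fintype.card_congr e]
  let A₂ : Matrix n m ℚ := (1 / (μ * N)) • A.transpose + (1 / N ^ 2) • J1 n m
  have hA : (A + J1 m n) * A₂ = 1 := by
    ext i k
    have e1 : (A * J1 n m) i k = 0 := by
      simp only [Matrix.mul_apply, J1_apply, mul_one]
      exact h1 i
    have e2 : (J1 m n * A.transpose) i k = 0 := by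
      simp only [Matrix.mul_apply, J1_apply, one_mul, Matrix.transpose_apply]
      exact h1 k
    have e3 : (J1 m n * J1 n m) i k = N := by
      simp only [Matrix.mul_apply, J1_apply, mul_one, Finset.sum_const, Finset.card_univ, nsmul_eq_mul]
      exact hN.symm
    simp only [A₂, Matrix.add_mul, Matrix.mul_add, Matrix.mul_smul, Matrix.add_apply, Matrix.smul_apply,
      smul_eq_mul, e1, e2, e3, h4, Matrix.one_apply]
    by_cases hik : i = k
    · simp only [hik, if_true]
      field_simp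
      ring
    · simp only [hik, if_false]
      field_simp
      ring
  have hA' : A₂ * (A + J1 m n) = 1 := (Matrix.mul_eq_one_comm_of_equiv e).mp hA
  have hAT : ∀ j l, (A.transpose * A) j l = μ * ((if j = l then N else 0) - 1) := by
    intro j l
    have h := congrFun (congrFun hA' j) l
    have e1 : (A.transpose * J1 m n) j l = 0 := by
      simp only [Matrix.mul_apply, J1_apply, mul_one, Matrix.transpose_apply]
      exact h2 j
    have e2 : (J1 n m * A) j l = 0 := by
      simp only [Matrix.mul_apply, J1_apply, one_mul]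
      exact h2 l
    have e3 : (J1 n m * J1 m n) j l = N := by
      simp only [Matrix.mul_apply, J1_apply, mul_one, Finset.sum_const, Finset.card_univ, nsmul_eq_mul]
      exact hcm
    simp only [A₂, Matrix.add_mul, Matrix.mul_add, Matrix.smul_mul, Matrix.add_apply, Matrix.smul_apply,
      smul_eq_mul, e1, e2, e3, Matrix.one_apply] at h
    have h' : (1 / (μ * N)) * (A.transpose * A) j l = (if j = l then 1 else 0) - 1 / N := by
      rw [← h]
      field_simp
      ring
    field_simp at h'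
    rw [h']
    by_cases hjl : j = l
    · simp only [hjl, if_true]; ring
    · simp only [hjl, if_false]; ring
  ext i l
  have h6 : (B * (A.transpose * A)) i l = 0 := by
    rw [← Matrix.mul_assoc, h5, Matrix.zero_mul]; rfl
  rw [Matrix.mul_apply] at h6
  simp only [hAT] at h6
  have h7 : ∑ j, B i j * (μ * ((if j = l then N else 0) - 1)) =
      μ * (N * B i l) - μ * ∑ j, B i j := by
    have : ∀ j, B i j * (μ * ((if j = l then N else 0) - 1)) = μ * N * (if j = l then B i j else 0) - μ * B i j := by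
      intro j
      by_cases hj : j = l
      · simp only [hj, if_true]; ring
      · simp only [hj, if_false]; ring
    simp only [this]
    rw [Finset.sum_sub_distrib, ← Finset.mul_sum, ← Finset.mul_sum, Finset.sum_ite_eq']
    simp only [Finset.mem_univ, if_true]
    ring
  rw [h7, h3 i] at h6
  have h8 : μ * N * B i l = 0 := by linear_combination h6
  simpa [hμ, hN0] using h8

end lin

section act
variable {G Ω : Type*} [Group G] [Finite G] [MulAction G Ω] [Finite Ω] (H : Subgroup G)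

/-- evaluation at a coset -/
noncomputable def ev (φ : Ω → ℚ) (x : G ⧸ H) (ω : Ω) : ℚ := φ (x.out⁻¹ • ω)

variable {H}

lemma ev_mk {φ : Ω → ℚ} (hφ : ∀ h ∈ H, ∀ ω, φ (h • ω) = φ ω) (g : G) (ω : Ω) :
    ev H φ (g : G ⧸ H) ω = φ (g⁻¹ • ω) := by
  obtain ⟨h, hh⟩ := QuotientGroup.mk_out_eq_mul H g
  unfold ev
  rw [hh, mul_inv_rev, mul_smul]
  exact hφ _ (H.inv_mem h.2) _

lemma ev_smul {φ : Ω → ℚ} (hφ : ∀ h ∈ H, ∀ ω, φ (h • ω) = φ ω) (g : G) (x : G ⧸ H) (ω : Ω) :
    ev H φ (g • x) (g • ω) = ev H φ x ω := by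
  induction x using QuotientGroup.induction_on with
  | H a =>
    have e : g • (a : G ⧸ H) = ((g * a : G) : G ⧸ H) := rfl
    rw [e, ev_mk hφ, ev_mk hφ, mul_inv_rev, mul_smul, inv_smul_smul]

variable [Fintype Ω] [Fintype (G ⧸ H)]

lemma sum_smul (g : G) (φ : Ω → ℚ) : ∑ ω, φ (g • ω) = ∑ ω, φ ω :=
  Equiv.sum_comp (MulAction.toPerm g) φ

lemma sum_ev (φ : Ω → ℚ) (x : G ⧸ H) : ∑ ω, ev H φ x ω = ∑ ω, φ ω :=
  sum_smul _ φ

omit [Fintype Ω] in
lemma sum_coset (g : G) (F : G ⧸ H → ℚ) : ∑ x, F (g • x) = ∑ x, F x :=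
  Equiv.sum_comp (MulAction.toPerm g) F

/-- row sums vanish -/
lemma T_zero (htr : ∀ a b : Ω, ∃ g : G, g • a = b) (hN : Fintype.card Ω ≠ 0)
    {φ : Ω → ℚ} (hφ : ∀ h ∈ H, ∀ ω, φ (h • ω) = φ ω) (hs : ∑ ω, φ ω = 0) (ω : Ω) :
    ∑ x, ev H φ x ω = 0 := by
  have hconst : ∀ a b : Ω, ∑ x, ev H φ x a = ∑ x, ev H φ x b := by
    intro a b
    obtain ⟨g, rfl⟩ := htr a b
    rw [← sum_coset (H := H) g (fun x => ev H φ x (g • a))]
    exact Finset.sum_congr rfl (fun x _ => ev_smul hφ g x a) |>.symm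
  have h1 : ∑ a, ∑ x, ev H φ x a = 0 := by
    rw [Finset.sum_comm]
    simp only [sum_ev, hs, Finset.sum_const_zero]
  have h2 : ∑ a, ∑ x, ev H φ x a = (Fintype.card Ω : ℚ) * ∑ x, ev H φ x ω := by
    rw [Finset.sum_congr rfl (fun a _ => hconst a ω)]
    simp
  rw [h2] at h1
  have h3 : (Fintype.card Ω : ℚ) ≠ 0 := by exact_mod_cast hN
  exact (mul_eq_zero.mp h1).resolve_left h3

/-- the `S`-matrix entries -/
lemma S_diag (htr : ∀ a b : Ω, ∃ g : G, g • a = b) (hN : Fintype.card Ω ≠ 0)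
    (hidx : Fintype.card (G ⧸ H) = Fintype.card Ω)
    {φ ψ : Ω → ℚ} (hφ : ∀ h ∈ H, ∀ ω, φ (h • ω) = φ ω) (hψ : ∀ h ∈ H, ∀ ω, ψ (h • ω) = ψ ω) (ω : Ω) :
    ∑ x, ev H φ x ω * ev H ψ x ω = ∑ a, φ a * ψ a := by
  have hconst : ∀ a b : Ω, ∑ x, ev H φ x a * ev H ψ x a = ∑ x, ev H φ x b * ev H ψ x b := by
    intro a b
    obtain ⟨g, rfl⟩ := htr a b
    rw [← sum_coset (H := H) g (fun x => ev H φ x (g • a) * ev H ψ x (g • a))]
    exact Finset.sum_congr rfl (fun x _ => by simp only [ev_smul hφ g x a, ev_smul hψ g x a]) |>.symm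
  have h1 : ∑ a, ∑ x, ev H φ x a * ev H ψ x a = (Fintype.card Ω : ℚ) * ∑ a, φ a * ψ a := by
    rw [Finset.sum_comm]
    have : ∀ x : G ⧸ H, ∑ a, ev H φ x a * ev H ψ x a = ∑ a, φ a * ψ a := fun x =>
      sum_smul (x.out⁻¹) (fun a => φ a * ψ a)
    simp only [this, Finset.sum_const, Finset.card_univ, nsmul_eq_mul, hidx]
  have h2 : ∑ a, ∑ x, ev H φ x a * ev H ψ x a = (Fintype.card Ω : ℚ) * ∑ x, ev H φ x ω * ev H ψ x ω := by
    rw [Finset.sum_congr rfl (fun a _ => hconst a ω)]
    simp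
  rw [h2] at h1
  have h3 : (Fintype.card Ω : ℚ) ≠ 0 := by exact_mod_cast hN
  exact mul_left_cancel₀ h3 h1

lemma S_off [DecidableEq Ω] (h2t : ∀ {a b c d : Ω}, a ≠ b → c ≠ d → ∃ g : G, g • a = c ∧ g • b = d)
    (htr : ∀ a b : Ω, ∃ g : G, g • a = b) (hN : Fintype.card Ω ≠ 0)
    (hidx : Fintype.card (G ⧸ H) = Fintype.card Ω)
    {φ ψ : Ω → ℚ} (hφ : ∀ h ∈ H, ∀ ω, φ (h • ω) = φ ω) (hψ : ∀ h ∈ H, ∀ ω, ψ (h • ω) = ψ ω)
    (hs : ∑ ω, ψ ω = 0) {ω ω' : Ω} (hne : ω ≠ ω') :
    ((Fintype.card Ω : ℚ) - 1) * ∑ x, ev H φ x ω * ev H ψ x ω' = - ∑ a, φ a * ψ a := by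
  have hconst : ∀ a : Ω, a ≠ ω → ∑ x, ev H φ x ω * ev H ψ x a = ∑ x, ev H φ x ω * ev H ψ x ω' := by
    intro a ha
    obtain ⟨g, hg1, hg2⟩ := h2t hne (Ne.symm ha)
    rw [← sum_coset (H := H) g (fun x => ev H φ x ω * ev H ψ x a)]
    refine Finset.sum_congr rfl (fun x _ => ?_)
    nth_rw 1 [← hg1]
    rw [← hg2, ev_smul hφ, ev_smul hψ]
  have h1 : ∑ a, ∑ x, ev H φ x ω * ev H ψ x a = 0 := by
    rw [Finset.sum_comm]
    simp only [← Finset.mul_sum, sum_ev, hs, mul_zero, Finset.sum_const_zero]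
  rw [← Finset.sum_erase_add _ _ (Finset.mem_univ ω), Finset.sum_congr rfl (fun a ha => hconst a (Finset.mem_erase.mp ha).1),
    Finset.sum_const, Finset.card_erase_of_mem (Finset.mem_univ ω), Finset.card_univ,
    S_diag htr hN hidx hφ hψ ω, nsmul_eq_mul] at h1
  have h3 : ((Fintype.card Ω - 1 : ℕ) : ℚ) = (Fintype.card Ω : ℚ) - 1 := by
    rw [Nat.cast_sub (Nat.one_le_iff_ne_zero.mpr hN), Nat.cast_one]
  rw [h3] at h1
  linear_combination h1

end act

/-- Let G be a finite group acting faithfully and 2-transitively on a finite set Ω of size n, and let H be a subgroup of index n in G which is not transitive on Ω and fixes no point of Ω. Then H has exactly two orbits on Ω. -/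
theorem result {G Ω : Type*} [Group G] [Finite G] [MulAction G Ω] [FaithfulSMul G Ω] [Finite Ω] (h2 : MulAction.IsMultiplyPretransitive G Ω 2) (H : Subgroup G) (hidx : H.index = Nat.card Ω) (hnt : ¬ MulAction.IsPretransitive H Ω) (hfix : ∀ a : Ω, ∃ h : H, h • a ≠ a) : Nat.card (MulAction.orbitRel.Quotient H Ω) = 2 := by
  classical
  haveI := Fintype.ofFinite Ω
  haveI := Fintype.ofFinite (G ⧸ H)
  have hidx' : Fintype.card (G ⧸ H) = Fintype.card Ω := by
    rw [← Nat.card_eq_fintype_card, ← Nat.card_eq_fintype_card, ← hidx]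
    rfl
  have hcard0 : Fintype.card Ω ≠ 0 := by
    rw [← Nat.card_eq_fintype_card, ← hidx]
    exact Subgroup.index_ne_zero_of_finite
  have h2t : ∀ {a b c d : Ω}, a ≠ b → c ≠ d → ∃ g : G, g • a = c ∧ g • b = d :=
    fun {a b c d} => (MulAction.is_two_pretransitive_iff).mp h2
  have htr : ∀ a b : Ω, ∃ g : G, g • a = b := by
    intro a b
    by_cases hab : a = b
    · exact ⟨1, by rw [one_smul, hab]⟩
    · obtain ⟨g, hg, _⟩ := h2t hab (Ne.symm hab)
      exact ⟨g, hg⟩
  haveI hne : Nonempty Ω := Fintype.card_pos_iff.mp (Nat.pos_of_ne_zero hcard0)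
  by_contra hcon
  let Q := MulAction.orbitRel.Quotient H Ω
  haveI : Fintype Q := Fintype.ofFinite Q
  have hQ1 : ¬ Subsingleton Q := fun h => hnt ((MulAction.pretransitive_iff_subsingleton_quotient H Ω).mpr h)
  have hQ3 : 2 < Fintype.card Q := by
    have h0 : Fintype.card Q ≠ 0 := by
      haveI : Nonempty Q := ⟨Quotient.mk'' hne.some⟩
      exact Fintype.card_ne_zero
    have h1 : Fintype.card Q ≠ 1 := by
      intro h
      exact hQ1 ((Fintype.card_le_one_iff_subsingleton).mp h.le)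
    have h2' : Fintype.card Q ≠ 2 := by
      rw [← Nat.card_eq_fintype_card]
      exact hcon
    omega
  obtain ⟨a, b, c, hab, hac, hbc⟩ := Fintype.two_lt_card_iff.mp hQ3
  let π : Ω → Q := fun ω => Quotient.mk'' ω
  have hπ : ∀ h ∈ H, ∀ ω, π (h • ω) = π ω := by
    intro h hh ω
    apply Quotient.sound'
    rw [MulAction.orbitRel_apply]
    exact ⟨⟨h, hh⟩, rfl⟩
  have hπs : Function.Surjective π := Quotient.mk''_surjective
  let p : Q → Ω → ℚ := fun q ω => if π ω = q then 1 else 0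
  have hp : ∀ q, ∀ h ∈ H, ∀ ω, p q (h • ω) = p q ω := by
    intro q h hh ω
    simp only [p, hπ h hh]
  let s : Q → ℚ := fun q => ∑ ω, p q ω
  have hspos : ∀ q, 0 < s q := by
    intro q
    obtain ⟨ω, hω⟩ := hπs q
    refine Finset.sum_pos' (fun i _ => ?_) ⟨ω, Finset.mem_univ _, ?_⟩
    · simp only [p]; split_ifs <;> norm_num
    · simp only [p, hω, if_true]; norm_num
  let φ : Ω → ℚ := fun ω => s b * p a ω - s a * p b ω
  let ψ : Ω → ℚ := fun ω => s c * p a ω + s c * p b ω - (s a + s b) * p c ω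
  have hφ : ∀ h ∈ H, ∀ ω, φ (h • ω) = φ ω := by
    intro h hh ω
    simp only [φ, hp _ h hh]
  have hψ : ∀ h ∈ H, ∀ ω, ψ (h • ω) = ψ ω := by
    intro h hh ω
    simp only [ψ, hp _ h hh]
  have hφs : ∑ ω, φ ω = 0 := by
    simp only [φ]
    rw [Finset.sum_sub_distrib, ← Finset.mul_sum, ← Finset.mul_sum]
    show s b * s a - s a * s b = 0
    ring
  have hψs : ∑ ω, ψ ω = 0 := by
    simp only [ψ]
    rw [Finset.sum_sub_distrib, Finset.sum_add_distrib, ← Finset.mul_sum, ← Finset.mul_sum, ← Finset.mul_sum]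
    show s c * s a + s c * s b - (s a + s b) * s c = 0
    ring
  have hφψ : ∑ ω, ψ ω * φ ω = 0 := by
    have e : ∀ ω, ψ ω * φ ω = (s b * s c) * p a ω - (s a * s c) * p b ω := by
      intro ω
      simp only [φ, ψ, p]
      by_cases h1 : π ω = a
      · have h2 : π ω ≠ b := by rw [h1]; exact hab
        have h3 : π ω ≠ c := by rw [h1]; exact hac
        simp only [h1, if_true, hab, hac, if_false]
        ring
      · by_cases h2 : π ω = b
        · have h3 : π ω ≠ c := by rw [h2]; exact hbc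
          simp only [h2, if_true, hab.symm, hbc, if_false]
          ring
        · simp only [h1, h2, if_false]
          ring
    simp only [e]
    rw [Finset.sum_sub_distrib, ← Finset.mul_sum, ← Finset.mul_sum]
    show s b * s c * s a - s a * s c * s b = 0
    ring
  have hφφ : 0 < ∑ ω, φ ω * φ ω := by
    obtain ⟨ω, hω⟩ := hπs a
    refine Finset.sum_pos' (fun i _ => mul_self_nonneg _) ⟨ω, Finset.mem_univ _, ?_⟩
    have : φ ω = s b := by
      simp only [φ, p, hω, if_true, hab, if_false]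
      ring
    rw [this]
    exact mul_self_pos.mpr (hspos b).ne'
  set N : ℚ := (Fintype.card Ω : ℚ) with hNdef
  have hn2 : 2 ≤ Fintype.card Ω := by
    by_contra hlt
    have : Subsingleton Ω := by
      apply Fintype.card_le_one_iff_subsingleton.mp
      omega
    apply hQ1
    constructor
    intro x y
    induction x using Quotient.inductionOn'
    induction y using Quotient.inductionOn'
    congr 1
    exact Subsingleton.elim _ _
  have hN1 : N - 1 ≠ 0 := by
    have : (2 : ℚ) ≤ N := by rw [hNdef]; exact_mod_cast hn2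
    intro h
    linarith
  have hN0 : N ≠ 0 := by
    have : (2 : ℚ) ≤ N := by rw [hNdef]; exact_mod_cast hn2
    intro h
    linarith
  let A : Matrix Ω (G ⧸ H) ℚ := Matrix.of fun ω x => ev H φ x ω
  let B : Matrix Ω (G ⧸ H) ℚ := Matrix.of fun ω x => ev H ψ x ω
  have e : Ω ≃ (G ⧸ H) := (Fintype.equivOfCardEq hidx').symm
  have hB : B = 0 := by
    apply lin_key e A B N ((∑ ω, φ ω * φ ω) / (N - 1))
    · rw [hNdef, hidx']
    · exact hN0
    · exact div_ne_zero hφφ.ne' hN1
    · intro i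
      exact T_zero htr hcard0 hφ hφs i
    · intro j
      exact (sum_ev φ j).trans hφs
    · intro i
      exact T_zero htr hcard0 hψ hψs i
    · intro i k
      rw [Matrix.mul_apply]
      show ∑ x, ev H φ x i * ev H φ x k = _
      by_cases hik : i = k
      · subst hik
        rw [S_diag htr hcard0 hidx' hφ hφ, if_pos rfl]
        field_simp
      · have := S_off (H := H) h2t htr hcard0 hidx' hφ hφ hφs hik
        rw [if_neg hik]
        have hS : ∑ x, ev H φ x i * ev H φ x k = - (∑ a, φ a * φ a) / (N - 1) := by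
          rw [eq_div_iff hN1]
          linear_combination this
        rw [hS]
        ring
    · ext i k
      rw [Matrix.mul_apply]
      show ∑ x, ev H ψ x i * ev H φ x k = 0
      by_cases hik : i = k
      · subst hik
        rw [S_diag htr hcard0 hidx' hψ hφ]
        exact hφψ
      · have := S_off (H := H) h2t htr hcard0 hidx' hψ hφ hφs hik
        rw [hφψ, neg_zero] at this
        exact (mul_eq_zero.mp this).resolve_left hN1
  obtain ⟨ω, hω⟩ := hπs c
  have h3 : ev H ψ ((1 : G) : G ⧸ H) ω = 0 := by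
    have := congrFun (congrFun hB ω) ((1 : G) : G ⧸ H)
    exact this
  rw [ev_mk hψ, inv_one, one_smul] at h3
  simp only [ψ, p, hω, if_true, hac.symm, hbc.symm, if_false] at h3
  have h4 := hspos a
  have h5 := hspos b
  linarith

end Cfsg.Agent.S3704
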