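import Cfsg.Statements.S3733
-- import your own Cfsg.Agent.* helpers here

set_option autoImplicit false
open Cfsg

namespace Cfsg.Agent.S3733

/-- Let A and V be subgroups of a finite group with V abelian and nontrivial and A normalizing V. Suppose a nonempty finite family of proper subgroups of A partitions A: every non-identity element of A lies in exactly one member. If the number of members minus one is coprime to the order of V, then some member B of the family has a non-identity fixed point on V, that is V ∩ C(B) ≠ 1. -/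
theorem result {G : Type*} [Group G] [Finite G] (A V : Subgroup G) (hVab : IsMulCommutative V) (hV : V ≠ ⊥) (hAV : A ≤ Subgroup.normalizer (V : Set G)) (𝒜 : Finset (Subgroup G)) (hne : 𝒜.Nonempty) (hprop : ∀ B ∈ 𝒜, B < A) (hpart : ∀ a ∈ A, a ≠ 1 → ∃! B, B ∈ 𝒜 ∧ a ∈ B) (hk : (𝒜.card - 1).Coprime (Nat.card V)) : ∃ B ∈ 𝒜, V ⊓ Subgroup.centralizer (B : Set G) ≠ ⊥ := by
  classical
  by_contra hcon
  push_neg at hcon
  haveI : Fintype A := Fintype.ofFinite _
  letI : CommGroup V := { (inferInstance : Group V) with mul_comm := hVab.is_comm.comm }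
  have hmem : ∀ (a : A) (v : V), (a : G) * v * (a : G)⁻¹ ∈ V :=
    fun a v => (Subgroup.mem_normalizer_iff.1 (hAV a.2) v).1 v.2
  let φ : A → V →* V := fun a =>
    { toFun := fun v => ⟨(a : G) * v * (a : G)⁻¹, hmem a v⟩
      map_one' := by
        apply Subtype.ext
        simp
      map_mul' := fun x y => by
        apply Subtype.ext
        change (a : G) * ((x : G) * y) * (a : G)⁻¹ = ((a : G) * x * (a : G)⁻¹) * ((a : G) * y * (a : G)⁻¹)
        group }
  have act_one : ∀ v : V, φ 1 v = v := by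
    intro v
    apply Subtype.ext
    change ((1 : A) : G) * v * ((1 : A) : G)⁻¹ = v
    simp
  have act_mul : ∀ (a b : A) (v : V), φ a (φ b v) = φ (a * b) v := by
    intro a b v
    apply Subtype.ext
    change (a : G) * ((b : G) * v * (b : G)⁻¹) * (a : G)⁻¹ = ((a * b : A) : G) * v * ((a * b : A) : G)⁻¹
    simp only [Subgroup.coe_mul]
    group
  have hfix : ∀ B ∈ 𝒜, ∀ w : V, (∀ u : A, (u : G) ∈ B → φ u w = w) → w = 1 := by
    intro B hB w hw
    have h1 : (w : G) ∈ V ⊓ Subgroup.centralizer (B : Set G) := by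
      refine Subgroup.mem_inf.2 ⟨w.2, ?_⟩
      rw [Subgroup.mem_centralizer_iff]
      intro y hy
      have h2 := congrArg Subtype.val (hw ⟨y, (hprop B hB).le hy⟩ hy)
      have h3 : y * w * y⁻¹ = w := h2
      exact mul_inv_eq_iff_eq_mul.1 h3 
    rw [hcon B hB] at h1
    exact Subtype.ext h1
  obtain ⟨B₀, hB₀⟩ := hne
  let S : Subgroup G → Finset A := fun B => Finset.univ.filter (fun a => (a : G) ∈ B)
  have hN : ∀ B ∈ 𝒜, ∀ v : V, ∏ a ∈ S B, φ a v = 1 := by
    intro B hB v
    apply hfix B hB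
    intro u hu
    rw [map_prod]
    apply Finset.prod_equiv (Equiv.mulLeft u)
    · intro a
      simp only [S, Finset.mem_filter, Finset.mem_univ, true_and, Equiv.coe_mulLeft, Subgroup.coe_mul]
      constructor
      · intro ha
        exact B.mul_mem hu ha
      · intro ha
        have := B.mul_mem (B.inv_mem hu) ha
        simpa using this
    · intro a _
      rw [act_mul]
      rfl
  have hT : ∀ v : V, ∏ a : A, φ a v = 1 := by
    intro v
    apply hfix B₀ hB₀
    intro u _
    rw [map_prod]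
    apply Finset.prod_equiv (Equiv.mulLeft u)
    · intro a
      simp
    · intro a _
      rw [act_mul]
      rfl
  have h1S : ∀ B ∈ 𝒜, (1 : A) ∈ S B := by
    intro B _
    simp only [S, Finset.mem_filter, Finset.mem_univ, true_and]
    exact B.one_mem
  have hpart2 : ∀ v : V, v ^ 𝒜.card * ∏ a ∈ (Finset.univ : Finset A).erase 1, φ a v = 1 := by
    intro v
    have h1 : ∏ B ∈ 𝒜, ∏ a ∈ S B, φ a v = 1 := Finset.prod_eq_one (fun B hB => hN B hB v)
    have h2 : ∀ B ∈ 𝒜, ∏ a ∈ S B, φ a v = v * ∏ a ∈ (S B).erase 1, φ a v := by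
      intro B hB
      rw [← Finset.mul_prod_erase _ _ (h1S B hB), act_one]
    rw [Finset.prod_congr rfl h2, Finset.prod_mul_distrib, Finset.prod_const] at h1
    have h3 : (Finset.univ : Finset A).erase 1 = 𝒜.biUnion (fun B => (S B).erase 1) := by
      ext a
      simp only [Finset.mem_erase, Finset.mem_univ, and_true, Finset.mem_biUnion, S, Finset.mem_filter, true_and]
      constructor
      · intro ha
        have ha' : (a : G) ≠ 1 := fun h => ha (Subtype.ext h)
        obtain ⟨B, ⟨hB, hB2⟩, _⟩ := hpart a a.2 ha'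
        exact ⟨B, hB, ha, hB2⟩
      · rintro ⟨B, _, ha, _⟩
        exact ha
    rw [h3, Finset.prod_biUnion]
    · exact h1
    · intro B hB B' hB' hne
      rw [Function.onFun, Finset.disjoint_left]
      intro a ha ha'
      simp only [Finset.mem_erase, S, Finset.mem_filter, Finset.mem_univ, true_and] at ha ha'
      have ha1 : (a : G) ≠ 1 := fun h => ha.1 (Subtype.ext h)
      obtain ⟨C, _, hC⟩ := hpart a a.2 ha1
      exact hne ((hC B ⟨hB, ha.2⟩).trans (hC B' ⟨hB', ha'.2⟩).symm)
  obtain ⟨k, hk'⟩ : ∃ k, 𝒜.card = k + 1 := ⟨𝒜.card - 1, by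
    have : 0 < 𝒜.card := Finset.card_pos.2 ⟨B₀, hB₀⟩
    omega⟩
  rw [hk', Nat.add_sub_cancel] at hk
  apply hV
  rw [eq_bot_iff]
  intro x hx
  have hv : (⟨x, hx⟩ : V) ^ k = 1 := by
    have h1 := hpart2 ⟨x, hx⟩
    have h2 := hT ⟨x, hx⟩
    rw [← Finset.mul_prod_erase _ _ (Finset.mem_univ (1 : A)), act_one] at h2
    rw [hk', pow_succ, mul_assoc, h2, mul_one] at h1
    exact h1
  have h3 : orderOf (⟨x, hx⟩ : V) ∣ k := orderOf_dvd_of_pow_eq_one hv
  have h4 : orderOf (⟨x, hx⟩ : V) ∣ Nat.card V := orderOf_dvd_natCard _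
  have h5 : orderOf (⟨x, hx⟩ : V) = 1 := Nat.eq_one_of_dvd_coprimes hk h3 h4
  have h6 := orderOf_eq_one_iff.1 h5
  exact congrArg Subtype.val h6

end Cfsg.Agent.S3733
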