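import Cfsg.Statements.S3734
import Mathlib
import Cfsg.Agent.Lib.H1Cop
import Cfsg.Agent.Lib.H1FC
-- import your own Cfsg.Agent.* helpers here

set_option autoImplicit false
open Cfsg

namespace Cfsg.Agent.S3734

open scoped commutatorElement

theorem terminal {X : Type*} [Group X] [Finite X] (A P M : Subgroup X) (hAab : IsMulCommutative A)
    (hAP : A ≤ Subgroup.normalizer (P : Set X)) (hAM : A ≤ Subgroup.normalizer (M : Set X))
    (hcop : (Nat.card A).Coprime (Nat.card P)) (hMP : M ≤ P) (hne : M ≠ P) (hPab : ⁅P, P⁆ ≤ M)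
    (hmax : ∀ W : Subgroup X, M ≤ W → W ≤ P → A ≤ Subgroup.normalizer (W : Set X) → W = M ∨ W = P) :
    ∃ C : Subgroup X, C ≤ A ∧ (∀ c ∈ C, ∀ x ∈ P, c * x * c⁻¹ * x⁻¹ ∈ M) ∧
      ∃ a ∈ A, C ⊔ Subgroup.zpowers a = A := by
  classical
  have hAPc : ∀ a ∈ A, ∀ x ∈ P, a * x * a⁻¹ ∈ P := Subgroup.le_normalizer_iff.mp hAP
  have hAMc : ∀ a ∈ A, ∀ x ∈ M, a * x * a⁻¹ ∈ M := Subgroup.le_normalizer_iff.mp hAM
  have hPMc : ∀ x ∈ P, ∀ m ∈ M, x * m * x⁻¹ ∈ M := by
    intro x hx m hm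
    have h1 : ⁅x, m⁆ ∈ ⁅P, P⁆ := Subgroup.commutator_mem_commutator hx (hMP hm)
    have e : x * m * x⁻¹ = ⁅x, m⁆ * m := by
      rw [commutatorElement_def]; group
    rw [e]
    exact mul_mem (hPab h1) hm
  have hcommA : ∀ a ∈ A, ∀ b ∈ A, a * b = b * a := by
    intro a ha b hb
    have := hAab.is_comm.comm ⟨a, ha⟩ ⟨b, hb⟩
    exact congrArg Subtype.val this
  have hdisj : ∀ x, x ∈ P → x ∈ A → x = 1 := by
    intro x hx hxA
    have h := Subgroup.inf_eq_bot_of_coprime hcop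
    have : x ∈ A ⊓ P := Subgroup.mem_inf.mpr ⟨hxA, hx⟩
    rw [h] at this
    simpa using this
  -- the centralizer of `P / M` in `A`
  let C : Subgroup X :=
    { carrier := {c | c ∈ A ∧ ∀ x ∈ P, c * x * c⁻¹ * x⁻¹ ∈ M}
      mul_mem' := by
        rintro c d ⟨hc, hc'⟩ ⟨hd, hd'⟩
        refine ⟨mul_mem hc hd, fun x hx => ?_⟩
        have e : c * d * x * (c * d)⁻¹ * x⁻¹ = c * (d * x * d⁻¹ * x⁻¹) * c⁻¹ * (c * x * c⁻¹ * x⁻¹) := by
          group
        rw [e]
        exact mul_mem (hAMc c hc _ (hd' x hx)) (hc' x hx)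
      one_mem' := ⟨one_mem _, fun x _ => by simp [one_mem]⟩
      inv_mem' := by
        rintro c ⟨hc, hc'⟩
        refine ⟨inv_mem hc, fun x hx => ?_⟩
        have hy : c⁻¹ * x * c ∈ P := by
          have := hAPc c⁻¹ (inv_mem hc) x hx
          simpa using this
        have h1 := hc' _ hy
        have e : c⁻¹ * x * c⁻¹⁻¹ * x⁻¹ = (c * (c⁻¹ * x * c) * c⁻¹ * (c⁻¹ * x * c)⁻¹)⁻¹ := by group
        rw [e]
        exact inv_mem h1 }
  have hCA : C ≤ A := fun c hc => hc.1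
  have hCM : C ≤ Subgroup.normalizer (M : Set X) := hCA.trans hAM
  let S : Subgroup X := M ⊔ C
  have hSmem : ∀ s, s ∈ S ↔ ∃ m ∈ M, ∃ c ∈ C, m * c = s := fun s => Lib.H1Cop.mem_sup_iff hCM
  have hSP : ∀ s, s ∈ S → s ∈ P → s ∈ M := by
    intro s hs hsP
    obtain ⟨m, hm, c, hc, rfl⟩ := (hSmem s).mp hs
    have hcP : c ∈ P := by
      have := mul_mem (inv_mem (hMP hm)) hsP
      simpa using this
    rw [hdisj c hcP hc.1, mul_one]
    exact hm
  have hSA : ∀ s, s ∈ S → s ∈ A → s ∈ C := by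
    intro s hs hsA
    obtain ⟨m, hm, c, hc, rfl⟩ := (hSmem s).mp hs
    have hmA : m ∈ A := by
      have := mul_mem hsA (inv_mem hc.1)
      simpa using this
    rw [hdisj m (hMP hm) hmA, one_mul]
    exact hc
  have hPS : P ≤ Subgroup.normalizer (S : Set X) := by
    rw [Subgroup.le_normalizer_iff]
    intro x hx s hs
    obtain ⟨m, hm, c, hc, rfl⟩ := (hSmem s).mp hs
    have h1 : c * x⁻¹ * c⁻¹ * x⁻¹⁻¹ ∈ M := hc.2 _ (inv_mem hx)
    have e : x * (m * c) * x⁻¹ = (x * m * x⁻¹) * (x * (c * x⁻¹ * c⁻¹ * x⁻¹⁻¹) * x⁻¹) * c := by group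
    rw [e]
    exact (hSmem _).mpr ⟨_, mul_mem (hPMc x hx m hm) (hPMc x hx _ h1), c, hc, rfl⟩
  have hAS : A ≤ Subgroup.normalizer (S : Set X) := by
    rw [Subgroup.le_normalizer_iff]
    intro b hb s hs
    obtain ⟨m, hm, c, hc, rfl⟩ := (hSmem s).mp hs
    have e : b * (m * c) * b⁻¹ = (b * m * b⁻¹) * c := by
      have h1 := hcommA b hb c hc.1
      have h2 : c * b⁻¹ = b⁻¹ * c := by
        rw [eq_inv_mul_iff_mul_eq, ← mul_assoc, h1]; group
      calc b * (m * c) * b⁻¹ = b * m * (c * b⁻¹) := by group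
        _ = b * m * (b⁻¹ * c) := by rw [h2]
        _ = _ := by group
    rw [e]
    exact (hSmem _).mpr ⟨_, hAMc b hb m hm, c, hc, rfl⟩
  let K : Subgroup X := P ⊔ A
  have hPK : P ≤ K := le_sup_left
  have hAK : A ≤ K := le_sup_right
  have hKS : K ≤ Subgroup.normalizer (S : Set X) := sup_le hPS hAS
  have hSK : S ≤ K := sup_le (hMP.trans hPK) (hCA.trans hAK)
  haveI hnorm : (S.subgroupOf K).Normal :=
    (Subgroup.normal_subgroupOf_iff_le_normalizer hSK).mpr hKS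
  let f : K →* K ⧸ (S.subgroupOf K) := QuotientGroup.mk' _
  have hf : ∀ x : K, f x = 1 ↔ (x : X) ∈ S := by
    intro x
    have : f x = 1 ↔ x ∈ S.subgroupOf K := by
      simp only [f, QuotientGroup.mk'_apply]
      exact QuotientGroup.eq_one_iff x
    rw [this, Subgroup.mem_subgroupOf]
  let Ab : Subgroup (K ⧸ (S.subgroupOf K)) := (A.subgroupOf K).map f
  let Vb : Subgroup (K ⧸ (S.subgroupOf K)) := (P.subgroupOf K).map f
  have hAbV : Ab ≤ Subgroup.normalizer (Vb : Set _) := by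
    rw [Subgroup.le_normalizer_iff]
    rintro _ ⟨a, ha, rfl⟩ _ ⟨x, hx, rfl⟩
    refine ⟨a * x * a⁻¹, ?_, by simp⟩
    have ha' : (a : X) ∈ A := Subgroup.mem_subgroupOf.mp ha
    have hx' : (x : X) ∈ P := Subgroup.mem_subgroupOf.mp hx
    exact Subgroup.mem_subgroupOf.mpr (hAPc _ ha' _ hx')
  have hAbab : IsMulCommutative Ab := by
    refine ⟨⟨?_⟩⟩
    rintro ⟨_, a, ha, rfl⟩ ⟨_, b, hb, rfl⟩
    apply Subtype.ext
    show f a * f b = f b * f a
    rw [← map_mul, ← map_mul]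
    congr 1
    apply Subtype.ext
    exact hcommA _ (Subgroup.mem_subgroupOf.mp ha) _ (Subgroup.mem_subgroupOf.mp hb)
  haveI : CommGroup Ab := { (inferInstance : Group Ab) with mul_comm := hAbab.is_comm.comm }
  have hAbsolv : Group.IsSolvable Ab := by
    have h : ∀ a b : Ab, a * b = b * a := hAbab.is_comm.comm
    exact isSolvable_of_comm h
  have hVbne : Vb ≠ ⊥ := by
    intro h
    apply hne
    apply le_antisymm hMP
    intro x hx
    have h1 : f ⟨x, hPK hx⟩ ∈ Vb := ⟨⟨x, hPK hx⟩, Subgroup.mem_subgroupOf.mpr hx, rfl⟩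
    rw [h, Subgroup.mem_bot, hf] at h1
    exact hSP x h1 hx
  have hfpf : ∀ a ∈ Ab, a ≠ 1 → Vb ⊓ Subgroup.centralizer {a} = ⊥ := by
    rintro _ ⟨⟨a, haK⟩, ha, rfl⟩ ha1
    have haA : a ∈ A := Subgroup.mem_subgroupOf.mp ha
    rw [eq_bot_iff]
    rintro _ ⟨⟨x, hxP, rfl⟩, hcent⟩
    rw [Subgroup.mem_bot]
    replace hcent : f x ∈ Subgroup.centralizer {f ⟨a, haK⟩} := hcent
    rw [Subgroup.mem_centralizer_singleton_iff] at hcent
    obtain ⟨xv, hxK'⟩ := x
    have hxvP : xv ∈ P := Subgroup.mem_subgroupOf.mp hxP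
    -- the fixed points of `a` modulo `M`
    let W : Subgroup X :=
      { carrier := {y | y ∈ P ∧ a * y * a⁻¹ * y⁻¹ ∈ M}
        mul_mem' := by
          rintro y z ⟨hy, hy'⟩ ⟨hz, hz'⟩
          refine ⟨mul_mem hy hz, ?_⟩
          have e : a * (y * z) * a⁻¹ * (y * z)⁻¹ = (a * y * a⁻¹ * y⁻¹) * (y * (a * z * a⁻¹ * z⁻¹) * y⁻¹) := by
            group
          rw [e]
          exact mul_mem hy' (hPMc y hy _ hz')
        one_mem' := ⟨one_mem _, by simp [one_mem]⟩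
        inv_mem' := by
          rintro y ⟨hy, hy'⟩
          refine ⟨inv_mem hy, ?_⟩
          have e : a * y⁻¹ * a⁻¹ * y⁻¹⁻¹ = y⁻¹ * (a * y * a⁻¹ * y⁻¹)⁻¹ * y⁻¹⁻¹ := by group
          rw [e]
          exact hPMc _ (inv_mem hy) _ (inv_mem hy') }
    have hMW : M ≤ W := by
      intro m hm
      exact ⟨hMP hm, mul_mem (hAMc a haA m hm) (inv_mem hm)⟩
    have hWP : W ≤ P := fun y hy => hy.1
    have hAW : A ≤ Subgroup.normalizer (W : Set X) := by
      rw [Subgroup.le_normalizer_iff]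
      rintro b hb y ⟨hy, hy'⟩
      refine ⟨hAPc b hb y hy, ?_⟩
      have e : a * (b * y * b⁻¹) * a⁻¹ * (b * y * b⁻¹)⁻¹ = b * (a * y * a⁻¹ * y⁻¹) * b⁻¹ := by
        have h1 := hcommA a haA b hb
        have h2 : a⁻¹ * b = b * a⁻¹ := by
          have := congrArg (fun t => a⁻¹ * t * a⁻¹) h1
          simpa [mul_assoc] using this.symm
        calc a * (b * y * b⁻¹) * a⁻¹ * (b * y * b⁻¹)⁻¹
            = (a * b) * y * b⁻¹ * (a⁻¹ * b) * y⁻¹ * b⁻¹ := by group
          _ = (b * a) * y * b⁻¹ * (b * a⁻¹) * y⁻¹ * b⁻¹ := by rw [h1, h2]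
          _ = _ := by group
      rw [e]
      exact hAMc b hb _ hy'
    have hxW : xv ∈ W := by
      refine ⟨hxvP, ?_⟩
      apply hSP
      · rw [← hf ⟨a * xv * a⁻¹ * xv⁻¹, K.mul_mem (K.mul_mem (K.mul_mem haK hxK') (K.inv_mem haK)) (K.inv_mem hxK')⟩]
        have e : (⟨a * xv * a⁻¹ * xv⁻¹, K.mul_mem (K.mul_mem (K.mul_mem haK hxK') (K.inv_mem haK)) (K.inv_mem hxK')⟩ : K)
            = ⟨a, haK⟩ * ⟨xv, hxK'⟩ * ⟨a, haK⟩⁻¹ * ⟨xv, hxK'⟩⁻¹ := rfl
        rw [e, map_mul, map_mul, map_mul, map_inv, map_inv, ← hcent]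
        group
      · exact mul_mem (hAPc a haA _ hxvP) (inv_mem hxvP)
    rcases hmax W hMW hWP hAW with h | h
    · rw [h] at hxW
      exact (hf _).mpr (Subgroup.mem_sup_left hxW)
    · exfalso
      apply ha1
      rw [hf]
      apply Subgroup.mem_sup_right
      refine ⟨haA, fun y hy => ?_⟩
      rw [← h] at hy
      exact hy.2
  have hcyc : IsCyclic Ab := Lib.H1FC.cyclic_of_fpf' hVbne hAbV hfpf hAbsolv (Or.inl hAbab)
  obtain ⟨⟨_, ⟨a, haK⟩, ha, rfl⟩, hgen⟩ := hcyc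
  have haA : a ∈ A := Subgroup.mem_subgroupOf.mp ha
  refine ⟨C, hCA, fun c hc => hc.2, a, haA, le_antisymm (sup_le hCA ?_) ?_⟩
  · rw [Subgroup.zpowers_le]; exact haA
  · intro b hb
    have hbK : b ∈ K := hAK hb
    obtain ⟨k, hk⟩ := Subgroup.mem_zpowers_iff.mp (hgen ⟨f ⟨b, hbK⟩, ⟨b, hbK⟩, Subgroup.mem_subgroupOf.mpr hb, rfl⟩)
    have hk' : f (⟨a, haK⟩ ^ k) = f ⟨b, hbK⟩ := by
      have := congrArg Subtype.val hk
      simpa using this
    have h1 : f ((⟨a, haK⟩ ^ k)⁻¹ * ⟨b, hbK⟩) = 1 := by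
      rw [map_mul, map_inv, hk']; group
    rw [hf] at h1
    have h2 : (a ^ k)⁻¹ * b ∈ S := by simpa using h1
    have h3 : (a ^ k)⁻¹ * b ∈ C := hSA _ h2 (mul_mem (inv_mem (zpow_mem haA k)) hb)
    have e : b = (a ^ k) * ((a ^ k)⁻¹ * b) := by group
    rw [e]
    rw [sup_comm]
    exact Subgroup.mul_mem_sup (Subgroup.zpow_mem_zpowers a k) h3

theorem p_part {X : Type*} [Group X] [Finite X] (A : Subgroup X) (hAab : IsMulCommutative A)
    (hsolvA : Group.IsSolvable A) (p : ℕ) [Fact p.Prime] (R : Subgroup X) :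
    IsPGroup p R → A ≤ Subgroup.normalizer (R : Set X) → (Nat.card A).Coprime (Nat.card R) →
    R ≤ ⨆ B ∈ {B : Subgroup X | B ≤ A ∧ ∃ a ∈ A, B ⊔ Subgroup.zpowers a = A},
      R ⊓ Subgroup.centralizer (B : Set X) := by
  induction R using WellFoundedLT.induction with
  | ind R ih =>
    intro hp hAR hcop
    by_cases hb : R = ⊥
    · subst hb; simp
    have hlt : ⁅R, R⁆ < R := by
      haveI : Nontrivial R := (Subgroup.nontrivial_iff_ne_bot R).mpr hb
      haveI := hp.isNilpotent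
      have h1 : commutator R < ⊤ := IsSolvable.commutator_lt_top_of_nontrivial R
      rw [← Subgroup.map_subtype_commutator]
      refine lt_of_le_of_ne (Subgroup.map_subtype_le _) ?_
      intro h
      apply h1.ne
      rw [eq_top_iff]
      rintro ⟨x, hx⟩ -
      rw [← h] at hx
      obtain ⟨y, hy, hyx⟩ := hx
      have : y = ⟨x, by rw [← hyx]; exact y.2⟩ := Subtype.ext hyx
      rw [← this]
      exact hy
    let F : Set (Subgroup X) := {M | ⁅R, R⁆ ≤ M ∧ M < R ∧ A ≤ Subgroup.normalizer (M : Set X)}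
    have hstart : ⁅R, R⁆ ∈ F := by
      refine ⟨le_rfl, hlt, ?_⟩
      rw [Subgroup.le_normalizer_iff]
      intro a ha k hk
      have hRc := Subgroup.le_normalizer_iff.mp hAR a ha
      have h1 : ⁅R, R⁆ ≤ (⁅R, R⁆).comap (MulAut.conj a).toMonoidHom := by
        rw [Subgroup.commutator_le]
        intro x hx y hy
        rw [Subgroup.mem_comap, map_commutatorElement]
        exact Subgroup.commutator_mem_commutator (by simpa using hRc x hx) (by simpa using hRc y hy)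
      simpa using h1 hk
    obtain ⟨M, -, hM⟩ := (Set.toFinite F).exists_le_maximal hstart
    obtain ⟨hM1, hM2, hM3⟩ := hM.prop
    have hmax : ∀ W : Subgroup X, M ≤ W → W ≤ R → A ≤ Subgroup.normalizer (W : Set X) → W = M ∨ W = R := by
      intro W h1 h2 h3
      by_cases h : W = R
      · exact Or.inr h
      · exact Or.inl (le_antisymm (hM.le_of_ge ⟨hM1.trans h1, lt_of_le_of_ne h2 h, h3⟩ h1) h1)
    obtain ⟨C, hCA, hC, a, ha, hCa⟩ := terminal A R M hAab hAR hM3 hcop hM2.le hM2.ne hM1 hmax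
    have hMH := ih M hM2 (hp.to_le hM2.le) hM3
      (Nat.Coprime.coprime_dvd_right (Subgroup.card_dvd_of_le hM2.le) hcop)
    have hmono : (⨆ B ∈ {B : Subgroup X | B ≤ A ∧ ∃ a ∈ A, B ⊔ Subgroup.zpowers a = A},
        M ⊓ Subgroup.centralizer (B : Set X)) ≤
        ⨆ B ∈ {B : Subgroup X | B ≤ A ∧ ∃ a ∈ A, B ⊔ Subgroup.zpowers a = A},
        R ⊓ Subgroup.centralizer (B : Set X) :=
      iSup₂_le fun B hB => le_iSup₂_of_le B hB (inf_le_inf_right _ hM2.le)
    intro x hx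
    have hsolvC : Group.IsSolvable C := Lib.H1SZ.isSolvable_of_le hCA hsolvA
    obtain ⟨n, hn, hnx⟩ := Lib.H1Cop.fixed_of_coset (A := C) (N := M) (K := R) (hCA.trans hAR) hM2.le
      (hCA.trans hM3) (Nat.Coprime.coprime_dvd_left (Subgroup.card_dvd_of_le hCA) hcop)
      (Or.inl hsolvC) hx (fun c hc => hC c hc x hx)
    have e : x = n⁻¹ * (n * x) := by group
    rw [e]
    refine mul_mem (inv_mem (hmono (hMH hn))) ?_
    exact (le_iSup₂_of_le (f := fun B (_ : B ∈ {B : Subgroup X | B ≤ A ∧ ∃ a ∈ A, B ⊔ Subgroup.zpowers a = A}) =>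
      R ⊓ Subgroup.centralizer (B : Set X)) C ⟨hCA, a, ha, hCa⟩ le_rfl) hnx

/-- Let A and G be subgroups of a finite group with A abelian, A normalizing G and the orders of A and G coprime. Then G is generated by the fixed-point subgroups C_G(B) of those subgroups B of A for which A/B is cyclic (that is, A = ⟨B, a⟩ for some a), and [G, A] is generated by the commutator subgroups [C_G(B), A] over the same subgroups B. -/
theorem result {X : Type*} [Group X] [Finite X] (A G : Subgroup X) (hAab : IsMulCommutative A) (hAG : A ≤ Subgroup.normalizer (G : Set X)) (hcop : (Nat.card A).Coprime (Nat.card G)) : (⨆ B ∈ {B : Subgroup X | B ≤ A ∧ ∃ a ∈ A, B ⊔ Subgroup.zpowers a = A}, G ⊓ Subgroup.centralizer (B : Set X)) = G ∧ (⨆ B ∈ {B : Subgroup X | B ≤ A ∧ ∃ a ∈ A, B ⊔ Subgroup.zpowers a = A}, ⁅G ⊓ Subgroup.centralizer (B : Set X), A⁆) = ⁅G, A⁆ := by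
  classical
  have hsolvA : Group.IsSolvable A := by
    have h : ∀ a b : A, a * b = b * a := hAab.is_comm.comm
    exact isSolvable_of_comm h
  have hAGc : ∀ a ∈ A, ∀ g ∈ G, a * g * a⁻¹ ∈ G := Subgroup.le_normalizer_iff.mp hAG
  have hcommA : ∀ a ∈ A, ∀ b ∈ A, a * b = b * a := by
    intro a ha b hb
    have := hAab.is_comm.comm ⟨a, ha⟩ ⟨b, hb⟩
    exact congrArg Subtype.val this
  set H : Subgroup X := ⨆ B ∈ {B : Subgroup X | B ≤ A ∧ ∃ a ∈ A, B ⊔ Subgroup.zpowers a = A},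
    G ⊓ Subgroup.centralizer (B : Set X) with hHdef
  have hHG : H ≤ G := iSup₂_le fun B _ => inf_le_left
  have hGH : G ≤ H := by
    rw [← Subgroup.relIndex_eq_one]
    by_contra hne
    obtain ⟨p, hp, hpd⟩ := Nat.exists_prime_and_dvd hne
    haveI : Fact p.Prime := ⟨hp⟩
    obtain ⟨R, ⟨hRG, hRp, hRi⟩, hAR⟩ := Lib.H1Cop.exists_invariant_sylow hAG hcop (Or.inl hsolvA) p
    have hRH : R ≤ H := by
      refine (p_part A hAab hsolvA p R hRp hAR
        (Nat.Coprime.coprime_dvd_right (Subgroup.card_dvd_of_le hRG) hcop)).trans ?_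
      exact iSup₂_le fun B hB => le_iSup₂_of_le B hB (inf_le_inf_right _ hRG)
    apply hRi
    rw [← Subgroup.relIndex_mul_relIndex R H G hRH hHG]
    exact Dvd.dvd.mul_left hpd _
  refine ⟨le_antisymm hHG hGH, ?_⟩
  set L : Subgroup X := ⨆ B ∈ {B : Subgroup X | B ≤ A ∧ ∃ a ∈ A, B ⊔ Subgroup.zpowers a = A},
    ⁅G ⊓ Subgroup.centralizer (B : Set X), A⁆ with hLdef
  have hLle : L ≤ ⁅G, A⁆ := iSup₂_le fun B _ => Subgroup.commutator_mono inf_le_left le_rfl
  refine le_antisymm hLle ?_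
  let CG : Subgroup X := G ⊓ Subgroup.centralizer (A : Set X)
  have hDA : ∀ B : Subgroup X, B ≤ A → A ≤ Subgroup.normalizer ((G ⊓ Subgroup.centralizer (B : Set X) : Subgroup X) : Set X) := by
    intro B hB
    rw [Subgroup.le_normalizer_iff]
    rintro a ha d ⟨hdG, hdC⟩
    refine ⟨hAGc a ha d hdG, ?_⟩
    show a * d * a⁻¹ ∈ Subgroup.centralizer (B : Set X)
    rw [Subgroup.mem_centralizer_iff]
    intro b hb
    have h1 : b * d = d * b := (Subgroup.mem_centralizer_iff.mp hdC) b hb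
    have h2 := hcommA a ha b (hB hb)
    have h3 : a⁻¹ * b = b * a⁻¹ := by
      have := congrArg (fun t => a⁻¹ * t * a⁻¹) h2
      simpa [mul_assoc] using this.symm
    calc b * (a * d * a⁻¹) = (b * a) * d * a⁻¹ := by group
      _ = a * (b * d) * a⁻¹ := by rw [← h2]; group
      _ = a * d * (b * a⁻¹) := by rw [h1]; group
      _ = a * d * (a⁻¹ * b) := by rw [h3]
      _ = _ := by group
  -- `A` and `C_G(A)` normalize `L`
  have hAL : A ≤ Subgroup.normalizer (L : Set X) := by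
    rw [Subgroup.le_normalizer_iff]
    intro a ha k hk
    have h1 : L ≤ L.comap (MulAut.conj a).toMonoidHom := by
      refine iSup₂_le fun B hB => ?_
      intro x hx
      rw [Subgroup.mem_comap]
      have h2 := Subgroup.le_normalizer_iff.mp (Lib.H1Cop.commutator_normalized_right (G ⊓ Subgroup.centralizer (B : Set X)) A) a ha x hx
      exact (le_iSup₂_of_le (f := fun B (_ : B ∈ {B : Subgroup X | B ≤ A ∧ ∃ a ∈ A, B ⊔ Subgroup.zpowers a = A}) =>
        ⁅G ⊓ Subgroup.centralizer (B : Set X), A⁆) B hB le_rfl) (by simpa using h2)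
    simpa using h1 hk
  have hCGL : CG ≤ Subgroup.normalizer (L : Set X) := by
    rw [Subgroup.le_normalizer_iff]
    intro a ha k hk
    have h1 : L ≤ L.comap (MulAut.conj a).toMonoidHom := by
      refine iSup₂_le fun B hB => ?_
      intro x hx
      rw [Subgroup.mem_comap]
      have haD : a ∈ G ⊓ Subgroup.centralizer (B : Set X) :=
        ⟨ha.1, Subgroup.centralizer_le (by exact_mod_cast hB.1) ha.2⟩
      have h2 := Subgroup.le_normalizer_iff.mp (Lib.H1Cop.commutator_normalized_left (G ⊓ Subgroup.centralizer (B : Set X)) A) a haD x hx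
      exact (le_iSup₂_of_le (f := fun B (_ : B ∈ {B : Subgroup X | B ≤ A ∧ ∃ a ∈ A, B ⊔ Subgroup.zpowers a = A}) =>
        ⁅G ⊓ Subgroup.centralizer (B : Set X), A⁆) B hB le_rfl) (by simpa using h2)
    simpa using h1 hk
  have hGLC : G ≤ L ⊔ CG := by
    refine hGH.trans (iSup₂_le fun B hB => ?_)
    have h1 := Lib.H1Cop.commutator_sup_centralizer (hDA B hB.1)
      (Nat.Coprime.coprime_dvd_right (Subgroup.card_dvd_of_le inf_le_left) hcop) (Or.inl hsolvA)
    rw [← h1]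
    refine sup_le_sup ?_ ?_
    · exact (le_iSup₂_of_le (f := fun B (_ : B ∈ {B : Subgroup X | B ≤ A ∧ ∃ a ∈ A, B ⊔ Subgroup.zpowers a = A}) =>
        ⁅G ⊓ Subgroup.centralizer (B : Set X), A⁆) B hB le_rfl)
    · exact inf_le_inf_right _ inf_le_left
  rw [Subgroup.commutator_le]
  intro g hg a ha
  obtain ⟨l, hl, c, hc, rfl⟩ := (Lib.H1Cop.mem_sup_iff hCGL).mp (hGLC hg)
  have h1 : c * a = a * c := ((Subgroup.mem_centralizer_iff.mp hc.2) a ha).symm
  have e : ⁅l * c, a⁆ = l * (a * l⁻¹ * a⁻¹) := by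
    rw [commutatorElement_def]
    calc l * c * a * (l * c)⁻¹ * a⁻¹ = l * (c * a) * c⁻¹ * l⁻¹ * a⁻¹ := by group
      _ = l * (a * c) * c⁻¹ * l⁻¹ * a⁻¹ := by rw [h1]
      _ = _ := by group
  rw [e]
  exact mul_mem hl (Subgroup.le_normalizer_iff.mp hAL a ha _ (inv_mem hl))

end Cfsg.Agent.S3734
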