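import Cfsg.Statements.S3735
import Cfsg.Agent.Lib.H1Cop
import Cfsg.Agent.Lib.H1SZ
import Cfsg.Agent.Lib.FGSBasic
-- import your own Cfsg.Agent.* helpers here

set_option autoImplicit false
open Cfsg

namespace Cfsg.Agent.S3735

/-- Clifford's Theorem for actions on finite abelian groups, first part. Let H and V be subgroups of a finite group with V abelian and H normalizing V, and let A be a normal subgroup of H. If every H-invariant subgroup of V has an H-invariant complement in V, then every A-invariant subgroup of V has an A-invariant complement in V. -/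
theorem result {G : Type*} [Group G] [Finite G] (H A V : Subgroup G) (hVab : IsMulCommutative V) (hHV : H ≤ Subgroup.normalizer (V : Set G)) (hAH : A ≤ H) (hAn : H ≤ Subgroup.normalizer (A : Set G)) (hss : ∀ U : Subgroup G, U ≤ V → H ≤ Subgroup.normalizer (U : Set G) → ∃ W : Subgroup G, W ≤ V ∧ H ≤ Subgroup.normalizer (W : Set G) ∧ U ⊓ W = ⊥ ∧ U ⊔ W = V) (U : Subgroup G) (hUV : U ≤ V) (hAU : A ≤ Subgroup.normalizer (U : Set G)) : ∃ W : Subgroup G, W ≤ V ∧ A ≤ Subgroup.normalizer (W : Set G) ∧ U ⊓ W = ⊥ ∧ U ⊔ W = V := by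
  classical
  -- invariance of infima and suprema
  have hinf : ∀ (g : G) (X Y : Subgroup G), g ∈ Subgroup.normalizer (X : Set G) →
      g ∈ Subgroup.normalizer (Y : Set G) → g ∈ Subgroup.normalizer ((X ⊓ Y : Subgroup G) : Set G) := by
    intro g X Y hX hY
    rw [Subgroup.mem_normalizer_iff] at hX hY ⊢
    intro h
    simp only [SetLike.mem_coe, Subgroup.mem_inf] at hX hY ⊢
    rw [hX, hY]
  have hsup : ∀ (g : G) (X Y : Subgroup G), g ∈ Subgroup.normalizer (X : Set G) →
      g ∈ Subgroup.normalizer (Y : Set G) → g ∈ Subgroup.normalizer ((X ⊔ Y : Subgroup G) : Set G) :=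
    fun g X Y hX hY => Lib.H1SZ.sup_mem_normalizer hX hY
  have hcomm : ∀ x ∈ V, ∀ y ∈ V, x * y = y * x := by
    intro x hx y hy
    haveI := hVab
    exact Lib.FGSBasic.mul_comm_of_mem V hx hy
  have hnorm : ∀ X Y : Subgroup G, X ≤ V → Y ≤ V → X ≤ Subgroup.normalizer (Y : Set G) := by
    intro X Y hX hY x hx
    rw [Subgroup.mem_normalizer_iff]
    intro h
    constructor
    · intro hh
      have : x * h * x⁻¹ = h := by rw [hcomm x (hX hx) h (hY hh)]; group
      show x * h * x⁻¹ ∈ Y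
      rw [this]; exact hh
    · intro hh
      have hh' : x * h * x⁻¹ ∈ Y := hh
      have hy := hY hh'
      have e : h = x⁻¹ * (x * h * x⁻¹) * x := by group
      have e2 : x⁻¹ * (x * h * x⁻¹) * x = x * h * x⁻¹ := by
        rw [hcomm _ (inv_mem (hX hx)) _ hy]
        group
      show h ∈ Y
      rw [e, e2]; exact hh'
  -- minimal invariant subgroups
  let Mn : Set (Subgroup G) := {M | M ≤ V ∧ A ≤ Subgroup.normalizer (M : Set G) ∧ M ≠ ⊥ ∧
    ∀ N : Subgroup G, N ≤ M → A ≤ Subgroup.normalizer (N : Set G) → N ≠ ⊥ → N = M}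
  have hex : ∀ W : Subgroup G, W ≤ V → A ≤ Subgroup.normalizer (W : Set G) → W ≠ ⊥ →
      ∃ M ∈ Mn, M ≤ W := by
    intro W hWV hAW hW
    let S : Set (Subgroup G) := {N | N ≤ W ∧ A ≤ Subgroup.normalizer (N : Set G) ∧ N ≠ ⊥}
    have hSf : S.Finite := Set.toFinite S
    have hSn : S.Nonempty := ⟨W, le_refl _, hAW, hW⟩
    obtain ⟨M, hM⟩ := hSf.exists_minimal hSn
    refine ⟨M, ⟨hM.1.1.trans hWV, hM.1.2.1, hM.1.2.2, ?_⟩, hM.1.1⟩
    intro N hNM hAN hN
    exact le_antisymm hNM (hM.2 ⟨hNM.trans hM.1.1, hAN, hN⟩ hNM)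
  let T : Subgroup G := sSup Mn
  have hTV : T ≤ V := sSup_le (fun M hM => hM.1)
  have hAMconj : ∀ (h : G), h ∈ H → ∀ N : Subgroup G, A ≤ Subgroup.normalizer (N : Set G) →
      A ≤ Subgroup.normalizer ((N.map (MulAut.conj h).toMonoidHom : Subgroup G) : Set G) := by
    intro h hh N hN a ha
    rw [Subgroup.mem_normalizer_iff]
    intro x
    have ha' : h⁻¹ * a * h ∈ A := by
      have := (Subgroup.mem_normalizer_iff.1 (hAn (inv_mem hh))) a
      have h2 := this.1 ha
      simpa using h2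
    have h3 := (Subgroup.mem_normalizer_iff.1 (hN ha')) (h⁻¹ * x * h)
    simp only [SetLike.mem_coe, Lib.FGSBasic.mem_map_conj] at h3 ⊢
    have e : h⁻¹ * (a * x * a⁻¹) * h = h⁻¹ * a * h * (h⁻¹ * x * h) * (h⁻¹ * a * h)⁻¹ := by group
    rw [e]
    exact h3
  have hTn : ∀ h ∈ H, T.map (MulAut.conj h).toMonoidHom ≤ T := by
    intro h hh
    rw [Subgroup.map_le_iff_le_comap]
    apply sSup_le
    intro M hM
    rw [← Subgroup.map_le_iff_le_comap]
    apply le_sSup
    have hVn : V.map (MulAut.conj h).toMonoidHom ≤ V := by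
      rintro _ ⟨v, hv, rfl⟩
      exact (Subgroup.mem_normalizer_iff.1 (hHV hh) v).1 hv
    refine ⟨?_, hAMconj h hh M hM.2.1, ?_, ?_⟩
    · exact (Subgroup.map_mono hM.1).trans hVn
    · intro hb
      apply hM.2.2.1
      rw [Subgroup.map_eq_bot_iff_of_injective _ (MulAut.conj h).injective] at hb
      exact hb
    · intro N hN hAN hN1
      have hN2 : N.map (MulAut.conj h⁻¹).toMonoidHom ≤ M := by
        rintro _ ⟨n, hn, rfl⟩
        obtain ⟨m, hm, rfl⟩ := hN hn
        have e : h⁻¹ * (h * m * h⁻¹) * h⁻¹⁻¹ = m := by group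
        show h⁻¹ * (h * m * h⁻¹) * h⁻¹⁻¹ ∈ M
        rw [e]; exact hm
      have hN3 := hM.2.2.2 _ hN2 (hAMconj h⁻¹ (inv_mem hh) N hAN) (by
        intro hb
        apply hN1
        rw [Subgroup.map_eq_bot_iff_of_injective _ (MulAut.conj h⁻¹).injective] at hb
        exact hb)
      rw [← hN3, Subgroup.map_map]
      ext x
      constructor
      · intro hx
        exact ⟨x, hx, by simp [MulAut.conj_apply]; group⟩
      · rintro ⟨y, hy, rfl⟩
        have e : h * (h⁻¹ * y * h⁻¹⁻¹) * h⁻¹ = y := by group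
        show h * (h⁻¹ * y * h⁻¹⁻¹) * h⁻¹ ∈ N
        rw [e]; exact hy
  have hHT : H ≤ Subgroup.normalizer (T : Set G) := by
    intro h hh
    rw [Subgroup.mem_normalizer_iff]
    intro x
    constructor
    · intro hx
      exact hTn h hh ⟨x, hx, rfl⟩
    · intro hx
      have := hTn h⁻¹ (inv_mem hh) ⟨h * x * h⁻¹, hx, rfl⟩
      have e : (MulAut.conj h⁻¹).toMonoidHom (h * x * h⁻¹) = x := by
        simp [MulAut.conj_apply]; group
      rw [e] at this
      exact this
  have hTeq : T = V := by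
    obtain ⟨W, hWV, hHW, hd, hs⟩ := hss T hTV hHT
    have hW : W = ⊥ := by
      by_contra hne
      obtain ⟨M, hM, hMW⟩ := hex W hWV (hAH.trans hHW) hne
      have hMT : M ≤ T := le_sSup hM
      have : M ≤ T ⊓ W := le_inf hMT hMW
      rw [hd] at this
      exact hM.2.2.1 (le_bot_iff.1 this)
    rw [hW, sup_bot_eq] at hs
    exact hs
  -- a maximal invariant subgroup missing U
  let S : Set (Subgroup G) := {W | W ≤ V ∧ A ≤ Subgroup.normalizer (W : Set G) ∧ U ⊓ W = ⊥}
  have hSf : S.Finite := Set.toFinite S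
  have hSn : S.Nonempty := ⟨⊥, bot_le, by
    intro a _
    rw [Subgroup.mem_normalizer_iff]
    intro x
    simp, inf_bot_eq _⟩
  obtain ⟨W, hW⟩ := hSf.exists_maximal hSn
  refine ⟨W, hW.1.1, hW.1.2.1, hW.1.2.2, ?_⟩
  apply le_antisymm (sup_le hUV hW.1.1)
  rw [← hTeq]
  apply sSup_le
  intro M hM
  by_contra hnot
  have hAinf : A ≤ Subgroup.normalizer ((M ⊓ (U ⊔ W) : Subgroup G) : Set G) := fun a ha =>
    hinf a _ _ (hM.2.1 ha) (hsup a _ _ (hAU ha) (hW.1.2.1 ha))
  have hbot : M ⊓ (U ⊔ W) = ⊥ := by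
    by_contra hne
    have := hM.2.2.2 _ inf_le_left hAinf hne
    apply hnot
    rw [← this]
    exact inf_le_right
  have hW' : W ⊔ M ∈ S := by
    refine ⟨sup_le hW.1.1 hM.1, fun a ha => hsup a _ _ (hW.1.2.1 ha) (hM.2.1 ha), ?_⟩
    rw [eq_bot_iff]
    rintro x ⟨hxU, hxWM⟩
    have hxWM' := (Lib.H1Cop.mem_sup_iff (hnorm M W hM.1 hW.1.1)).1 hxWM
    obtain ⟨w, hw, m, hm, rfl⟩ := hxWM'
    have hm1 : m ∈ M ⊓ (U ⊔ W) := by
      refine ⟨hm, ?_⟩
      have : m = w⁻¹ * (w * m) := by group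
      rw [this]
      exact mul_mem (Subgroup.mem_sup_right (inv_mem hw)) (Subgroup.mem_sup_left hxU)
    rw [hbot] at hm1
    have hm2 : m = 1 := hm1
    subst hm2
    rw [mul_one] at hxU ⊢
    have : w ∈ U ⊓ W := ⟨hxU, hw⟩
    rw [hW.1.2.2] at this
    exact this
  have hle := hW.2 hW' le_sup_left
  apply hnot
  exact (le_sup_right.trans hle).trans le_sup_right

end Cfsg.Agent.S3735
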