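import Cfsg.Statements.S3737
import Mathlib
import Cfsg.Agent.Lib.H9Baer2

set_option autoImplicit false
open Cfsg

namespace Cfsg.Agent.S3737

/-- Thompson's strengthening of the P × Q lemma for odd primes. Let p be an odd prime and let P, Q and G be subgroups of a finite group with P a p-group, Q of order prime to p and normalized by P, and G a p-group normalized by both P and Q. If every element of G centralized by P is centralized by Q, then Q centralizes G. -/
theorem result {X : Type*} [Group X] [Finite X] {p : ℕ} [Fact p.Prime] (hp : p ≠ 2) (P Q G : Subgroup X) (hP : IsPGroup p P) (hQ : (Nat.card Q).Coprime p) (hPQ : P ≤ Subgroup.normalizer (Q : Set X)) (hG : IsPGroup p G) (hPG : P ≤ Subgroup.normalizer (G : Set X)) (hQG : Q ≤ Subgroup.normalizer (G : Set X)) (hC : G ⊓ Subgroup.centralizer (P : Set X) ≤ Subgroup.centralizer (Q : Set X)) : Q ≤ Subgroup.centralizer (G : Set X) := by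
  classical
  haveI : Finite (MulAut G) := inferInstance
  let N : Subgroup X := Subgroup.normalizer (G : Set X)
  let φ : N →* MulAut G := G.normalizerMonoidHom
  have hφ : ∀ (g : N) (x : G), ((φ g x : G) : X) = (g : X) * x * (g : X)⁻¹ := fun _ _ => rfl
  have hcardQ : Nat.card (Q.subgroupOf N) = Nat.card Q :=
    Nat.card_congr (Subgroup.subgroupOfEquivOfLe hQG).toEquiv
  have hPN : IsPGroup p (P.subgroupOf N) :=
    IsPGroup.of_equiv hP (Subgroup.subgroupOfEquivOfLe hPG).symm
  have hmain := Cfsg.Agent.Lib.H9Baer2.crit_fixed hp hG ((Q.subgroupOf N).map φ) ((P.subgroupOf N).map φ)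
    (Nat.Coprime.coprime_dvd_left (Subgroup.card_map_dvd _ _) (by rw [hcardQ]; exact hQ))
    (hPN.map φ)
    (by
      rintro _ ⟨a, ha, rfl⟩ _ ⟨q, hq, rfl⟩
      refine ⟨a * q * a⁻¹, ?_, by simp⟩
      rw [SetLike.mem_coe, Subgroup.mem_subgroupOf] at ha hq ⊢
      simpa using (Subgroup.le_normalizer_iff.1 hPQ) _ ha _ hq)
    (by
      intro x _ hxb _ hr
      obtain ⟨q, hq, rfl⟩ := hr
      rw [SetLike.mem_coe, Subgroup.mem_subgroupOf] at hq
      have hxP : (x : X) ∈ Subgroup.centralizer (P : Set X) := by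
        rw [Subgroup.mem_centralizer_iff]
        intro a ha
        have := hxb (φ ⟨a, hPG ha⟩) ⟨⟨a, hPG ha⟩, by
          rw [SetLike.mem_coe, Subgroup.mem_subgroupOf]; exact ha, rfl⟩
        have h2 := congrArg Subtype.val this
        rw [hφ] at h2
        exact mul_inv_eq_iff_eq_mul.1 h2
      have hxQ := hC (Subgroup.mem_inf.2 ⟨x.2, hxP⟩)
      rw [Subgroup.mem_centralizer_iff] at hxQ
      apply Subtype.ext
      rw [hφ]
      rw [mul_inv_eq_iff_eq_mul]
      exact hxQ _ hq)
  rw [Subgroup.le_centralizer_iff]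
  intro g hg q hq
  have h1 := hmain (φ ⟨q, hQG hq⟩) ⟨⟨q, hQG hq⟩, by
    rw [SetLike.mem_coe, Subgroup.mem_subgroupOf]; exact hq, rfl⟩
  have h2 := congrArg (fun f : MulAut G => ((f ⟨g, hg⟩ : G) : X)) h1
  simp only [hφ] at h2
  have h3 : q * g * q⁻¹ = g := h2
  exact mul_inv_eq_iff_eq_mul.1 h3

end Cfsg.Agent.S3737
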