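import Cfsg.Statements.S3740
import Cfsg.Agent.Lib.LdQuat
import Cfsg.Agent.Lib.LDick2
import Cfsg.Agent.Lib.H1Cop

set_option autoImplicit false
open Cfsg

namespace Cfsg.Agent.S3740

open Subgroup Cfsg.Agent.Lib.LDick

variable {F : Type*} [Field F]

theorem tr_of_p_elt {p : ℕ} [Fact p.Prime] [CharP F p] (g : SL2 F) (e : ℕ) (h : g ^ p ^ e = 1) :
    tr g = 2 := by
  have hp : p.Prime := Fact.out
  haveI : CharP (Matrix (Fin 2) (Fin 2) F) p := Matrix.charP p
  have h1 : ((g : Matrix (Fin 2) (Fin 2) F) - 1) ^ p ^ e = 0 := by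
    rw [sub_pow_char_pow_of_commute p e (Commute.one_right _), one_pow]
    have h2 : ((g ^ p ^ e : SL2 F) : Matrix (Fin 2) (Fin 2) F) = 1 := by
      rw [h]
      rfl
    rw [Matrix.SpecialLinearGroup.coe_pow] at h2
    rw [h2, sub_self]
  have h2 : Matrix.det ((g : Matrix (Fin 2) (Fin 2) F) - 1) = 0 := by
    have h3 := congrArg Matrix.det h1
    rw [Matrix.det_pow, Matrix.det_zero] at h3
    exact pow_eq_zero_iff (pow_pos hp.pos e).ne' |>.1 h3
  rw [Matrix.det_fin_two] at h2
  simp only [Matrix.sub_apply, Matrix.one_apply_eq, ne_eq, zero_ne_one, not_false_eq_true,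
    Matrix.one_apply_ne, one_ne_zero, sub_zero] at h2
  have h3 := det_eq g
  unfold tr
  linear_combination h3 - h2

theorem eq_one_of_tr2 {p : ℕ} [Fact p.Prime] [CharP F p] {r : SL2 F} (ht : tr r = 2)
    (hc : Nat.Coprime (orderOf r) p) : r = 1 := by
  have h1 := orderOf_dvd_of_pow_eq_one (pow_char_of_tr2 p ht)
  exact orderOf_eq_one_iff.1 (Nat.Coprime.eq_one_of_dvd hc h1)

theorem comm_sq {g h : SL2 F} (hne : h ≠ 1) (ht : tr h = 2) (hc : g * h = h * g) :
    (tr g) ^ 2 = 4 := by
  have e0 := congrArg (fun m : SL2 F => m 0 0) hc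
  have e1 := congrArg (fun m : SL2 F => m 0 1) hc
  have e2 := congrArg (fun m : SL2 F => m 1 0) hc
  simp only [mul_00, mul_01, mul_10] at e0 e1 e2
  have hd := det_eq g
  have hdh := det_eq h
  unfold tr at ht ⊢
  generalize g 0 0 = e at *
  generalize g 0 1 = f at *
  generalize g 1 0 = k at *
  generalize g 1 1 = l at *
  have hh11 : h 1 1 = 2 - h 0 0 := by linear_combination ht
  rw [hh11] at e1 e2 hdh
  have hAA : (h 0 0 - 1) ^ 2 + h 0 1 * h 1 0 = 0 := by linear_combination -hdh
  have hne' : ¬ (h 0 0 - 1 = 0 ∧ h 0 1 = 0 ∧ h 1 0 = 0) := by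
    rintro ⟨h1, h2, h3⟩
    apply hne
    apply sl_ext
    · simp only [one_00]; linear_combination h1
    · simpa using h2
    · simpa using h3
    · simp only [one_11]; rw [hh11]; linear_combination -h1
  generalize hA : h 0 0 - 1 = A at *
  have hA' : h 0 0 = 1 + A := by rw [← hA]; ring
  rw [hA'] at e0 e1 e2
  generalize h 0 1 = B at *
  generalize h 1 0 = C at *
  have E0 : f * C = B * k := by linear_combination e0
  have E1 : B * (e - l) = 2 * A * f := by linear_combination e1
  have E2 : 2 * A * k = C * (e - l) := by linear_combination e2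
  have hX : (e - l) ^ 2 + 4 * f * k = 0 := by
    by_cases hB : B = 0
    · subst hB
      have hA0 : A = 0 := by
        have : A ^ 2 = 0 := by linear_combination hAA
        exact pow_eq_zero_iff (two_ne_zero) |>.1 this
      subst hA0
      have hC : C ≠ 0 := fun hC => hne' ⟨rfl, rfl, hC⟩
      have h1 : C * (e - l) = 0 := by linear_combination -E2
      have h2 : e - l = 0 := by
        rcases mul_eq_zero.1 h1 with h | h
        · exact absurd h hC
        · exact h
      have h3 : f * C = 0 := by linear_combination E0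
      have h4 : f = 0 := by
        rcases mul_eq_zero.1 h3 with h | h
        · exact h
        · exact absurd h hC
      rw [h2, h4]
      ring
    · have hB2 : B ^ 2 ≠ 0 := pow_ne_zero 2 hB
      apply (mul_right_injective₀ hB2)
      simp only [mul_zero]
      linear_combination (B * (e - l) + 2 * A * f) * E1 + 4 * f * B * (-E0) + 4 * f ^ 2 * hAA
  linear_combination hX + 4 * hd

/-- The trace formula. -/
theorem key_tr (a g x : SL2 F) (u : F) (ha : tr a = 2)
    (hx00 : x 0 0 = 1 + u * (a 0 0 - 1)) (hx01 : x 0 1 = u * a 0 1)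
    (hx10 : x 1 0 = u * a 1 0) (hx11 : x 1 1 = 1 - u * (a 0 0 - 1)) :
    tr (x * (g * a * g⁻¹)) = 2 - u * ((a 0 0 - 1) * g 0 0 + a 0 1 * g 1 0 + a 1 0 * g 0 1
      - (a 0 0 - 1) * g 1 1) ^ 2 := by
  have hd := det_eq g
  have hda := det_eq a
  unfold tr at ha ⊢
  have h11 : a 1 1 = 2 - a 0 0 := by linear_combination ha
  rw [h11] at hda
  simp only [mul_00, mul_11, mul_01, mul_10, inv_00, inv_01, inv_10, inv_11, hx00, hx01, hx10, hx11, h11]
  have hAA : (a 0 0 - 1) ^ 2 + a 0 1 * a 1 0 = 0 := by linear_combination -hda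
  generalize hA : a 0 0 - 1 = A at *
  have hA' : a 0 0 = 1 + A := by rw [← hA]; ring
  rw [hA']
  generalize a 0 1 = B at *
  generalize a 1 0 = C at *
  generalize g 0 0 = e at *
  generalize g 0 1 = f at *
  generalize g 1 0 = k at *
  generalize g 1 1 = l at *
  linear_combination 2 * hd + u * (e ^ 2 + l ^ 2 + 2 * f * k) * hAA

/-- The `λ` function. -/
def lam (a g : SL2 F) : F :=
  (a 0 0 - 1) * g 0 0 + a 0 1 * g 1 0 + a 1 0 * g 0 1 - (a 0 0 - 1) * g 1 1

theorem lam_sq (a g : SL2 F) : lam a (g * g) = tr g * lam a g := by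
  simp only [lam, tr, mul_00, mul_01, mul_10, mul_11]
  ring

theorem sq00 (r : SL2 F) : (r * r) 0 0 = tr r * r 0 0 - 1 := by
  have hd := det_eq r
  simp only [mul_00, tr]
  linear_combination -hd

theorem sq01 (r : SL2 F) : (r * r) 0 1 = tr r * r 0 1 := by
  simp only [mul_01, tr]
  ring

theorem sq10 (r : SL2 F) : (r * r) 1 0 = tr r * r 1 0 := by
  simp only [mul_10, tr]
  ring

theorem sq11 (r : SL2 F) : (r * r) 1 1 = tr r * r 1 1 - 1 := by
  have hd := det_eq r
  simp only [mul_11, tr]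
  linear_combination -hd

/-- The structure of `R` once the traces are known. -/
theorem quat_struct {R : Subgroup (SL2 F)} [Finite R] (h2F : (2 : F) ≠ 0)
    (hT : ∀ r ∈ R, r = 1 ∨ r = mo ∨ (tr r = 0 ∧ r * r = mo)) {i j : SL2 F} (hiR : i ∈ R) (hjR : j ∈ R)
    (hi1 : i ≠ 1) (himo : i ≠ mo) (hj1 : j ≠ 1) (hjmo : j ≠ mo) (hji : j ≠ i) (hjmi : j ≠ mo * i) :
    Nonempty (R ≃* QuaternionGroup 2) ∧ Nat.card R = 8 := by
  classical
  have hmo1 : (mo : SL2 F) ≠ 1 := by
    intro h
    have h1 := congrArg (fun m : SL2 F => m 0 0) h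
    simp only [mo_00, one_00] at h1
    apply h2F
    linear_combination -h1
  have hmm : ∀ x : SL2 F, mo * (mo * x) = x := by
    intro x
    rw [← mul_assoc, mo_mul_mo, one_mul]
  have hc : ∀ x y : SL2 F, x * (mo * y) = mo * (x * y) := by
    intro x y
    rw [← mul_assoc, ← mo_comm, mul_assoc]
  have hsq : ∀ x ∈ R, x ≠ 1 → x ≠ mo → x * x = mo := by
    intro x hx h1 h2
    rcases hT x hx with h | h | h
    · exact absurd h h1
    · exact absurd h h2
    · exact h.2
  have hinvx : ∀ x ∈ R, x ≠ 1 → x ≠ mo → x⁻¹ = mo * x := by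
    intro x hx h1 h2
    apply inv_eq_of_mul_eq_one_right
    rw [hc, hsq x hx h1 h2, mo_mul_mo]
  have hmoR : (mo : SL2 F) ∈ R := by
    rw [← hsq i hiR hi1 himo]
    exact mul_mem hiR hiR
  -- anticommutation
  have hAC : ∀ x ∈ R, ∀ y ∈ R, x ≠ 1 → x ≠ mo → y ≠ 1 → y ≠ mo → y ≠ x → y ≠ mo * x →
      x * y = mo * (y * x) := by
    intro x hx y hy hx1 hxm hy1 hym hyx hymx
    have hxx := hsq x hx hx1 hxm
    have hyy := hsq y hy hy1 hym
    rcases hT (x * y) (mul_mem hx hy) with h | h | ⟨-, h⟩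
    · exfalso
      apply hymx
      have : y = x⁻¹ := eq_inv_of_mul_eq_one_right h
      rw [this, hinvx x hx hx1 hxm]
    · exfalso
      apply hyx
      have h1 : x * (x * y) = x * mo := by rw [h]
      rw [← mul_assoc, hxx, ← mo_comm] at h1
      exact mul_left_cancel h1
    · have h1 : x * y * (x * y) = mo := h
      have h2 : y * x * y = x := by
        have h3 : x * (y * x * y) = x * x := by
          rw [hxx, ← h1]
          group
        exact mul_left_cancel h3
      have h4 : x * y = y * x * y * y := by rw [h2]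
      rw [mul_assoc (y * x), hyy, ← mo_comm] at h4
      exact h4
  have hij := hAC i hiR j hjR hi1 himo hj1 hjmo hji hjmi
  have hii := hsq i hiR hi1 himo
  have hjj := hsq j hjR hj1 hjmo
  have hkR : i * j ∈ R := mul_mem hiR hjR
  have hk1 : i * j ≠ 1 := by
    intro h
    apply hjmi
    have : j = i⁻¹ := eq_inv_of_mul_eq_one_right h
    rw [this, hinvx i hiR hi1 himo]
  have hkm : i * j ≠ mo := by
    intro h
    apply hji
    have h1 : i * (i * j) = i * mo := by rw [h]
    rw [← mul_assoc, hii, ← mo_comm] at h1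
    exact mul_left_cancel h1
  have hne' : ∀ x y : SL2 F, x ≠ mo * y → y ≠ mo * x := by
    intro x y h h1
    apply h
    rw [h1, hmm]
  have hexh : ∀ x ∈ R, x = 1 ∨ x = mo ∨ x = i ∨ x = mo * i ∨ x = j ∨ x = mo * j ∨ x = i * j ∨
      x = mo * (i * j) := by
    intro x hx
    by_contra hcon
    push Not at hcon
    obtain ⟨h1, h2, h3, h4, h5, h6, h7, h8⟩ := hcon
    have a1 := hAC x hx i hiR h1 h2 hi1 himo (Ne.symm h3) (hne' _ _ h4)
    have a2 := hAC x hx j hjR h1 h2 hj1 hjmo (Ne.symm h5) (hne' _ _ h6)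
    have a3 := hAC x hx (i * j) hkR h1 h2 hk1 hkm (Ne.symm h7) (hne' _ _ h8)
    have a4 : x * (i * j) = i * j * x := by
      rw [← mul_assoc, a1, mul_assoc, mul_assoc, a2, hc, hmm, mul_assoc]
    rw [a4] at a3
    apply hmo1
    have a5 : (1 : SL2 F) * (i * j * x) = mo * (i * j * x) := by
      rw [one_mul]
      exact a3
    exact (mul_right_cancel a5).symm
  have hji' : j * i = mo * (i * j) := by
    rw [hij, hmm]
  have hjinv := hinvx j hjR hj1 hjmo
  have hiinv := hinvx i hiR hi1 himo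
  have hj_i_j : j⁻¹ * (i * j) = mo * i := by
    rw [hjinv, mul_assoc, ← mul_assoc j, hji', mul_assoc, hmm, mul_assoc, hjj, ← mo_comm]
  haveI : Fact (Nat.Prime 2) := ⟨Nat.prime_two⟩
  have hi2 : i ^ 2 = mo := by rw [pow_two, hii]
  have hord : orderOf i = 4 := by
    have := orderOf_eq_prime_pow (p := 2) (n := 1) (x := i)
      (by simpa [hi2] using hmo1)
      (by
        have h4 : i ^ (2 ^ (1 + 1)) = i ^ 2 * i ^ 2 := by
          rw [← pow_add]
          norm_num
        rw [h4, hi2, mo_mul_mo])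
    simpa using this
  have hmem : ∀ (m : ℕ) (x : SL2 F) (hx : x ∈ R), x = i ^ m →
      (⟨x, hx⟩ : R) ∈ zpowers (⟨i, hiR⟩ : R) := by
    intro m x hx h
    refine mem_zpowers_iff.2 ⟨(m : ℤ), Subtype.ext ?_⟩
    simp [h]
  have hE : Nonempty (R ≃* QuaternionGroup 2) := by
    apply Cfsg.Agent.Lib.H1Quat.quat_iso (n := 2) (⟨i, hiR⟩ : R) (⟨j, hjR⟩ : R)
    · rw [Subgroup.orderOf_mk, hord]
    · apply Subtype.ext
      show j * i * j⁻¹ = i⁻¹
      rw [hjinv, hiinv, hji', hc, mul_assoc, mul_assoc, hmm, hjj, ← mo_comm]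
    · apply Subtype.ext
      show j ^ 2 = i ^ 2
      rw [hi2, pow_two, hjj]
    · intro h
      obtain ⟨k, hk⟩ := mem_zpowers_iff.1 h
      have h3 : i ^ k = j := by
        have := congrArg Subtype.val hk
        simpa using this
      have h4 : i * j = j * i := by
        rw [← h3]
        exact ((Commute.refl i).zpow_right k)
      rw [h4] at hij
      apply hmo1
      have a5 : (1 : SL2 F) * (j * i) = mo * (j * i) := by
        rw [one_mul]
        exact hij
      exact (mul_right_cancel a5).symm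
    · rintro ⟨x, hx⟩
      rcases hexh x hx with h | h | h | h | h | h | h | h
      · left
        exact hmem 0 x hx (by simp [h])
      · left
        exact hmem 2 x hx (by rw [h, hi2])
      · left
        exact hmem 1 x hx (by simp [h])
      · left
        exact hmem 3 x hx (by rw [h, pow_succ, hi2])
      · right
        have : (⟨j, hjR⟩ : R)⁻¹ * ⟨x, hx⟩ = ⟨i ^ 0, by simp⟩ := by
          apply Subtype.ext
          simp [h]
        rw [this]
        exact hmem 0 _ _ rfl
      · right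
        have : (⟨j, hjR⟩ : R)⁻¹ * ⟨x, hx⟩ = ⟨i ^ 2, by rw [hi2]; exact hmoR⟩ := by
          apply Subtype.ext
          show j⁻¹ * x = i ^ 2
          rw [h, hi2, hc, inv_mul_cancel, mul_one]
        rw [this]
        exact hmem 2 _ _ rfl
      · right
        have : (⟨j, hjR⟩ : R)⁻¹ * ⟨x, hx⟩ = ⟨i ^ 3, by rw [pow_succ, hi2]; exact mul_mem hmoR hiR⟩ := by
          apply Subtype.ext
          show j⁻¹ * x = i ^ 3
          rw [h, hj_i_j, pow_succ, hi2]
        rw [this]
        exact hmem 3 _ _ rfl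
      · right
        have : (⟨j, hjR⟩ : R)⁻¹ * ⟨x, hx⟩ = ⟨i ^ 1, by simpa using hiR⟩ := by
          apply Subtype.ext
          show j⁻¹ * x = i ^ 1
          rw [h, hc, hj_i_j, hmm, pow_one]
        rw [this]
        exact hmem 1 _ _ rfl
  refine ⟨hE, ?_⟩
  obtain ⟨E⟩ := hE
  rw [Nat.card_congr E.toEquiv, Nat.card_eq_fintype_card, QuaternionGroup.card]

theorem result (F : Type) [Field F] [Fintype F] {p : ℕ} [Fact p.Prime] [CharP F p] (hp : p ≠ 2) (a : Matrix.SpecialLinearGroup (Fin 2) F) (ha : IsPGroup p ↥(Subgroup.zpowers a)) (R : Subgroup (Matrix.SpecialLinearGroup (Fin 2) F)) (hR : (Nat.card R).Coprime p) (haR : a ∈ Subgroup.normalizer (R : Set (Matrix.SpecialLinearGroup (Fin 2) F))) (hnt : ⁅R, Subgroup.zpowers a⁆ ≠ ⊥) : p = 3 ∧ Nonempty (↥R ≃* QuaternionGroup 2) ∧ Nonempty (↥(R ⊔ Subgroup.zpowers a) ≃* Matrix.SpecialLinearGroup (Fin 2) (ZMod 3)) := by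
  classical
  have hpp : p.Prime := Fact.out
  obtain ⟨e, he⟩ := ha ⟨a, mem_zpowers a⟩
  have hae : a ^ p ^ e = 1 := by simpa using congrArg Subtype.val he
  have hta : tr a = 2 := tr_of_p_elt a e hae
  have hap : a ^ p = 1 := pow_char_of_tr2 p hta
  have hnc : ∃ g ∈ R, g * a ≠ a * g := by
    by_contra hcon
    push Not at hcon
    apply hnt
    rw [Subgroup.commutator_eq_bot_iff_le_centralizer]
    intro g hg
    rw [mem_centralizer_iff]
    intro x hx
    obtain ⟨k, rfl⟩ := mem_zpowers_iff.1 hx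
    exact (show Commute a g from (hcon g hg).symm).zpow_left k
  obtain ⟨g₀, hg₀R, hg₀⟩ := hnc
  have ha1 : a ≠ 1 := by
    rintro rfl
    simp at hg₀
  haveI : Fact p.Prime := ⟨hpp⟩
  have hoa : orderOf a = p := orderOf_eq_prime hap ha1
  have hconj : ∀ r ∈ R, ∀ k : ℕ, a ^ k * r * (a ^ k)⁻¹ ∈ R := by
    intro r hr k
    induction k with
    | zero => simpa using hr
    | succ k ih =>
      have h1 : a ^ (k + 1) * r * (a ^ (k + 1))⁻¹ = a * (a ^ k * r * (a ^ k)⁻¹) * a⁻¹ := by
        rw [pow_succ']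
        group
      rw [h1]
      exact (mem_normalizer_iff.1 haR _).1 ih
  have hconj' : ∀ r ∈ R, a⁻¹ * r * a ∈ R := by
    intro r hr
    have h1 := (mem_normalizer_iff.1 haR (a⁻¹ * r * a)).2
    apply h1
    have h2 : a * (a⁻¹ * r * a) * a⁻¹ = r := by group
    rw [h2]
    exact hr
  have hordR : ∀ r ∈ R, Nat.Coprime (orderOf r) p := by
    intro r hr
    have h1 := orderOf_dvd_natCard (⟨r, hr⟩ : R)
    rw [Subgroup.orderOf_mk] at h1
    exact Nat.Coprime.coprime_dvd_left h1 hR
  have hC : ∀ r ∈ R, ∀ j : ℕ, ¬ p ∣ j → (tr (r * a ^ j)) ^ 2 = 4 := by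
    intro r hr j hj
    set g := r * a ^ j with hg
    have hfin : 0 < orderOf g := orderOf_pos g
    obtain ⟨E, m, hm, hn⟩ := Nat.exists_eq_pow_mul_and_not_dvd hfin.ne' p hpp.ne_one
    have hform : ∀ k : ℕ, ∃ r' ∈ R, g ^ k = r' * a ^ (j * k) := by
      intro k
      induction k with
      | zero => exact ⟨1, one_mem _, by simp⟩
      | succ k ih =>
        obtain ⟨r', hr', h⟩ := ih
        refine ⟨r' * (a ^ (j * k) * r * (a ^ (j * k))⁻¹), mul_mem hr' (hconj r hr _), ?_⟩
        rw [pow_succ, h, hg, mul_add, mul_one, pow_add]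
        group
    have hh1 : (g ^ m) ^ p ^ E = 1 := by
      rw [← pow_mul, mul_comm, ← hn, pow_orderOf_eq_one]
    have htr : tr (g ^ m) = 2 := tr_of_p_elt _ E hh1
    have hne : g ^ m ≠ 1 := by
      intro h1
      obtain ⟨r', hr', h2⟩ := hform m
      rw [h1] at h2
      have h3 : a ^ (j * m) ∈ R := by
        have h0 : a ^ (j * m) = r'⁻¹ := eq_inv_of_mul_eq_one_right h2.symm
        rw [h0]
        exact inv_mem hr'
      have h4 : orderOf (a ^ (j * m)) ∣ p :=
        orderOf_dvd_of_pow_eq_one (by rw [← pow_mul, mul_comm, pow_mul, hap, one_pow])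
      have h5 := Nat.Coprime.eq_one_of_dvd (hordR _ h3) h4
      have h6 : a ^ (j * m) = 1 := orderOf_eq_one_iff.1 h5
      have h7 := orderOf_dvd_of_pow_eq_one h6
      rw [hoa] at h7
      rcases hpp.dvd_mul.1 h7 with h8 | h8
      · exact hj h8
      · exact hm h8
    exact comm_sq hne htr (Commute.pow_right (Commute.refl g) m)
  have hcoset : ∀ g ∈ R, ∀ k : ℕ, ∃ r' ∈ R, a ^ k * (g * a * g⁻¹) = r' * a ^ (k + 1) := by
    intro g hg k
    refine ⟨(a ^ k * g * (a ^ k)⁻¹) * (a ^ (k + 1) * g⁻¹ * (a ^ (k + 1))⁻¹),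
      mul_mem (hconj g hg k) (hconj _ (inv_mem hg) _), ?_⟩
    rw [pow_succ]
    group
  have hta' : a 1 1 = 2 - a 0 0 := by
    unfold tr at hta
    linear_combination hta
  have hda : (a 0 0 - 1) ^ 2 + a 0 1 * a 1 0 = 0 := by
    have := det_eq a
    rw [hta'] at this
    linear_combination -this
  have hT1 : ∀ g : SL2 F, tr (a * (g * a * g⁻¹)) = 2 - 1 * (lam a g) ^ 2 := by
    intro g
    exact key_tr a g a 1 hta (by ring) (by ring) (by ring) (by rw [hta']; ring)
  have hT2 : ∀ g : SL2 F, tr (a ^ 2 * (g * a * g⁻¹)) = 2 - 2 * (lam a g) ^ 2 := by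
    intro g
    apply key_tr a g (a ^ 2) 2 hta
    · rw [pow_two, mul_00]
      linear_combination hda
    · rw [pow_two, mul_01, hta']
      ring
    · rw [pow_two, mul_10, hta']
      ring
    · rw [pow_two, mul_11, hta']
      linear_combination hda
  have hT3 : ∀ g : SL2 F, tr (a⁻¹ * (g * a * g⁻¹)) = 2 - (-1) * (lam a g) ^ 2 := by
    intro g
    apply key_tr a g a⁻¹ (-1) hta
    · rw [inv_00, hta']
      ring
    · rw [inv_01]
      ring
    · rw [inv_10]
      ring
    · rw [inv_11]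
      ring
  have hs0 : ∀ g ∈ R, (lam a g) ^ 2 = 0 → g * a = a * g := by
    intro g hg h
    have h1 := hT3 g
    rw [h] at h1
    have h2 : a⁻¹ * (g * a * g⁻¹) ∈ R := by
      have h3 : a⁻¹ * (g * a * g⁻¹) = (a⁻¹ * g * a) * g⁻¹ := by group
      rw [h3]
      exact mul_mem (hconj' g hg) (inv_mem hg)
    have h4 := eq_one_of_tr2 (p := p) (r := a⁻¹ * (g * a * g⁻¹)) (by rw [h1]; ring) (hordR _ h2)
    have h5 : g * a * g⁻¹ = a := by
      have := mul_eq_one_iff_eq_inv.1 h4
      exact (inv_injective this).symm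
    calc g * a = g * a * g⁻¹ * g := by group
      _ = a * g := by rw [h5]
  have h2F : (2 : F) ≠ 0 := by
    intro h
    have h1 : ((2 : ℕ) : F) = 0 := by exact_mod_cast h
    have h3 := (CharP.cast_eq_zero_iff F p 2).1 h1
    exact hp ((Nat.prime_dvd_prime_iff_eq hpp Nat.prime_two).1 h3)
  have hsq : ∀ g ∈ R, (lam a g) ^ 2 * ((lam a g) ^ 2 - 4) = 0 := by
    intro g hg
    obtain ⟨r', hr', h1⟩ := hcoset g hg 1
    have h2 := hC r' hr' 2 (fun h => by
      have := (Nat.prime_dvd_prime_iff_eq hpp Nat.prime_two).1 h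
      exact hp this)
    rw [show (1 + 1 : ℕ) = 2 from rfl] at h1
    rw [← h1, pow_one, hT1] at h2
    linear_combination h2
  have hp3 : p = 3 := by
    by_contra h3
    have hs := hsq g₀ hg₀R
    have hne : (lam a g₀) ^ 2 ≠ 0 := fun h => hg₀ (hs0 g₀ hg₀R h)
    have h4 : (lam a g₀) ^ 2 = 4 := by
      rcases mul_eq_zero.1 hs with h | h
      · exact absurd h hne
      · linear_combination h
    obtain ⟨r', hr', h1⟩ := hcoset g₀ hg₀R 2
    have h2 := hC r' hr' 3 (fun h => h3 ((Nat.prime_dvd_prime_iff_eq hpp Nat.prime_three).1 h))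
    rw [show (2 + 1 : ℕ) = 3 from rfl] at h1
    rw [← h1, hT2, h4] at h2
    apply h2F
    have h5 : (2 : F) * (2 * 2 * 2 * 2) = 0 := by linear_combination (1 / 1 : F) * h2
    have h6 : (2 * 2 * 2 * 2 : F) ≠ 0 := by
      simp [h2F]
    exact (mul_eq_zero.1 h5).resolve_right h6
  subst hp3
  have h3F : (3 : F) = 0 := by exact_mod_cast CharP.cast_eq_zero F 3
  have hmo1 : (mo : SL2 F) ≠ 1 := by
    intro h
    have h1 := congrArg (fun m : SL2 F => m 0 0) h
    simp only [mo_00, one_00] at h1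
    apply h2F
    linear_combination -h1
  have hpm : ∀ r ∈ R, (tr r) ^ 2 = 4 → r = 1 ∨ r = mo := by
    intro r hr ht
    have h1 : (tr r - 2) * (tr r + 2) = 0 := by linear_combination ht
    rcases mul_eq_zero.1 h1 with h | h
    · left
      exact eq_one_of_tr2 (p := 3) (sub_eq_zero.1 h) (hordR r hr)
    · right
      have ht2 : tr r = -2 := by linear_combination h
      have h2 : tr (mo * r) = 2 := by
        rw [tr_mo_mul, ht2]
        ring
      have h3 : (mo * r) ^ 3 = 1 := pow_char_of_tr2 3 h2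
      have hmc : Commute (mo : SL2 F) r := mo_comm r
      rw [hmc.mul_pow] at h3
      have hm3 : (mo : SL2 F) ^ 3 = mo := by
        rw [pow_succ, pow_two, mo_mul_mo, one_mul]
      rw [hm3] at h3
      have h4 : (r * r) ^ 3 = 1 := by
        have h5 : r ^ 3 = mo := by
          have h6 := eq_inv_of_mul_eq_one_right h3
          rw [h6, mo_inv]
        have h6 : (r * r) ^ 3 = r ^ 3 * r ^ 3 := by
          rw [← pow_two, ← pow_mul, ← pow_add]
        rw [h6, h5, mo_mul_mo]
      have h5 : r * r = 1 := by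
        have h6 := orderOf_dvd_of_pow_eq_one h4
        exact orderOf_eq_one_iff.1 (Nat.Coprime.eq_one_of_dvd (hordR _ (mul_mem hr hr)) h6)
      have e0 := sq00 r
      have e1 := sq01 r
      have e2 := sq10 r
      have e3 := sq11 r
      rw [h5, ht2] at e0 e1 e2 e3
      simp only [one_00, one_01, one_10, one_11] at e0 e1 e2 e3
      apply sl_ext
      · simp only [mo_00]
        apply mul_left_cancel₀ h2F
        linear_combination e0
      · simp only [mo_01]
        apply mul_left_cancel₀ h2F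
        linear_combination e1
      · simp only [mo_10]
        apply mul_left_cancel₀ h2F
        linear_combination e2
      · simp only [mo_11]
        apply mul_left_cancel₀ h2F
        linear_combination e3
  have h41 : (4 : F) = 1 := by linear_combination h3F
  have hT : ∀ r ∈ R, r = 1 ∨ r = mo ∨ (tr r = 0 ∧ r * r = mo) := by
    intro r hr
    by_cases hc : r * a = a * r
    · rcases hpm r hr (comm_sq ha1 hta hc) with h | h
      · exact Or.inl h
      · exact Or.inr (Or.inl h)
    · have hs := hsq r hr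
      have hs0' : (lam a r) ^ 2 ≠ 0 := fun h => hc (hs0 r hr h)
      have hs4 : (lam a r) ^ 2 = 1 := by
        rcases mul_eq_zero.1 hs with h | h
        · exact absurd h hs0'
        · rw [h41] at h
          exact sub_eq_zero.1 h
      have hs' := hsq (r * r) (mul_mem hr hr)
      rw [lam_sq, mul_pow, hs4, mul_one, h41] at hs'
      rcases mul_eq_zero.1 hs' with h | h
      · have ht : tr r = 0 := pow_eq_zero_iff (two_ne_zero) |>.1 h
        refine Or.inr (Or.inr ⟨ht, ?_⟩)
        have e0 := sq00 r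
        have e1 := sq01 r
        have e2 := sq10 r
        have e3 := sq11 r
        rw [ht] at e0 e1 e2 e3
        apply sl_ext
        · rw [e0]; simp
        · rw [e1]; simp
        · rw [e2]; simp
        · rw [e3]; simp
      · have h4 : (tr r) ^ 2 = 4 := by
          rw [h41]
          exact sub_eq_zero.1 h
        rcases hpm r hr h4 with h5 | h5
        · exact Or.inl h5
        · exact Or.inr (Or.inl h5)
  have hmoc : ∀ x : SL2 F, x = 1 ∨ x = mo → x * a = a * x := by
    rintro x (rfl | rfl)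
    · simp
    · exact mo_comm a
  have hi1 : g₀ ≠ 1 := fun h => hg₀ (hmoc _ (Or.inl h))
  have himo : g₀ ≠ mo := fun h => hg₀ (hmoc _ (Or.inr h))
  have hjR : a * g₀ * a⁻¹ ∈ R := (mem_normalizer_iff.1 haR _).1 hg₀R
  have hj1 : a * g₀ * a⁻¹ ≠ 1 := by
    intro h
    apply hi1
    have h1 : g₀ = a⁻¹ * (a * g₀ * a⁻¹) * a := by group
    rw [h1, h]
    group
  have hjmo : a * g₀ * a⁻¹ ≠ mo := by
    intro h
    apply himo
    have h1 : g₀ = a⁻¹ * (a * g₀ * a⁻¹) * a := by group
    rw [h1, h, mul_assoc, mo_comm, inv_mul_cancel_left]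
  have hji : a * g₀ * a⁻¹ ≠ g₀ := by
    intro h
    apply hg₀
    calc g₀ * a = a * g₀ * a⁻¹ * a := by rw [h]
      _ = a * g₀ := by group
  have hjmi : a * g₀ * a⁻¹ ≠ mo * g₀ := by
    intro h
    have h2 : a ^ 2 * g₀ * (a ^ 2)⁻¹ = g₀ := by
      have h3 : a ^ 2 * g₀ * (a ^ 2)⁻¹ = a * (a * g₀ * a⁻¹) * a⁻¹ := by
        rw [pow_two]
        group
      rw [h3, h, ← mul_assoc, ← mo_comm, mul_assoc, mul_assoc, ← mul_assoc a, h, ← mul_assoc, mo_mul_mo, one_mul]
    have h3 : a ^ 3 * g₀ * (a ^ 3)⁻¹ = mo * g₀ := by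
      have h4 : a ^ 3 * g₀ * (a ^ 3)⁻¹ = a * (a ^ 2 * g₀ * (a ^ 2)⁻¹) * a⁻¹ := by
        rw [pow_succ' a 2]
        group
      rw [h4, h2, h]
    rw [hap] at h3
    simp only [one_mul, inv_one, mul_one] at h3
    apply hmo1
    have a5 : (1 : SL2 F) * g₀ = mo * g₀ := by
      rw [one_mul]
      exact h3
    exact (mul_right_cancel a5).symm
  obtain ⟨hE, h8⟩ := quat_struct h2F hT hg₀R hjR hi1 himo hj1 hjmo hji hjmi
  refine ⟨rfl, hE, ?_⟩
  obtain ⟨E⟩ := hE
  have hcop : Nat.Coprime (Nat.card (zpowers a)) (Nat.card R) := by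
    rw [Nat.card_zpowers, hoa, h8]
    norm_num
  have h24 : Nat.card (R ⊔ zpowers a : Subgroup (SL2 F)) = 24 := by
    have h1 := Cfsg.Agent.Lib.H1Cop.card_sup_mul_inf_of_normalizes
      (A := zpowers a) (K := R) ((zpowers_le).2 haR)
    rw [Subgroup.inf_eq_bot_of_coprime hcop, Subgroup.card_bot, mul_one, sup_comm, Nat.card_zpowers, hoa, h8] at h1
    exact h1
  refine Cfsg.Agent.Lib.LdQuat.iso_of_q8 R E a haR ?_ ?_ h24
  · rw [hoa]
    norm_num
  · intro h
    apply hg₀
    exact (mem_centralizer_iff.1 h g₀ hg₀R)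

end Cfsg.Agent.S3740
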