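import Cfsg.Statements.S3741
import Cfsg.Agent.Lib.PGrp2
import Cfsg.Agent.Lib.Comp2
-- import your own Cfsg.Agent.* helpers here

set_option autoImplicit false
open Cfsg

namespace Cfsg.Agent.S3741

open Classical in
theorem card_filter {G : Type*} [Group G] [Finite G] (B : Subgroup G) (a : G) [Fintype B] :
    Nat.card ↥(B ⊓ Subgroup.centralizer ({a} : Set G)) =
      (Finset.univ.filter (fun b : B => a * (b : G) = b * a)).card := by
  rw [← Fintype.card_subtype, ← Nat.card_eq_fintype_card]
  apply Nat.card_congr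
  exact {
    toFun := fun x => ⟨⟨x.1, (Subgroup.mem_inf.1 x.2).1⟩, (Subgroup.mem_centralizer_singleton_iff.1 (Subgroup.mem_inf.1 x.2).2).symm⟩
    invFun := fun y => ⟨y.1.1, Subgroup.mem_inf.2 ⟨y.1.2, Subgroup.mem_centralizer_singleton_iff.2 y.2.symm⟩⟩
    left_inv := fun x => rfl
    right_inv := fun y => rfl }

theorem rel_card {G : Type*} [Group G] [Finite G] {H K : Subgroup G} (hHK : H ≤ K) :
    Nat.card H * H.relIndex K = Nat.card K := by
  rw [Subgroup.relIndex, ← Lib.Comp2.card_subgroupOf_of_le hHK]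
  exact Subgroup.card_mul_index _

theorem idx_eq {G : Type*} [Group G] [Finite G] {p : ℕ} [Fact p.Prime] (hG : IsPGroup p G)
    (A B : Subgroup G) (hcard : Nat.card ↥⁅A, B⁆ ≤ p) (a : G) (ha : a ∈ A) :
    (B ⊓ Subgroup.centralizer ({a} : Set G)).relIndex B = 1 ∨
      (B ⊓ Subgroup.centralizer ({a} : Set G)).relIndex B = p := by
  have hp : p.Prime := Fact.out
  have h1 := Lib.PGrp.relIndex_inf_centralizer_le B ⁅A, B⁆ a (fun x hx => by
    rw [Subgroup.commutator_comm A B]
    exact Subgroup.commutator_mem_commutator hx ha)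
  have h2 := rel_card (H := B ⊓ Subgroup.centralizer ({a} : Set G)) (K := B) inf_le_left
  obtain ⟨n, hn⟩ := (hG.to_subgroup B).exists_card_eq
  have h3 : (B ⊓ Subgroup.centralizer ({a} : Set G)).relIndex B ∣ p ^ n := by
    rw [← hn, ← h2]
    exact dvd_mul_left _ _
  obtain ⟨j, _, hj⟩ := (Nat.dvd_prime_pow hp).1 h3
  rw [hj] at h1 ⊢
  have h4 : p ^ j ≤ p := h1.trans hcard
  have h5 : j ≤ 1 := by
    by_contra hc
    push_neg at hc
    have : p ^ 2 ≤ p ^ j := Nat.pow_le_pow_right hp.pos hc
    nlinarith [hp.two_le]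
  interval_cases j
  · left; simp
  · right; simp

open Classical in
theorem count {G : Type*} [Group G] [Finite G] {p : ℕ} [Fact p.Prime] (hG : IsPGroup p G)
    (A B : Subgroup G) (hcard : Nat.card ↥⁅A, B⁆ ≤ p) [Fintype A] [Fintype B] :
    p * (∑ a : A, ∑ b : B, (if (a : G) * b = b * a then 1 else 0)) +
        Nat.card B * Nat.card ↥(A ⊓ Subgroup.centralizer (B : Set G)) =
      p * Nat.card B * Nat.card ↥(A ⊓ Subgroup.centralizer (B : Set G)) + Nat.card B * Nat.card A := by
  have hp : p.Prime := Fact.out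
  have hinner : ∀ a : A, p * (∑ b : B, (if (a : G) * b = b * a then 1 else 0)) =
      if (a : G) ∈ Subgroup.centralizer (B : Set G) then p * Nat.card B else Nat.card B := by
    intro a
    have h1 : (∑ b : B, (if (a : G) * b = b * a then 1 else 0)) =
        Nat.card ↥(B ⊓ Subgroup.centralizer ({(a : G)} : Set G)) := by
      rw [card_filter B (a : G), Finset.card_filter]
    rw [h1]
    have h2 := rel_card (H := B ⊓ Subgroup.centralizer ({(a : G)} : Set G)) (K := B) inf_le_left
    split_ifs with hc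
    · have : B ⊓ Subgroup.centralizer ({(a : G)} : Set G) = B := by
        apply inf_eq_left.2
        intro b hb
        rw [Subgroup.mem_centralizer_singleton_iff]
        exact ((Subgroup.mem_centralizer_iff.1 hc) b hb)
      rw [this]
    · rcases idx_eq hG A B hcard a a.2 with h3 | h3
      · exfalso
        apply hc
        rw [Subgroup.mem_centralizer_iff]
        intro b hb
        rw [h3, mul_one] at h2
        have h4 : b ∈ B ⊓ Subgroup.centralizer ({(a : G)} : Set G) := by
          have h5 : B ⊓ Subgroup.centralizer ({(a : G)} : Set G) = B :=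
            Subgroup.eq_of_le_of_card_ge inf_le_left (le_of_eq h2.symm)
          rw [h5]
          exact hb
        exact (Subgroup.mem_centralizer_singleton_iff.1 (Subgroup.mem_inf.1 h4).2)
      · rw [h3] at h2
        rw [mul_comm, h2]
  rw [Finset.mul_sum, Finset.sum_congr rfl (fun a _ => hinner a), Finset.sum_ite,
    Finset.sum_const, Finset.sum_const, smul_eq_mul, smul_eq_mul]
  have h6 := Finset.card_filter_add_card_filter_not (s := (Finset.univ : Finset A))
    (fun a : A => (a : G) ∈ Subgroup.centralizer (B : Set G))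
  rw [Finset.card_univ, ← Nat.card_eq_fintype_card] at h6
  have h7 : (Finset.univ.filter (fun a : A => (a : G) ∈ Subgroup.centralizer (B : Set G))).card =
      Nat.card ↥(A ⊓ Subgroup.centralizer (B : Set G)) := by
    rw [← Fintype.card_subtype, ← Nat.card_eq_fintype_card]
    apply Nat.card_congr
    exact {
      toFun := fun x => ⟨x.1.1, Subgroup.mem_inf.2 ⟨x.1.2, x.2⟩⟩
      invFun := fun y => ⟨⟨y.1, (Subgroup.mem_inf.1 y.2).1⟩, (Subgroup.mem_inf.1 y.2).2⟩
      left_inv := fun x => rfl
      right_inv := fun y => rfl }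
  rw [h7] at h6 ⊢
  rw [← h6]
  ring

/-- Let A and B be subgroups of a finite p-group with [A, B] ≤ A ∩ B and [A, B] of order at most p. Then |A : C_A(B)| = |B : C_B(A)|. -/
theorem result {G : Type*} [Group G] [Finite G] {p : ℕ} [Fact p.Prime] (hG : IsPGroup p G) (A B : Subgroup G) (hAB : ⁅A, B⁆ ≤ A ⊓ B) (hcard : Nat.card ↥⁅A, B⁆ ≤ p) : (A ⊓ Subgroup.centralizer (B : Set G)).relIndex A = (B ⊓ Subgroup.centralizer (A : Set G)).relIndex B := by
  classical
  haveI : Fintype A := Fintype.ofFinite _
  haveI : Fintype B := Fintype.ofFinite _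
  have hp : (Fact.out : p.Prime).two_le = (Fact.out : p.Prime).two_le := rfl
  have hp2 : 2 ≤ p := (Fact.out : p.Prime).two_le
  have h1 := count hG A B hcard
  have h2 := count hG B A (by rw [Subgroup.commutator_comm]; exact hcard)
  have hswap : (∑ b : B, ∑ a : A, (if (b : G) * a = a * b then 1 else 0)) =
      ∑ a : A, ∑ b : B, (if (a : G) * b = b * a then 1 else 0) := by
    rw [Finset.sum_comm]
    apply Finset.sum_congr rfl
    intro a _
    apply Finset.sum_congr rfl
    intro b _
    by_cases h : (a : G) * b = b * a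
    · rw [if_pos h, if_pos h.symm]
    · rw [if_neg h, if_neg (fun e => h e.symm)]
  rw [hswap] at h2
  set S := ∑ a : A, ∑ b : B, (if (a : G) * b = b * a then 1 else 0) with hS
  set a₀ := Nat.card A with ha₀
  set b₀ := Nat.card B with hb₀
  set n₀ := Nat.card ↥(A ⊓ Subgroup.centralizer (B : Set G)) with hn₀
  set m₀ := Nat.card ↥(B ⊓ Subgroup.centralizer (A : Set G)) with hm₀
  have hz : ((p : ℤ) - 1) * ((b₀ : ℤ) * n₀ - a₀ * m₀) = 0 := by
    zify at h1 h2
    linarith
  have hp1 : ((p : ℤ) - 1) ≠ 0 := by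
    have : (2 : ℤ) ≤ p := by exact_mod_cast hp2
    omega
  have h3 : (b₀ : ℤ) * n₀ = a₀ * m₀ := by
    have := (mul_eq_zero.1 hz).resolve_left hp1
    linarith
  have h4 : b₀ * n₀ = a₀ * m₀ := by exact_mod_cast h3
  have hra : n₀ * (A ⊓ Subgroup.centralizer (B : Set G)).relIndex A = a₀ := rel_card inf_le_left
  have hrb : m₀ * (B ⊓ Subgroup.centralizer (A : Set G)).relIndex B = b₀ := rel_card inf_le_left
  have hn₀pos : 0 < n₀ := Nat.card_pos
  have hm₀pos : 0 < m₀ := Nat.card_pos
  rw [← hra, ← hrb] at h4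
  set r := (A ⊓ Subgroup.centralizer (B : Set G)).relIndex A
  set s := (B ⊓ Subgroup.centralizer (A : Set G)).relIndex B
  have h5 : (n₀ * m₀) * r = (n₀ * m₀) * s := by
    calc (n₀ * m₀) * r = n₀ * r * m₀ := by ring
      _ = m₀ * s * n₀ := h4.symm
      _ = (n₀ * m₀) * s := by ring
  exact Nat.eq_of_mul_eq_mul_left (Nat.mul_pos hn₀pos hm₀pos) h5

end Cfsg.Agent.S3741
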