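import Cfsg.Statements.S3742
import Mathlib
-- import your own Cfsg.Agent.* helpers here

set_option autoImplicit false
open Cfsg

namespace Cfsg.Agent.S3742

open QuaternionGroup

abbrev Q8 := QuaternionGroup 2

def mkP (f g : Fin 4 → Fin 4) (h1 : ∀ x, g (f x) = x := by decide) (h2 : ∀ x, f (g x) = x := by decide) :
    Equiv.Perm (Fin 4) := ⟨f, g, h1, h2⟩

def c1 : Equiv.Perm (Fin 4) := mkP ![1, 2, 3, 0] ![3, 0, 1, 2]
def c3 : Equiv.Perm (Fin 4) := mkP ![3, 0, 1, 2] ![1, 2, 3, 0]
def d0 : Equiv.Perm (Fin 4) := mkP ![1, 3, 0, 2] ![2, 0, 3, 1]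
def d1 : Equiv.Perm (Fin 4) := mkP ![2, 3, 1, 0] ![3, 2, 0, 1]
def d2 : Equiv.Perm (Fin 4) := mkP ![2, 0, 3, 1] ![1, 3, 0, 2]
def d3 : Equiv.Perm (Fin 4) := mkP ![3, 2, 0, 1] ![2, 3, 1, 0]

def enc (q : Q8) : Equiv.Perm (Fin 4) :=
  if q = a 1 then c1 else if q = a 3 then c3 else if q = xa 0 then d0 else if q = xa 1 then d1
  else if q = xa 2 then d2 else d3

def dec (τ : Equiv.Perm (Fin 4)) : Q8 :=
  if τ = c1 then a 1 else if τ = c3 then a 3 else if τ = d0 then xa 0 else if τ = d1 then xa 1
  else if τ = d2 then xa 2 else xa 3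

def act (σ : Equiv.Perm (Fin 4)) (q : Q8) : Q8 :=
  if q = a 0 ∨ q = a 2 then q else dec (σ * enc q * σ⁻¹)

theorem act_mul : ∀ (σ : Equiv.Perm (Fin 4)) (p q : Q8), act σ (p * q) = act σ p * act σ q := by
  decide +kernel

theorem act_act : ∀ (σ τ : Equiv.Perm (Fin 4)) (q : Q8), act (σ * τ) q = act σ (act τ q) := by
  decide +kernel

theorem act_one : ∀ q : Q8, act 1 q = q := by
  decide +kernel

theorem act_inj : ∀ σ τ : Equiv.Perm (Fin 4), (∀ q : Q8, act σ q = act τ q) → σ = τ := by
  decide +kernel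

theorem act_surj : ∀ x y : Q8, x ^ 2 ≠ 1 → y ^ 2 ≠ 1 → x * y ≠ y * x →
    ∃ σ : Equiv.Perm (Fin 4), act σ (a 1) = x ∧ act σ (xa 0) = y := by
  decide +kernel

theorem gens : ∀ q : Q8, ∃ i j : Fin 4, q = (a 1 : Q8) ^ (i : ℕ) * (xa 0 : Q8) ^ (j : ℕ) := by
  decide +kernel

/-- The automorphism group of the quaternion group of order 8 is isomorphic to the symmetric group of degree 4. -/
theorem result : Nonempty (MulAut (QuaternionGroup 2) ≃* Equiv.Perm (Fin 4)) := by
  let ψ : Equiv.Perm (Fin 4) →* MulAut Q8 :=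
    { toFun := fun σ =>
        { toFun := act σ
          invFun := act σ⁻¹
          left_inv := fun q => by
            show act σ⁻¹ (act σ q) = q
            rw [← act_act, inv_mul_cancel, act_one]
          right_inv := fun q => by
            show act σ (act σ⁻¹ q) = q
            rw [← act_act, mul_inv_cancel, act_one]
          map_mul' := act_mul σ }
      map_one' := by
        ext q
        exact act_one q
      map_mul' := fun σ τ => by
        ext q
        exact act_act σ τ q }
  have hψ : ∀ σ q, ψ σ q = act σ q := fun _ _ => rfl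
  have hb : Function.Bijective ψ := by
    constructor
    · intro σ τ h
      apply act_inj
      intro q
      rw [← hψ, ← hψ, h]
    · intro f
      have h1 : f (a 1) ^ 2 ≠ 1 := by
        intro h
        rw [← map_pow, ← map_one f] at h
        exact absurd (f.injective h) (by decide)
      have h2 : f (xa 0) ^ 2 ≠ 1 := by
        intro h
        rw [← map_pow, ← map_one f] at h
        exact absurd (f.injective h) (by decide)
      have h3 : f (a 1) * f (xa 0) ≠ f (xa 0) * f (a 1) := by
        intro h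
        rw [← map_mul, ← map_mul] at h
        exact absurd (f.injective h) (by decide)
      obtain ⟨σ, hσ1, hσ2⟩ := act_surj _ _ h1 h2 h3
      refine ⟨σ, ?_⟩
      refine MulEquiv.ext (fun q => ?_)
      obtain ⟨i, j, rfl⟩ := gens q
      rw [map_mul, map_mul, map_pow, map_pow, map_pow, map_pow, hψ, hψ, hσ1, hσ2]
  exact ⟨(MulEquiv.ofBijective ψ hb).symm⟩

end Cfsg.Agent.S3742
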