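import Cfsg.Statements.S3743
import Cfsg.Agent.Lib.PiCoreLib
-- import your own Cfsg.Agent.* helpers here

set_option autoImplicit false
open Cfsg

namespace Cfsg.Agent.S3743

theorem fit_aux.{u} (n : ℕ) :
    ∀ (G : Type u) [Group G] [Finite G] (K : Subgroup G), Nat.card G = n → K.IsSubnormal →
      Group.IsNilpotent K → K ≤ Cfsg.fittingSubgroup G := by
  induction n using Nat.strong_induction_on with
  | _ n ih =>
    intro G _ _ K hn hK hc
    rcases hK.lt_normal with rfl | ⟨M, hM, hKM, hMlt⟩
    · exact Lib.H1Core.le_fittingSubgroup inferInstance hc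
    · have hcard : Nat.card M < Nat.card G := Lib.Comp.card_lt_of_ne_top hMlt.ne
      have hnil : Group.IsNilpotent (K.subgroupOf M) := by
        exact (Group.isNilpotent_congr (Subgroup.subgroupOfEquivOfLe hKM)).2 hc
      have h1 := ih _ (hn ▸ hcard) M (K.subgroupOf M) rfl hK.subgroupOf hnil
      have h2 : (Cfsg.fittingSubgroup M).map M.subtype ≤ Cfsg.fittingSubgroup G := by
        apply Lib.H1Core.le_fittingSubgroup (Lib.Comp.normal_map_of_char hM _ Lib.Comp.fitting_characteristic)
        have h3 := Lib.H1Core.fittingSubgroup_isNilpotent (G := M)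
        exact (Group.isNilpotent_congr ((Cfsg.fittingSubgroup M).equivMapOfInjective M.subtype M.subtype_injective)).1 h3
      intro x hx
      apply h2
      exact ⟨⟨x, hKM hx⟩, h1 hx, rfl⟩

/-- In a finite group G, every subnormal nilpotent subgroup lies in the Fitting subgroup F(G), and, for a set of primes π, every subnormal subgroup all of whose prime divisors lie in π lies in O_π(G). -/
theorem result {G : Type*} [Group G] [Finite G] (A : Subgroup G) (hA : A.IsSubnormal) : (Group.IsNilpotent A → A ≤ Cfsg.fittingSubgroup G) ∧ ∀ π : Set ℕ, (∀ p : ℕ, p.Prime → p ∣ Nat.card A → p ∈ π) → A ≤ Cfsg.piCore π G := by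
  refine ⟨fun h => fit_aux _ G A rfl hA h, fun π h => ?_⟩
  exact Lib.PiCoreLib.pi_subnormal_le π hA h

end Cfsg.Agent.S3743
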