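import Cfsg.Statements.S3744
import Cfsg.Agent.Lib.PSolv
import Cfsg.Agent.Lib.FGS3
import Cfsg.Agent.Lib.H1Hall
-- import your own Cfsg.Agent.* helpers here

set_option autoImplicit false
open Cfsg

namespace Cfsg.Agent.S3744

universe u

lemma exists_normal {G : Type*} [Group G] [Finite G] [Nontrivial G] {p : ℕ} (hG : Cfsg.IsPSolvable p G) :
    ∃ N : Subgroup G, N.Normal ∧ N ≠ ⊥ ∧ ((∃ m, Nat.card N = p ^ m) ∨ (Nat.card N).Coprime p) := by
  obtain ⟨n, H, h0, hl, hm, hn, hi⟩ := hG
  by_contra hcon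
  push Not at hcon
  have hall : ∀ i : Fin (n + 1), H i = ⊥ := by
    intro i
    induction i using Fin.induction with
    | zero => exact h0
    | succ i ih =>
      by_contra hne
      have h1 := hi i
      rw [ih, Subgroup.relIndex_bot_left] at h1
      obtain ⟨h2, h3⟩ := hcon (H i.succ) (hn _) hne
      rcases h1 with ⟨m, hm⟩ | h1
      · exact h2 m hm
      · exact h3 h1
  have := hall (Fin.last n)
  rw [hl] at this
  exact top_ne_bot this

section
variable {p : ℕ} [hp : Fact p.Prime]

lemma card_map_coprime {G H : Type*} [Group G] [Group H] [Finite G] (f : G →* H) (U : Subgroup G)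
    (hU : (Nat.card U).Coprime p) : (Nat.card (U.map f)).Coprime p :=
  Nat.Coprime.coprime_dvd_left (Subgroup.card_dvd_of_surjective (f.subgroupMap U) (f.subgroupMap_surjective U)) hU

lemma exists_compl : ∀ (n : ℕ) (G : Type u) [Group G] [Finite G], Nat.card G = n → Cfsg.IsPSolvable p G →
    ∃ H : Subgroup G, (Nat.card H).Coprime p ∧ ∃ k : ℕ, H.index = p ^ k := by
  intro n
  induction n using Nat.strong_induction_on with
  | _ n ih =>
  intro G _ _ hc hG
  rcases subsingleton_or_nontrivial G with hs | hnt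
  · refine ⟨⊥, by simp, 0, ?_⟩
    have : (⊥ : Subgroup G) = ⊤ := Subsingleton.elim _ _
    rw [this, Subgroup.index_top, pow_zero]
  obtain ⟨N, hNn, hNb, hN⟩ := exists_normal hG
  haveI := hNn
  have hQ : Cfsg.IsPSolvable p (G ⧸ N) :=
    Lib.PSolv.isPSolvable_of_surjective (QuotientGroup.mk' N) (QuotientGroup.mk'_surjective N) hG
  have hmul := Lib.H1SZ.card_quotient_mul N
  have hN1 : 1 < Nat.card N := by
    have h1 : Nat.card N ≠ 1 := fun h => hNb (Subgroup.eq_bot_of_card_eq N h)
    have h2 := Nat.card_pos (α := N)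
    omega
  have hlt : Nat.card (G ⧸ N) < n := by
    rw [← hc, ← hmul]
    exact lt_mul_of_one_lt_right Nat.card_pos hN1
  obtain ⟨Hb, hHb1, k, hk⟩ := ih _ hlt (G ⧸ N) rfl hQ
  set L := Hb.comap (QuotientGroup.mk' N) with hL
  have hLc : Nat.card L = Nat.card Hb * Nat.card N := Lib.H1Hall.card_comap_mk N Hb
  have hLi : L.index = p ^ k := by
    rw [hL, Subgroup.index_comap_of_surjective _ (QuotientGroup.mk'_surjective N), hk]
  rcases hN with ⟨m, hm⟩ | hcop
  · -- p-group
    have hNL : N ≤ L := Lib.H1Hall.le_comap_mk Hb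
    have hrel : N.relIndex L = Nat.card Hb := by
      have := Subgroup.relIndex_mul_relIndex (⊥ : Subgroup G) N L bot_le hNL
      rw [Subgroup.relIndex_bot_left, Subgroup.relIndex_bot_left, hLc] at this
      rw [mul_comm] at this
      exact Nat.eq_of_mul_eq_mul_right (by omega) this
    have hc2 : (Nat.card N).Coprime (N.relIndex L) := by
      rw [hrel, hm]
      exact (Nat.Coprime.pow_left m hHb1.symm)
    have hnorm : L ≤ Subgroup.normalizer (N : Set G) := by
      rw [Subgroup.normalizer_eq_top]; exact le_top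
    obtain ⟨B, -, hB⟩ := Lib.H1Cop.rel_exists hNL hnorm hc2
    rw [hrel] at hB
    refine ⟨B, by rw [hB]; exact hHb1, k + m, ?_⟩
    have h1 := B.card_mul_index
    have h2 := (Hb).card_mul_index
    rw [hk] at h2
    rw [← hmul, hB] at h1
    rw [← h2, hm] at h1
    have hpos : 0 < Nat.card Hb := Nat.card_pos
    have h3 : Nat.card Hb * B.index = Nat.card Hb * (p ^ (k + m)) := by
      rw [h1, pow_add]
      ring
    exact Nat.eq_of_mul_eq_mul_left hpos h3
  · refine ⟨L, ?_, k, hLi⟩
    rw [hLc]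
    exact Nat.Coprime.mul_left hHb1 hcop

lemma contain : ∀ (n : ℕ) (G : Type u) [Group G] [Finite G], Nat.card G = n → Cfsg.IsPSolvable p G →
    ∀ H : Subgroup G, (Nat.card H).Coprime p → (∃ k : ℕ, H.index = p ^ k) →
    ∀ U : Subgroup G, (Nat.card U).Coprime p → ∃ g : G, U.map (MulAut.conj g).toMonoidHom ≤ H := by
  intro n
  induction n using Nat.strong_induction_on with
  | _ n ih =>
  intro G _ _ hc hG H hH1 hH2 U hU
  classical
  rcases subsingleton_or_nontrivial G with hs | hnt
  · refine ⟨1, ?_⟩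
    have : U = H := Subsingleton.elim _ _
    rintro _ ⟨u, hu, rfl⟩
    have h1 : (MulAut.conj (1 : G)).toMonoidHom u = u := Subsingleton.elim _ _
    rw [h1, ← this]
    exact hu
  obtain ⟨N, hNn, hNb, hN⟩ := exists_normal hG
  haveI := hNn
  have hQ : Cfsg.IsPSolvable p (G ⧸ N) :=
    Lib.PSolv.isPSolvable_of_surjective (QuotientGroup.mk' N) (QuotientGroup.mk'_surjective N) hG
  have hmul := Lib.H1SZ.card_quotient_mul N
  have hN1 : 1 < Nat.card N := by
    have h1 : Nat.card N ≠ 1 := fun h => hNb (Subgroup.eq_bot_of_card_eq N h)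
    have h2 := Nat.card_pos (α := N)
    omega
  have hlt : Nat.card (G ⧸ N) < n := by
    rw [← hc, ← hmul]
    exact lt_mul_of_one_lt_right Nat.card_pos hN1
  set π := QuotientGroup.mk' N with hπ
  have hsurj : Function.Surjective π := QuotientGroup.mk'_surjective N
  have hbH1 : (Nat.card (H.map π)).Coprime p := card_map_coprime π H hH1
  have hbH2 : ∃ k : ℕ, (H.map π).index = p ^ k := by
    obtain ⟨k, hk⟩ := hH2
    have h1 : (H.map π).index ∣ p ^ k := by
      rw [← hk]
      exact Subgroup.index_map_dvd H hsurj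
    obtain ⟨j, _, hj⟩ := (Nat.dvd_prime_pow hp.out).mp h1
    exact ⟨j, hj⟩
  obtain ⟨gb, hgb⟩ := ih _ hlt (G ⧸ N) rfl hQ (H.map π) hbH1 hbH2 (U.map π) (card_map_coprime π U hU)
  obtain ⟨g, rfl⟩ := hsurj gb
  have hu : ∀ u ∈ U, ∃ h ∈ H, π h = π (g * u * g⁻¹) := by
    intro u hu
    have h1 : π (g * u * g⁻¹) ∈ H.map π := by
      apply hgb
      refine ⟨π u, ⟨u, hu, rfl⟩, ?_⟩
      simp [MulAut.conj_apply]
    obtain ⟨h, hh, h2⟩ := h1
    exact ⟨h, hh, h2⟩
  have hker : ∀ a b : G, π a = π b → a⁻¹ * b ∈ N := by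
    intro a b h
    exact QuotientGroup.eq.mp h
  rcases hN with ⟨m, hm⟩ | hcop
  · -- p-group
    set U' := U.map (MulAut.conj g).toMonoidHom with hU'
    have hU'c : Nat.card U' = Nat.card U := Subgroup.card_map_of_injective (MulAut.conj g).injective
    have hU'N : U' ≤ N ⊔ H := by
      rintro _ ⟨u, hu1, rfl⟩
      obtain ⟨h, hh, h2⟩ := hu u hu1
      have h3 := hker _ _ h2
      have h4 : (MulAut.conj g).toMonoidHom u = h * (h⁻¹ * (g * u * g⁻¹)) := by
        simp [MulAut.conj_apply]
      rw [h4, sup_comm]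
      exact Subgroup.mul_mem_sup hh h3
    have hNsolv : Group.IsSolvable N := by
      have : IsPGroup p N := IsPGroup.of_card hm
      haveI := this.isNilpotent
      exact IsNilpotent.to_isSolvable
    have hcop : (Nat.card N).Coprime (Nat.card U') := by
      rw [hm, hU'c]
      exact Nat.Coprime.pow_left m hU.symm
    set V := N ⊔ U' with hV
    set K := V ⊓ H with hK
    have hnorm : ∀ A : Subgroup G, A ≤ Subgroup.normalizer (N : Set G) := by
      intro A
      rw [Subgroup.normalizer_eq_top]; exact le_top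
    have hVc : Nat.card V = Nat.card N * Nat.card U' := Lib.H1Cop.card_sup_of_coprime (hnorm U') hcop.symm
    have hVK : V = N ⊔ K := by
      apply le_antisymm
      · intro v hv
        have hv1 : v ∈ N ⊔ H := (sup_le le_sup_left hU'N) hv
        obtain ⟨n', hn', h, hh, rfl⟩ := Subgroup.mem_sup_of_normal_left.mp hv1
        apply Subgroup.mul_mem_sup hn'
        refine ⟨?_, hh⟩
        have : h = n'⁻¹ * (n' * h) := by group
        rw [this]
        exact V.mul_mem (V.inv_mem (Subgroup.mem_sup_left hn')) hv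
      · exact sup_le le_sup_left inf_le_left
    have hKcop : (Nat.card N).Coprime (Nat.card K) := by
      have h1 : Nat.card K ∣ Nat.card H := Subgroup.card_dvd_of_le inf_le_right
      rw [hm]
      exact Nat.Coprime.pow_left m (Nat.Coprime.coprime_dvd_left h1 hH1).symm
    have hVc2 : Nat.card V = Nat.card N * Nat.card K := by
      rw [hVK]
      exact Lib.H1Cop.card_sup_of_coprime (hnorm K) hKcop.symm
    have hKc : Nat.card K = Nat.card U' := by
      have : Nat.card N * Nat.card K = Nat.card N * Nat.card U' := by rw [← hVc, ← hVc2]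
      exact Nat.eq_of_mul_eq_mul_left (by omega) this
    obtain ⟨n', hn', hconj⟩ := Lib.FGS3.sz_conj_in_sup N U' K hcop (Or.inl hNsolv) inf_le_left hKc
    refine ⟨n' * g, ?_⟩
    rintro _ ⟨u, hu1, rfl⟩
    have h1 : (MulAut.conj g).toMonoidHom u ∈ U' := ⟨u, hu1, rfl⟩
    have h2 : MulAut.conj n' • ((MulAut.conj g).toMonoidHom u) ∈ K := by
      rw [← hconj]
      exact Subgroup.smul_mem_pointwise_smul _ _ _ h1
    have h3 : (MulAut.conj (n' * g)).toMonoidHom u = MulAut.conj n' • ((MulAut.conj g).toMonoidHom u) := by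
      simp [MulAut.conj_apply, MulAut.smul_def]
      group
    rw [h3]
    exact h2.2
  · -- p'-group: N ≤ H
    have hNH : N ≤ H := by
      have hrel : H.relIndex (H ⊔ N) = 1 := by
        by_contra hne
        obtain ⟨q, hq, hqd⟩ := Nat.exists_prime_and_dvd hne
        obtain ⟨k, hk⟩ := hH2
        have h1 : H.relIndex (H ⊔ N) ∣ p ^ k := by
          rw [← hk]
          exact Subgroup.relIndex_dvd_index_of_le le_sup_left
        have h2 : q = p := (Nat.prime_dvd_prime_iff_eq hq hp.out).mp (hq.dvd_of_dvd_pow (hqd.trans h1))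
        subst h2
        have h3 : H.relIndex (H ⊔ N) ∣ Nat.card (H ⊔ N : Subgroup G) := Subgroup.relIndex_dvd_card _ _
        have h4 : (Nat.card (H ⊔ N : Subgroup G)) * Nat.card (H ⊓ N : Subgroup G) = Nat.card H * Nat.card N :=
          Lib.H1Cop.card_sup_mul_inf_of_normalizes (by rw [Subgroup.normalizer_eq_top]; exact le_top)
        have h5 : q ∣ Nat.card H * Nat.card N := by
          rw [← h4]
          exact (hqd.trans h3).mul_right _
        have h6 : (Nat.card H * Nat.card N).Coprime q := Nat.Coprime.mul_left hH1 hcop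
        have := Nat.dvd_gcd h5 (dvd_refl q)
        rw [h6] at this
        exact hq.one_lt.ne' (Nat.dvd_one.mp this)
      have h7 : H ⊔ N ≤ H := Subgroup.relIndex_eq_one.mp hrel
      exact le_sup_right.trans h7
    refine ⟨g, ?_⟩
    rintro _ ⟨u, hu1, rfl⟩
    obtain ⟨h, hh, h2⟩ := hu u hu1
    have h3 := hker _ _ h2
    have h4 : (MulAut.conj g).toMonoidHom u = h * (h⁻¹ * (g * u * g⁻¹)) := by
      simp [MulAut.conj_apply]
    rw [h4]
    exact H.mul_mem hh (hNH h3)
end

/-- A finite p-soluble group has a p-complement, all its p-complements are conjugate, and every subgroup of order prime to p lies in one of them. Here a p-complement is a subgroup of order prime to p whose index is a power of p. -/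
theorem result {G : Type*} [Group G] [Finite G] {p : ℕ} [Fact p.Prime] (hG : Cfsg.IsPSolvable p G) : (∃ H : Subgroup G, (Nat.card H).Coprime p ∧ ∃ n : ℕ, H.index = p ^ n) ∧ (∀ H₁ H₂ : Subgroup G, (Nat.card H₁).Coprime p → (∃ n : ℕ, H₁.index = p ^ n) → (Nat.card H₂).Coprime p → (∃ n : ℕ, H₂.index = p ^ n) → ∃ g : G, H₂ = H₁.map (MulAut.conj g).toMonoidHom) ∧ (∀ U : Subgroup G, (Nat.card U).Coprime p → ∃ H : Subgroup G, (Nat.card H).Coprime p ∧ (∃ n : ℕ, H.index = p ^ n) ∧ ∃ g : G, U.map (MulAut.conj g).toMonoidHom ≤ H) := by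
  classical
  have hcard_eq : ∀ H₁ H₂ : Subgroup G, (Nat.card H₁).Coprime p → (∃ n : ℕ, H₁.index = p ^ n) →
      (Nat.card H₂).Coprime p → (∃ n : ℕ, H₂.index = p ^ n) → Nat.card H₁ = Nat.card H₂ := by
    intro H₁ H₂ h1 ⟨a, ha⟩ h2 ⟨b, hb⟩
    have e1 := H₁.card_mul_index
    have e2 := H₂.card_mul_index
    rw [ha] at e1
    rw [hb] at e2
    apply Nat.dvd_antisymm
    · apply Nat.Coprime.dvd_of_dvd_mul_right (Nat.Coprime.pow_right b h1)
      rw [e2, ← e1]
      exact dvd_mul_right _ _
    · apply Nat.Coprime.dvd_of_dvd_mul_right (Nat.Coprime.pow_right a h2)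
      rw [e1, ← e2]
      exact dvd_mul_right _ _
  refine ⟨exists_compl _ G rfl hG, ?_, ?_⟩
  · intro H₁ H₂ h1 h2 h3 h4
    obtain ⟨g, hg⟩ := contain _ G rfl hG H₁ h1 h2 H₂ h3
    have hc : Nat.card (H₂.map (MulAut.conj g).toMonoidHom) = Nat.card H₁ := by
      rw [Subgroup.card_map_of_injective (MulAut.conj g).injective]
      exact hcard_eq _ _ h3 h4 h1 h2
    have heq : H₂.map (MulAut.conj g).toMonoidHom = H₁ := Subgroup.eq_of_le_of_card_ge hg hc.ge
    refine ⟨g⁻¹, ?_⟩
    rw [← heq, Subgroup.map_map]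
    ext x
    simp only [Subgroup.mem_map, MulAut.conj_apply, MulEquiv.coe_toMonoidHom, MonoidHom.coe_comp, Function.comp_apply, inv_inv, MulAut.conj_inv_apply]
    constructor
    · intro hx
      exact ⟨x, hx, by group⟩
    · rintro ⟨y, hy, rfl⟩
      have : g⁻¹ * (g * y * g⁻¹) * g = y := by group
      rwa [this]
  · intro U hU
    obtain ⟨H, h1, h2⟩ := exists_compl _ G rfl hG
    obtain ⟨g, hg⟩ := contain _ G rfl hG H h1 h2 U hU
    exact ⟨H, h1, h2, g, hg⟩

end Cfsg.Agent.S3744
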