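import Cfsg.Statements.S3745
import Mathlib
import Cfsg.Agent.Lib.H1Hall
import Cfsg.Agent.Lib.Comp2
-- import your own Cfsg.Agent.* helpers here

set_option autoImplicit false
open Cfsg

namespace Cfsg.Agent.S3745

universe u

open Subgroup
open scoped Pointwise

section part1

variable {X : Type u} [Group X] [Finite X]

open Lib.H1Conj in
theorem hall_ab (A G : Subgroup X) (hAG : A ≤ normalizer (G : Set X))
    (hcop : (Nat.card A).Coprime (Nat.card G)) (hsolv : Group.IsSolvable G)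
    (m n : ℕ) (hG : Nat.card G = m * n) (hmn : m.Coprime n) :
    (∃ H : Subgroup X, H ≤ G ∧ Nat.card H = m ∧ A ≤ normalizer (H : Set X)) ∧
    ∀ H₁ H₂ : Subgroup X, H₁ ≤ G → H₂ ≤ G → Nat.card H₁ = m → Nat.card H₂ = m →
      A ≤ normalizer (H₁ : Set X) → A ≤ normalizer (H₂ : Set X) →
      ∃ c ∈ G ⊓ centralizer (A : Set X), MulAut.conj c • H₁ = H₂ := by
  set S : Set (Subgroup X) := {P | P ≤ G ∧ Nat.card P = m} with hS
  have hconj : ∀ g : X, g ∈ normalizer (G : Set X) → ∀ P ∈ S, MulAut.conj g • P ∈ S := by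
    intro g hg P hP
    refine ⟨?_, by rw [card_conj_smul]; exact hP.2⟩
    intro x hx
    rw [Lib.H1Core.mem_conj_smul] at hx
    have h1 := hP.1 hx
    have h2 := (mem_normalizer_iff.1 hg _).1 h1
    simpa [mul_assoc] using h2
  have hne : S.Nonempty := by
    obtain ⟨H', hH'⟩ := Lib.H1Hall.hall_exists (G := G) m n hG hmn
    refine ⟨H'.map G.subtype, map_subtype_le H', ?_⟩
    rw [← hH']
    exact (Nat.card_congr (H'.equivMapOfInjective _ G.subtype_injective).toEquiv).symm
  have htrans : ∀ P ∈ S, ∀ Q ∈ S, ∃ k ∈ G, MulAut.conj k • P = Q := by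
    intro P hP Q hQ
    have hcP : Nat.card (P.subgroupOf G) = m := by
      rw [Nat.card_congr (subgroupOfEquivOfLe hP.1).toEquiv]
      exact hP.2
    have hcQ : Nat.card (Q.subgroupOf G) = m := by
      rw [Nat.card_congr (subgroupOfEquivOfLe hQ.1).toEquiv]
      exact hQ.2
    obtain ⟨g, hg⟩ := Lib.H1Hall.hall_conj (G := G) m n hG hmn _ _ hcP hcQ
    refine ⟨g, g.2, ?_⟩
    apply Subgroup.eq_of_le_of_card_ge
    · intro x hx
      rw [Lib.H1Core.mem_conj_smul] at hx
      have h1 : (⟨(g : X)⁻¹ * x * g, hP.1 hx⟩ : G) ∈ P.subgroupOf G := by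
        rw [mem_subgroupOf]
        exact hx
      have hxG : x ∈ G := by
        have := G.mul_mem (G.mul_mem g.2 (hP.1 hx)) (G.inv_mem g.2)
        have e : (g : X) * ((g : X)⁻¹ * x * g) * (g : X)⁻¹ = x := by group
        rwa [e] at this
      have h2 : (⟨x, hxG⟩ : G) ∈ MulAut.conj g • P.subgroupOf G := by
        rw [Lib.H1Core.mem_conj_smul, mem_subgroupOf]
        exact hx
      rw [hg, mem_subgroupOf] at h2
      exact h2
    · rw [card_conj_smul, hP.2, hQ.2]
  have hG1 := Lib.H1Cop.glauberman_subgroups hAG hcop (Or.inr hsolv) S hne htrans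
    (fun k hk P hP => hconj k (le_normalizer hk) P hP) (fun a ha P hP => hconj a (hAG ha) P hP)
  obtain ⟨⟨P, hP, hPA⟩, hP2⟩ := hG1
  refine ⟨⟨P, hP.1, hP.2, Lib.H1Cop.forall_conj_eq_iff_le_normalizer.1 hPA⟩, ?_⟩
  intro H₁ H₂ h1 h2 h3 h4 h5 h6
  exact hP2 H₁ ⟨h1, h3⟩ H₂ ⟨h2, h4⟩ (Lib.H1Cop.forall_conj_eq_iff_le_normalizer.2 h5)
    (Lib.H1Cop.forall_conj_eq_iff_le_normalizer.2 h6)


theorem norm_sup {A S T : Subgroup X} (h1 : A ≤ normalizer (S : Set X)) (h2 : A ≤ normalizer (T : Set X)) :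
    A ≤ normalizer ((S ⊔ T : Subgroup X) : Set X) := by
  intro a ha
  apply Lib.H1Conj.mem_normalizer_of_conj_smul_eq
  have h3 := Lib.H1Conj.conj_smul_eq_self_of_mem_normalizer (h1 ha)
  have h4 := Lib.H1Conj.conj_smul_eq_self_of_mem_normalizer (h2 ha)
  rw [Subgroup.smul_sup, h3, h4]

theorem norm_inf {A S T : Subgroup X} (h1 : A ≤ normalizer (S : Set X)) (h2 : A ≤ normalizer (T : Set X)) :
    A ≤ normalizer ((S ⊓ T : Subgroup X) : Set X) := by
  apply Lib.H1Cop.le_normalizer_of_forall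
  intro a ha k hk
  exact ⟨Lib.H1Cop.conj_mem_of_normalizer h1 ha hk.1, Lib.H1Cop.conj_mem_of_normalizer h2 ha hk.2⟩

theorem quot_reduce (A G U N₀ : Subgroup X) (hN₀G : N₀ ≤ G) (hG : G ≤ normalizer (N₀ : Set X))
    (hA : A ≤ normalizer (N₀ : Set X)) (hAG : A ≤ normalizer (G : Set X))
    (hUA : A ≤ normalizer (U : Set X)) (hUG : U ≤ G)
    (hcop : (Nat.card A).Coprime (Nat.card G)) (hsolv : Group.IsSolvable G) :
    ∃ (Z : Type u) (_ : Group Z) (_ : Finite Z) (A' G' U' : Subgroup Z) (lift : Subgroup Z → Subgroup X),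
      A' ≤ normalizer (G' : Set Z) ∧ (Nat.card A').Coprime (Nat.card G') ∧ Group.IsSolvable G' ∧
      Nat.card G' * Nat.card N₀ = Nat.card G ∧ U' ≤ G' ∧ A' ≤ normalizer (U' : Set Z) ∧
      Nat.card U' ∣ Nat.card U ∧
      ∀ H' : Subgroup Z, H' ≤ G' → A' ≤ normalizer (H' : Set Z) → U' ≤ H' →
        lift H' ≤ G ∧ Nat.card (lift H') = Nat.card H' * Nat.card N₀ ∧
          A ≤ normalizer (lift H' : Set X) ∧ U ≤ lift H' := by
  set L := normalizer (N₀ : Set X) with hL
  have hQn : (N₀.subgroupOf L).Normal := Subgroup.normal_in_normalizer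
  set Q := N₀.subgroupOf L with hQ
  let φ := QuotientGroup.mk' Q
  have hker : φ.ker = Q := QuotientGroup.ker_mk' Q
  have hcardsub : ∀ S : Subgroup X, S ≤ L → Nat.card (S.subgroupOf L) = Nat.card S := fun S hS =>
    Nat.card_congr (subgroupOfEquivOfLe hS).toEquiv
  have hnormbar : ∀ S T : Subgroup X, S ≤ normalizer (T : Set X) →
      (S.subgroupOf L).map φ ≤ normalizer ((T.subgroupOf L).map φ : Set (L ⧸ Q)) := by
    intro S T hST
    refine (map_mono ?_).trans (le_normalizer_map φ)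
    intro s hs
    rw [mem_subgroupOf] at hs
    exact le_normalizer_comap L.subtype (hST hs)
  have hcompG : ((G.subgroupOf L).map φ).comap φ = G.subgroupOf L := by
    apply comap_map_eq_self
    rw [hker]
    exact subgroupOf_mono L hN₀G
  refine ⟨L ⧸ Q, inferInstance, inferInstance, (A.subgroupOf L).map φ, (G.subgroupOf L).map φ,
    (U.subgroupOf L).map φ, fun H' => (H'.comap φ).map L.subtype, hnormbar A G hAG, ?_, ?_, ?_,
    map_mono (subgroupOf_mono L hUG), hnormbar A U hUA, ?_, ?_⟩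
  · apply Nat.Coprime.coprime_dvd_left (Subgroup.card_map_dvd _ φ)
    apply Nat.Coprime.coprime_dvd_right (Subgroup.card_map_dvd _ φ)
    rw [hcardsub A hA, hcardsub G hG]
    exact hcop
  · haveI : Group.IsSolvable (G.subgroupOf L) :=
      solvable_of_solvable_injective (f := (subgroupOfEquivOfLe hG).toMonoidHom) (subgroupOfEquivOfLe hG).injective
    exact solvable_of_surjective (φ.subgroupMap_surjective (G.subgroupOf L))
  · have h1 := Lib.H1Hall.card_comap_mk Q ((G.subgroupOf L).map φ)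
    have h2 : (QuotientGroup.mk' Q) = φ := rfl
    rw [h2, hcompG, hcardsub G hG] at h1
    have h3 : Nat.card Q = Nat.card N₀ := hcardsub N₀ Subgroup.le_normalizer
    rw [h3] at h1
    exact h1.symm
  · refine (Subgroup.card_map_dvd _ φ).trans ?_
    rw [hcardsub U (hUG.trans hG)]
  · intro H' hH'G hH'A hUH'
    refine ⟨?_, ?_, ?_, ?_⟩
    · rintro _ ⟨h, hh, rfl⟩
      have h1 : φ h ∈ (G.subgroupOf L).map φ := hH'G hh
      have h2 : h ∈ ((G.subgroupOf L).map φ).comap φ := h1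
      rw [hcompG, mem_subgroupOf] at h2
      exact h2
    · have h1 := Lib.H1Hall.card_comap_mk Q H'
      have h3 : Nat.card Q = Nat.card N₀ := hcardsub N₀ Subgroup.le_normalizer
      rw [h3] at h1
      rw [← h1]
      exact (Nat.card_congr ((H'.comap φ).equivMapOfInjective _ L.subtype_injective).toEquiv).symm
    · intro a ha
      have haL : a ∈ L := hA ha
      have h0 : φ ⟨a, haL⟩ ∈ (A.subgroupOf L).map φ :=
        ⟨⟨a, haL⟩, mem_subgroupOf.2 ha, rfl⟩
      have h1 : φ ⟨a, haL⟩ ∈ normalizer (H' : Set (L ⧸ Q)) := hH'A h0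
      have h2 : (⟨a, haL⟩ : L) ∈ normalizer ((H'.comap φ : Subgroup L) : Set L) :=
        le_normalizer_comap φ h1
      exact (H'.comap φ).le_normalizer_map L.subtype ⟨⟨a, haL⟩, h2, rfl⟩
    · intro u hu
      have huL : u ∈ L := hG (hUG hu)
      refine ⟨⟨u, huL⟩, ?_, rfl⟩
      have h0 : φ ⟨u, huL⟩ ∈ (U.subgroupOf L).map φ :=
        ⟨⟨u, huL⟩, mem_subgroupOf.2 hu, rfl⟩
      exact hUH' h0

end part1


theorem exists_char (X : Type u) [Group X] [Finite X] (A G : Subgroup X) (hAG : A ≤ normalizer (G : Set X))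
    (hsolv : Group.IsSolvable G) (hne : G ≠ ⊥) :
    ∃ (r b : ℕ) (N₀ : Subgroup X), r.Prime ∧ 0 < b ∧ Nat.card N₀ = r ^ b ∧ N₀ ≤ G ∧
      G ≤ normalizer (N₀ : Set X) ∧ A ≤ normalizer (N₀ : Set X) := by
  haveI : Nontrivial G := by
    rw [Subgroup.nontrivial_iff_ne_bot]
    exact hne
  obtain ⟨p, a, N, hp, ha, hNn, hNc⟩ := Lib.H1Hall.exists_minimal_normal_pgroup (X := G)
  haveI : Fact p.Prime := ⟨hp⟩
  have hNp : IsPGroup p N := IsPGroup.of_card hNc
  have hle := Lib.H1Core.le_pCore hNn hNp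
  set C := Cfsg.pCore p G with hC
  have hCp : IsPGroup p C := Lib.H1Core.pCore_isPGroup p
  obtain ⟨b, hb⟩ := IsPGroup.iff_card.1 hCp
  have hbpos : 0 < b := by
    rcases Nat.eq_zero_or_pos b with h | h
    · exfalso
      rw [h, pow_zero] at hb
      have h1 : C = ⊥ := Subgroup.eq_bot_of_card_eq C hb
      rw [h1, le_bot_iff] at hle
      rw [hle, Subgroup.card_bot] at hNc
      have : 1 < p ^ a := Nat.one_lt_pow ha.ne' hp.one_lt
      omega
    · exact h
  have hCchar : C.Characteristic := Lib.Comp2.pCore_char p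
  refine ⟨p, b, C.map G.subtype, hp, hbpos, ?_, map_subtype_le C, ?_, ?_⟩
  · rw [← hb]
    exact (Nat.card_congr (C.equivMapOfInjective _ G.subtype_injective).toEquiv).symm
  · intro g hg
    have h1 : (⟨g, hg⟩ : G) ∈ normalizer (C : Set G) := by
      rw [normalizer_eq_top C]
      trivial
    exact C.le_normalizer_map G.subtype ⟨⟨g, hg⟩, h1, rfl⟩
  · intro a' ha'
    rw [mem_normalizer_iff]
    have hmem : ∀ (g : X), g ∈ normalizer (G : Set X) → ∀ x, x ∈ C.map G.subtype → g * x * g⁻¹ ∈ C.map G.subtype := by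
      intro g hg x hx
      obtain ⟨y, hy, rfl⟩ := hx
      let φ : MulAut G := normalizerMonoidHom G ⟨g, hg⟩
      have hφ : ∀ z : G, ((φ z : G) : X) = g * z * g⁻¹ := fun z => rfl
      have h1 : φ y ∈ C := by
        have h3 : y ∈ C.comap φ.toMonoidHom := by
          rw [hCchar.fixed φ]
          exact hy
        exact h3
      exact ⟨φ y, h1, hφ y⟩
    intro x
    constructor
    · exact hmem a' (hAG ha') x
    · intro h
      have h1 := hmem a'⁻¹ (inv_mem (hAG ha')) _ h
      simpa [mul_assoc] using h1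


theorem main_T (n₀ : ℕ) : ∀ (X : Type u) [Group X] [Finite X] (A G : Subgroup X)
    (_ : A ≤ normalizer (G : Set X)) (_ : (Nat.card A).Coprime (Nat.card G))
    (_ : Group.IsSolvable G) (m n : ℕ) (_ : Nat.card G = m * n) (_ : m.Coprime n)
    (U : Subgroup X) (_ : U ≤ G) (_ : A ≤ normalizer (U : Set X)) (_ : (Nat.card U).Coprime n),
    Nat.card G = n₀ → ∃ H : Subgroup X, H ≤ G ∧ Nat.card H = m ∧ A ≤ normalizer (H : Set X) ∧ U ≤ H := by
  induction n₀ using Nat.strong_induction_on with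
  | _ n₀ IH =>
  intro X _ _ A G hAG hcop hsolv m n hG hmn U hUG hUA hUn hn₀
  by_cases hbot : G = ⊥
  · subst hbot
    rw [Subgroup.card_bot] at hG
    have hm : m = 1 := Nat.eq_one_of_mul_eq_one_right hG.symm
    refine ⟨⊥, le_rfl, by rw [Subgroup.card_bot, hm], ?_, hUG⟩
    rw [normalizer_eq_top (⊥ : Subgroup X)]
    exact le_top
  obtain ⟨r, b, N₀, hr, hb, hN₀c, hN₀G, hGN, hAN⟩ := exists_char X A G hAG hsolv hbot
  obtain ⟨Z, _, _, A', G', U', lift, h1, h2, h3, h4, h5, h6, h7, h8⟩ :=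
    quot_reduce A G U N₀ hN₀G hGN hAN hAG hUA hUG hcop hsolv
  have hN₀gt : 1 < Nat.card N₀ := by
    rw [hN₀c]
    exact Nat.one_lt_pow hb.ne' hr.one_lt
  have hN₀pos : 0 < Nat.card N₀ := by omega
  have hG'lt : Nat.card G' < n₀ := by
    rw [← hn₀, ← h4]
    have : 0 < Nat.card G' := Nat.card_pos
    nlinarith
  have hN₀dvd : Nat.card N₀ ∣ m * n := by
    rw [← hG, ← h4]
    exact dvd_mul_left _ _
  have hrdvd : r ∣ m * n := (dvd_pow_self r hb.ne').trans (hN₀c ▸ hN₀dvd)
  rcases (Nat.Prime.dvd_mul hr).1 hrdvd with hrm | hrn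
  · -- `r` divides `m`
    have hrn' : r.Coprime n := by
      rw [Nat.Prime.coprime_iff_not_dvd hr]
      intro h
      have := Nat.dvd_gcd hrm h
      rw [hmn] at this
      exact hr.one_lt.ne' (Nat.dvd_one.1 this)
    have hN₀n : (Nat.card N₀).Coprime n := by
      rw [hN₀c]
      exact Nat.Coprime.pow_left b hrn'
    obtain ⟨m', hm'⟩ : Nat.card N₀ ∣ m := hN₀n.dvd_of_dvd_mul_right hN₀dvd
    have hG'c : Nat.card G' = m' * n := by
      apply Nat.eq_of_mul_eq_mul_right hN₀pos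
      rw [h4, hG, hm']
      ring
    obtain ⟨H', hH'1, hH'2, hH'3, hH'4⟩ := IH _ hG'lt Z A' G' h1 h2 h3 m' n hG'c
      (Nat.Coprime.coprime_dvd_left (Dvd.intro_left _ hm'.symm) hmn) U' h5 h6
      (Nat.Coprime.coprime_dvd_left h7 hUn) rfl
    obtain ⟨h9, h10, h11, h12⟩ := h8 H' hH'1 hH'3 hH'4
    exact ⟨lift H', h9, by rw [h10, hH'2, hm']; ring, h11, h12⟩
  · -- `r` divides `n`
    have hrm' : r.Coprime m := by
      rw [Nat.Prime.coprime_iff_not_dvd hr]
      intro h
      have := Nat.dvd_gcd h hrn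
      rw [hmn] at this
      exact hr.one_lt.ne' (Nat.dvd_one.1 this)
    have hN₀m : (Nat.card N₀).Coprime m := by
      rw [hN₀c]
      exact Nat.Coprime.pow_left b hrm'
    obtain ⟨n', hn'⟩ : Nat.card N₀ ∣ n := hN₀m.dvd_of_dvd_mul_left hN₀dvd
    have hG'c : Nat.card G' = m * n' := by
      apply Nat.eq_of_mul_eq_mul_right hN₀pos
      rw [h4, hG, hn']
      ring
    have hUn' : (Nat.card U).Coprime n' := Nat.Coprime.coprime_dvd_right (Dvd.intro_left _ hn'.symm) hUn
    have hUN : (Nat.card U).Coprime (Nat.card N₀) := Nat.Coprime.coprime_dvd_right (Dvd.intro _ hn'.symm) hUn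
    by_cases hn1 : n' = 1
    · -- `N₀` is a normal complement
      have hnN : n = Nat.card N₀ := by rw [hn', hn1, mul_one]
      obtain ⟨⟨H₀, hH₀G, hH₀c, hH₀A⟩, -⟩ := hall_ab A G hAG hcop hsolv m n hG hmn
      set W := N₀ ⊔ U with hW
      have hUnorm : U ≤ normalizer (N₀ : Set X) := hUG.trans hGN
      have hWc : Nat.card W = Nat.card N₀ * Nat.card U :=
        Lib.H1Cop.card_sup_of_coprime hUnorm hUN
      have hWG : W ≤ G := sup_le hN₀G hUG
      have hWA : A ≤ normalizer (W : Set X) := norm_sup hAN hUA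
      have hH₀N : H₀ ≤ normalizer (N₀ : Set X) := hH₀G.trans hGN
      have hmN : (Nat.card H₀).Coprime (Nat.card N₀) := by
        rw [hH₀c]
        exact hN₀m.symm
      have hsupG : N₀ ⊔ H₀ = G := by
        apply Subgroup.eq_of_le_of_card_ge (sup_le hN₀G hH₀G)
        rw [Lib.H1Cop.card_sup_of_coprime hH₀N hmN, hH₀c, hG, hnN]
        exact (mul_comm _ _).le
      set U₀ := H₀ ⊓ W with hU₀
      have hU₀A : A ≤ normalizer (U₀ : Set X) := norm_inf hH₀A hWA
      have hU₀le : U₀ ≤ G := inf_le_left.trans hH₀G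
      have hU₀N : U₀ ≤ normalizer (N₀ : Set X) := hU₀le.trans hGN
      have hU₀cop : (Nat.card U₀).Coprime (Nat.card N₀) :=
        Nat.Coprime.coprime_dvd_left (Subgroup.card_dvd_of_le inf_le_left) hmN
      have hWeq : W = N₀ ⊔ U₀ := by
        apply le_antisymm
        · intro x hx
          have hxG : x ∈ N₀ ⊔ H₀ := by
            rw [hsupG]
            exact hWG hx
          obtain ⟨k, hk, a, ha, rfl⟩ := (Lib.H1Cop.mem_sup_iff hH₀N).1 hxG
          have hkW : k ∈ W := (le_sup_left : N₀ ≤ W) hk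
          have haW : a ∈ W := by
            have := W.mul_mem (W.inv_mem hkW) hx
            simpa using this
          exact mul_mem ((le_sup_left : N₀ ≤ _) hk) ((le_sup_right : U₀ ≤ _) ⟨ha, haW⟩)
        · exact sup_le le_sup_left (inf_le_right)
      have hU₀c : Nat.card U₀ = Nat.card U := by
        have h20 := Lib.H1Cop.card_sup_of_coprime hU₀N hU₀cop
        rw [← hWeq, hWc] at h20
        exact (Nat.eq_of_mul_eq_mul_left hN₀pos h20).symm
      have hWsolv : Group.IsSolvable W :=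
        solvable_of_solvable_injective (f := inclusion hWG) (inclusion_injective hWG)
      have hcopW : (Nat.card A).Coprime (Nat.card W) :=
        Nat.Coprime.coprime_dvd_right (Subgroup.card_dvd_of_le hWG) hcop
      obtain ⟨-, hb2⟩ := hall_ab A W hWA hcopW hWsolv (Nat.card U) (Nat.card N₀)
        (by rw [hWc]; ring) hUN
      obtain ⟨c, hc, hcU⟩ := hb2 U₀ U inf_le_right le_sup_right hU₀c rfl hU₀A hUA
      have hcG : c ∈ G := hWG hc.1
      refine ⟨MulAut.conj c • H₀, ?_, ?_, ?_, ?_⟩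
      · intro x hx
        rw [Lib.H1Core.mem_conj_smul] at hx
        have h21 := G.mul_mem (G.mul_mem hcG (hH₀G hx)) (G.inv_mem hcG)
        have e : c * (c⁻¹ * x * c) * c⁻¹ = x := by group
        rwa [e] at h21
      · rw [Lib.H1Conj.card_conj_smul, hH₀c]
      · apply Lib.H1Cop.le_normalizer_of_forall
        intro a ha x hx
        rw [Lib.H1Core.mem_conj_smul] at hx ⊢
        have hca : a * c = c * a := by
          have := Subgroup.mem_centralizer_iff.1 hc.2 a ha
          exact this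
        have h22 := Lib.H1Cop.conj_mem_of_normalizer hH₀A ha hx
        have e : c⁻¹ * (a * x * a⁻¹) * c = a * (c⁻¹ * x * c) * a⁻¹ := by
          have h23 : a⁻¹ * c = c * a⁻¹ := by
            have h24 : a⁻¹ * (a * c) * a⁻¹ = a⁻¹ * (c * a) * a⁻¹ := by rw [hca]
            simpa [mul_assoc] using h24.symm
          have h25 : c⁻¹ * a = a * c⁻¹ := by
            have h26 : c⁻¹ * (a * c) * c⁻¹ = c⁻¹ * (c * a) * c⁻¹ := by rw [hca]
            simpa [mul_assoc] using h26
          calc c⁻¹ * (a * x * a⁻¹) * c = (c⁻¹ * a) * x * (a⁻¹ * c) := by group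
            _ = (a * c⁻¹) * x * (c * a⁻¹) := by rw [h23, h25]
            _ = a * (c⁻¹ * x * c) * a⁻¹ := by group
        rw [e]
        exact h22
      · rw [← hcU]
        intro x hx
        rw [Lib.H1Core.mem_conj_smul] at hx ⊢
        exact hx.1
    · -- proper overgroup
      obtain ⟨H', hH'1, hH'2, hH'3, hH'4⟩ := IH _ hG'lt Z A' G' h1 h2 h3 m n' hG'c
        (Nat.Coprime.coprime_dvd_right (Dvd.intro_left _ hn'.symm) hmn) U' h5 h6
        (Nat.Coprime.coprime_dvd_left h7 hUn') rfl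
      obtain ⟨h9, h10, h11, h12⟩ := h8 H' hH'1 hH'3 hH'4
      have hn'pos : 0 < n' := by
        rcases Nat.eq_zero_or_pos n' with h | h
        · exfalso
          rw [h, mul_zero] at hG'c
          exact (Nat.card_pos (α := G')).ne' hG'c
        · exact h
      have hlt : Nat.card (lift H') < n₀ := by
        rw [h10, hH'2, ← hn₀, hG, hn']
        have : 2 ≤ n' := by omega
        have hm0 : 0 < m := by
          rcases Nat.eq_zero_or_pos m with h | h
          · exfalso
            rw [h, zero_mul] at hG'c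
            exact (Nat.card_pos (α := G')).ne' hG'c
          · exact h
        have : m * Nat.card N₀ * 1 < m * Nat.card N₀ * n' :=
          Nat.mul_lt_mul_of_pos_left (by omega) (Nat.mul_pos hm0 hN₀pos)
        calc m * Nat.card N₀ = m * Nat.card N₀ * 1 := (mul_one _).symm
          _ < m * Nat.card N₀ * n' := this
          _ = m * (Nat.card N₀ * n') := by ring
      have hsolv1 : Group.IsSolvable (lift H') :=
        solvable_of_solvable_injective (f := inclusion h9) (inclusion_injective h9)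
      have hcop1 : (Nat.card A).Coprime (Nat.card (lift H')) :=
        Nat.Coprime.coprime_dvd_right (Subgroup.card_dvd_of_le h9) hcop
      obtain ⟨H, hH1, hH2, hH3, hH4⟩ := IH _ hlt X A (lift H') h11 hcop1 hsolv1 m (Nat.card N₀)
        (by rw [h10, hH'2]) hN₀m.symm U h12 hUA hUN rfl
      exact ⟨H, hH1.trans h9, hH2, hH3, hH4⟩

theorem exists_decomp (π : Set ℕ) (N : ℕ) (hN : N ≠ 0) : ∃ m n, N = m * n ∧
    (∀ p : ℕ, p.Prime → p ∣ m → p ∈ π) ∧ (∀ p : ℕ, p.Prime → p ∣ n → p ∉ π) := by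
  induction N using Nat.recOnMul with
  | zero => exact absurd rfl hN
  | one => exact ⟨1, 1, rfl, fun p hp h => absurd (Nat.dvd_one.1 h) hp.one_lt.ne',
      fun p hp h => absurd (Nat.dvd_one.1 h) hp.one_lt.ne'⟩
  | prime q hq =>
    by_cases h : q ∈ π
    · refine ⟨q, 1, (mul_one q).symm, ?_, fun p hp h => absurd (Nat.dvd_one.1 h) hp.one_lt.ne'⟩
      intro p hp hpq
      rw [(Nat.prime_dvd_prime_iff_eq hp hq).1 hpq]
      exact h
    · refine ⟨1, q, (one_mul q).symm, fun p hp h => absurd (Nat.dvd_one.1 h) hp.one_lt.ne', ?_⟩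
      intro p hp hpq
      rw [(Nat.prime_dvd_prime_iff_eq hp hq).1 hpq]
      exact h
  | mul a b ha hb =>
    have ha0 : a ≠ 0 := fun h => hN (by rw [h, zero_mul])
    have hb0 : b ≠ 0 := fun h => hN (by rw [h, mul_zero])
    obtain ⟨m₁, n₁, h1, h2, h3⟩ := ha ha0
    obtain ⟨m₂, n₂, h4, h5, h6⟩ := hb hb0
    refine ⟨m₁ * m₂, n₁ * n₂, by rw [h1, h4]; ring, ?_, ?_⟩
    · intro p hp hd
      rcases (Nat.Prime.dvd_mul hp).1 hd with h | h
      · exact h2 p hp h
      · exact h5 p hp h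
    · intro p hp hd
      rcases (Nat.Prime.dvd_mul hp).1 hd with h | h
      · exact h3 p hp h
      · exact h6 p hp h

theorem cop_of_primes {π : Set ℕ} {a b : ℕ} (ha : ∀ p : ℕ, p.Prime → p ∣ a → p ∈ π)
    (hb : ∀ p : ℕ, p.Prime → p ∣ b → p ∉ π) : a.Coprime b :=
  Nat.Coprime.symm (Nat.coprime_of_dvd fun p hp h1 h2 => hb p hp h1 (ha p hp h2))

theorem hall_iff {X : Type u} [Group X] [Finite X] (π : Set ℕ) (G H : Subgroup X) (m n : ℕ)
    (hG : Nat.card G = m * n) (hm : ∀ p : ℕ, p.Prime → p ∣ m → p ∈ π)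
    (hn : ∀ p : ℕ, p.Prime → p ∣ n → p ∉ π) :
    Cfsg.IsPiHallOf π H G ↔ H ≤ G ∧ Nat.card H = m := by
  have hcard : H ≤ G → Nat.card G = Nat.card H * H.relIndex G := by
    intro hle
    have h1 := (H.subgroupOf G).card_mul_index
    rw [Nat.card_congr (Subgroup.subgroupOfEquivOfLe hle).toEquiv] at h1
    exact h1.symm
  have hGpos : 0 < Nat.card G := Nat.card_pos
  constructor
  · rintro ⟨h1, h2, h3⟩
    refine ⟨h1, ?_⟩
    have h4 := hcard h1
    rw [hG] at h4
    have c1 : (Nat.card H).Coprime n := cop_of_primes h2 hn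
    have c2 : m.Coprime (H.relIndex G) := Nat.Coprime.symm (Nat.coprime_of_dvd fun p hp h5 h6 => h3 p hp (hm p hp h6) h5)
    apply Nat.dvd_antisymm
    · exact c1.dvd_of_dvd_mul_right (h4 ▸ dvd_mul_right _ _)
    · exact c2.dvd_of_dvd_mul_right (h4 ▸ dvd_mul_right _ _)
  · rintro ⟨h1, h2⟩
    refine ⟨h1, ?_, ?_⟩
    · intro p hp hd
      rw [h2] at hd
      exact hm p hp hd
    · intro p hp hpπ hd
      have h4 := hcard h1
      rw [hG, h2] at h4
      have hm0 : 0 < m := by
        rcases Nat.eq_zero_or_pos m with h | h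
        · exfalso
          rw [h, zero_mul] at hG
          omega
        · exact h
      have h5 : n = H.relIndex G := Nat.eq_of_mul_eq_mul_left hm0 h4
      rw [← h5] at hd
      exact hn p hp hd hpπ

/-- Coprime action on a solvable group and Hall subgroups. Let A and G be subgroups of a finite group with A normalizing G, the orders of A and G coprime, and G solvable, and let π be a set of primes. Then (a) G has an A-invariant Hall π-subgroup; (b) any two A-invariant Hall π-subgroups of G are conjugate by an element of C_G(A); (c) every A-invariant π-subgroup of G lies in an A-invariant Hall π-subgroup of G. -/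
theorem result {X : Type*} [Group X] [Finite X] (A G : Subgroup X) (hAG : A ≤ Subgroup.normalizer (G : Set X)) (hcop : (Nat.card A).Coprime (Nat.card G)) (hsolv : Group.IsSolvable G) (π : Set ℕ) : (∃ H : Subgroup X, Cfsg.IsPiHallOf π H G ∧ A ≤ Subgroup.normalizer (H : Set X)) ∧ (∀ H₁ H₂ : Subgroup X, Cfsg.IsPiHallOf π H₁ G → A ≤ Subgroup.normalizer (H₁ : Set X) → Cfsg.IsPiHallOf π H₂ G → A ≤ Subgroup.normalizer (H₂ : Set X) → ∃ c ∈ G ⊓ Subgroup.centralizer (A : Set X), H₂ = H₁.map (MulAut.conj c).toMonoidHom) ∧ (∀ U : Subgroup X, U ≤ G → A ≤ Subgroup.normalizer (U : Set X) → (∀ p : ℕ, p.Prime → p ∣ Nat.card U → p ∈ π) → ∃ H : Subgroup X, Cfsg.IsPiHallOf π H G ∧ A ≤ Subgroup.normalizer (H : Set X) ∧ U ≤ H) := by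
  obtain ⟨m, n, hG, hm, hn⟩ := exists_decomp π (Nat.card G) Nat.card_pos.ne'
  have hmn : m.Coprime n := cop_of_primes hm hn
  have hiff : ∀ H, Cfsg.IsPiHallOf π H G ↔ H ≤ G ∧ Nat.card H = m := fun H => hall_iff π G H m n hG hm hn
  obtain ⟨⟨H, h1, h2, h3⟩, hb⟩ := hall_ab A G hAG hcop hsolv m n hG hmn
  refine ⟨⟨H, (hiff H).2 ⟨h1, h2⟩, h3⟩, ?_, ?_⟩
  · intro H₁ H₂ h4 h5 h6 h7
    obtain ⟨h8, h9⟩ := (hiff H₁).1 h4
    obtain ⟨h10, h11⟩ := (hiff H₂).1 h6
    obtain ⟨c, hc, hcH⟩ := hb H₁ H₂ h8 h10 h9 h11 h5 h7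
    exact ⟨c, hc, hcH.symm⟩
  · intro U hUG hUA hUπ
    obtain ⟨H, h4, h5, h6, h7⟩ := main_T _ X A G hAG hcop hsolv m n hG hmn U hUG hUA (cop_of_primes hUπ hn) rfl
    exact ⟨H, (hiff H).2 ⟨h4, h5⟩, h6, h7⟩

end Cfsg.Agent.S3745
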