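import Cfsg.Statements.S3746
import Cfsg.Agent.Lib.Comp
-- import your own Cfsg.Agent.* helpers here

set_option autoImplicit false
open Cfsg

namespace Cfsg.Agent.S3746

theorem qs_lift {A B : Type*} [Group A] [Group B] (f : A →* B) (hf : Function.Surjective f)
    (hA : commutator A = ⊤) (hk : f.ker ≤ Subgroup.center A) (hB : IsQuasisimple B) : IsQuasisimple A := by
  haveI := Lib.Comp.qs_nontrivial hB
  apply Lib.Comp.qs_of_normal_central hA
  · obtain ⟨b, hb⟩ := exists_ne (1 : B)
    obtain ⟨a, rfl⟩ := hf b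
    exact ⟨⟨a, 1, fun h => hb (by rw [h, map_one])⟩⟩
  · intro N hN
    haveI := hN
    haveI : (N.map f).Normal := hN.map f hf
    rcases Lib.Comp.qs_normal hB (N.map f) with h | h
    · left
      have hsup : N ⊔ Subgroup.center A = ⊤ := by
        rw [eq_top_iff]
        intro x _
        have hx : f x ∈ N.map f := by rw [h]; trivial
        obtain ⟨n, hn, hnx⟩ := hx
        have h1 : n⁻¹ * x ∈ Subgroup.center A := by
          apply hk
          rw [MonoidHom.mem_ker, map_mul, map_inv, ← hnx]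
          simp
        have e : x = n * (n⁻¹ * x) := by group
        rw [e]
        exact Subgroup.mul_mem_sup hn h1
      have := Lib.Comp.commutator_le_of_sup_center_eq_top N hsup
      rw [hA] at this
      exact top_le_iff.1 this
    · right
      have hc1 : ⁅N, (⊤ : Subgroup A)⁆ ≤ Subgroup.center A := by
        rw [Subgroup.commutator_le]
        intro n hn a _
        apply hk
        rw [MonoidHom.mem_ker]
        have h2 := h ⟨n, hn, rfl⟩
        rw [Subgroup.mem_center_iff] at h2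
        have h3 := h2 (f a)
        rw [commutatorElement_def, map_mul, map_mul, map_mul, map_inv, map_inv, ← h3]
        simp
      have h1 : ⁅⁅N, (⊤ : Subgroup A)⁆, (⊤ : Subgroup A)⁆ = ⊥ := by
        rw [Subgroup.commutator_eq_bot_iff_le_centralizer]
        intro x hx
        rw [Subgroup.mem_centralizer_iff]
        intro y _
        exact (Subgroup.mem_center_iff.1 (hc1 hx) y)
      have h2 : ⁅⁅(⊤ : Subgroup A), N⁆, (⊤ : Subgroup A)⁆ = ⊥ := by
        rw [Subgroup.commutator_comm (⊤ : Subgroup A) N]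
        exact h1
      have h3 : ⁅⁅(⊤ : Subgroup A), (⊤ : Subgroup A)⁆, N⁆ = ⊥ :=
        Subgroup.commutator_commutator_eq_bot_of_rotate h2 h1
      rw [← commutator_def, hA] at h3
      rw [Subgroup.commutator_eq_bot_iff_le_centralizer] at h3
      intro n hn
      rw [Subgroup.mem_center_iff]
      intro g
      exact (Subgroup.mem_centralizer_iff.1 (h3 (Subgroup.mem_top g)) n hn).symm
theorem comm_central {G : Type*} [Group G] (l z m w : G) (h1 : ∀ g : G, z * g = g * z) (h2 : ∀ g : G, w * g = g * w) :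
    l * z * (m * w) * (l * z)⁻¹ * (m * w)⁻¹ = l * m * l⁻¹ * m⁻¹ := by
  simp only [mul_inv_rev]
  calc l * z * (m * w) * (z⁻¹ * l⁻¹) * (w⁻¹ * m⁻¹)
      = l * (z * m) * (w * z⁻¹) * l⁻¹ * w⁻¹ * m⁻¹ := by group
    _ = l * (m * z) * (z⁻¹ * w) * l⁻¹ * w⁻¹ * m⁻¹ := by
        rw [h1 m, h2 z⁻¹]
    _ = l * m * (w * l⁻¹) * w⁻¹ * m⁻¹ := by group
    _ = l * m * (l⁻¹ * w) * w⁻¹ * m⁻¹ := by rw [h2 l⁻¹]
    _ = l * m * l⁻¹ * m⁻¹ := by group

/-- Let Z ≤ Z(G) be a central subgroup of a finite group G and E a subgroup of G containing Z whose image E/Z is a component of G/Z (subnormal and quasisimple). Then the derived subgroup [E, E] is a component of G. -/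
theorem result {G : Type*} [Group G] [Finite G] (Z : Subgroup G) (hZ : Z ≤ Subgroup.center G) [Z.Normal] (E : Subgroup G) (hZE : Z ≤ E) (hE : Cfsg.IsComponent (E.map (QuotientGroup.mk' Z))) : Cfsg.IsComponent ⁅E, E⁆ := by
  have hZker : (QuotientGroup.mk' Z).ker = Z := QuotientGroup.ker_mk' Z
  let π := QuotientGroup.mk' Z
  have hperfE : ⁅E.map π, E.map π⁆ = E.map π := Lib.Comp.qs_commutator_self hE.2
  have hmapL : (⁅E, E⁆ : Subgroup G).map π = E.map π := by
    rw [Subgroup.map_commutator, hperfE]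
  have hcent : ∀ z ∈ Z, ∀ g : G, z * g = g * z := fun z hz g =>
    (Subgroup.mem_center_iff.1 (hZ hz) g).symm
  have hdecomp : ∀ x ∈ E, ∃ l ∈ (⁅E, E⁆ : Subgroup G), ∃ z ∈ Z, x = l * z := by
    intro x hx
    have h1 : π x ∈ (⁅E, E⁆ : Subgroup G).map π := by
      rw [hmapL]
      exact ⟨x, hx, rfl⟩
    obtain ⟨l, hl, hlx⟩ := h1
    refine ⟨l, hl, l⁻¹ * x, ?_, by group⟩
    exact QuotientGroup.eq.1 hlx
  have hLL : (⁅E, E⁆ : Subgroup G) ≤ ⁅(⁅E, E⁆ : Subgroup G), (⁅E, E⁆ : Subgroup G)⁆ := by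
    rw [Subgroup.commutator_le]
    intro x hx y hy
    obtain ⟨l, hl, z, hz, rfl⟩ := hdecomp x hx
    obtain ⟨m, hm, w, hw, rfl⟩ := hdecomp y hy
    rw [commutatorElement_def, comm_central l z m w (hcent z hz) (hcent w hw), ← commutatorElement_def]
    exact Subgroup.commutator_mem_commutator hl hm
  have hLeq : ⁅(⁅E, E⁆ : Subgroup G), (⁅E, E⁆ : Subgroup G)⁆ = (⁅E, E⁆ : Subgroup G) :=
    le_antisymm (Lib.Comp.commutator_le_self _) hLL
  have hEsub : E.IsSubnormal := by
    have h1 := hE.1.comap π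
    rwa [Subgroup.comap_map_eq_self (by rw [hZker]; exact hZE)] at h1
  refine ⟨?_, ?_⟩
  · apply Subgroup.IsSubnormal.step _ E (Lib.Comp.commutator_le_self E) hEsub
    rw [Subgroup.normal_subgroupOf_iff_le_normalizer (Lib.Comp.commutator_le_self E)]
    exact Subgroup.le_normalizer.trans (Lib.Comp.normalizer_le_normalizer_commutator E)
  · let f : ↥(⁅E, E⁆ : Subgroup G) →* ↥(E.map π) :=
      (π.comp (⁅E, E⁆ : Subgroup G).subtype).codRestrict (E.map π)
        (fun l => ⟨l, Lib.Comp.commutator_le_self E l.2, rfl⟩)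
    apply qs_lift f _ (Subgroup.isPerfect_iff.2 hLeq).commutator_eq_top _ hE.2
    · rintro ⟨y, hy⟩
      rw [← hmapL] at hy
      obtain ⟨l, hl, rfl⟩ := hy
      exact ⟨⟨l, hl⟩, rfl⟩
    · intro l hl
      rw [MonoidHom.mem_ker] at hl
      have h1 : π (l : G) = 1 := congrArg Subtype.val hl
      have h2 : (l : G) ∈ Z := (QuotientGroup.eq_one_iff _).1 h1
      rw [Subgroup.mem_center_iff]
      intro g
      apply Subtype.ext
      exact (hcent _ h2 g).symm

end Cfsg.Agent.S3746
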