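import Cfsg.Statements.S3747
import Cfsg.Agent.Lib.Comp
-- import your own Cfsg.Agent.* helpers here

set_option autoImplicit false
open Cfsg

namespace Cfsg.Agent.S3747

theorem center_trivial {G : Type*} [Group G] (S : Set (Subgroup G)) (hS : S.Finite)
    (h1 : ∀ A ∈ S, ∀ x ∈ A, (∀ y ∈ A, x * y = y * x) → x = 1)
    (h2 : ∀ A ∈ S, ∀ B ∈ S, A ≠ B → ∀ a ∈ A, ∀ b ∈ B, a * b = b * a) :
    ∀ x ∈ sSup S, (∀ A ∈ S, ∀ y ∈ A, x * y = y * x) → x = 1 := by
  induction S, hS using Set.Finite.induction_on with
  | empty =>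
    intro x hx _
    rw [sSup_empty] at hx
    exact hx
  | @insert A s hA hs ih =>
    intro x hx hc
    rw [sSup_insert] at hx
    have hcomm : ∀ a ∈ A, ∀ b ∈ sSup s, a * b = b * a := by
      intro a ha b hb
      have hle : sSup s ≤ Subgroup.centralizer (A : Set G) := by
        apply sSup_le
        intro B hB y hy
        rw [Subgroup.mem_centralizer_iff]
        intro a ha
        exact h2 A (Set.mem_insert _ _) B (Set.mem_insert_of_mem _ hB)
          (fun e => hA (e ▸ hB)) a ha y hy
      exact Subgroup.mem_centralizer_iff.1 (hle hb) a ha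
    obtain ⟨a, ha, b, hb, rfl⟩ := Lib.Comp.mem_sup_of_comm hcomm hx
    have hab : a = 1 := by
      apply h1 A (Set.mem_insert _ _) a ha
      intro y hy
      have h3 := hc A (Set.mem_insert _ _) y hy
      have h4 := hcomm y hy b hb
      apply mul_right_cancel (b := b)
      calc a * y * b = a * (y * b) := by group
        _ = a * (b * y) := by rw [h4]
        _ = a * b * y := by group
        _ = y * (a * b) := h3
        _ = y * a * b := by group
    subst hab
    rw [one_mul] at hc ⊢
    exact ih (fun A hA => h1 A (Set.mem_insert_of_mem _ hA))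
      (fun A hA B hB => h2 A (Set.mem_insert_of_mem _ hA) B (Set.mem_insert_of_mem _ hB)) b hb
      (fun A hA y hy => hc A (Set.mem_insert_of_mem _ hA) y hy)

theorem map_conj_mul {G : Type*} [Group G] (K : Subgroup G) (g h : G) :
    (K.map (MulAut.conj g).toMonoidHom).map (MulAut.conj h).toMonoidHom = K.map (MulAut.conj (h * g)).toMonoidHom := by
  ext x
  simp only [Subgroup.mem_map, MulEquiv.coe_toMonoidHom, MulAut.conj_apply]
  constructor
  · rintro ⟨y, ⟨z, hz, rfl⟩, rfl⟩
    exact ⟨z, hz, by group⟩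
  · rintro ⟨z, hz, rfl⟩
    exact ⟨g * z * g⁻¹, ⟨z, hz, rfl⟩, by group⟩

theorem part_a {G : Type*} [Group G] [Finite G] (K : Subgroup G) (hK : Cfsg.IsComponent K)
    (hc : Subgroup.center ↥K = ⊥) :
    Subgroup.normalClosure (K : Set G) ≠ ⊥ ∧ ∀ N : Subgroup G, N.Normal → N ≤ Subgroup.normalClosure (K : Set G) → N = ⊥ ∨ N = Subgroup.normalClosure (K : Set G) := by
  classical
  have hKle : K ≤ Subgroup.normalClosure (K : Set G) := Subgroup.subset_normalClosure
  refine ⟨fun h => Lib.Comp.comp_ne_bot hK (le_bot_iff.1 (h ▸ hKle)), ?_⟩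
  intro N hN hND
  haveI := hN
  by_cases hKN : K ≤ N
  · right
    exact le_antisymm hND (Subgroup.normalClosure_le_normal hKN)
  left
  let f : G → Subgroup G := fun g => K.map (MulAut.conj g).toMonoidHom
  let S : Set (Subgroup G) := Set.range f
  have hSf : S.Finite := Set.finite_range f
  have hcomp : ∀ g, Cfsg.IsComponent (f g) := fun g => Lib.Comp.isComponent_map_equiv hK (MulAut.conj g)
  have hf1 : f 1 = K := by
    ext x
    simp [f, Subgroup.mem_map, MulAut.conj_apply]
  have hfconj : ∀ g, ∀ x ∈ f g, g⁻¹ * x * g ∈ K := by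
    rintro g _ ⟨z, hz, rfl⟩
    simpa [MulAut.conj_apply, mul_assoc] using hz
  have hfcen : ∀ g, ∀ x ∈ f g, (∀ y ∈ f g, x * y = y * x) → x = 1 := by
    intro g x hx hxy
    have h1 := hfconj g x hx
    have h2 : (⟨_, h1⟩ : ↥K) ∈ Subgroup.center ↥K := by
      rw [Subgroup.mem_center_iff]
      rintro ⟨z, hz⟩
      apply Subtype.ext
      have h3 := hxy (g * z * g⁻¹) ⟨z, hz, rfl⟩
      change z * (g⁻¹ * x * g) = g⁻¹ * x * g * z
      calc z * (g⁻¹ * x * g) = g⁻¹ * ((g * z * g⁻¹) * x) * g := by group
        _ = g⁻¹ * (x * (g * z * g⁻¹)) * g := by rw [h3]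
        _ = g⁻¹ * x * g * z := by group
    rw [hc, Subgroup.mem_bot] at h2
    have h4 : g⁻¹ * x * g = 1 := congrArg Subtype.val h2
    have : x = g * (g⁻¹ * x * g) * g⁻¹ := by group
    rw [this, h4]
    group
  have hfcomm : ∀ g h, f g ≠ f h → ∀ a ∈ f g, ∀ b ∈ f h, a * b = b * a := by
    intro g h hne
    exact Lib.Comp.comm_iff.1 (Lib.Comp.comp_comm_comp (hcomp g) (hcomp h) hne)
  have hDle : Subgroup.normalClosure (K : Set G) ≤ sSup S := by
    have hnorm : (sSup S).Normal := by
      constructor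
      intro x hx h
      have hle : sSup S ≤ (sSup S).comap (MulAut.conj h).toMonoidHom := by
        apply sSup_le
        rintro _ ⟨g, rfl⟩ y hy
        rw [Subgroup.mem_comap]
        apply (le_sSup (Set.mem_range_self (h * g)) : f (h * g) ≤ sSup S)
        change _ ∈ f (h * g)
        rw [show f (h * g) = (f g).map (MulAut.conj h).toMonoidHom from (map_conj_mul K g h).symm]
        exact ⟨y, hy, rfl⟩
      have := hle hx
      rw [Subgroup.mem_comap] at this
      simpa [MulAut.conj_apply] using this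
    haveI := hnorm
    apply Subgroup.normalClosure_le_normal
    intro x hx
    apply (le_sSup (Set.mem_range_self (1 : G)) : f 1 ≤ sSup S)
    rw [hf1]
    exact hx
  have hSD : sSup S ≤ Subgroup.normalClosure (K : Set G) := by
    apply sSup_le
    rintro _ ⟨g, rfl⟩ _ ⟨z, hz, rfl⟩
    exact (Subgroup.normalClosure_normal).conj_mem z (hKle hz) g
  have hDnorm : ∀ g, Subgroup.normalClosure (K : Set G) ≤ Subgroup.normalizer (f g : Set G) := by
    intro g
    refine hDle.trans (sSup_le ?_)
    rintro _ ⟨h, rfl⟩ y hy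
    by_cases he : f h = f g
    · rw [he] at hy
      exact Subgroup.le_normalizer hy
    · rw [Subgroup.mem_normalizer_iff]
      intro z
      constructor
      · intro hz
        have := hfcomm h g he y hy z hz
        have e : y * z * y⁻¹ = z := by rw [this]; group
        rw [e]; exact hz
      · intro hz
        have h3 : y * (y * z * y⁻¹) = (y * z * y⁻¹) * y := hfcomm h g he y hy _ hz
        have h4 : y * z * y⁻¹ = z := by
          apply mul_left_cancel (a := y)
          calc y * (y * z * y⁻¹) = (y * z * y⁻¹) * y := h3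
            _ = y * z := by group
        rw [h4] at hz
        exact hz
  have hcase : ∀ g, N ⊓ f g = ⊥ := by
    intro g
    -- `N ⊓ f g` corresponds to a normal subgroup of the quasisimple group `f g`
    have hqs := (hcomp g).2
    haveI hNsub : (N.subgroupOf (f g)).Normal := Subgroup.normal_subgroupOf
    rcases Lib.Comp.qs_normal hqs (N.subgroupOf (f g)) with h | h
    · exfalso
      apply hKN
      intro x hx
      have h1 : g * x * g⁻¹ ∈ f g := ⟨x, hx, rfl⟩
      have h2 : (⟨_, h1⟩ : ↥(f g)) ∈ N.subgroupOf (f g) := by rw [h]; trivial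
      have h3 : g * x * g⁻¹ ∈ N := h2
      have := hN.conj_mem _ h3 g⁻¹
      simpa [mul_assoc] using this
    · rw [eq_bot_iff]
      rintro x ⟨hxN, hxf⟩
      have h2 : (⟨x, hxf⟩ : ↥(f g)) ∈ N.subgroupOf (f g) := hxN
      have h3 := h h2
      rw [Subgroup.mem_center_iff] at h3
      have := hfcen g x hxf (fun y hy => (congrArg Subtype.val (h3 ⟨y, hy⟩)).symm)
      exact this
  rw [eq_bot_iff]
  intro n hn
  apply Subgroup.mem_bot.2
  apply center_trivial S hSf
  · rintro _ ⟨g, rfl⟩
    exact hfcen g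
  · rintro _ ⟨g, rfl⟩ _ ⟨h, rfl⟩ hne
    exact hfcomm g h hne
  · exact hDle (hND hn)
  · rintro _ ⟨g, rfl⟩ y hy
    have h1 : n * y * n⁻¹ * y⁻¹ ∈ N := by
      have : n * y * n⁻¹ * y⁻¹ = n * (y * n⁻¹ * y⁻¹) := by group
      rw [this]
      exact N.mul_mem hn (hN.conj_mem _ (N.inv_mem hn) y)
    have h2 : n * y * n⁻¹ * y⁻¹ ∈ f g := by
      have h3 := (Subgroup.mem_normalizer_iff.1 (hDnorm g (hND hn)) y).1 hy
      exact (f g).mul_mem h3 ((f g).inv_mem hy)
    have h3 : n * y * n⁻¹ * y⁻¹ ∈ N ⊓ f g := Subgroup.mem_inf.2 ⟨h1, h2⟩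
    rw [hcase g, Subgroup.mem_bot] at h3
    have h4 : n * y * n⁻¹ = y := mul_inv_eq_one.1 h3
    exact mul_inv_eq_iff_eq_mul.1 h4

/-- Let G be a finite group. (a) If K is a component of G with trivial centre, then the normal closure of K in G is a minimal normal subgroup of G. (b) If the Fitting subgroup of G is trivial, then the layer E(G) is generated by the minimal normal subgroups of G. -/
theorem result {G : Type*} [Group G] [Finite G] : (∀ K : Subgroup G, Cfsg.IsComponent K → Subgroup.center ↥K = ⊥ → (Subgroup.normalClosure (K : Set G) ≠ ⊥ ∧ ∀ N : Subgroup G, N.Normal → N ≤ Subgroup.normalClosure (K : Set G) → N = ⊥ ∨ N = Subgroup.normalClosure (K : Set G))) ∧ (Cfsg.fittingSubgroup G = ⊥ → sSup {N : Subgroup G | N ≠ ⊥ ∧ N.Normal ∧ ∀ N' : Subgroup G, N'.Normal → N' ≤ N → N' = ⊥ ∨ N' = N} = Cfsg.layer G) := by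
  classical
  refine ⟨fun K hK hc => part_a K hK hc, ?_⟩
  intro hF
  apply le_antisymm
  · apply sSup_le
    rintro N ⟨hNe, hNn, hNmin⟩
    -- minimal nontrivial subnormal subgroup inside `N`
    obtain ⟨S, hSle, hSmin⟩ := Set.Finite.exists_le_minimal
      (s := {S : Subgroup G | S ≠ ⊥ ∧ S.IsSubnormal ∧ S ≤ N}) (Set.toFinite _) (a := N)
      ⟨hNe, hNn.isSubnormal, le_rfl⟩
    obtain ⟨⟨hS1, hS2, hS3⟩, hS4⟩ := hSmin
    have hnormal : ∀ T : Subgroup ↥S, T.Normal → T = ⊥ ∨ T = ⊤ := by
      intro T hT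
      have hTs : (T.map S.subtype).IsSubnormal := (hT.isSubnormal).trans' hS2
      by_cases hb : T = ⊥
      · exact Or.inl hb
      right
      have hTne : T.map S.subtype ≠ ⊥ := by
        intro h
        exact hb ((Subgroup.map_eq_bot_iff_of_injective _ S.subtype_injective).1 h)
      have hle : T.map S.subtype ≤ S := Subgroup.map_subtype_le _
      have h1 := hS4 ⟨hTne, hTs, hle.trans hS3⟩ hle
      rw [eq_top_iff]
      intro x _
      obtain ⟨y, hy, hyx⟩ := h1 x.2
      have : y = x := Subtype.ext hyx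
      rw [← this]
      exact hy
    have hnonab : ¬ Group.IsNilpotent ↥S := by
      intro hnil
      have h1 := Lib.Comp.nilp_subnormal_le_fitting hS2 hnil
      rw [hF] at h1
      exact hS1 (le_bot_iff.1 h1)
    have hcomm : commutator ↥S = ⊤ := by
      rcases hnormal _ (inferInstance : (commutator ↥S).Normal) with h | h
      · exfalso
        apply hnonab
        apply Lib.Comp.nilp_of_comm
        intro a b
        rw [commutator_def, Subgroup.commutator_eq_bot_iff_le_centralizer] at h
        exact (Subgroup.mem_centralizer_iff.1 (h (Subgroup.mem_top b)) a (Subgroup.mem_top a))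
      · exact h
    have hnt : Nontrivial ↥S := (Subgroup.nontrivial_iff_ne_bot S).2 hS1
    have hqs : IsQuasisimple ↥S := Lib.Comp.qs_of_normal_central hcomm hnt (fun T hT => by
      rcases hnormal T hT with h | h
      · right
        rw [h]
        exact bot_le
      · exact Or.inl h)
    have hScomp : Cfsg.IsComponent S := ⟨hS2, hqs⟩
    have hSL : S ≤ Cfsg.layer G := Lib.Comp.comp_le_layer hScomp
    haveI hLc : (Cfsg.layer G).Characteristic := Lib.Comp.layer_characteristic
    haveI hLn : (Cfsg.layer G).Normal := inferInstance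
    rcases hNmin (N ⊓ Cfsg.layer G) inferInstance inf_le_left with h | h
    · exfalso
      apply hS1
      rw [eq_bot_iff, ← h]
      exact le_inf hS3 hSL
    · rw [← h]
      exact inf_le_right
  · apply sSup_le
    intro K hK
    have hc : Subgroup.center ↥K = ⊥ := by
      have h1 : ((Subgroup.center ↥K).map K.subtype).IsSubnormal :=
        (((inferInstance : (Subgroup.center ↥K).Normal)).isSubnormal).trans' hK.1
      have h2 : Group.IsNilpotent ↥((Subgroup.center ↥K).map K.subtype) :=
        Lib.Comp.map_subtype_nilp _ Lib.Comp.nilp_center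
      have h3 := Lib.Comp.nilp_subnormal_le_fitting h1 h2
      rw [hF] at h3
      exact (Subgroup.map_eq_bot_iff_of_injective _ K.subtype_injective).1 (le_bot_iff.1 h3)
    obtain ⟨h1, h2⟩ := part_a K hK hc
    have hmem : Subgroup.normalClosure (K : Set G) ∈ {N : Subgroup G | N ≠ ⊥ ∧ N.Normal ∧ ∀ N' : Subgroup G, N'.Normal → N' ≤ N → N' = ⊥ ∨ N' = N} :=
      ⟨h1, Subgroup.normalClosure_normal, h2⟩
    exact (Subgroup.subset_normalClosure : (K : Set G) ⊆ _).trans (le_sSup hmem)

end Cfsg.Agent.S3747
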