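import Cfsg.Statements.S3748
import Cfsg.Agent.Lib.WielandtJoin
import Cfsg.Agent.Lib.H1Core
-- import your own Cfsg.Agent.* helpers here

set_option autoImplicit false
open Cfsg

namespace Cfsg.Agent.S3748

theorem sub_bot {G : Type*} [Group G] [Finite G] (M : Subgroup G) (hM : M ≠ ⊤) (hprim : ∀ N : Subgroup G, N ≤ M → M ≤ Subgroup.normalizer (N : Set G) → N ≠ ⊥ → Subgroup.normalizer (N : Set G) = M)
    (L : Subgroup G) (hL : L.IsSubnormal) (hLM : L ≤ M) : L = ⊥ := by
  classical
  haveI : Fintype G := Fintype.ofFinite G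
  induction L using WellFoundedGT.induction with
  | ind L ih =>
    by_contra hne
    let T : Subgroup G := ⨆ m ∈ (Finset.univ.filter (fun m => m ∈ M)), L.map (MulAut.conj m).toMonoidHom
    have hTs : T.IsSubnormal := Lib.WielandtJoin.isSubnormal_iSup_finset _ _
      (fun m _ => Lib.WielandtJoin.map_conj_isSubnormal hL m)
    have hTM : T ≤ M := by
      apply iSup₂_le
      intro m hm
      have hm' : m ∈ M := (Finset.mem_filter.1 hm).2
      rintro _ ⟨x, hx, rfl⟩
      exact M.mul_mem (M.mul_mem hm' (hLM hx)) (M.inv_mem hm')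
    have hmemT : ∀ m ∈ M, L.map (MulAut.conj m).toMonoidHom ≤ T := by
      intro m hm
      exact le_iSup₂_of_le m (Finset.mem_filter.2 ⟨Finset.mem_univ _, hm⟩) le_rfl
    have hLT : L ≤ T := by
      intro x hx
      exact hmemT 1 M.one_mem ⟨x, hx, by simp [MulAut.conj_apply]⟩
    by_cases hlt : L < T
    · have := ih T hlt hTs hTM
      exact hne (le_bot_iff.1 (this ▸ hLT))
    have hTL : T = L := le_antisymm (by
      by_contra hc
      exact hlt (lt_of_le_of_ne hLT (fun e => hc (e ▸ le_rfl)))) hLT
    have hMnorm : M ≤ Subgroup.normalizer (L : Set G) := by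
      intro m hm
      rw [Subgroup.mem_normalizer_iff]
      intro x
      have h1 : L.map (MulAut.conj m).toMonoidHom ≤ L := hTL ▸ hmemT m hm
      have h2 : L.map (MulAut.conj m⁻¹).toMonoidHom ≤ L := hTL ▸ hmemT m⁻¹ (M.inv_mem hm)
      constructor
      · intro hx
        exact h1 ⟨x, hx, rfl⟩
      · intro hx
        have := h2 ⟨m * x * m⁻¹, hx, rfl⟩
        simpa [mul_assoc] using this
    have hnM := hprim L hLM hMnorm hne
    rcases (Subgroup.IsSubnormal.iff_eq_top_or_exists).1 hL with rfl | ⟨K, hLK, hKs, hKn⟩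
    · exact hM (top_le_iff.1 hLM)
    have hKM : K ≤ M := by
      rw [← hnM]
      exact (Subgroup.normal_subgroupOf_iff_le_normalizer hLK.le).1 hKn
    have := ih K hLK hKs hKM
    exact hne (le_bot_iff.1 (this ▸ hLK.le))

/-- Call a proper subgroup M of G primitive when M = N_G(N) for every non-trivial normal subgroup N of M. If M is a primitive subgroup of the finite group G, then no non-trivial subnormal subgroup of G is contained in M; in particular M ∩ F(G) = 1. -/
theorem result {G : Type*} [Group G] [Finite G] (M : Subgroup G) (hM : M ≠ ⊤) (hprim : ∀ N : Subgroup G, N ≤ M → M ≤ Subgroup.normalizer (N : Set G) → N ≠ ⊥ → Subgroup.normalizer (N : Set G) = M) : (∀ L : Subgroup G, L.IsSubnormal → L ≤ M → L = ⊥) ∧ M ⊓ Cfsg.fittingSubgroup G = ⊥ := by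
  refine ⟨sub_bot M hM hprim, ?_⟩
  apply sub_bot M hM hprim _ _ inf_le_left
  exact Lib.WielandtJoin.isSubnormal_of_le_nilpotent
    (Lib.H1Core.fittingSubgroup_normal G).isSubnormal Lib.H1Core.fittingSubgroup_isNilpotent inf_le_right

end Cfsg.Agent.S3748
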