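import Cfsg.Statements.S3749
import Cfsg.Agent.Lib.H1Cop
import Cfsg.Agent.Lib.H1Core
import Cfsg.Agent.Lib.H1Frat
import Cfsg.Agent.Lib.FGS2
-- import your own Cfsg.Agent.* helpers here

set_option autoImplicit false
open Cfsg

namespace Cfsg.Agent.S3749

open scoped Pointwise in
theorem conj_inv_step {G : Type*} [Group G] (m r : G) (Q : Subgroup G)
    (h : m⁻¹ * r * m ∈ Subgroup.normalizer (Q : Set G)) :
    r ∈ Subgroup.normalizer ((MulAut.conj m • Q : Subgroup G) : Set G) := by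
  apply Lib.H1Conj.mem_normalizer_of_conj_smul_eq
  have h1 := Lib.H1Conj.conj_smul_eq_self_of_mem_normalizer h
  rw [← mul_smul, ← map_mul]
  have h2 : r * m = m * (m⁻¹ * r * m) := by group
  rw [h2, map_mul, mul_smul, h1]

/-- Call a proper subgroup M of G primitive when M = N_G(N) for every non-trivial normal subgroup N of M. Let M be a primitive subgroup of the finite group G, p a prime with O_p(M) ≠ 1, and N a normal subgroup of G with M ∩ N = 1. Then p does not divide the order of N; for every prime q there is exactly one Sylow q-subgroup of N normalized by M; and if the order of N has at least two prime divisors then M is not a maximal subgroup of G. -/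
theorem result {G : Type*} [Group G] [Finite G] (M : Subgroup G) (hM : M ≠ ⊤) (hprim : ∀ N : Subgroup G, N ≤ M → M ≤ Subgroup.normalizer (N : Set G) → N ≠ ⊥ → Subgroup.normalizer (N : Set G) = M) {p : ℕ} [Fact p.Prime] (hOp : Cfsg.pCore p ↥M ≠ ⊥) (N : Subgroup G) [N.Normal] (hMN : M ⊓ N = ⊥) : ¬ p ∣ Nat.card N ∧ (∀ q : ℕ, [Fact q.Prime] → ∃! Q : Sylow q ↥N, M ≤ Subgroup.normalizer ((Q : Subgroup ↥N).map N.subtype : Set G)) ∧ ((∃ q r : ℕ, q.Prime ∧ r.Prime ∧ q ≠ r ∧ q ∣ Nat.card N ∧ r ∣ Nat.card N) → ¬ IsCoatom M) := by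
  classical
  let R : Subgroup G := (Cfsg.pCore p ↥M).map M.subtype
  have hRM : R ≤ M := Subgroup.map_subtype_le _
  have hRp : IsPGroup p R := (Lib.H1Core.pCore_isPGroup p).map _
  have hRne : R ≠ ⊥ := by
    intro h
    apply hOp
    have := (Subgroup.map_eq_bot_iff_of_injective _ M.subtype_injective).1 h
    exact this
  have hMR : M ≤ Subgroup.normalizer (R : Set G) := by
    intro m hm
    rw [Subgroup.mem_normalizer_iff]
    intro x
    haveI := Lib.H1Core.pCore_normal p ↥M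
    constructor
    · rintro ⟨y, hy, rfl⟩
      refine ⟨⟨m, hm⟩ * y * ⟨m, hm⟩⁻¹, (Lib.H1Core.pCore_normal p ↥M).conj_mem y hy _, ?_⟩
      simp
    · rintro ⟨y, hy, hyx⟩
      refine ⟨⟨m, hm⟩⁻¹ * y * (⟨m, hm⟩⁻¹)⁻¹, (Lib.H1Core.pCore_normal p ↥M).conj_mem y hy _, ?_⟩
      simp only [Subgroup.coe_subtype, Subgroup.coe_mul, Subgroup.coe_inv, inv_inv]
      simp only [Subgroup.coe_subtype] at hyx
      have hyx' : (y : G) = m * x * m⁻¹ := hyx
      rw [hyx']
      group
  have hRnorm : Subgroup.normalizer (R : Set G) = M := hprim R hRM hMR hRne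
  have hcent : ∀ x ∈ N, (∀ r ∈ R, x * r = r * x) → x = 1 := by
    intro x hxN hx
    have hxM : x ∈ M := by
      rw [← hRnorm, Subgroup.mem_normalizer_iff]
      intro y
      constructor
      · intro hy
        have : x * y * x⁻¹ = y := by rw [hx y hy]; group
        rw [this]; exact hy
      · intro hy
        have h1 : x⁻¹ * (x * y * x⁻¹) * x = y := by group
        have h2 := hx _ hy
        have h3 : x * y * x⁻¹ = x⁻¹ * (x * (x * y * x⁻¹)) := by group
        rw [h2] at h3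
        have h4 : x * y * x⁻¹ = x⁻¹ * (x * y * x⁻¹ * x) := h3
        have h5 : x * y * x⁻¹ * x = x * y := by group
        rw [h5] at h4
        have h6 : x * y * x⁻¹ = y := by rw [h4]; group
        rw [h6] at hy
        exact hy
    have : x ∈ M ⊓ N := Subgroup.mem_inf.2 ⟨hxM, hxN⟩
    rw [hMN] at this
    exact this
  have hpN : ¬ p ∣ Nat.card N := by
    intro hd
    obtain ⟨Q, hQ⟩ := hRp.exists_le_sylow
    haveI : Group.IsNilpotent ↥(Q : Subgroup G) := Q.isPGroup'.isNilpotent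
    have hT : N.subgroupOf (Q : Subgroup G) ≠ ⊥ := by
      intro hT
      have h1 : (Q : Subgroup G).relIndex N ∣ (Q : Subgroup G).index := Lib.FGS2.relIndex_normal_dvd_index N _
      have h2 : (Q : Subgroup G).subgroupOf N = ⊥ := by
        rw [eq_bot_iff]
        intro y hy
        have hy1 : (y : G) ∈ (Q : Subgroup G) := hy
        have : (⟨y, hy1⟩ : ↥(Q : Subgroup G)) ∈ N.subgroupOf (Q : Subgroup G) := y.2
        rw [hT] at this
        have h3 : (y : G) = 1 := by simpa using this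
        exact Subgroup.mem_bot.2 (Subtype.ext h3)
      rw [Subgroup.relIndex, h2, Subgroup.index_bot] at h1
      exact Q.not_dvd_index (hd.trans h1)
    have h1 := Lib.H1Frat.normal_inf_center_ne_bot (N.subgroupOf (Q : Subgroup G)) hT
    obtain ⟨x, hx, hx1⟩ := (Subgroup.bot_or_exists_ne_one _).resolve_left h1
    obtain ⟨hxN, hxZ⟩ := Subgroup.mem_inf.1 hx
    have hxN' : (x : G) ∈ N := hxN
    apply hx1
    apply Subtype.ext
    apply hcent (x : G) hxN'
    intro r hr
    have := Subgroup.mem_center_iff.1 hxZ ⟨r, hQ hr⟩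
    exact (congrArg Subtype.val this).symm
  have hNnorm : ∀ (A : Subgroup G), A ≤ Subgroup.normalizer (N : Set G) := by
    intro A
    rw [Subgroup.normalizer_eq_top_iff.2 (inferInstance : N.Normal)]
    exact le_top
  obtain ⟨a, ha⟩ := hRp.exists_card_eq
  have hcop : (Nat.card R).Coprime (Nat.card N) := by
    rw [ha]
    exact Nat.Coprime.pow_left _ (((Fact.out : p.Prime).coprime_iff_not_dvd).2 hpN)
  have hRs : Group.IsSolvable R := by
    haveI := hRp.isNilpotent
    exact IsNilpotent.to_isSolvable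
  have hunique : ∀ (q : ℕ) [Fact q.Prime] (Q₁ Q₂ : Subgroup G), Lib.H1Cop.IsSylowIn q Q₁ N → Lib.H1Cop.IsSylowIn q Q₂ N →
      R ≤ Subgroup.normalizer (Q₁ : Set G) → R ≤ Subgroup.normalizer (Q₂ : Set G) → Q₁ = Q₂ := by
    intro q _ Q₁ Q₂ h1 h2 h3 h4
    obtain ⟨c, hc, hcQ⟩ := Lib.H1Cop.invariant_sylow_conj (hNnorm R) hcop (Or.inl hRs) q h1 h2 h3 h4
    obtain ⟨hc1, hc2⟩ := Subgroup.mem_inf.1 hc
    have hc3 : c = 1 := hcent c hc1 (fun r hr => ((Subgroup.mem_centralizer_iff.1 hc2) r hr).symm)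
    rw [hc3] at hcQ
    simpa using hcQ
  have hex : ∀ (q : ℕ) [Fact q.Prime], ∃ Q₀ : Subgroup G, Lib.H1Cop.IsSylowIn q Q₀ N ∧ M ≤ Subgroup.normalizer (Q₀ : Set G) := by
    intro q _
    obtain ⟨Q₀, hQ₀, hRQ⟩ := Lib.H1Cop.exists_invariant_sylow (hNnorm R) hcop (Or.inl hRs) q
    refine ⟨Q₀, hQ₀, ?_⟩
    intro m hm
    apply Lib.H1Conj.mem_normalizer_of_conj_smul_eq
    apply hunique q _ _ (Lib.H1Cop.IsSylowIn.conj_smul (hNnorm M hm) hQ₀) hQ₀ _ hRQ
    intro r hr
    have hrm : m⁻¹ * r * m ∈ R := by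
      have := (Subgroup.mem_normalizer_iff.1 (hMR (M.inv_mem hm)) r).1 hr
      simpa using this
    exact conj_inv_step m r Q₀ (hRQ hrm)
  refine ⟨hpN, ?_, ?_⟩
  · intro q _
    obtain ⟨Q₀, hQ₀, hMQ⟩ := hex q
    obtain ⟨P, hP1, hP2⟩ := hQ₀.exists_sylow
    refine ⟨P, by dsimp only; rw [hP2]; exact hMQ, ?_⟩
    intro P' hP'
    apply Sylow.ext
    apply Subgroup.map_injective N.subtype_injective
    rw [hP2]
    exact hunique q _ _ (Lib.H1Cop.isSylowIn_map P') hQ₀ (hRM.trans hP') (hRM.trans hMQ)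
  · rintro ⟨q, r, hq, hr, hqr, hqd, hrd⟩ hcoat
    haveI : Fact q.Prime := ⟨hq⟩
    obtain ⟨Q₀, ⟨hQN, hQp, hQi⟩, hMQ⟩ := hex q
    have hbot : M ⊓ Q₀ = ⊥ := by
      rw [eq_bot_iff, ← hMN]
      exact inf_le_inf_left _ hQN
    by_cases hle : Q₀ ≤ M
    · have : Q₀ = ⊥ := by
        rw [← inf_eq_right.2 hle]
        exact hbot
      rw [this, Subgroup.relIndex_bot_left] at hQi
      exact hQi hqd
    have hsup : M ⊔ Q₀ = ⊤ := hcoat.2 _ (lt_of_le_of_ne le_sup_left (fun h => hle (h ▸ le_sup_right)))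
    have h1 := Lib.H1Cop.card_sup_mul_inf_of_normalizes hMQ
    rw [hsup, hbot, Subgroup.card_top, Subgroup.card_bot, mul_one] at h1
    have h2 := Lib.H1Cop.card_sup_mul_inf_of_normalizes (hNnorm M)
    rw [hMN, Subgroup.card_bot, mul_one] at h2
    have h3 : Nat.card ↥(M ⊔ N) ≤ Nat.card G := Subgroup.card_le_card_group _
    have hMpos : 0 < Nat.card M := Nat.card_pos
    have h4 : Nat.card N ≤ Nat.card Q₀ := by
      rw [h2, h1] at h3
      exact Nat.le_of_mul_le_mul_left h3 hMpos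
    have h5 : Q₀ = N := Subgroup.eq_of_le_of_card_ge hQN h4
    rw [← h5] at hrd
    obtain ⟨b, hb⟩ := hQp.exists_card_eq
    rw [hb] at hrd
    exact hqr ((Nat.prime_dvd_prime_iff_eq hr hq).1 (hr.dvd_of_dvd_pow hrd)).symm

end Cfsg.Agent.S3749
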