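import Cfsg.Statements.S3760
import Cfsg.Agent.Lib.FGSBasic
-- import your own Cfsg.Agent.* helpers here

set_option autoImplicit false
open Cfsg

namespace Cfsg.Agent.S3760

/-- Let the group G act transitively on a set X, let x ∈ X with stabilizer H = G_x, and let K ≤ H. Then N_G(K) acts transitively on the set of fixed points of K if and only if every G-conjugate of K contained in H is already an H-conjugate of K. -/
theorem result {G : Type*} [Group G] {X : Type*} [MulAction G X] (htrans : ∀ a b : X, ∃ g : G, g • a = b) (x : X) (K : Subgroup G) (hK : K ≤ MulAction.stabilizer G x) : (∀ a b : X, (∀ k ∈ K, k • a = a) → (∀ k ∈ K, k • b = b) → ∃ g ∈ Subgroup.normalizer (K : Set G), g • a = b) ↔ ∀ g : G, K.map (MulAut.conj g).toMonoidHom ≤ MulAction.stabilizer G x → ∃ h ∈ MulAction.stabilizer G x, K.map (MulAut.conj g).toMonoidHom = K.map (MulAut.conj h).toMonoidHom := by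
  constructor
  · intro h g hg
    have hfix1 : ∀ k ∈ K, k • (g⁻¹ • x) = g⁻¹ • x := by
      intro k hk
      have h1 : g * k * g⁻¹ ∈ MulAction.stabilizer G x := hg ⟨k, hk, rfl⟩
      have h2 : (g * k * g⁻¹) • x = x := h1
      have h3 : k • (g⁻¹ • x) = g⁻¹ • ((g * k * g⁻¹) • x) := by
        simp only [smul_smul]
        congr 1
        group
      rw [h3, h2]
    have hfix2 : ∀ k ∈ K, k • x = x := fun k hk => hK hk
    obtain ⟨n, hn, hnx⟩ := h x (g⁻¹ • x) hfix2 hfix1
    refine ⟨g * n, ?_, ?_⟩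
    · change (g * n) • x = x
      rw [mul_smul, hnx, smul_inv_smul]
    · rw [Lib.FGSBasic.map_conj_eq_iff]
      have : (g * n)⁻¹ * g = n⁻¹ := by group
      rw [this]
      exact Subgroup.inv_mem _ hn
  · intro h a b ha hb
    obtain ⟨g₁, hg₁⟩ := htrans a x
    obtain ⟨g₂, hg₂⟩ := htrans b x
    have key : ∀ (c : X) (g : G), (∀ k ∈ K, k • c = c) → g • c = x →
        ∃ n ∈ Subgroup.normalizer (K : Set G), n • c = x := by
      intro c g hc hg
      have hsub : K.map (MulAut.conj g).toMonoidHom ≤ MulAction.stabilizer G x := by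
        rintro _ ⟨k, hk, rfl⟩
        change (g * k * g⁻¹) • x = x
        rw [← hg]
        simp only [smul_smul]
        rw [show g * k * g⁻¹ * g = g * k by group, mul_smul, hc k hk]
      obtain ⟨t, ht, hte⟩ := h g hsub
      refine ⟨t⁻¹ * g, (Lib.FGSBasic.map_conj_eq_iff K g t).1 hte, ?_⟩
      rw [mul_smul, hg]
      have : t⁻¹ ∈ MulAction.stabilizer G x := Subgroup.inv_mem _ ht
      exact this
    obtain ⟨n₁, hn₁, hx₁⟩ := key a g₁ ha hg₁
    obtain ⟨n₂, hn₂, hx₂⟩ := key b g₂ hb hg₂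
    refine ⟨n₂⁻¹ * n₁, Subgroup.mul_mem _ (Subgroup.inv_mem _ hn₂) hn₁, ?_⟩
    rw [mul_smul, hx₁, ← hx₂, inv_smul_smul]

end Cfsg.Agent.S3760
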