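import Cfsg.Statements.S3761
import Cfsg.Agent.Lib.H1TwoClass2
import Cfsg.Agent.Lib.PGrp2

set_option autoImplicit false
open Cfsg

namespace Cfsg.Agent.S3761

section core

open Subgroup Cfsg.Agent.Lib.H1Quat Cfsg.Agent.Lib.H1TwoClass

variable {G : Type*} [Group G] [Finite G]

theorem mem_z {p : ℕ} [Fact p.Prime] {x : G} {n : ℕ} (hn : 1 ≤ n) (hxo : orderOf x = p ^ n) {w : G}
    (hw : w ∈ zpowers x) (hwp : w ^ p = 1) : ∃ k : ℕ, w = (x ^ (p ^ (n - 1))) ^ k := by
  obtain ⟨k, rfl⟩ := exists_pow_of_mem_zpowers hw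
  rw [← pow_mul] at hwp
  have h1 : p ^ n ∣ k * p := by rw [← hxo]; exact orderOf_dvd_of_pow_eq_one hwp
  obtain ⟨e, rfl⟩ : ∃ e, n = e + 1 := ⟨n - 1, by omega⟩
  rw [pow_succ] at h1
  have h2 : p ^ e ∣ k := Nat.dvd_of_mul_dvd_mul_right (Nat.Prime.pos Fact.out) h1
  obtain ⟨c, rfl⟩ := h2
  exact ⟨c, by simp [pow_mul]⟩

theorem pow_gen {x τ z : G} {d : ℕ} (i : ℕ) (hzc : ∀ g, g * z = z * g) (hτ : τ * x * τ⁻¹ = x * z ^ d) (m : ℕ) :
    (x ^ i * τ) ^ m = x ^ (i * m) * τ ^ m * z ^ (d * i * (∑ k ∈ Finset.range m, k)) := by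
  have hzk : ∀ (e : ℕ) (g : G), g * z ^ e = z ^ e * g := by
    intro e g
    exact (((show Commute g z from hzc g).pow_right e)).eq
  have hA : τ * x ^ i = x ^ i * z ^ (d * i) * τ := by
    have h1 : τ * x ^ i * τ⁻¹ = (x * z ^ d) ^ i := by rw [← conj_pow, hτ]
    have h2 : (x * z ^ d) ^ i = x ^ i * z ^ (d * i) := by
      rw [(show Commute x (z ^ d) from hzk d x).mul_pow, pow_mul]
    rw [h2, mul_inv_eq_iff_eq_mul] at h1
    exact h1
  have hB : ∀ m : ℕ, τ ^ m * x ^ i = x ^ i * z ^ (d * i * m) * τ ^ m := by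
    intro m
    induction m with
    | zero => simp
    | succ m ih =>
      calc τ ^ (m + 1) * x ^ i = τ * (τ ^ m * x ^ i) := by rw [pow_succ']; group
        _ = τ * (x ^ i * z ^ (d * i * m) * τ ^ m) := by rw [ih]
        _ = (τ * x ^ i) * z ^ (d * i * m) * τ ^ m := by group
        _ = (x ^ i * z ^ (d * i) * τ) * z ^ (d * i * m) * τ ^ m := by rw [hA]
        _ = x ^ i * z ^ (d * i) * (τ * z ^ (d * i * m)) * τ ^ m := by group
        _ = x ^ i * z ^ (d * i) * (z ^ (d * i * m) * τ) * τ ^ m := by rw [hzk (d * i * m) τ]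
        _ = x ^ i * (z ^ (d * i) * z ^ (d * i * m)) * (τ * τ ^ m) := by group
        _ = x ^ i * z ^ (d * i * (m + 1)) * τ ^ (m + 1) := by
          rw [← pow_add, pow_succ' τ m, mul_add, mul_one, add_comm]
  induction m with
  | zero => simp
  | succ m ih =>
    rw [pow_succ, ih, Finset.sum_range_succ]
    set E := d * i * (∑ k ∈ Finset.range m, k) with hE
    calc x ^ (i * m) * τ ^ m * z ^ E * (x ^ i * τ) = x ^ (i * m) * τ ^ m * (z ^ E * x ^ i) * τ := by group
      _ = x ^ (i * m) * τ ^ m * (x ^ i * z ^ E) * τ := by rw [← hzk]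
      _ = x ^ (i * m) * (τ ^ m * x ^ i) * z ^ E * τ := by group
      _ = x ^ (i * m) * (x ^ i * z ^ (d * i * m) * τ ^ m) * z ^ E * τ := by rw [hB]
      _ = x ^ (i * m) * x ^ i * z ^ (d * i * m) * (τ ^ m * z ^ E) * τ := by group
      _ = x ^ (i * m) * x ^ i * z ^ (d * i * m) * (z ^ E * τ ^ m) * τ := by rw [hzk E (τ ^ m)]
      _ = x ^ (i * m) * x ^ i * (z ^ (d * i * m) * z ^ E) * (τ ^ m * τ) := by group
      _ = x ^ (i * (m + 1)) * ((z ^ (d * i * m) * z ^ E) * τ ^ (m + 1)) := by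
        rw [pow_succ τ m, mul_add, mul_one, pow_add x]
        group
      _ = x ^ (i * (m + 1)) * (τ ^ (m + 1) * (z ^ (d * i * m) * z ^ E)) := by
        rw [← pow_add, ← hzk]
      _ = _ := by
        rw [show d * i * ((∑ k ∈ Finset.range m, k) + m) = d * i * m + E by rw [hE]; ring, pow_add z,
          mul_assoc (x ^ (i * (m + 1)))]

theorem powform {p : ℕ} [Fact p.Prime] {x τ : G} {n d : ℕ} (hn : 2 ≤ n) (hpn : p ≠ 2 ∨ 3 ≤ n)
    (hxo : orderOf x = p ^ n)
    (hzc : ∀ g, g * x ^ (p ^ (n - 1)) = x ^ (p ^ (n - 1)) * g)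
    (hτ : τ * x * τ⁻¹ = x * (x ^ (p ^ (n - 1))) ^ d) (hd : ¬ p ∣ d) :
    ∃ u, Nat.Coprime u p ∧ ∀ i, (x ^ i * τ) ^ p = x ^ (p * i * u) * τ ^ p := by
  have hpp : p.Prime := Fact.out
  set z := x ^ (p ^ (n - 1)) with hz
  have hzp : z ^ p = 1 := by
    rw [hz, ← pow_mul, ← pow_succ, Nat.sub_add_cancel (by omega), ← hxo, pow_orderOf_eq_one]
  have hzk : ∀ (e : ℕ) (g : G), g * z ^ e = z ^ e * g := by
    intro e g
    exact (((show Commute g z from hzc g).pow_right e)).eq
  by_cases hp2 : p = 2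
  · subst hp2
    have hn3 : 3 ≤ n := by
      rcases hpn with h | h
      · exact absurd rfl h
      · exact h
    obtain ⟨e, rfl⟩ : ∃ e, n = e + 3 := ⟨n - 3, by omega⟩
    refine ⟨1 + 2 ^ (e + 1), ?_, ?_⟩
    · rw [Nat.coprime_two_right]
      exact Even.one_add (by simp [Nat.even_pow])
    · intro i
      rw [pow_gen i hzc hτ 2]
      have h1 : ∑ k ∈ Finset.range 2, k = 1 := by decide
      rw [h1, mul_one]
      obtain ⟨c, rfl⟩ : ∃ c, d = 2 * c + 1 := by
        rcases Nat.even_or_odd' d with ⟨c, rfl | rfl⟩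
        · exact absurd (dvd_mul_right 2 c) hd
        · exact ⟨c, rfl⟩
      have h2 : z ^ ((2 * c + 1) * i) = z ^ i := by
        have : (2 * c + 1) * i = 2 * (c * i) + i := by ring
        rw [this, pow_add, pow_mul, hzp, one_pow, one_mul]
      rw [h2, mul_assoc, hzk i (τ ^ 2), ← mul_assoc]
      congr 1
      rw [hz, ← pow_mul, ← pow_add]
      congr 1
      have h3 : e + 3 - 1 = e + 2 := by omega
      rw [h3]
      ring
  · refine ⟨1, Nat.coprime_one_left p, ?_⟩
    intro i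
    rw [pow_gen i hzc hτ p, mul_one]
    have hodd : Odd p := hpp.odd_of_ne_two hp2
    have hdvd : p ∣ ∑ k ∈ Finset.range p, k := by
      have h1 := Finset.sum_range_id_mul_two p
      have h2 : p ∣ (∑ k ∈ Finset.range p, k) * 2 := by
        rw [h1]
        exact dvd_mul_right _ _
      exact (hpp.dvd_mul.mp h2).resolve_right (fun h3 => hp2 ((Nat.prime_dvd_prime_iff_eq hpp Nat.prime_two).mp h3))
    obtain ⟨c, hc⟩ := hdvd
    rw [hc, show d * i * (p * c) = p * (d * i * c) by ring, pow_mul z, hzp, one_pow, mul_one, mul_comm p i]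

theorem lte_lemma {p b n : ℕ} (hp : p.Prime) (hp2 : p ≠ 2) (hn : 1 ≤ n) (hb0 : 1 ≤ b) (h : b ^ p ≡ 1 [MOD p ^ n]) :
    p ^ (n - 1) ∣ b - 1 := by
  haveI : Fact p.Prime := ⟨hp⟩
  rcases eq_or_lt_of_le hb0 with rfl | hb1
  · simp
  have hbpow : 1 < b ^ p := Nat.one_lt_pow hp.ne_zero hb1
  have h1 : p ^ n ∣ b ^ p - 1 := (Nat.modEq_iff_dvd' hbpow.le).mp h.symm
  have hdvd : p ∣ b - 1 := by
    have h2 : p ∣ b ^ p - 1 := (dvd_pow_self p (by omega)).trans h1
    have h3 : ((b ^ p - 1 : ℕ) : ZMod p) = 0 := (ZMod.natCast_eq_zero_iff _ _).mpr h2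
    rw [Nat.cast_sub hbpow.le] at h3
    push_cast at h3
    rw [ZMod.pow_card] at h3
    rw [← ZMod.natCast_eq_zero_iff, Nat.cast_sub hb1.le]
    push_cast
    exact h3
  have hnot : ¬ p ∣ b := by
    intro h2
    have h3 : p ∣ 1 := by
      have := Nat.dvd_sub h2 hdvd
      rwa [show b - (b - 1) = 1 by omega] at this
    exact hp.one_lt.ne' (Nat.dvd_one.mp h3)
  have hodd : Odd p := hp.odd_of_ne_two hp2
  have hv := padicValNat.pow_sub_pow (p := p) hodd hb1 hdvd hnot hp.ne_zero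
  rw [one_pow, padicValNat_self] at hv
  have hne : b ^ p - 1 ≠ 0 := by omega
  have h2 : n ≤ padicValNat p (b ^ p - 1) := (padicValNat_dvd_iff_le hne).mp h1
  have hne2 : b - 1 ≠ 0 := by omega
  rw [padicValNat_dvd_iff_le hne2]
  omega

theorem odd_action {p : ℕ} [Fact p.Prime] (hp2 : p ≠ 2) {x t : G} {n : ℕ} (hn : 1 ≤ n)
    (hxo : orderOf x = p ^ n) (hUn : (zpowers x).Normal) (htp : t ^ p ∈ zpowers x) :
    t * x ^ p = x ^ p * t := by
  have hpp : p.Prime := Fact.out
  obtain ⟨b, hb⟩ := exists_pow_of_mem_zpowers (hUn.conj_mem x (mem_zpowers x) t)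
  have hb0 : 1 ≤ b := by
    rcases Nat.eq_zero_or_pos b with rfl | h
    · exfalso
      rw [pow_zero] at hb
      have h1 : x = 1 := by
        have h2 : t⁻¹ * (t * x * t⁻¹) * t = x := by group
        rw [← hb] at h2
        rw [← h2]
        group
      rw [h1, orderOf_one] at hxo
      have := Nat.one_lt_pow (show n ≠ 0 by omega) hpp.one_lt
      omega
    · exact h
  have hiter : ∀ k : ℕ, t ^ k * x * (t ^ k)⁻¹ = x ^ (b ^ k) := by
    intro k
    induction k with
    | zero => simp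
    | succ k ih =>
      have e1 : t ^ (k + 1) * x * (t ^ (k + 1))⁻¹ = t * (t ^ k * x * (t ^ k)⁻¹) * t⁻¹ := by
        rw [pow_succ']
        group
      rw [e1, ih, conj_pow_eq hb.symm, pow_succ']
  have h1 : x ^ (b ^ p) = x ^ 1 := by
    rw [← hiter p, pow_one]
    obtain ⟨k, hk⟩ := exists_pow_of_mem_zpowers htp
    rw [← hk, ((Commute.refl x).pow_left k).eq, mul_inv_cancel_right]
  rw [pow_eq_pow_iff_modEq, hxo] at h1
  obtain ⟨c, hc⟩ := lte_lemma hpp hp2 hn hb0 h1
  have hb1 : b = 1 + p ^ (n - 1) * c := by omega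
  have h2 : t * x ^ p * t⁻¹ = x ^ p := by
    rw [conj_pow_eq hb.symm, hb1]
    have e1 : (1 + p ^ (n - 1) * c) * p = p + p ^ n * c := by
      obtain ⟨e, rfl⟩ : ∃ e, n = e + 1 := ⟨n - 1, by omega⟩
      simp only [Nat.add_sub_cancel]
      ring
    rw [e1, pow_add, pow_mul, ← hxo, pow_orderOf_eq_one, one_pow, mul_one]
  rwa [mul_inv_eq_iff_eq_mul] at h2

theorem index_two_of {P : Type*} [Group P] [Finite P] {x : P} {n : ℕ} (hP : IsPGroup 2 P) (hn2 : 2 ≤ n)
    (hxo : orderOf x = 2 ^ n) (hUn : (zpowers x).Normal)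
    (hC : centralizer ((zpowers x : Subgroup P) : Set P) = zpowers x) (hUtop : zpowers x ≠ ⊤)
    (hmod : ∀ t, t ∉ zpowers x → 3 ≤ n → t * x * t⁻¹ = x ^ (2 ^ (n - 1) + 1) → False) :
    (zpowers x).index = 2 := by
  classical
  haveI : Fact (Nat.Prime 2) := ⟨Nat.prime_two⟩
  haveI := hUn
  set U : Subgroup P := zpowers x with hU
  have hnormtop : ∀ (A : Subgroup P), A.Normal → normalizer (A : Set P) = ⊤ :=
    fun A hA => Subgroup.normalizer_eq_top_iff.mpr hA
  have hn1 : 1 ≤ n := by omega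
  set z := x ^ (2 ^ (n - 1)) with hz
  have hz2 : z * z = 1 := z_sq hn1 hxo
  have hz1 : z ≠ 1 := z_ne hn1 hxo
  have hzc : ∀ g : P, g * z * g⁻¹ = z := z_central hn1 hxo hUn
  have hzU : z ∈ U := npow_mem_zpowers x _
  -- the subgroup of order 4
  set w := x ^ (2 ^ (n - 2)) with hw
  have hwo : orderOf w = 2 ^ 2 := by
    rw [hw, orderOf_pow_of_dvd (by positivity) (by rw [hxo]; exact pow_dvd_pow 2 (by omega)), hxo]
    exact Nat.pow_div (by omega) (by norm_num) |>.trans (by congr 1; omega)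
  have hU₂n : (zpowers w).Normal := by
    constructor
    intro y hy g
    obtain ⟨k, rfl⟩ := Cfsg.Agent.Lib.H1Quat.exists_pow_of_mem_zpowers hy
    rw [← conj_pow]
    apply pow_mem
    have h1 : g * x * g⁻¹ ∈ U := hUn.conj_mem x (mem_zpowers x) g
    obtain ⟨b, hb⟩ := Cfsg.Agent.Lib.H1Quat.exists_pow_of_mem_zpowers h1
    rw [hw, conj_pow_eq hb.symm, mul_comm, pow_mul]
    exact npow_mem_zpowers _ _
  haveI := hU₂n
  set C₂ : Subgroup P := centralizer ((zpowers w : Subgroup P) : Set P) with hC₂def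
  haveI : C₂.Normal := inferInstance
  have hwU : zpowers w ≤ U := by
    rw [zpowers_le]
    exact npow_mem_zpowers x _
  have hUC₂ : U ≤ C₂ := by
    intro u hu
    rw [hC₂def, mem_centralizer_iff]
    intro v hv
    have h1 : v ∈ U := hwU hv
    obtain ⟨k, rfl⟩ := Cfsg.Agent.Lib.H1Quat.exists_pow_of_mem_zpowers hu
    obtain ⟨l, rfl⟩ := Cfsg.Agent.Lib.H1Quat.exists_pow_of_mem_zpowers h1
    exact ((Commute.refl x).pow_pow l k).eq
  have hC₂U : C₂ = U := by
    by_contra hne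
    have hlt : U < C₂ := lt_of_le_of_ne hUC₂ (Ne.symm hne)
    obtain ⟨V, hVn, hUV, hVC, -, -, t, htV, htU, ht2, hform⟩ :=
      Cfsg.Agent.Lib.PGrp.exists_normal_between hP U C₂ hlt
    rw [sq] at ht2
    obtain ⟨a, ha, hta, haa⟩ := exists_action hxo hUn ht2
    have htw : t * w * t⁻¹ = w := by
      have h1 : t ∈ C₂ := hVC htV
      have h2 := mem_centralizer_iff.mp h1 w (mem_zpowers w)
      rw [← h2]
      group
    rw [hw, conj_pow_eq hta] at htw
    have h4 : a * 2 ^ (n - 2) ≡ 1 * 2 ^ (n - 2) [MOD 2 ^ n] := by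
      rw [one_mul]
      have := (pow_eq_pow_iff_modEq (x := x)).mp htw
      rwa [hxo] at this
    have h5 : a ≡ 1 [MOD 4] := by
      have h6 : 2 ^ n = 4 * 2 ^ (n - 2) := by
        obtain ⟨e, rfl⟩ : ∃ e, n = e + 2 := ⟨n - 2, by omega⟩
        simp only [Nat.add_sub_cancel]
        ring
      rw [h6] at h4
      exact Nat.ModEq.mul_right_cancel' (by positivity) h4
    rcases sq_cases hn2 ha haa with h | h | h | h
    · -- centralizes
      apply htU
      rw [← hC, mem_centralizer_iff]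
      intro v hv
      obtain ⟨k, rfl⟩ := Cfsg.Agent.Lib.H1Quat.exists_pow_of_mem_zpowers hv
      rw [h, pow_one] at hta
      have h6 : t * x = x * t := by
        rw [mul_inv_eq_iff_eq_mul] at hta
        exact hta
      exact (((show Commute t x from h6).pow_right k).eq).symm
    · rcases Nat.lt_or_ge n 3 with h3 | h3
      · have : n = 2 := by omega
        subst this
        rw [h] at h5
        exact absurd h5 (by decide)
      · exact hmod t htU h3 (h ▸ hta)
    · obtain ⟨e, rfl⟩ : ∃ e, n = e + 2 := ⟨n - 2, by omega⟩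
      have h6 : 2 ^ (e + 2) = 4 * 2 ^ e := by ring
      have h7 : 0 < 2 ^ e := by positivity
      rw [h, h6] at h5
      have h8 : (4 * 2 ^ e - 1) % 4 = 1 := h5
      omega
    · rcases Nat.lt_or_ge n 3 with h3 | h3
      · have : n = 2 := by omega
        subst this
        norm_num at h
        subst h
        apply htU
        rw [← hC, mem_centralizer_iff]
        intro v hv
        obtain ⟨k, rfl⟩ := Cfsg.Agent.Lib.H1Quat.exists_pow_of_mem_zpowers hv
        rw [pow_one] at hta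
        have h6 : t * x = x * t := by
          rw [mul_inv_eq_iff_eq_mul] at hta
          exact hta
        exact (((show Commute t x from h6).pow_right k).eq).symm
      · obtain ⟨e, rfl⟩ : ∃ e, n = e + 3 := ⟨n - 3, by omega⟩
        have h6 : 2 ^ (e + 3 - 1) = 4 * 2 ^ e := by
          have : e + 3 - 1 = e + 2 := by omega
          rw [this]
          ring
        have h7 : 0 < 2 ^ e := by positivity
        rw [h, h6] at h5
        have h8 : (4 * 2 ^ e - 1) % 4 = 1 := h5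
        omega
  -- index two
  have hidx : U.index = 2 := by
    have h1 := Cfsg.Agent.Lib.H1Small.relIndex_centralizer_dvd_card_mulAut (zpowers w)
    rw [← hC₂def, hC₂U, hnormtop _ hU₂n, Subgroup.relIndex_top_right] at h1
    haveI : IsCyclic (zpowers w) := inferInstance
    rw [IsCyclic.card_mulAut, Nat.card_zpowers, hwo] at h1
    have h2 : Nat.totient (2 ^ 2) = 2 := by decide
    rw [h2] at h1
    rcases (Nat.dvd_prime Nat.prime_two).mp h1 with h3 | h3
    · exact absurd (Subgroup.index_eq_one.mp h3) hUtop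
    · exact h3
  exact hidx

theorem second_alt {p : ℕ} [Fact p.Prime] (hG : IsPGroup p G) {x : G} {n : ℕ} (hxo : orderOf x = p ^ n)
    (hUn : (zpowers x).Normal) (hC : centralizer ((zpowers x : Subgroup G) : Set G) = zpowers x)
    (hn : 2 ≤ n) (hpn : p ≠ 2 ∨ 3 ≤ n) {t' : G} (ht'M : t' * x ^ p = x ^ p * t') (ht'U : t' ∉ zpowers x) :
    (zpowers x).relIndex (centralizer ((zpowers (x ^ p) : Subgroup G) : Set G)) = p ∧
    Cfsg.IsElementaryAbelian p (Cfsg.omegaOne p (centralizer ((zpowers (x ^ p) : Subgroup G) : Set G))) ∧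
    Nat.card (Cfsg.omegaOne p (centralizer ((zpowers (x ^ p) : Subgroup G) : Set G))) = p ^ 2 ∧
    (Cfsg.omegaOne p (centralizer ((zpowers (x ^ p) : Subgroup G) : Set G))).Characteristic := by
  classical
  have hpp : p.Prime := Fact.out
  haveI := hUn
  set M : Subgroup G := centralizer ((zpowers (x ^ p) : Subgroup G) : Set G) with hM
  set U : Subgroup G := zpowers x with hU
  have hn1 : 1 ≤ n := by omega
  set z := x ^ (p ^ (n - 1)) with hz
  have hzU : z ∈ U := npow_mem_zpowers x _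
  have hzo : orderOf z = p := by
    rw [hz, orderOf_pow_of_dvd (pow_ne_zero _ hpp.ne_zero) (by rw [hxo]; exact pow_dvd_pow p (by omega)), hxo]
    obtain ⟨e, rfl⟩ : ∃ e, n = e + 1 := ⟨n - 1, by omega⟩
    simp [pow_succ, hpp.pos]
  have hzp : z ^ p = 1 := by rw [← hzo]; exact pow_orderOf_eq_one z
  have hz1 : z ≠ 1 := by
    intro h
    rw [h, orderOf_one] at hzo
    exact hpp.one_lt.ne hzo
  have hmemz : ∀ w ∈ U, w ^ p = 1 → ∃ k : ℕ, w = z ^ k := fun w hw hwp => mem_z hn1 hxo hw hwp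
  have hconjU : ∀ g : G, ∃ b : ℕ, g * x * g⁻¹ = x ^ b := by
    intro g
    obtain ⟨b, hb⟩ := exists_pow_of_mem_zpowers (hUn.conj_mem x (mem_zpowers x) g)
    exact ⟨b, hb.symm⟩
  -- z central
  have hZn : (zpowers z).Normal := by
    constructor
    intro y hy g
    obtain ⟨k, rfl⟩ := exists_pow_of_mem_zpowers hy
    obtain ⟨b, hb⟩ := hconjU g
    rw [← conj_pow]
    apply pow_mem
    rw [hz, ← conj_pow, hb, ← pow_mul, mul_comm, pow_mul]
    exact npow_mem_zpowers _ _
  haveI := hZn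
  have hzc : ∀ g, g * z = z * g := by
    have hlt : (⊥ : Subgroup G) < zpowers z := by
      rw [bot_lt_iff_ne_bot]
      intro h
      exact hz1 (zpowers_eq_bot.mp h)
    obtain ⟨V₁, -, hV₁1, hV₁V, hV₁c, hV₁z, -⟩ := Cfsg.Agent.Lib.PGrp.exists_normal_between hG ⊥ (zpowers z) hlt
    have hV₁eq : V₁ = zpowers z := Subgroup.eq_of_le_of_card_ge hV₁V (by
      rw [Nat.card_zpowers, hzo, hV₁c]
      simp)
    intro g
    have h1 := hV₁z z (by rw [hV₁eq]; exact mem_zpowers z) g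
    rw [Subgroup.mem_bot, commutatorElement_eq_one_iff_mul_comm] at h1
    exact h1.symm
  have hzk : ∀ (e : ℕ) (g : G), g * z ^ e = z ^ e * g := by
    intro e g
    exact (((show Commute g z from hzc g).pow_right e)).eq
  have hcentU : ∀ y, y * x = x * y → y ∈ U := by
    intro y hy
    rw [← hC, mem_centralizer_iff]
    intro v hv
    obtain ⟨k, rfl⟩ := exists_pow_of_mem_zpowers hv
    exact (((show Commute y x from hy).pow_right k).eq).symm
  -- membership in M
  have hMmem : ∀ y, y ∈ M ↔ y * x ^ p = x ^ p * y := by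
    intro y
    constructor
    · intro hy
      exact (mem_centralizer_iff.mp hy (x ^ p) (mem_zpowers _)).symm
    · intro hy
      apply mem_centralizer_iff.mpr
      intro h hh
      obtain ⟨k, rfl⟩ := exists_pow_of_mem_zpowers hh
      exact (((show Commute y (x ^ p) from hy).pow_right k).eq).symm
  have hU₁n : (zpowers (x ^ p)).Normal := by
    constructor
    intro y hy g
    obtain ⟨k, rfl⟩ := exists_pow_of_mem_zpowers hy
    obtain ⟨b, hb⟩ := hconjU g
    rw [← conj_pow]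
    apply pow_mem
    rw [← conj_pow, hb, ← pow_mul, mul_comm, pow_mul]
    exact npow_mem_zpowers _ _
  haveI := hU₁n
  haveI hMn : M.Normal := inferInstance
  have hUM : U ≤ M := by
    intro u hu
    rw [hMmem]
    obtain ⟨k, rfl⟩ := exists_pow_of_mem_zpowers hu
    exact ((Commute.refl x).pow_pow k p).eq
  have hact : ∀ y ∈ M, ∃ d, y * x * y⁻¹ = x * z ^ d := by
    intro y hy
    have hw : x⁻¹ * (y * x * y⁻¹) ∈ U := mul_mem (inv_mem (mem_zpowers x)) (hUn.conj_mem x (mem_zpowers x) y)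
    have hwp : (x⁻¹ * (y * x * y⁻¹)) ^ p = 1 := by
      obtain ⟨b, hb⟩ := hconjU y
      have h1 : Commute x⁻¹ (y * x * y⁻¹) := by
        rw [hb]
        exact ((Commute.refl x).pow_right b).inv_left
      rw [h1.mul_pow, conj_pow, (hMmem y).mp hy, mul_inv_cancel_right, inv_pow, inv_mul_cancel]
    obtain ⟨d, hd⟩ := hmemz _ hw hwp
    refine ⟨d, ?_⟩
    rw [← hd]
    group
  have hUlt : U < M := lt_of_le_of_ne hUM (fun h => ht'U (by rw [h]; exact (hMmem t').mpr ht'M))
  obtain ⟨V, hVn, hUV, hVM, -, -, t, htV, htU, htp, -⟩ :=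
    Cfsg.Agent.Lib.PGrp.exists_normal_between hG U M hUlt
  have htM : t ∈ M := hVM htV
  obtain ⟨d₀, hd₀⟩ := hact t htM
  have hd₀' : ¬ p ∣ d₀ := by
    rintro ⟨c, rfl⟩
    apply htU
    rw [pow_mul, hzp, one_pow, mul_one, mul_inv_eq_iff_eq_mul] at hd₀
    exact hcentU t hd₀
  obtain ⟨k, hk⟩ := exists_pow_of_mem_zpowers htp
  have hxz : ∀ (d k : ℕ), (x * z ^ d) ^ k = x ^ k * z ^ (d * k) := by
    intro d k
    rw [(show Commute x (z ^ d) from hzk d x).mul_pow, pow_mul]
  have hkdvd : p ∣ k := by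
    have h1 : t * x ^ k * t⁻¹ = x ^ k := by
      rw [hk, ← pow_succ', pow_succ, mul_inv_cancel_right]
    rw [← conj_pow, hd₀, hxz] at h1
    have h2 : z ^ (d₀ * k) = 1 := mul_eq_left.mp h1
    have h3 : p ∣ d₀ * k := by
      rw [← hzo]
      exact orderOf_dvd_of_pow_eq_one h2
    exact (hpp.dvd_mul.mp h3).resolve_left hd₀'
  obtain ⟨k', rfl⟩ := hkdvd
  obtain ⟨u, hu, hform⟩ := powform hn hpn hxo hzc hd₀ hd₀'
  have hsolve : ∃ i : ℕ, p ^ n ∣ i * u + k' := by
    haveI : NeZero (p ^ n) := ⟨pow_ne_zero _ hpp.ne_zero⟩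
    have hu' : IsUnit (u : ZMod (p ^ n)) := (ZMod.isUnit_iff_coprime u (p ^ n)).mpr (Nat.Coprime.pow_right n hu)
    obtain ⟨v, hv⟩ := hu'
    refine ⟨(-(k' : ZMod (p ^ n)) * ((v⁻¹ : (ZMod (p ^ n))ˣ) : ZMod (p ^ n))).val, ?_⟩
    rw [← ZMod.natCast_eq_zero_iff]
    push_cast
    rw [ZMod.natCast_val, ZMod.cast_id', id, ← hv, mul_assoc, Units.inv_mul]
    ring
  obtain ⟨i, hi⟩ := hsolve
  set t₀ := x ^ i * t with ht₀
  have ht₀p : t₀ ^ p = 1 := by
    rw [ht₀, hform i, ← hk, ← pow_add, show p * i * u + p * k' = p * (i * u + k') by ring]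
    obtain ⟨c, hc⟩ := hi
    rw [hc, show p * (p ^ n * c) = orderOf x * (p * c) by rw [hxo]; ring, pow_mul, pow_orderOf_eq_one, one_pow]
  have ht₀U : t₀ ∉ U := by
    intro h
    apply htU
    have h1 : t = (x ^ i)⁻¹ * t₀ := by rw [ht₀]; group
    rw [h1]
    exact mul_mem (inv_mem (npow_mem_zpowers x i)) h
  have ht₀M : t₀ ∈ M := mul_mem (hUM (npow_mem_zpowers x i)) htM
  have ht₀act : t₀ * x * t₀⁻¹ = x * z ^ d₀ := by
    have e1 : t₀ * x * t₀⁻¹ = x ^ i * (t * x * t⁻¹) * (x ^ i)⁻¹ := by rw [ht₀]; group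
    rw [e1, hd₀]
    have e2 : x ^ i * (x * z ^ d₀) * (x ^ i)⁻¹ = (x ^ i * x * (x ^ i)⁻¹) * z ^ d₀ := by
      have e3 := hzk d₀ (x ^ i)⁻¹
      calc x ^ i * (x * z ^ d₀) * (x ^ i)⁻¹ = x ^ i * x * (z ^ d₀ * (x ^ i)⁻¹) := by group
        _ = x ^ i * x * ((x ^ i)⁻¹ * z ^ d₀) := by rw [e3]
        _ = _ := by group
    have e5 : x ^ i * x = x * x ^ i := ((Commute.refl x).pow_left i).eq
    rw [e2, e5, mul_inv_cancel_right]
  have ht₀1 : t₀ ≠ 1 := fun h => ht₀U (h ▸ U.one_mem)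
  have ht₀o : orderOf t₀ = p := orderOf_eq_prime ht₀p ht₀1
  have hτ : ∀ j : ℕ, t₀ ^ j * x * (t₀ ^ j)⁻¹ = x * z ^ (d₀ * j) := by
    intro j
    induction j with
    | zero => simp
    | succ j ih =>
      have e1 : t₀ ^ (j + 1) * x * (t₀ ^ (j + 1))⁻¹ = t₀ * (t₀ ^ j * x * (t₀ ^ j)⁻¹) * t₀⁻¹ := by
        rw [pow_succ']
        group
      rw [e1, ih]
      have e3 := hzk (d₀ * j) t₀⁻¹
      calc t₀ * (x * z ^ (d₀ * j)) * t₀⁻¹ = t₀ * x * (z ^ (d₀ * j) * t₀⁻¹) := by group
        _ = t₀ * x * (t₀⁻¹ * z ^ (d₀ * j)) := by rw [e3]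
        _ = (t₀ * x * t₀⁻¹) * z ^ (d₀ * j) := by group
        _ = x * z ^ d₀ * z ^ (d₀ * j) := by rw [ht₀act]
        _ = x * z ^ (d₀ * (j + 1)) := by rw [mul_assoc, ← pow_add, mul_add, mul_one, add_comm]
  have hformM : ∀ y ∈ M, ∃ j i : ℕ, y = x ^ i * t₀ ^ j := by
    intro y hy
    obtain ⟨d, hd⟩ := hact y hy
    have hcop : Nat.Coprime d₀ p := ((Nat.Prime.coprime_iff_not_dvd hpp).mpr hd₀').symm
    obtain ⟨m, -, hm⟩ := Nat.exists_mul_mod_eq_one_of_coprime hcop hpp.one_lt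
    refine ?_
    set j := d * m with hj
    have hzj : z ^ (d₀ * j) = z ^ d := by
      have h1 : d₀ * j % p = d % p := by
        rw [hj, show d₀ * (d * m) = d * (d₀ * m) by ring, Nat.mul_mod, hm, mul_one, Nat.mod_mod]
      rw [pow_eq_pow_mod (d₀ * j) hzp, pow_eq_pow_mod d hzp, h1]
    have hτj := hτ j
    rw [hzj] at hτj
    set τ := t₀ ^ j with hτdef
    have hinv : τ⁻¹ * x * τ = x * (z ^ d)⁻¹ := by
      have e1 : x = τ * (τ⁻¹ * x * τ) * τ⁻¹ := by group
      have e2 : τ⁻¹ * (τ * x * τ⁻¹) * τ = x := by group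
      rw [hτj] at e2
      have e3 : τ⁻¹ * (x * z ^ d) * τ = (τ⁻¹ * x * τ) * z ^ d := by
        have e4 := hzk d τ
        calc τ⁻¹ * (x * z ^ d) * τ = τ⁻¹ * x * (z ^ d * τ) := by group
          _ = τ⁻¹ * x * (τ * z ^ d) := by rw [e4]
          _ = _ := by group
      rw [e3] at e2
      rw [eq_mul_inv_iff_mul_eq]
      exact e2
    have hw : (y * τ⁻¹) * x = x * (y * τ⁻¹) := by
      have e1 : (y * τ⁻¹) * x * (y * τ⁻¹)⁻¹ = y * (τ⁻¹ * x * τ) * y⁻¹ := by group
      rw [hinv] at e1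
      have e2 : y * (x * (z ^ d)⁻¹) * y⁻¹ = (y * x * y⁻¹) * (z ^ d)⁻¹ := by
        have e4 : (z ^ d)⁻¹ * y⁻¹ = y⁻¹ * (z ^ d)⁻¹ := by
          rw [← mul_inv_rev, ← mul_inv_rev, hzk d y]
        calc y * (x * (z ^ d)⁻¹) * y⁻¹ = y * x * ((z ^ d)⁻¹ * y⁻¹) := by group
          _ = y * x * (y⁻¹ * (z ^ d)⁻¹) := by rw [e4]
          _ = _ := by group
      rw [e2, hd, mul_inv_cancel_right] at e1
      rwa [mul_inv_eq_iff_eq_mul] at e1
    obtain ⟨i', hi'⟩ := exists_pow_of_mem_zpowers (hcentU _ hw)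
    refine ⟨j, i', ?_⟩
    show y = x ^ i' * τ
    rw [hi', inv_mul_cancel_right]
  -- the two subgroups
  set T : Subgroup G := zpowers t₀ with hT
  set Z : Subgroup G := zpowers z with hZ
  have hTM : T ≤ M := by
    rw [hT, zpowers_le]
    exact ht₀M
  have hZU : Z ≤ U := by
    rw [hZ, zpowers_le]
    exact hzU
  have hTU : T ⊓ U = ⊥ := by
    rw [eq_bot_iff]
    intro w hw
    by_contra hw1
    have hw1' : w ≠ 1 := by simpa using hw1
    obtain ⟨hwT, hwU⟩ := hw
    obtain ⟨a, rfl⟩ := exists_pow_of_mem_zpowers hwT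
    have h1 : orderOf (t₀ ^ a) = p :=
      orderOf_eq_prime (by rw [← pow_mul, mul_comm, pow_mul, ht₀p, one_pow]) hw1'
    have h2 : zpowers (t₀ ^ a) = zpowers t₀ :=
      Subgroup.eq_of_le_of_card_ge (zpowers_le.mpr (npow_mem_zpowers _ _))
        (by rw [Nat.card_zpowers, Nat.card_zpowers, h1, ht₀o])
    have h3 : t₀ ∈ zpowers (t₀ ^ a) := by rw [h2]; exact mem_zpowers t₀
    exact ht₀U ((zpowers_le.mpr hwU) h3)
  have hMsup : M = T ⊔ U := by
    apply le_antisymm
    · intro y hy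
      obtain ⟨j, i, rfl⟩ := hformM y hy
      exact mul_mem (Subgroup.mem_sup_right (npow_mem_zpowers x i)) (Subgroup.mem_sup_left (npow_mem_zpowers t₀ j))
    · exact sup_le hTM hUM
  have hrel : U.relIndex M = p := by
    rw [hMsup, Subgroup.relIndex_sup_right, ← Subgroup.inf_relIndex_right, inf_comm, hTU,
      Subgroup.relIndex_bot_left, hT, Nat.card_zpowers, ht₀o]
  set W : Subgroup G := T ⊔ Z with hW
  have hWmem : ∀ w ∈ W, ∃ a b : ℕ, w = t₀ ^ a * z ^ b := by
    intro w hw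
    obtain ⟨y, hy, v, hv, rfl⟩ := Subgroup.mem_sup_of_normal_right.mp hw
    obtain ⟨a, rfl⟩ := exists_pow_of_mem_zpowers hy
    obtain ⟨b, rfl⟩ := exists_pow_of_mem_zpowers hv
    exact ⟨a, b, rfl⟩
  have hWexp : ∀ w ∈ W, w ^ p = 1 := by
    intro w hw
    obtain ⟨a, b, rfl⟩ := hWmem w hw
    have h1 : Commute (t₀ ^ a) (z ^ b) := hzk b _
    rw [h1.mul_pow, ← pow_mul, ← pow_mul, mul_comm a, mul_comm b, pow_mul, pow_mul z, ht₀p, hzp, one_pow, one_pow, one_mul]
  have hWcomm : ∀ v ∈ W, ∀ w ∈ W, v * w = w * v := by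
    intro v hv w hw
    obtain ⟨a, b, rfl⟩ := hWmem v hv
    obtain ⟨c, d, rfl⟩ := hWmem w hw
    have h1 : Commute (t₀ ^ a) (z ^ d) := hzk d _
    have h2 : Commute (z ^ b) (t₀ ^ c) := (hzk b _).symm
    have h3 : Commute (t₀ ^ a) (t₀ ^ c) := (Commute.refl t₀).pow_pow a c
    have h4 : Commute (z ^ b) (z ^ d) := (Commute.refl z).pow_pow b d
    exact ((h3.mul_right h1).mul_left (h2.mul_right h4)).eq
  have hWcard : Nat.card W = p ^ 2 := by
    have hZW : Z ≤ W := le_sup_right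
    have h1 := Cfsg.Agent.Lib.H1Small.relIndex_mul_card hZW
    have hTZ : Z ⊓ T = ⊥ := by
      rw [eq_bot_iff]
      intro w hw
      have : w ∈ T ⊓ U := ⟨hw.2, hZU hw.1⟩
      rwa [hTU] at this
    have h2 : Z.relIndex W = p := by
      rw [hW, Subgroup.relIndex_sup_right, ← Subgroup.inf_relIndex_right, hTZ,
        Subgroup.relIndex_bot_left, hT, Nat.card_zpowers, ht₀o]
    rw [← h1, h2, hZ, Nat.card_zpowers, hzo, sq]
  have hΩ : Cfsg.omegaOne p M = W := by
    apply le_antisymm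
    · rw [Cfsg.omegaOne, Subgroup.closure_le]
      rintro y ⟨hy, hyp⟩
      obtain ⟨j, i, rfl⟩ := hformM y hy
      by_cases hj : p ∣ j
      · obtain ⟨c, rfl⟩ := hj
        rw [pow_mul, ht₀p, one_pow, mul_one] at hyp ⊢
        obtain ⟨k, hk⟩ := hmemz _ (npow_mem_zpowers x i) hyp
        rw [hk]
        exact Subgroup.mem_sup_right (npow_mem_zpowers z k)
      · have hdj : ¬ p ∣ d₀ * j := fun h => (hpp.dvd_mul.mp h).elim hd₀' hj
        obtain ⟨u', hu', hform'⟩ := powform hn hpn hxo hzc (hτ j) hdj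
        have hτp : (t₀ ^ j) ^ p = 1 := by rw [← pow_mul, mul_comm, pow_mul, ht₀p, one_pow]
        rw [hform' i, hτp, mul_one] at hyp
        have h1 : p ^ n ∣ p * i * u' := by
          rw [← hxo]
          exact orderOf_dvd_of_pow_eq_one hyp
        have hi' : p ^ (n - 1) ∣ i := by
          obtain ⟨e, rfl⟩ : ∃ e, n = e + 1 := ⟨n - 1, by omega⟩
          simp only [Nat.add_sub_cancel]
          rw [pow_succ', mul_assoc] at h1
          have h2 : p ^ e ∣ i * u' := Nat.dvd_of_mul_dvd_mul_left hpp.pos h1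
          exact (Nat.Coprime.pow_left e hu'.symm).dvd_of_dvd_mul_right h2
        obtain ⟨c, rfl⟩ := hi'
        rw [pow_mul, ← hz, show z ^ c * t₀ ^ j = t₀ ^ j * z ^ c from (hzk c (t₀ ^ j)).symm]
        exact mul_mem (Subgroup.mem_sup_left (npow_mem_zpowers t₀ j)) (Subgroup.mem_sup_right (npow_mem_zpowers z c))
    · apply sup_le
      · rw [hT, zpowers_le]
        exact Subgroup.subset_closure ⟨ht₀M, ht₀p⟩
      · rw [hZ, zpowers_le]
        exact Subgroup.subset_closure ⟨hUM hzU, hzp⟩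
  have hWn : W.Normal := by
    rw [← hΩ]
    constructor
    intro w hw g
    have h1 : Cfsg.omegaOne p M ≤ (Cfsg.omegaOne p M).comap (MulAut.conj g).toMonoidHom := by
      rw [Cfsg.omegaOne, Subgroup.closure_le]
      rintro y ⟨hy, hyp⟩
      apply Subgroup.subset_closure
      refine ⟨hMn.conj_mem y hy g, ?_⟩
      show (g * y * g⁻¹) ^ p = 1
      rw [conj_pow, hyp]
      group
    exact h1 hw
  have hunique : ∀ E : Subgroup G, E.Normal → (∀ y ∈ E, y ^ p = 1) → Nat.card E = p ^ 2 → E = W := by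
    intro E hEn hEp hEc
    apply Subgroup.eq_of_le_of_card_ge
    · rw [← hΩ]
      intro y hy
      apply Subgroup.subset_closure
      refine ⟨?_, hEp y hy⟩
      have hw1 : y * x * y⁻¹ * x⁻¹ ∈ E := by
        have : y * x * y⁻¹ * x⁻¹ = y * (x * y⁻¹ * x⁻¹) := by group
        rw [this]
        exact mul_mem hy (hEn.conj_mem _ (inv_mem hy) x)
      have hw2 : y * x * y⁻¹ * x⁻¹ ∈ U := mul_mem (hUn.conj_mem x (mem_zpowers x) y) (inv_mem (mem_zpowers x))
      obtain ⟨k, hk⟩ := hmemz _ hw2 (hEp _ hw1)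
      have h1 : y * x * y⁻¹ = z ^ k * x := by
        rw [← hk]
        group
      rw [hMmem]
      have h2 : y * x ^ p * y⁻¹ = x ^ p := by
        rw [← conj_pow, h1, (show Commute (z ^ k) x from (hzk k x).symm).mul_pow, ← pow_mul, mul_comm k, pow_mul, hzp,
          one_pow, one_mul]
      rwa [mul_inv_eq_iff_eq_mul] at h2
    · rw [hEc, hWcard]
  refine ⟨hrel, ?_, ?_, ?_⟩
  · rw [hΩ]
    exact ⟨⟨⟨fun a b => Subtype.ext (hWcomm a a.2 b b.2)⟩⟩, hWexp⟩
  · rw [hΩ, hWcard]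
  · rw [hΩ, Subgroup.characteristic_iff_map_eq]
    intro φ
    apply hunique
    · exact hWn.map _ φ.surjective
    · rintro _ ⟨w, hw, rfl⟩
      show φ w ^ p = 1
      rw [← map_pow, hWexp w hw, map_one]
    · rw [← hWcard]
      exact Nat.card_congr (Subgroup.equivMapOfInjective W φ.toMonoidHom φ.injective).symm.toEquiv

end core
/-- Let G be a finite non-abelian p-group with a cyclic normal subgroup U of order p^n such that C_G(U) = U. Then either p = 2 and G is dihedral, generalized quaternion or semidihedral of order 2^(n+1); or, writing U₁ for the subgroup generated by the p-th powers of elements of U and M = C_G(U₁), the subgroup U has index p in M and the subgroup Ω₁(M) generated by the elements of M of order dividing p is elementary abelian of order p² and characteristic in G. -/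
theorem result {G : Type*} [Group G] [Finite G] {p : ℕ} [Fact p.Prime] (hG : IsPGroup p G) (hna : ¬ IsMulCommutative G) (U : Subgroup G) [U.Normal] (hU : IsCyclic U) (n : ℕ) (hUn : Nat.card U = p ^ n) (hC : Subgroup.centralizer (U : Set G) = U) : (p = 2 ∧ Nat.card G = 2 ^ (n + 1) ∧ ((∃ m : ℕ, Nonempty (G ≃* DihedralGroup m)) ∨ (∃ m : ℕ, Nonempty (G ≃* QuaternionGroup m)) ∨ Cfsg.IsQuasiDihedral G)) ∨ (U.relIndex (Subgroup.centralizer (Cfsg.powerClosure p 1 U : Set G)) = p ∧ Cfsg.IsElementaryAbelian p (Cfsg.omegaOne p (Subgroup.centralizer (Cfsg.powerClosure p 1 U : Set G))) ∧ Nat.card ↥(Cfsg.omegaOne p (Subgroup.centralizer (Cfsg.powerClosure p 1 U : Set G))) = p ^ 2 ∧ (Cfsg.omegaOne p (Subgroup.centralizer (Cfsg.powerClosure p 1 U : Set G))).Characteristic) := by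

  classical
  have hpp : p.Prime := Fact.out
  obtain ⟨⟨x, hxU⟩, hgen⟩ := IsCyclic.exists_generator (α := U)
  have hUz : U = Subgroup.zpowers x := by
    apply le_antisymm
    · intro y hy
      obtain ⟨k, hk⟩ := Subgroup.mem_zpowers_iff.mp (hgen ⟨y, hy⟩)
      have h1 := congrArg Subtype.val hk
      simp only [Subgroup.coe_zpow] at h1
      exact Subgroup.mem_zpowers_iff.mpr ⟨k, h1⟩
    · rw [Subgroup.zpowers_le]
      exact hxU
  subst hUz
  rename_i hUn'
  have hxo : orderOf x = p ^ n := by rw [← hUn, Nat.card_zpowers]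
  have hPC : Cfsg.powerClosure p 1 (Subgroup.zpowers x) = Subgroup.zpowers (x ^ p) := by
    apply le_antisymm
    · rw [Cfsg.powerClosure, Subgroup.closure_le]
      rintro y ⟨u, hu, rfl⟩
      obtain ⟨k, rfl⟩ := Cfsg.Agent.Lib.H1Quat.exists_pow_of_mem_zpowers hu
      rw [pow_one, ← pow_mul, mul_comm, pow_mul]
      exact Subgroup.npow_mem_zpowers _ _
    · rw [Subgroup.zpowers_le]
      exact Subgroup.subset_closure ⟨x, Subgroup.mem_zpowers x, by rw [pow_one]⟩
  rw [hPC]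
  have hUtop : Subgroup.zpowers x ≠ ⊤ := by
    intro h
    apply hna
    have h1 : ∀ g : G, g ∈ Subgroup.zpowers x := fun g => by rw [h]; trivial
    refine ⟨⟨fun a b => ?_⟩⟩
    obtain ⟨i, hi⟩ := Subgroup.mem_zpowers_iff.mp (h1 a)
    obtain ⟨j, hj⟩ := Subgroup.mem_zpowers_iff.mp (h1 b)
    rw [← hi, ← hj]
    exact ((Commute.refl x).zpow_zpow i j).eq
  have hdvdφ : (Subgroup.zpowers x).index ∣ Nat.totient (p ^ n) := by
    have h1 := Cfsg.Agent.Lib.H1Small.relIndex_centralizer_dvd_card_mulAut (Subgroup.zpowers x)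
    rw [hC, Subgroup.normalizer_eq_top_iff.mpr hUn', Subgroup.relIndex_top_right, IsCyclic.card_mulAut,
      Nat.card_zpowers, hxo] at h1
    exact h1
  obtain ⟨K, hK⟩ := IsPGroup.iff_card.mp hG
  have hidxpow : ∃ j, (Subgroup.zpowers x).index = p ^ j := by
    have h1 : (Subgroup.zpowers x).index ∣ p ^ K := by
      rw [← hK]
      exact Subgroup.index_dvd_card _
    obtain ⟨j, -, hj⟩ := (Nat.dvd_prime_pow hpp).mp h1
    exact ⟨j, hj⟩
  have hn2 : 2 ≤ n := by
    by_contra hlt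
    have hn01 : n = 0 ∨ n = 1 := by omega
    obtain ⟨j, hj⟩ := hidxpow
    have hj0 : j = 0 := by
      by_contra hj0
      have h1 : p ∣ (Subgroup.zpowers x).index := by
        rw [hj]
        exact dvd_pow_self p hj0
      have h2 := h1.trans hdvdφ
      rcases hn01 with rfl | rfl
      · simp at h2
        exact hpp.one_lt.ne' h2
      · rw [pow_one, Nat.totient_prime hpp] at h2
        have h3 := Nat.le_of_dvd (Nat.sub_pos_of_lt hpp.one_lt) h2
        have := hpp.one_lt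
        omega
    rw [hj0, pow_zero] at hj
    exact hUtop (Subgroup.index_eq_one.mp hj)
  have hconc2 : p = 2 → (Subgroup.zpowers x).index = 2 →
      (∀ y, y ∉ Subgroup.zpowers x → 3 ≤ n → y * x * y⁻¹ = x ^ (2 ^ (n - 1) + 1) → False) →
      (p = 2 ∧ Nat.card G = 2 ^ (n + 1) ∧ ((∃ m : ℕ, Nonempty (G ≃* DihedralGroup m)) ∨ (∃ m : ℕ, Nonempty (G ≃* QuaternionGroup m)) ∨ Cfsg.IsQuasiDihedral G)) := by
    intro hp hidx hmod
    subst hp
    refine ⟨rfl, ?_, ?_⟩
    · have h1 := (Subgroup.zpowers x).index_mul_card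
      rw [hidx, Nat.card_zpowers, hxo] at h1
      rw [← h1]
      ring
    · have hab : ∀ y, y ∉ Subgroup.zpowers x → y * x * y⁻¹ ≠ x := by
        intro y hy h
        apply hy
        rw [← hC, Subgroup.mem_centralizer_iff]
        intro v hv
        obtain ⟨k, rfl⟩ := Cfsg.Agent.Lib.H1Quat.exists_pow_of_mem_zpowers hv
        rw [mul_inv_eq_iff_eq_mul] at h
        exact (((show Commute y x from h).pow_right k).eq).symm
      rcases Cfsg.Agent.Lib.H1TwoClass2.idx2 hn2 hxo hUn' hidx hab hmod with ⟨k, -, h⟩ | ⟨k, -, h⟩ | h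
      · exact Or.inr (Or.inl ⟨_, h⟩)
      · exact Or.inl ⟨_, h⟩
      · exact Or.inr (Or.inr h)
  by_cases hM : ∃ t, t * x ^ p = x ^ p * t ∧ t ∉ Subgroup.zpowers x
  · obtain ⟨t, ht1, ht2⟩ := hM
    by_cases hpn : p ≠ 2 ∨ 3 ≤ n
    · right
      exact second_alt hG hxo hUn' hC hn2 hpn ht1 ht2
    · left
      push_neg at hpn
      obtain ⟨hp2, hn3⟩ := hpn
      subst hp2
      have hn22 : n = 2 := by omega
      subst hn22
      have hidx : (Subgroup.zpowers x).index = 2 := by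
        have h1 : Nat.totient (2 ^ 2) = 2 := by decide
        rw [h1] at hdvdφ
        rcases (Nat.dvd_prime Nat.prime_two).mp hdvdφ with h3 | h3
        · exact absurd (Subgroup.index_eq_one.mp h3) hUtop
        · exact h3
      exact hconc2 rfl hidx (fun y _ h => by omega)
  · push_neg at hM
    by_cases hp2 : p = 2
    · subst hp2
      left
      have hmod : ∀ y, y ∉ Subgroup.zpowers x → 3 ≤ n → y * x * y⁻¹ = x ^ (2 ^ (n - 1) + 1) → False := by
        intro y hy hn3 hyx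
        apply hy
        apply hM
        have h1 : y * x ^ 2 * y⁻¹ = x ^ 2 := by
          rw [Cfsg.Agent.Lib.H1TwoClass.conj_pow_eq hyx]
          have h5 : (2 ^ (n - 1) + 1) * 2 = 2 ^ n + 2 := by
            obtain ⟨e, rfl⟩ : ∃ e, n = e + 1 := ⟨n - 1, by omega⟩
            simp only [Nat.add_sub_cancel]
            ring
          rw [h5, pow_add, ← hxo, pow_orderOf_eq_one, one_mul]
        rwa [mul_inv_eq_iff_eq_mul] at h1
      exact hconc2 rfl (index_two_of hG hn2 hxo hUn' hC hUtop hmod) hmod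
    · exfalso
      have hlt : Subgroup.zpowers x < ⊤ := lt_top_iff_ne_top.mpr hUtop
      obtain ⟨-, -, -, -, -, -, t, -, htU, htp, -⟩ :=
        Cfsg.Agent.Lib.PGrp.exists_normal_between hG (Subgroup.zpowers x) ⊤ hlt
      exact htU (hM t (odd_action hp2 (by omega) hxo hUn' htp))

end Cfsg.Agent.S3761
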