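import Cfsg.Statements.S3768
import Cfsg.Agent.Lib.H1FrobThm
import Cfsg.Agent.Lib.FGSBasic
-- import your own Cfsg.Agent.* helpers here

set_option autoImplicit false
open Cfsg

namespace Cfsg.Agent.S3768

open scoped Pointwise
/-- injective self-map on a finite subgroup commutators -/
lemma surj_comm {G : Type*} [Group G] [Finite G] (A : Subgroup G) [hA : A.Normal] (x : G)
    (hf : ∀ k ∈ A, x * k = k * x → k = 1) (a : G) (ha : a ∈ A) :
    ∃ m ∈ A, m * x * m⁻¹ * x⁻¹ = a := by
  classical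
  let f : A → A := fun m => ⟨m * x * (m : G)⁻¹ * x⁻¹, by
    have h1 : x * (m : G)⁻¹ * x⁻¹ ∈ A := hA.conj_mem _ (A.inv_mem m.2) x
    have : (m : G) * x * (m : G)⁻¹ * x⁻¹ = m * (x * (m : G)⁻¹ * x⁻¹) := by group
    rw [this]
    exact A.mul_mem m.2 h1⟩
  have hinj : Function.Injective f := by
    intro m n hmn
    have h : (m : G) * x * (m : G)⁻¹ * x⁻¹ = n * x * (n : G)⁻¹ * x⁻¹ := congrArg Subtype.val hmn
    have h2 : (n : G)⁻¹ * m ∈ A := A.mul_mem (A.inv_mem n.2) m.2
    have h3 := hf _ h2 (by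
      have h4 : (m : G) * x * (m : G)⁻¹ = n * x * (n : G)⁻¹ := by
        have := congrArg (· * x) h
        simpa using this
      have : x * ((n : G)⁻¹ * m) = (n : G)⁻¹ * ((n : G) * x * (n : G)⁻¹) * m := by group
      rw [this, ← h4]
      group)
    apply Subtype.ext
    have : (m : G) = n * ((n : G)⁻¹ * m) := by group
    rw [this, h3, mul_one]
  have hsurj := (Finite.injective_iff_surjective.mp hinj) ⟨a, ha⟩
  obtain ⟨m, hm⟩ := hsurj
  exact ⟨m, m.2, congrArg Subtype.val hm⟩

/-- Let G be a finite Frobenius group with Frobenius complement R and Frobenius kernel K (the identity together with the elements in no conjugate of R), and let N be a normal subgroup of G not containing K. Then G/N is a Frobenius group with Frobenius complement RN/N whose Frobenius kernel is the image of K. -/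
theorem result {G : Type*} [Group G] [Finite G] (R : Subgroup G) (hR : Cfsg.IsFrobeniusComplement R) (N : Subgroup G) [N.Normal] (hKN : ¬ Cfsg.frobeniusKernel R ⊆ N) : Cfsg.IsFrobeniusComplement (R.map (QuotientGroup.mk' N)) ∧ Cfsg.frobeniusKernel (R.map (QuotientGroup.mk' N)) = QuotientGroup.mk' N '' Cfsg.frobeniusKernel R := by
  classical
  letI : Fintype G := Fintype.ofFinite _
  obtain ⟨K, hKset, hKn, hKc⟩ := Lib.H1FrobThm.frobenius_theorem hR
  haveI := hKn
  have hmemK : ∀ x, x ∈ K ↔ x ∈ frobeniusKernel R := by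
    intro x
    rw [← hKset]
    rfl
  have hdisj : ∀ x, x ∈ R → x ∈ K → x = 1 := by
    intro x h1 h2
    have := hKc.disjoint
    rw [Subgroup.disjoint_def] at this
    exact this h2 h1
  -- fixed-point-freeness
  have hfpf : ∀ x ∈ R, x ≠ 1 → ∀ k ∈ K, x * k = k * x → k = 1 := by
    intro x hx hx1 k hk hc
    by_cases hkR : k ∈ R
    · exact hdisj k hkR hk
    · exfalso
      have h1 := hR.2.2 k hkR
      have h2 : x ∈ R ⊓ (MulAut.conj k • R) := by
        refine Subgroup.mem_inf.mpr ⟨hx, ?_⟩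
        rw [Lib.FGSBasic.mem_conj_smul_iff]
        have : k⁻¹ * x * k = x := by
          rw [mul_assoc, hc]
          group
        rwa [this]
      rw [h1, Subgroup.mem_bot] at h2
      exact hx1 h2
  -- N ≤ K
  have hNK : N ≤ K := by
    intro n hn
    by_contra hnK
    apply hKN
    rw [hmemK, Lib.H1Frob.not_mem_kernel_iff] at hnK
    obtain ⟨hn1, g, hg⟩ := hnK
    have hxN : g⁻¹ * n * g ∈ N := by
      have := ‹N.Normal›.conj_mem n hn g⁻¹
      simpa using this
    have hx1 : g⁻¹ * n * g ≠ 1 := by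
      intro h
      apply hn1
      have : n = g * (g⁻¹ * n * g) * g⁻¹ := by group
      rw [this, h]
      group
    intro k hk
    have hkK : k ∈ K := (hmemK k).mpr hk
    have hk' : k⁻¹ ∈ K := K.inv_mem hkK
    obtain ⟨m, hm, hmk⟩ := surj_comm K (g⁻¹ * n * g) (hfpf _ hg hx1) k hkK
    rw [← hmk]
    have h1 : m * (g⁻¹ * n * g) * m⁻¹ ∈ N := ‹N.Normal›.conj_mem _ hxN m
    exact N.mul_mem h1 (N.inv_mem hxN)
  set π := QuotientGroup.mk' N with hπ
  have hπeq : ∀ a b : G, π a = π b ↔ a⁻¹ * b ∈ N := by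
    intro a b
    rw [hπ, QuotientGroup.mk'_apply, QuotientGroup.mk'_apply, QuotientGroup.eq]
  have hπone : ∀ a : G, π a = 1 ↔ a ∈ N := by
    intro a
    rw [hπ, QuotientGroup.mk'_apply, QuotientGroup.eq_one_iff]
  have hπsurj : Function.Surjective π := QuotientGroup.mk'_surjective N
  -- conjugacy in cosets
  have hcoset : ∀ r ∈ R, r ≠ 1 → ∀ n ∈ N, ∃ m ∈ N, m * r * m⁻¹ = n * r := by
    intro r hr hr1 n hn
    have hf : ∀ k ∈ N, r * k = k * r → k = 1 := fun k hk hc => hfpf r hr hr1 k (hNK hk) hc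
    obtain ⟨m, hm, hmn⟩ := surj_comm N r hf n hn
    refine ⟨m, hm, ?_⟩
    rw [← hmn]
    group
  have hKnotN : ∃ k ∈ K, k ∉ N := by
    by_contra hcon
    push Not at hcon
    apply hKN
    intro k hk
    exact hcon k ((hmemK k).mpr hk)
  have hconjmem : ∀ (g r : G), r ∈ R → π (g * r * g⁻¹) ∈ MulAut.conj (π g) • R.map π := by
    intro g r hr
    rw [Lib.FGSBasic.mem_conj_smul_iff]
    refine ⟨r, hr, ?_⟩
    simp only [map_mul, map_inv]
    group
  have hcompl : IsFrobeniusComplement (R.map π) := by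
    refine ⟨?_, ?_, ?_⟩
    · -- nontrivial
      intro h
      apply hR.1
      rw [eq_bot_iff]
      intro r hr
      have h1 : π r ∈ R.map π := ⟨r, hr, rfl⟩
      rw [h, Subgroup.mem_bot, hπone] at h1
      exact Subgroup.mem_bot.mpr (hdisj r hr (hNK h1))
    · intro h
      obtain ⟨k, hk, hkN⟩ := hKnotN
      have h1 : π k ∈ R.map π := by rw [h]; trivial
      obtain ⟨r, hr, hrk⟩ := h1
      rw [hπeq] at hrk
      have hrK : r ∈ K := by
        have := K.mul_mem hk (K.inv_mem (hNK hrk))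
        have h2 : k * (r⁻¹ * k)⁻¹ = r := by group
        rwa [h2] at this
      have hr1 := hdisj r hr hrK
      rw [hr1] at hrk
      apply hkN
      simpa using hrk
    · intro g' hg'
      obtain ⟨g, rfl⟩ := hπsurj g'
      rw [eq_bot_iff]
      intro xb hxb
      obtain ⟨hx1, hx2⟩ := Subgroup.mem_inf.mp hxb
      rw [Subgroup.mem_bot]
      obtain ⟨r, hr, rfl⟩ := hx1
      rw [Lib.FGSBasic.mem_conj_smul_iff] at hx2
      obtain ⟨s, hs, hsr⟩ := hx2
      by_cases hr1 : r = 1
      · rw [hr1, map_one]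
      exfalso
      apply hg'
      have hn : g * s * g⁻¹ * r⁻¹ ∈ N := by
        rw [← hπone]
        have h3 : π s = (π g)⁻¹ * π r * π g := hsr
        simp only [map_mul, map_inv, h3]
        group
      obtain ⟨m, hm, hmn⟩ := hcoset r hr hr1 _ hn
      have h4 : g * s * g⁻¹ = m * r * m⁻¹ := by
        rw [hmn]
        group
      have h5 : m⁻¹ * g ∈ R := by
        have h6 : (m⁻¹ * g)⁻¹ * r * (m⁻¹ * g) ∈ R := by
          have : (m⁻¹ * g)⁻¹ * r * (m⁻¹ * g) = g⁻¹ * (m * r * m⁻¹) * g := by group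
          rw [this, ← h4]
          have : g⁻¹ * (g * s * g⁻¹) * g = s := by group
          rwa [this]
        have h7 : (1 : G)⁻¹ * r * 1 ∈ R := by simpa using hr
        have := Lib.H1Frob.frob_eq hR hr1 h6 h7
        simpa using this
      refine ⟨m⁻¹ * g, h5, ?_⟩
      rw [map_mul, map_inv, (hπone m).mpr hm]
      simp
  refine ⟨hcompl, ?_⟩
  ext xb
  constructor
  · intro hx
    obtain ⟨x, rfl⟩ := hπsurj xb
    by_cases hxK : x ∈ K
    · exact ⟨x, (hmemK x).mp hxK, rfl⟩
    · rw [hmemK, Lib.H1Frob.not_mem_kernel_iff] at hxK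
      obtain ⟨_, g, hg⟩ := hxK
      have h1 : π x ∈ MulAut.conj (π g) • R.map π := by
        have := hconjmem g _ hg
        have h2 : g * (g⁻¹ * x * g) * g⁻¹ = x := by group
        rwa [h2] at this
      rcases hx with hx | hx
      · refine ⟨1, Or.inl rfl, ?_⟩
        simp [hx]
      · exact absurd h1 (hx _)
  · rintro ⟨k, hk, rfl⟩
    by_cases hk1 : π k = 1
    · exact Or.inl hk1
    refine Or.inr ?_
    intro g' hg'
    obtain ⟨g, rfl⟩ := hπsurj g'
    rw [Lib.FGSBasic.mem_conj_smul_iff] at hg'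
    obtain ⟨r, hr, hrk⟩ := hg'
    have hkK : k ∈ K := (hmemK k).mpr hk
    have h1 : π (g * r * g⁻¹) = π k := by
      have h3 : π r = (π g)⁻¹ * π k * π g := hrk
      simp only [map_mul, map_inv, h3]
      group
    rw [hπeq] at h1
    have h2 : (g * r * g⁻¹)⁻¹ * k ∈ K := hNK h1
    have h3 : g * r * g⁻¹ ∈ K := by
      have := K.mul_mem hkK (K.inv_mem h2)
      have h4 : k * ((g * r * g⁻¹)⁻¹ * k)⁻¹ = g * r * g⁻¹ := by group
      rwa [h4] at this
    have h4 : r ∈ K := by
      have := hKn.conj_mem _ h3 g⁻¹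
      simpa [mul_assoc] using this
    have h5 := hdisj r hr h4
    apply hk1
    rw [h5] at h1
    have h6 : k ∈ N := by simpa using h1
    exact (hπone k).mpr h6

end Cfsg.Agent.S3768
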