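import Cfsg.Statements.S3771
import Cfsg.Agent.Lib.PGrp6
-- import your own Cfsg.Agent.* helpers here

set_option autoImplicit false
open Cfsg

namespace Cfsg.Agent.S3771

/-- Let p be a prime and R a finite p-group of p-rank at most 2 (no elementary abelian subgroup of order p³) in which every element has order dividing p. Then R has order at most p³. -/
theorem result {R : Type*} [Group R] [Finite R] {p : ℕ} [Fact p.Prime] (hR : IsPGroup p R) (hrank : Cfsg.PRankLE p 2 R) (hexp : ∀ x : R, x ^ p = 1) : Nat.card R ≤ p ^ 3 := by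
  classical
  have hp : p.Prime := Fact.out
  let F : Set (Subgroup R) := {B | B.Normal ∧ IsMulCommutative B}
  have hbot : (⊥ : Subgroup R) ∈ F := ⟨inferInstance, ⟨⟨fun a b => by
    apply Subtype.ext
    have h1 := a.2
    have h2 := b.2
    rw [Subgroup.mem_bot] at h1 h2
    simp [h1, h2]⟩⟩⟩
  obtain ⟨A, -, hA⟩ := (Set.toFinite F).exists_le_maximal hbot
  obtain ⟨⟨hAn, hAc⟩, hAm⟩ := hA
  haveI := hAn
  have hle := Lib.PGrp.centralizer_le_of_max hR A hAc (fun B hB hBc hAB => le_antisymm (hAm ⟨hB, hBc⟩ hAB) hAB)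
  obtain ⟨a, ha⟩ := (hR.to_subgroup A).exists_card_eq
  have hrank := hrank A hAc (fun x _ => hexp x)
  have ha2 : a ≤ 2 := by
    rw [ha] at hrank
    exact (Nat.pow_le_pow_iff_right hp.one_lt).1 hrank
  have hidx := Lib.PGrp.index_centralizer_le hR A hAc a ha
  have hch : a.choose 2 ≤ 1 := by
    interval_cases a <;> simp
  have hidx2 : (Subgroup.centralizer (A : Set R)).index ≤ p := by
    calc (Subgroup.centralizer (A : Set R)).index ≤ p ^ a.choose 2 := hidx
      _ ≤ p ^ 1 := Nat.pow_le_pow_right hp.pos hch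
      _ = p := pow_one p
  have hcardC : Nat.card (Subgroup.centralizer (A : Set R)) ≤ p ^ 2 :=
    (Subgroup.card_le_of_le hle).trans hrank
  calc Nat.card R = Nat.card (Subgroup.centralizer (A : Set R)) * (Subgroup.centralizer (A : Set R)).index :=
        (Subgroup.card_mul_index _).symm
    _ ≤ p ^ 2 * p := Nat.mul_le_mul hcardC hidx2
    _ = p ^ 3 := by ring

end Cfsg.Agent.S3771
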