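import Cfsg.Statements.S3772
import Mathlib
import Cfsg.Agent.Lib.PGrp2
-- import your own Cfsg.Agent.* helpers here

set_option autoImplicit false
open Cfsg

namespace Cfsg.Agent.S3772

open scoped commutatorElement

section
variable {G : Type*} [Group G] [Fintype G] [DecidableEq G]

theorem key_sq (z : G) (hz1 : z ≠ 1) (hzz : z * z = 1)
    (hzc : ∀ g, g * z = z * g) (hsq : ∀ g : G, g ^ 2 = 1 ∨ g ^ 2 = z)
    (hcomm : ∀ a b : G, ⁅a, b⁆ = 1 ∨ ⁅a, b⁆ = z) :
    (∑ g : G, (if g ^ 2 = 1 then (1 : ℤ) else -1)) ^ 2 =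
      Fintype.card G * ∑ w : G, if w ∈ Subgroup.center G then (if w ^ 2 = 1 then (1 : ℤ) else -1) else 0 := by
  let e : G → ℤ := fun x => if x = 1 then 1 else -1
  have he : ∀ x y : G, (x = 1 ∨ x = z) → (y = 1 ∨ y = z) → e (x * y) = e x * e y := by
    intro x y hx hy
    rcases hx with rfl | rfl <;> rcases hy with rfl | rfl <;> simp [e, hz1, hzz]
  have hDmul : ∀ x y : G, (x = 1 ∨ x = z) → (y = 1 ∨ y = z) → (x * y = 1 ∨ x * y = z) := by
    intro x y hx hy
    rcases hx with rfl | rfl <;> rcases hy with rfl | rfl <;> simp [hzz]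
  have he2 : ∀ x : G, e x * e x = 1 := by
    intro x
    by_cases h : x = 1 <;> simp [e, h]
  have hcen : ∀ x : G, (x = 1 ∨ x = z) → ∀ g, g * x = x * g := by
    intro x hx g
    rcases hx with rfl | rfl
    · simp
    · exact hzc g
  have hid : ∀ g w : G, (g * w) ^ 2 = ⁅w, g⁆ * g ^ 2 * w ^ 2 := by
    intro g w
    have h1 : w * g = ⁅w, g⁆ * g * w := by rw [commutatorElement_def]; group
    have h2 := hcen _ (hcomm w g) g
    calc (g * w) ^ 2 = g * (w * g) * w := by simp only [sq, mul_assoc]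
      _ = g * (⁅w, g⁆ * g * w) * w := by rw [h1]
      _ = (g * ⁅w, g⁆) * g * w * w := by simp only [mul_assoc]
      _ = (⁅w, g⁆ * g) * g * w * w := by rw [h2]
      _ = _ := by simp only [sq, mul_assoc]
  have hA : ∀ w : G, w ∉ Subgroup.center G → ∑ g : G, e ⁅w, g⁆ = 0 := by
    intro w hw
    have : ∃ g₀ : G, ⁅w, g₀⁆ ≠ 1 := by
      by_contra hno
      push_neg at hno
      apply hw
      rw [Subgroup.mem_center_iff]
      intro g
      exact (commutatorElement_eq_one_iff_mul_comm.mp (hno g)).symm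
    obtain ⟨g₀, hg₀⟩ := this
    have hz : ⁅w, g₀⁆ = z := (hcomm w g₀).resolve_left hg₀
    have h1 : ∑ g : G, e ⁅w, g₀ * g⁆ = ∑ g : G, e ⁅w, g⁆ := Equiv.sum_comp (Equiv.mulLeft g₀) (fun g => e ⁅w, g⁆)
    have h2 : ∀ g : G, e ⁅w, g₀ * g⁆ = - e ⁅w, g⁆ := by
      intro g
      have h3 : ⁅w, g₀ * g⁆ = ⁅w, g₀⁆ * ⁅w, g⁆ := by
        have h4 := hcen _ (hcomm w g) g₀
        have h5 : g₀ * ⁅w, g⁆ * g₀⁻¹ = ⁅w, g⁆ := by rw [h4]; group
        calc ⁅w, g₀ * g⁆ = ⁅w, g₀⁆ * (g₀ * ⁅w, g⁆ * g₀⁻¹) := by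
              simp only [commutatorElement_def]; group
          _ = _ := by rw [h5]
      rw [h3, hz, he z _ (Or.inr rfl) (hcomm w g)]
      simp only [e, if_neg hz1]
      ring
    simp only [h2, Finset.sum_neg_distrib] at h1
    linarith
  have hA' : ∀ w : G, w ∈ Subgroup.center G → ∑ g : G, e ⁅w, g⁆ = Fintype.card G := by
    intro w hw
    have h1 : ∀ g : G, e ⁅w, g⁆ = 1 := by
      intro g
      have : ⁅w, g⁆ = 1 := commutatorElement_eq_one_iff_mul_comm.mpr (Subgroup.mem_center_iff.mp hw g).symm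
      simp [e, this]
    simp [h1]
  show (∑ g : G, e (g ^ 2)) ^ 2 = _
  have hstep : (∑ g : G, e (g ^ 2)) ^ 2 = ∑ g : G, ∑ w : G, e (w ^ 2) * e ⁅w, g⁆ := by
    rw [sq, Finset.sum_mul_sum]
    refine Finset.sum_congr rfl fun g _ => ?_
    rw [← Equiv.sum_comp (Equiv.mulLeft g) (fun h => e (g ^ 2) * e (h ^ 2))]
    refine Finset.sum_congr rfl fun w _ => ?_
    show e (g ^ 2) * e ((g * w) ^ 2) = _
    rw [hid, he _ _ (hDmul _ _ (hcomm w g) (hsq g)) (hsq w), he _ _ (hcomm w g) (hsq g)]
    have h1 := he2 (g ^ 2)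
    calc e (g ^ 2) * (e ⁅w, g⁆ * e (g ^ 2) * e (w ^ 2)) = (e (g ^ 2) * e (g ^ 2)) * (e (w ^ 2) * e ⁅w, g⁆) := by ring
      _ = _ := by rw [h1, one_mul]
  rw [hstep, Finset.sum_comm, Finset.mul_sum]
  refine Finset.sum_congr rfl fun w _ => ?_
  rw [← Finset.mul_sum]
  by_cases hw : w ∈ Subgroup.center G
  · rw [hA' w hw, if_pos hw]
    show e (w ^ 2) * _ = _
    ring
  · rw [hA w hw, if_neg hw]
    simp

theorem key_B (z : G) (hz1 : z ≠ 1) (hzz : z * z = 1)
    (hsq : ∀ g : G, g ^ 2 = 1 ∨ g ^ 2 = z)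
    {w₀ : G} (hw₀ : w₀ ∈ Subgroup.center G) (hw₀' : w₀ ^ 2 ≠ 1) :
    (∑ w : G, if w ∈ Subgroup.center G then (if w ^ 2 = 1 then (1 : ℤ) else -1) else 0) = 0 := by
  let φ : G → ℤ := fun w => if w ∈ Subgroup.center G then (if w ^ 2 = 1 then (1 : ℤ) else -1) else 0
  have hz : w₀ ^ 2 = z := (hsq w₀).resolve_left hw₀'
  have h1 : ∑ w : G, φ (w₀ * w) = ∑ w : G, φ w := Equiv.sum_comp (Equiv.mulLeft w₀) φ
  have h2 : ∀ w : G, φ (w₀ * w) = - φ w := by
    intro w
    have hmem : w₀ * w ∈ Subgroup.center G ↔ w ∈ Subgroup.center G := by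
      constructor
      · intro h
        have := mul_mem (inv_mem hw₀) h
        simpa using this
      · intro h
        exact mul_mem hw₀ h
    by_cases hw : w ∈ Subgroup.center G
    · have hc : Commute w₀ w := (Subgroup.mem_center_iff.mp hw₀ w).symm
      have h3 : (w₀ * w) ^ 2 = z * w ^ 2 := by rw [hc.mul_pow, hz]
      simp only [φ, if_pos hw, if_pos (hmem.mpr hw), h3]
      rcases hsq w with h | h
      · simp [h, hz1]
      · simp [h, hzz, hz1]
    · simp only [φ, if_neg hw, if_neg (fun h => hw (hmem.mp h))]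
      simp
  simp only [h2, Finset.sum_neg_distrib] at h1
  show ∑ w : G, φ w = 0
  linarith

end

/-- Let G be a finite 2-group whose Frattini subgroup Φ(G) has order 2, with |G : Φ(G)| = 2^d, and let j be the number of elements x of G with x² = 1. Then j = 2^d, or j = 2^d + 2^(d−r) or j = 2^d − 2^(d−r) for some positive integer r with 2r ≤ d. Moreover if d = 2r and j is 2^d + 2^r or 2^d − 2^r, then G is extraspecial. -/
theorem result {G : Type*} [Group G] [Finite G] (hG : IsPGroup 2 G) (hΦ : Nat.card (frattini G) = 2) (d : ℕ) (hd : (frattini G).index = 2 ^ d) : (Nat.card {x : G // x ^ 2 = 1} = 2 ^ d ∨ ∃ r : ℕ, 1 ≤ r ∧ 2 * r ≤ d ∧ (Nat.card {x : G // x ^ 2 = 1} = 2 ^ d + 2 ^ (d - r) ∨ Nat.card {x : G // x ^ 2 = 1} + 2 ^ (d - r) = 2 ^ d)) ∧ (∀ r : ℕ, d = 2 * r → (Nat.card {x : G // x ^ 2 = 1} = 2 ^ d + 2 ^ r ∨ Nat.card {x : G // x ^ 2 = 1} + 2 ^ r = 2 ^ d) → Cfsg.IsExtraspecial 2 G) := by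
  classical
  haveI : Fintype G := Fintype.ofFinite G
  have hcardG : Nat.card G = 2 ^ (d + 1) := by
    rw [← Subgroup.card_mul_index (frattini G), hΦ, hd, pow_succ]; ring
  haveI : Nontrivial (frattini G) := Finite.one_lt_card_iff_nontrivial.mp (by rw [hΦ]; norm_num)
  obtain ⟨⟨z, hzΦ⟩, hz1', hzuniq⟩ := (Nat.card_eq_two_iff' (1 : frattini G)).mp hΦ
  have hz1 : z ≠ 1 := fun h => hz1' (Subtype.ext h)
  have hΦ2 : ∀ x ∈ frattini G, x = 1 ∨ x = z := by
    intro x hx
    by_cases h : x = 1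
    · exact Or.inl h
    · right
      have := hzuniq ⟨x, hx⟩ (fun h' => h (congrArg Subtype.val h'))
      exact congrArg Subtype.val this
  have hzz : z * z = 1 := by
    rcases hΦ2 _ (mul_mem hzΦ hzΦ) with h | h
    · exact h
    · exfalso
      apply hz1
      have : z * z = z * 1 := by rw [h, mul_one]
      exact mul_left_cancel this
  have hnorm : (frattini G).Normal := inferInstance
  have hzc : ∀ g, g * z = z * g := by
    intro g
    have h1 := hnorm.conj_mem z hzΦ g
    rcases hΦ2 _ h1 with h | h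
    · exfalso
      apply hz1
      have : g * z * g⁻¹ = g * 1 * g⁻¹ := by rw [h]; group
      simpa using this
    · calc g * z = g * z * g⁻¹ * g := by group
        _ = z * g := by rw [h]
  have hsq : ∀ g : G, g ^ 2 = 1 ∨ g ^ 2 = z := fun g =>
    hΦ2 _ (Lib.PGrp.pow_mem_frattini hG g)
  have hcommle : commutator G ≤ frattini G := Lib.PGrp.commutator_le_frattini hG
  have hcomm : ∀ a b : G, ⁅a, b⁆ = 1 ∨ ⁅a, b⁆ = z := fun a b =>
    hΦ2 _ (hcommle (Subgroup.commutator_mem_commutator (Subgroup.mem_top a) (Subgroup.mem_top b)))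
  have hΦZ : frattini G ≤ Subgroup.center G := by
    intro x hx
    rcases hΦ2 x hx with rfl | rfl
    · exact one_mem _
    · exact Subgroup.mem_center_iff.mpr hzc
  set S : ℤ := ∑ g : G, (if g ^ 2 = 1 then (1 : ℤ) else -1) with hS
  set B : ℤ := ∑ w : G, if w ∈ Subgroup.center G then (if w ^ 2 = 1 then (1 : ℤ) else -1) else 0 with hB
  have hmain : S ^ 2 = Fintype.card G * B := key_sq z hz1 hzz hzc hsq hcomm
  set j : ℕ := Nat.card {x : G // x ^ 2 = 1} with hj
  have hcardF : Fintype.card G = 2 ^ (d + 1) := by rw [← Nat.card_eq_fintype_card]; exact hcardG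
  have hSj : S = 2 * (j : ℤ) - 2 ^ (d + 1) := by
    have h1 : j = (Finset.univ.filter (fun x : G => x ^ 2 = 1)).card := by
      rw [hj, Nat.card_eq_fintype_card, Fintype.card_subtype]
    have h2 := Finset.card_filter_add_card_filter_not (s := (Finset.univ : Finset G)) (fun x : G => x ^ 2 = 1)
    rw [Finset.card_univ, hcardF] at h2
    rw [hS, Finset.sum_ite]
    simp only [Finset.sum_const, smul_eq_mul, nsmul_eq_mul, mul_one, mul_neg]
    rw [← h1]
    have h3 : ((j : ℤ) + ((Finset.univ.filter (fun x : G => ¬ x ^ 2 = 1)).card : ℤ)) = 2 ^ (d + 1) := by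
      rw [h1]
      exact_mod_cast h2
    linarith
  -- the centre
  obtain ⟨c, -, hc⟩ := (Nat.dvd_prime_pow Nat.prime_two).mp
    (hcardG ▸ Subgroup.card_subgroup_dvd_card (Subgroup.center G))
  have hcpos : 1 ≤ c := by
    rcases Nat.eq_zero_or_pos c with h | h
    · exfalso
      rw [h, pow_zero] at hc
      have h1 := Subgroup.eq_bot_of_card_eq _ hc
      have h2 := hΦZ hzΦ
      rw [h1] at h2
      exact hz1 (Subgroup.mem_bot.mp h2)
    · exact h
  have hBcases : B = 0 ∨ (B = 2 ^ c ∧ Subgroup.center G ≠ ⊤) := by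
    by_cases hall : ∀ w ∈ Subgroup.center G, w ^ 2 = 1
    · right
      constructor
      · have h1 : B = ∑ w : G, if w ∈ Subgroup.center G then (1 : ℤ) else 0 := by
          refine Finset.sum_congr rfl fun w _ => ?_
          by_cases hw : w ∈ Subgroup.center G
          · simp [hw, hall w hw]
          · simp [hw]
        rw [h1, Finset.sum_boole]
        have h2 : (Finset.univ.filter (fun w : G => w ∈ Subgroup.center G)).card = 2 ^ c := by
          rw [← hc, Nat.card_eq_fintype_card, Fintype.card_subtype]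
        rw [h2]
        push_cast
        rfl
      · intro htop
        have hsq1 : ∀ x : G, x ^ 2 = 1 := fun x => hall x (htop ▸ Subgroup.mem_top x)
        have hcomm1 : commutator G ≤ ⊥ := by
          rw [commutator_def, Subgroup.commutator_le]
          intro a _ b _
          have : a * b = b * a := by
            have h := Subgroup.mem_center_iff.mp (show b ∈ Subgroup.center G from htop ▸ Subgroup.mem_top b) a
            exact h
          rw [commutatorElement_eq_one_iff_mul_comm.mpr this]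
          exact one_mem _
        have h3 := Lib.PGrp.frattini_le_of hG ⊥ hcomm1 (fun x => by rw [hsq1 x]; exact one_mem _)
        have h4 := h3 hzΦ
        exact hz1 (Subgroup.mem_bot.mp h4)
    · left
      push_neg at hall
      obtain ⟨w₀, hw₀, hw₀'⟩ := hall
      exact key_B z hz1 hzz hsq hw₀ hw₀'
  have hcled : ∀ h : Subgroup.center G ≠ ⊤, c ≤ d := by
    intro h
    have h1 : Nat.card (Subgroup.center G) ≠ Nat.card G := by
      intro h2
      apply h
      exact (Subgroup.card_eq_iff_eq_top _).mp h2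
    rw [hc, hcardG] at h1
    have h2 : 2 ^ c ∣ 2 ^ (d + 1) := by
      rw [← hc, ← hcardG]; exact Subgroup.card_subgroup_dvd_card _
    have h3 : c ≤ d + 1 := (Nat.pow_dvd_pow_iff_le_right (by norm_num)).mp h2
    rcases Nat.lt_or_ge c (d + 1) with h4 | h4
    · omega
    · exfalso
      apply h1
      rw [show c = d + 1 by omega]
  have hpow : ∀ (a t : ℕ), (a : ℤ) ^ 2 = 2 ^ t → ∃ s, a = 2 ^ s ∧ 2 * s = t := by
    intro a t h
    have h1 : a ^ 2 = 2 ^ t := by exact_mod_cast h
    have h2 : a ∣ 2 ^ t := by rw [← h1]; exact Dvd.intro_left (a ^ 1) (by ring)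
    obtain ⟨s, -, rfl⟩ := (Nat.dvd_prime_pow Nat.prime_two).mp h2
    refine ⟨s, rfl, ?_⟩
    rw [← pow_mul] at h1
    have := Nat.pow_right_injective (le_refl 2) h1
    omega
  refine ⟨?_, ?_⟩
  · rcases hBcases with hB0 | ⟨hB1, hne⟩
    · left
      rw [hB0, mul_zero] at hmain
      have h1 : S = 0 := by simpa using hmain
      rw [hSj, pow_succ] at h1
      have h2 : (j : ℤ) = 2 ^ d := by linarith
      exact_mod_cast h2
    · right
      have hcd := hcled hne
      rw [hB1, hcardF] at hmain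
      have h1 : ((S.natAbs : ℕ) : ℤ) ^ 2 = 2 ^ (d + 1 + c) := by
        rw [Int.natAbs_sq, hmain]; push_cast; ring
      obtain ⟨t, ht, ht2⟩ := hpow _ _ h1
      obtain ⟨s, rfl⟩ : ∃ s, t = s + 1 := ⟨t - 1, by omega⟩
      have hsd : s + 1 ≤ d := by omega
      refine ⟨d - s, by omega, by omega, ?_⟩
      rw [show d - (d - s) = s by omega]
      have hS2 : S = 2 ^ (s + 1) ∨ S = -2 ^ (s + 1) := by
        rcases Int.natAbs_eq S with h | h
        · left; rw [h, ht]; push_cast; ring
        · right; rw [h, ht]; push_cast; ring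
      rw [hSj] at hS2
      simp only [pow_succ] at hS2
      rcases hS2 with h | h
      · left
        have h2 : (j : ℤ) = 2 ^ d + 2 ^ s := by linarith
        exact_mod_cast h2
      · right
        have h2 : (j : ℤ) + 2 ^ s = 2 ^ d := by linarith
        exact_mod_cast h2
  · intro r hdr hjr
    have hSr : S ^ 2 = 2 ^ (d + 2) := by
      have h1 : S = 2 ^ (r + 1) ∨ S = - 2 ^ (r + 1) := by
        rcases hjr with h | h
        · left
          rw [hSj, h]; simp only [pow_succ]; push_cast; ring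
        · right
          have h2 : (j : ℤ) + 2 ^ r = 2 ^ d := by exact_mod_cast h
          rw [hSj]; simp only [pow_succ]; linarith
      have h2 : S ^ 2 = (2 ^ (r + 1)) ^ 2 := by
        rcases h1 with h | h <;> rw [h] <;> ring
      rw [h2, hdr]; ring
    rcases hBcases with hB0 | ⟨hB1, hne⟩
    · exfalso
      rw [hB0, mul_zero, hSr] at hmain
      have : (2 : ℤ) ^ (d + 2) ≠ 0 := by positivity
      exact this hmain
    · rw [hB1, hcardF, hSr] at hmain
      have h1 : (2 : ℤ) ^ (d + 2) = 2 ^ (d + 1 + c) := by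
        rw [hmain]; push_cast; ring
      have h2 : (2 : ℕ) ^ (d + 2) = 2 ^ (d + 1 + c) := by exact_mod_cast h1
      have h3 := Nat.pow_right_injective (le_refl 2) h2
      have hc1 : c = 1 := by omega
      rw [hc1, pow_one] at hc
      have hΦeq : frattini G = Subgroup.center G := by
        apply Subgroup.eq_of_le_of_card_ge hΦZ
        rw [hc, hΦ]
      have hcommne : commutator G ≠ ⊥ := by
        intro hbot
        apply hne
        rw [eq_top_iff]
        intro x _
        rw [Subgroup.mem_center_iff]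
        intro g
        have : ⁅g, x⁆ ∈ commutator G := Subgroup.commutator_mem_commutator (Subgroup.mem_top g) (Subgroup.mem_top x)
        rw [hbot] at this
        exact commutatorElement_eq_one_iff_mul_comm.mp (Subgroup.mem_bot.mp this)
      have hcommeq : commutator G = Subgroup.center G := by
        have hle : commutator G ≤ Subgroup.center G := hcommle.trans hΦZ
        apply Subgroup.eq_of_le_of_card_ge hle
        rw [hc]
        have h4 : Nat.card (commutator G) ∣ 2 := by
          rw [← hc]; exact Subgroup.card_dvd_of_le hle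
        rcases (Nat.dvd_prime Nat.prime_two).mp h4 with h5 | h5
        · exact absurd (Subgroup.eq_bot_of_card_eq _ h5) hcommne
        · rw [h5]
      exact ⟨⟨hG, hΦeq, hcommeq⟩, hc⟩

end Cfsg.Agent.S3772
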