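import Cfsg.Statements.S3774
import Mathlib
-- import your own Cfsg.Agent.* helpers here

set_option autoImplicit false
open Cfsg

namespace Cfsg.Agent.S3774

theorem dvd_of_pow_dvd {k N : ℕ} (hk : 1 ≤ k) (h : 2 ^ k - 1 ∣ 2 ^ N - 1) : k ∣ N := by
  have h1 : Nat.gcd (2 ^ k - 1) (2 ^ N - 1) = 2 ^ Nat.gcd k N - 1 := Nat.pow_sub_one_gcd_pow_sub_one 2 k N
  rw [Nat.gcd_eq_left h] at h1
  have h2 : 2 ^ k = 2 ^ Nat.gcd k N := by
    have h3 : 1 ≤ 2 ^ k := Nat.one_le_two_pow
    have h4 : 1 ≤ 2 ^ Nat.gcd k N := Nat.one_le_two_pow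
    omega
  have h3 := Nat.pow_right_injective (le_refl 2) h2
  rw [h3]
  exact Nat.gcd_dvd_right k N

/-- Let G be a nontrivial finite 2-group whose automorphism group permutes the involutions of G transitively. Then every involution of G is central, so that the involutions together with 1 form the subgroup Ω₁(Z(G)), and if this subgroup has order q then |G| is a power of q. -/
theorem result {G : Type*} [Group G] [Finite G] [Nontrivial G] (hG : IsPGroup 2 G) (htrans : ∀ x y : G, x ≠ 1 → x ^ 2 = 1 → y ≠ 1 → y ^ 2 = 1 → ∃ a : MulAut G, a x = y) : (∀ x : G, x ^ 2 = 1 → x ∈ Subgroup.center G) ∧ ∃ m : ℕ, Nat.card G = Nat.card {z : G // z ^ 2 = 1} ^ m := by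
  classical
  haveI : Fintype G := Fintype.ofFinite G
  -- central involution
  haveI : Nontrivial G := inferInstance
  haveI hfact : Fact (Nat.Prime 2) := ⟨Nat.prime_two⟩
  haveI hcn : Nontrivial (Subgroup.center G) := hG.center_nontrivial
  have hdvd : 2 ∣ Nat.card (Subgroup.center G) := by
    have hc := IsPGroup.center_nontrivial hG
    have hp : IsPGroup 2 (Subgroup.center G) := hG.to_subgroup _
    obtain ⟨n, hn⟩ := IsPGroup.iff_card.mp hp
    have h1 : 1 < Nat.card (Subgroup.center G) := Finite.one_lt_card_iff_nontrivial.mpr hcn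
    rw [hn] at h1 ⊢
    rcases n with _ | n
    · simp at h1
    · exact Dvd.intro_left (2 ^ n) rfl
  obtain ⟨z₀, hz₀⟩ := exists_prime_orderOf_dvd_card' (G := Subgroup.center G) 2 hdvd
  have hz0o : orderOf (z₀ : G) = 2 := by rw [Subgroup.orderOf_coe]; exact hz₀
  have hz0c : (z₀ : G) ∈ Subgroup.center G := z₀.2
  have hz01 : (z₀ : G) ≠ 1 := by
    intro h
    rw [h, orderOf_one] at hz0o
    omega
  have hz02 : (z₀ : G) ^ 2 = 1 := by rw [← hz0o]; exact pow_orderOf_eq_one _
  have hcent : ∀ x : G, x ^ 2 = 1 → x ∈ Subgroup.center G := by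
    intro x hx
    by_cases hx1 : x = 1
    · rw [hx1]; exact one_mem _
    obtain ⟨a, ha⟩ := htrans z₀ x hz01 hz02 hx1 hx
    rw [Subgroup.mem_center_iff]
    intro g
    have h1 := Subgroup.mem_center_iff.mp hz0c (a.symm g)
    have h2 := congrArg a h1
    rw [map_mul, map_mul, ha] at h2
    simpa using h2
  refine ⟨hcent, ?_⟩
  -- the subgroup of elements of order at most two
  let V : Subgroup G :=
    { carrier := {z | z ^ 2 = 1}
      mul_mem' := by
        intro a b ha hb
        have hc : Commute a b := by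
          have := Subgroup.mem_center_iff.mp (hcent a ha) b
          exact this.symm
        show (a * b) ^ 2 = 1
        rw [hc.mul_pow, show a ^ 2 = 1 from ha, show b ^ 2 = 1 from hb, one_mul]
      one_mem' := by show (1 : G) ^ 2 = 1; simp
      inv_mem' := by
        intro a ha
        show a⁻¹ ^ 2 = 1
        rw [inv_pow, show a ^ 2 = 1 from ha, inv_one] }
  have hcardV : Nat.card {z : G // z ^ 2 = 1} = Nat.card V := rfl
  rw [hcardV]
  obtain ⟨N, hN⟩ := IsPGroup.iff_card.mp hG
  obtain ⟨k, -, hk⟩ := (Nat.dvd_prime_pow Nat.prime_two).mp (hN ▸ Subgroup.card_subgroup_dvd_card V)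
  have hk1 : 1 ≤ k := by
    rcases Nat.eq_zero_or_pos k with h | h
    · exfalso
      rw [h, pow_zero] at hk
      have := Subgroup.eq_bot_of_card_eq V hk
      have hz : (z₀ : G) ∈ V := hz02
      rw [this] at hz
      exact hz01 (Subgroup.mem_bot.mp hz)
    · exact h
  -- partition of the nontrivial elements
  let g : G → G := fun x => x ^ (orderOf x / 2)
  have hg1 : ∀ x : G, x ≠ 1 → g x ^ 2 = 1 ∧ g x ≠ 1 := by
    intro x hx
    obtain ⟨n, hn⟩ := (IsPGroup.iff_orderOf.mp hG) x
    rcases n with _ | n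
    · exfalso
      rw [pow_zero] at hn
      exact hx (orderOf_eq_one_iff.mp hn)
    have e : orderOf x / 2 = 2 ^ n := by
      rw [hn, pow_succ]; simp
    constructor
    · show (x ^ (orderOf x / 2)) ^ 2 = 1
      rw [e, ← pow_mul, ← pow_succ, ← hn]
      exact pow_orderOf_eq_one x
    · show x ^ (orderOf x / 2) ≠ 1
      apply pow_ne_one_of_lt_orderOf
      · rw [e]; positivity
      · rw [e, hn, pow_succ]
        have : 0 < 2 ^ n := by positivity
        omega
  have hgaut : ∀ (a : MulAut G) (x : G), g (a x) = a (g x) := by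
    intro a x
    show (a x) ^ (orderOf (a x) / 2) = a (x ^ (orderOf x / 2))
    rw [MulEquiv.orderOf_eq, map_pow]
  let T : Finset G := Finset.univ.filter (fun x => x ≠ 1)
  let S : Finset G := Finset.univ.filter (fun x => x ≠ 1 ∧ x ^ 2 = 1)
  have hST : ∀ x ∈ T, g x ∈ S := by
    intro x hx
    have hx' : x ≠ 1 := (Finset.mem_filter.mp hx).2
    exact Finset.mem_filter.mpr ⟨Finset.mem_univ _, (hg1 x hx').2, (hg1 x hx').1⟩
  have hcardT : T.card + 1 = Fintype.card G := by
    have : T = Finset.univ.erase 1 := by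
      ext x; simp [T]
    rw [this, Finset.card_erase_of_mem (Finset.mem_univ _), Finset.card_univ]
    have : 0 < Fintype.card G := Fintype.card_pos
    omega
  have hcardS : S.card + 1 = Nat.card V := by
    have h1 : Nat.card V = Fintype.card V := Nat.card_eq_fintype_card
    have h2 : Fintype.card V = (Finset.univ.filter (fun x : G => x ∈ V)).card := by
      rw [Fintype.card_subtype]
    have h3 : (Finset.univ.filter (fun x : G => x ∈ V)) = insert 1 S := by
      ext x
      simp only [Finset.mem_filter, Finset.mem_univ, true_and, Finset.mem_insert, S]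
      constructor
      · intro hx
        by_cases h : x = 1
        · exact Or.inl h
        · exact Or.inr ⟨h, hx⟩
      · rintro (h | h)
        · rw [h]; exact one_mem _
        · exact h.2
    have h4 : (1 : G) ∉ S := by simp [S]
    rw [h1, h2, h3, Finset.card_insert_of_notMem h4]
  obtain ⟨s₀, hs₀⟩ : ∃ s₀, s₀ ∈ S := ⟨z₀, Finset.mem_filter.mpr ⟨Finset.mem_univ _, hz01, hz02⟩⟩
  have hfib : ∀ s ∈ S, (T.filter (fun x => g x = s)).card = (T.filter (fun x => g x = s₀)).card := by
    intro s hs
    have hs' := (Finset.mem_filter.mp hs).2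
    have hs0' := (Finset.mem_filter.mp hs₀).2
    obtain ⟨a, ha⟩ := htrans s₀ s hs0'.1 hs0'.2 hs'.1 hs'.2
    symm
    apply Finset.card_bij (fun x _ => a x)
    · intro x hx
      obtain ⟨hx1, hx2⟩ := Finset.mem_filter.mp hx
      refine Finset.mem_filter.mpr ⟨?_, ?_⟩
      · refine Finset.mem_filter.mpr ⟨Finset.mem_univ _, ?_⟩
        have := (Finset.mem_filter.mp hx1).2
        simpa using this
      · rw [hgaut, hx2, ha]
    · intro x _ y _ h
      exact a.injective h
    · intro y hy
      obtain ⟨hy1, hy2⟩ := Finset.mem_filter.mp hy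
      refine ⟨a.symm y, ?_, by simp⟩
      refine Finset.mem_filter.mpr ⟨?_, ?_⟩
      · refine Finset.mem_filter.mpr ⟨Finset.mem_univ _, ?_⟩
        have := (Finset.mem_filter.mp hy1).2
        simpa using this
      · apply a.injective
        rw [← hgaut, ha]
        simpa using hy2
  have hsum : T.card = S.card * (T.filter (fun x => g x = s₀)).card := by
    rw [Finset.card_eq_sum_card_fiberwise hST, Finset.sum_congr rfl hfib, Finset.sum_const, smul_eq_mul]
  have hdvd2 : 2 ^ k - 1 ∣ 2 ^ N - 1 := by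
    have h1 : 2 ^ k - 1 = S.card := by rw [← hk]; omega
    have h2 : 2 ^ N - 1 = T.card := by
      have h3 : Fintype.card G = 2 ^ N := by rw [← Nat.card_eq_fintype_card]; exact hN
      omega
    rw [h1, h2, hsum]
    exact Dvd.intro _ rfl
  obtain ⟨m, hm⟩ := dvd_of_pow_dvd hk1 hdvd2
  refine ⟨m, ?_⟩
  rw [hN, hk, hm, pow_mul]

end Cfsg.Agent.S3774
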