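import Cfsg.Statements.S3775
import Mathlib
import Cfsg.Agent.Lib.PMaschke
-- import your own Cfsg.Agent.* helpers here

set_option autoImplicit false
open Cfsg

namespace Cfsg.Agent.S3775

universe u

section aut
variable {X A : Type*} [Group X] [CommGroup A]

def resAut (ρ : X →* MulAut A) (Y : Subgroup A) (hY : ∀ x, ∀ y ∈ Y, ρ x y ∈ Y) : X →* MulAut Y where
  toFun x :=
    { toFun := fun y => ⟨ρ x y, hY x y y.2⟩
      invFun := fun y => ⟨ρ x⁻¹ y, hY x⁻¹ y y.2⟩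
      left_inv := fun y => Subtype.ext (by simp)
      right_inv := fun y => Subtype.ext (by simp)
      map_mul' := fun a b => Subtype.ext (by simp) }
  map_one' := by
    ext y
    simp
  map_mul' := fun a b => by
    ext y
    simp [MulAut.mul_apply]

def quoAut (ρ : X →* MulAut A) (N : Subgroup A) (hN : ∀ x, ∀ n ∈ N, ρ x n ∈ N) : X →* MulAut (A ⧸ N) where
  toFun x :=
    { toFun := QuotientGroup.map N N (ρ x).toMonoidHom (fun n hn => hN x n hn)
      invFun := QuotientGroup.map N N (ρ x⁻¹).toMonoidHom (fun n hn => hN x⁻¹ n hn)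
      left_inv := by
        intro y
        induction y using QuotientGroup.induction_on with
        | H z => simp
      right_inv := by
        intro y
        induction y using QuotientGroup.induction_on with
        | H z => simp
      map_mul' := map_mul _ }
  map_one' := by
    ext y
    induction y using QuotientGroup.induction_on with
    | H z => simp
  map_mul' := fun a b => by
    ext y
    induction y using QuotientGroup.induction_on with
    | H z => simp [MulAut.mul_apply]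

theorem quoAut_mk (ρ : X →* MulAut A) (N : Subgroup A) (hN : ∀ x, ∀ n ∈ N, ρ x n ∈ N) (x : X) (a : A) :
    quoAut ρ N hN x (QuotientGroup.mk' N a) = QuotientGroup.mk' N (ρ x a) := rfl

end aut

theorem split_lemma (p : ℕ) [Fact p.Prime] (e : ℕ) : ∀ (k : ℕ) (A : Type u) [CommGroup A] [Finite A],
    Nat.card A = k → IsPGroup p A → (∀ a : A, a ^ (p ^ (e + 1)) = 1) →
    ∀ N : Subgroup A, (∀ x : A, x ^ p ∈ N → ∃ v : A, ∃ n ∈ N, x = v ^ (p ^ e) * n) →
    ∃ H : Subgroup A, N ⊓ H = ⊥ ∧ N ⊔ H = ⊤ := by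
  classical
  have hp : p.Prime := Fact.out
  intro k
  induction k using Nat.strong_induction_on with
  | _ k ih =>
  intro A _ _ hcard hP hexp N hH
  by_cases hNtop : N = ⊤
  · exact ⟨⊥, by simp, by simp [hNtop]⟩
  obtain ⟨x, hx⟩ : ∃ x, x ∉ N := by
    by_contra hcon
    push Not at hcon
    exact hNtop (eq_top_iff.2 (fun x _ => hcon x))
  -- find y ∉ N with y ^ p ∈ N
  have hex : ∃ j : ℕ, x ^ (p ^ j) ∈ N := ⟨e + 1, by rw [hexp]; exact N.one_mem⟩
  have hj0 : Nat.find hex ≠ 0 := by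
    intro h0
    have := Nat.find_spec hex
    rw [h0, pow_zero, pow_one] at this
    exact hx this
  obtain ⟨j, hj⟩ := Nat.exists_eq_succ_of_ne_zero hj0
  have hy1 : x ^ (p ^ (j + 1)) ∈ N := by
    have := Nat.find_spec hex
    rwa [hj] at this
  have hy2 : x ^ (p ^ j) ∉ N := Nat.find_min hex (by omega)
  set y := x ^ (p ^ j) with hy
  have hyp : y ^ p ∈ N := by
    rw [hy, ← pow_mul, ← pow_succ]
    exact hy1
  obtain ⟨a, n, hn, hya⟩ := hH y hyp
  have ha1 : a ^ (p ^ e) ∉ N := by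
    intro h
    apply hy2
    rw [hya]
    exact N.mul_mem h hn
  have hao : orderOf a = p ^ (e + 1) :=
    orderOf_eq_prime_pow (fun h => ha1 (h ▸ N.one_mem)) (hexp a)
  have hdisj : ∀ m : ℕ, a ^ m ∈ N → a ^ m = 1 := by
    intro m hm
    by_cases hm0 : m = 0
    · rw [hm0, pow_zero]
    obtain ⟨t, m', hm', rfl⟩ := Nat.exists_eq_pow_mul_and_not_dvd hm0 p hp.ne_one
    by_cases ht : e + 1 ≤ t
    · obtain ⟨s, rfl⟩ := Nat.exists_eq_add_of_le ht
      rw [pow_add, mul_assoc, pow_mul, hexp, one_pow]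
    · exfalso
      have hcop : m'.Coprime (orderOf (a ^ (p ^ t))) := by
        have h1 : orderOf (a ^ (p ^ t)) ∣ p ^ (e + 1) := by
          rw [← hao]
          exact orderOf_pow_dvd _
        exact Nat.Coprime.coprime_dvd_right h1
          (Nat.Coprime.pow_right _ ((Nat.Prime.coprime_iff_not_dvd hp).2 hm').symm)
      obtain ⟨w, hw⟩ := exists_pow_eq_self_of_coprime hcop
      have h2 : a ^ (p ^ t) ∈ N := by
        have h := N.pow_mem hm w
        rw [pow_mul a (p ^ t) m', hw] at h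
        exact h
      apply ha1
      have h3 : e = t + (e - t) := by omega
      rw [h3, pow_add, pow_mul]
      exact N.pow_mem h2 _
  have ha1' : a ≠ 1 := by
    intro h
    apply ha1
    rw [h, one_pow]
    exact N.one_mem
  set Z := Subgroup.zpowers a with hZ
  have hpow : ∀ z, z ∈ Z → ∃ m : ℕ, a ^ m = z := by
    intro z hz
    exact (Submonoid.mem_powers_iff _ _).1 ((isOfFinOrder_of_finite a).mem_powers_iff_mem_zpowers.2 hz)
  have hZN : ∀ z, z ∈ Z → z ∈ N → z = 1 := by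
    intro z hz hzN
    obtain ⟨m, rfl⟩ := hpow z hz
    exact hdisj m hzN
  set mk := QuotientGroup.mk' Z with hmk
  have hmksurj : Function.Surjective mk := QuotientGroup.mk'_surjective Z
  have hlt : Nat.card (A ⧸ Z) < k := by
    have h1 := Subgroup.card_eq_card_quotient_mul_card_subgroup Z
    have h2 : 1 < Nat.card Z := by
      rw [hZ, Nat.card_zpowers, hao]
      exact Nat.one_lt_pow (by omega) hp.one_lt
    rw [← hcard, h1]
    exact lt_mul_of_one_lt_right Nat.card_pos h2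
  have hH₁ : ∀ x : A ⧸ Z, x ^ p ∈ N.map mk → ∃ v : A ⧸ Z, ∃ n ∈ N.map mk, x = v ^ (p ^ e) * n := by
    intro xb hxb
    obtain ⟨x₀, rfl⟩ := hmksurj xb
    obtain ⟨n₀, hn₀, hne⟩ := hxb
    have h1 : x₀ ^ p * n₀⁻¹ ∈ Z := by
      apply (QuotientGroup.eq_one_iff _).1
      show mk (x₀ ^ p * n₀⁻¹) = 1
      rw [map_mul, map_pow, map_inv, ← hne, mul_inv_cancel]
    obtain ⟨m, hm⟩ := hpow _ h1
    have h2 : a ^ (m * p ^ e) ∈ N := by
      rw [pow_mul, hm, mul_pow, ← pow_mul, ← pow_succ', hexp, one_mul, inv_pow]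
      exact N.inv_mem (N.pow_mem hn₀ _)
    have h3 := hdisj _ h2
    have h4 : p ^ (e + 1) ∣ m * p ^ e := by
      rw [← hao]
      exact orderOf_dvd_of_pow_eq_one h3
    have h5 : p ∣ m := by
      rw [pow_succ'] at h4
      exact Nat.dvd_of_mul_dvd_mul_right (pow_pos hp.pos e) h4
    obtain ⟨m', rfl⟩ := h5
    set x₂ := x₀ * (a ^ m')⁻¹ with hx₂
    have h6 : x₂ ^ p = n₀ := by
      rw [hx₂, mul_pow, inv_pow, ← pow_mul, mul_comm m' p, hm]
      simp
    obtain ⟨v, n₂, hn₂, hv⟩ := hH x₂ (h6 ▸ hn₀)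
    refine ⟨mk v, mk n₂, ⟨n₂, hn₂, rfl⟩, ?_⟩
    have h7 : mk (a ^ m') = 1 := (QuotientGroup.eq_one_iff _).2 (Subgroup.pow_mem _ (Subgroup.mem_zpowers a) _)
    have h8 : x₀ = x₂ * a ^ m' := by
      rw [hx₂]; simp
    rw [h8, map_mul, h7, mul_one, hv, map_mul, map_pow]
  obtain ⟨H₁, h1, h2⟩ := ih _ hlt (A ⧸ Z) rfl (hP.to_quotient Z) (by
    intro b
    obtain ⟨b₀, rfl⟩ := hmksurj b
    rw [← map_pow, hexp, map_one]) (N.map mk) hH₁
  refine ⟨H₁.comap mk, ?_, ?_⟩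
  · rw [eq_bot_iff]
    rintro z ⟨hz1, hz2⟩
    have h3 : mk z ∈ N.map mk ⊓ H₁ := ⟨⟨z, hz1, rfl⟩, hz2⟩
    rw [h1] at h3
    exact hZN z ((QuotientGroup.eq_one_iff _).1 h3) hz1
  · rw [eq_top_iff]
    intro z _
    have h3 : mk z ∈ N.map mk ⊔ H₁ := by rw [h2]; trivial
    obtain ⟨_, ⟨n, hn', rfl⟩, h₁, hh₁, he⟩ := Subgroup.mem_sup.1 h3
    have h4 : z * n⁻¹ ∈ H₁.comap mk := by
      refine Subgroup.mem_comap.2 ?_
      rw [map_mul, map_inv, ← he]
      simpa using hh₁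
    have e2 : z = n * (z * n⁻¹) := by simp
    rw [e2]
    exact Subgroup.mul_mem _ (Subgroup.mem_sup_left hn') (Subgroup.mem_sup_right h4)

theorem inv_complement {V : Type u} [CommGroup V] [Finite V] {p : ℕ} [Fact p.Prime] (hV : ∀ v : V, v ^ p = 1)
    {X : Type*} [Group X] [Finite X] (hX : (Nat.card X).Coprime p) (ρ : X →* MulAut V) (U : Subgroup V)
    (hU : ∀ x, ∀ u ∈ U, ρ x u ∈ U) : ∃ W : Subgroup V, (∀ x, ∀ w ∈ W, ρ x w ∈ W) ∧ U ⊓ W = ⊥ ∧ U ⊔ W = ⊤ := by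
  have hP : IsPGroup p V := fun g => ⟨1, by simpa using hV g⟩
  obtain ⟨H, h1, h2⟩ := split_lemma p 0 _ V rfl hP (fun a => by simpa using hV a) U
    (fun x _ => ⟨x, 1, U.one_mem, by simp⟩)
  have hcop : (Nat.card X).Coprime (Nat.card V) := by
    obtain ⟨n, hn⟩ := IsPGroup.iff_card.1 hP
    rw [hn]
    exact hX.pow_right n
  exact Cfsg.Agent.Lib.PMaschke.abstract_maschke ρ hcop U H hU h1 h2

theorem key {A : Type u} [CommGroup A] [Finite A] {p : ℕ} [Fact p.Prime] (hA : IsPGroup p A) {X : Type*} [Group X]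
    [Finite X] (hX : (Nat.card X).Coprime p) (ρ : X →* MulAut A) (e : ℕ) (hexp : ∀ a : A, a ^ (p ^ (e + 1)) = 1)
    (S N₀ : Subgroup A) (hS : ∀ x, ∀ s ∈ S, ρ x s ∈ S) (hSe : ∀ s ∈ S, ∃ v, s = v ^ (p ^ e))
    (hS1 : ∀ s ∈ S, s ^ p = 1) (hN₀ : ∀ x, ∀ n ∈ N₀, ρ x n ∈ N₀) (hd : N₀ ⊓ S = ⊥) :
    ∃ N H : Subgroup A, N₀ ≤ N ∧ N ⊓ S = ⊥ ∧ (∀ x, ∀ n ∈ N, ρ x n ∈ N) ∧ (∀ x, ∀ h ∈ H, ρ x h ∈ H) ∧
      N ⊓ H = ⊥ ∧ N ⊔ H = ⊤ ∧ (∀ z, z ^ p ∈ N → z ∈ S ⊔ N) := by
  classical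
  obtain ⟨N, hN₀N, ⟨hNinv, hNd⟩, hmax⟩ := Set.Finite.exists_le_maximal
    (s := {N : Subgroup A | (∀ x, ∀ n ∈ N, ρ x n ∈ N) ∧ N ⊓ S = ⊥}) (Set.toFinite _) (a := N₀) ⟨hN₀, hd⟩
  let ρQ := quoAut ρ N hNinv
  set mk := QuotientGroup.mk' N with hmk
  let Ω : Subgroup (A ⧸ N) := (powMonoidHom p : (A ⧸ N) →* (A ⧸ N)).ker
  have hΩmem : ∀ y : A ⧸ N, y ∈ Ω ↔ y ^ p = 1 := fun y => Iff.rfl
  have hΩ : ∀ x, ∀ y ∈ Ω, ρQ x y ∈ Ω := by
    intro x y hy
    rw [hΩmem] at hy ⊢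
    rw [← map_pow, hy, map_one]
  let ρΩ := resAut ρQ Ω hΩ
  let U : Subgroup Ω := (S.map mk).subgroupOf Ω
  have hU : ∀ x, ∀ u ∈ U, ρΩ x u ∈ U := by
    intro x u hu
    obtain ⟨s, hs, hse⟩ := Subgroup.mem_subgroupOf.1 hu
    refine Subgroup.mem_subgroupOf.2 ⟨ρ x s, hS x s hs, ?_⟩
    show mk (ρ x s) = ρQ x u
    rw [← hse]
    rfl
  have hΩexp : ∀ v : Ω, v ^ p = 1 := fun v => Subtype.ext v.2
  obtain ⟨W, hWinv, hUW, hUWt⟩ := inv_complement hΩexp hX ρΩ U hU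
  have hW : W = ⊥ := by
    set U₂ : Subgroup A := (W.map Ω.subtype).comap mk with hU₂
    have hU₂inv : ∀ x, ∀ n ∈ U₂, ρ x n ∈ U₂ := by
      intro x n hn
      obtain ⟨w, hw, hwe⟩ := Subgroup.mem_comap.1 hn
      refine Subgroup.mem_comap.2 ⟨ρΩ x w, hWinv x w hw, ?_⟩
      show ρQ x (w : A ⧸ N) = mk (ρ x n)
      have hwe' : (w : A ⧸ N) = mk n := hwe
      rw [hwe']
      rfl
    have hNU₂ : N ≤ U₂ := by
      intro n hn
      refine Subgroup.mem_comap.2 ⟨1, W.one_mem, ?_⟩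
      exact ((QuotientGroup.eq_one_iff n).2 hn).symm
    have hU₂d : U₂ ⊓ S = ⊥ := by
      rw [eq_bot_iff]
      rintro z ⟨hz1, hz2⟩
      obtain ⟨w, hw, hwe⟩ := Subgroup.mem_comap.1 hz1
      have hwe' : (w : A ⧸ N) = mk z := hwe
      have h1 : w ∈ U := Subgroup.mem_subgroupOf.2 ⟨z, hz2, hwe'.symm⟩
      have h2 : w ∈ U ⊓ W := ⟨h1, hw⟩
      rw [hUW, Subgroup.mem_bot] at h2
      rw [h2] at hwe'
      have h3 : z ∈ N := (QuotientGroup.eq_one_iff z).1 hwe'.symm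
      have h4 : z ∈ N ⊓ S := ⟨h3, hz2⟩
      rwa [hNd] at h4
    have h5 := hmax ⟨hU₂inv, hU₂d⟩ hNU₂
    rw [eq_bot_iff]
    intro w hw
    obtain ⟨z, hz⟩ := QuotientGroup.mk'_surjective N (w : A ⧸ N)
    have h6 : z ∈ U₂ := Subgroup.mem_comap.2 ⟨w, hw, hz.symm⟩
    have h7 := h5 h6
    have h8 : mk z = 1 := (QuotientGroup.eq_one_iff z).2 h7
    exact Subtype.ext (hz.symm.trans h8)
  have hUt : U = ⊤ := by
    rw [hW, sup_bot_eq] at hUWt
    exact hUWt
  have hH : ∀ z, z ^ p ∈ N → z ∈ S ⊔ N := by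
    intro z hz
    have h1 : mk z ∈ Ω := by
      rw [hΩmem, ← map_pow]
      exact (QuotientGroup.eq_one_iff _).2 hz
    have h2 : (⟨mk z, h1⟩ : Ω) ∈ U := by
      rw [hUt]; trivial
    obtain ⟨s, hs, hse⟩ := Subgroup.mem_subgroupOf.1 h2
    have h3 : s⁻¹ * z ∈ N := by
      apply (QuotientGroup.eq_one_iff _).1
      show mk (s⁻¹ * z) = 1
      have hse' : mk s = mk z := hse
      rw [map_mul, map_inv, hse', inv_mul_cancel]
    have e2 : z = s * (s⁻¹ * z) := by simp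
    rw [e2]
    exact Subgroup.mul_mem _ (Subgroup.mem_sup_left hs) (Subgroup.mem_sup_right h3)
  obtain ⟨H₀, h1, h2⟩ := split_lemma p e _ A rfl hA hexp N (fun x hx => by
    obtain ⟨s, hs, n, hn, he⟩ := Subgroup.mem_sup.1 (hH x hx)
    obtain ⟨v, rfl⟩ := hSe s hs
    exact ⟨v, n, hn, he.symm⟩)
  have hcop : (Nat.card X).Coprime (Nat.card A) := by
    obtain ⟨n, hn⟩ := IsPGroup.iff_card.1 hA
    rw [hn]
    exact hX.pow_right n
  obtain ⟨H, hHinv, h3, h4⟩ := Cfsg.Agent.Lib.PMaschke.abstract_maschke ρ hcop N H₀ hNinv h1 h2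
  exact ⟨N, H, hN₀N, hNd, hNinv, hHinv, h3, h4, hH⟩

theorem inv_iff {A : Type*} [CommGroup A] (X : Subgroup (MulAut A)) (B : Subgroup A) :
    (∀ x ∈ X, B.map (x : A ≃* A).toMonoidHom = B) ↔ ∀ x : X, ∀ b ∈ B, (X.subtype x) b ∈ B := by
  constructor
  · intro h x b hb
    have h1 := h x x.2
    have h2 : (x : MulAut A) b ∈ B.map ((x : MulAut A) : A ≃* A).toMonoidHom := ⟨b, hb, rfl⟩
    rw [h1] at h2
    exact h2
  · intro h x hx
    apply le_antisymm
    · rintro _ ⟨b, hb, rfl⟩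
      exact h ⟨x, hx⟩ b hb
    · intro b hb
      refine ⟨(x⁻¹ : MulAut A) b, h ⟨x⁻¹, X.inv_mem hx⟩ b hb, ?_⟩
      show x (x⁻¹ b) = b
      simp

/-- Let A be a finite abelian p-group and X a group of automorphisms of A of order prime to p. Call a subgroup of A invariant when every element of X maps it onto itself. Then the following are equivalent: (i) A is not the direct product of two nontrivial invariant subgroups; (ii) every invariant subgroup of A is one of the subgroups Ω_i(A) = {a : a^(p^i) = 1}; (iii) the subgroup Ω₁(A) of elements of order dividing p has no invariant subgroups other than 1 and itself. -/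
theorem result {A : Type*} [CommGroup A] [Finite A] {p : ℕ} [Fact p.Prime] (hA : IsPGroup p A) (X : Subgroup (MulAut A)) (hX : (Nat.card X).Coprime p) : ((¬ ∃ B C : Subgroup A, B ≠ ⊥ ∧ C ≠ ⊥ ∧ (∀ x ∈ X, B.map x.toMonoidHom = B) ∧ (∀ x ∈ X, C.map x.toMonoidHom = C) ∧ B ⊓ C = ⊥ ∧ B ⊔ C = ⊤) ↔ (∀ B : Subgroup A, (∀ x ∈ X, B.map x.toMonoidHom = B) → ∃ i : ℕ, ∀ a : A, a ∈ B ↔ a ^ p ^ i = 1)) ∧ ((∀ B : Subgroup A, (∀ x ∈ X, B.map x.toMonoidHom = B) → ∃ i : ℕ, ∀ a : A, a ∈ B ↔ a ^ p ^ i = 1) ↔ (∀ B : Subgroup A, (∀ x ∈ X, B.map x.toMonoidHom = B) → (∀ b ∈ B, b ^ p = 1) → B = ⊥ ∨ ∀ a : A, a ∈ B ↔ a ^ p = 1)) := by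
  classical
  have hp : p.Prime := Fact.out
  haveI : Finite (MulAut A) := inferInstance
  set ρ := X.subtype with hρ
  have h23 : (∀ B : Subgroup A, (∀ x ∈ X, B.map x.toMonoidHom = B) → ∃ i : ℕ, ∀ a : A, a ∈ B ↔ a ^ p ^ i = 1) →
      (¬ ∃ B C : Subgroup A, B ≠ ⊥ ∧ C ≠ ⊥ ∧ (∀ x ∈ X, B.map x.toMonoidHom = B) ∧ (∀ x ∈ X, C.map x.toMonoidHom = C) ∧ B ⊓ C = ⊥ ∧ B ⊔ C = ⊤) := by
    rintro hii ⟨B, C, hB, hC, hBi, hCi, hinf, -⟩
    obtain ⟨i, hi⟩ := hii B hBi
    obtain ⟨j, hj⟩ := hii C hCi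
    rcases le_total i j with h | h
    · apply hB
      rw [eq_bot_iff, ← hinf]
      intro a ha
      refine ⟨ha, (hj a).2 ?_⟩
      obtain ⟨s, rfl⟩ := Nat.exists_eq_add_of_le h
      rw [pow_add, pow_mul, (hi a).1 ha, one_pow]
    · apply hC
      rw [eq_bot_iff, ← hinf]
      intro a ha
      refine ⟨(hi a).2 ?_, ha⟩
      obtain ⟨s, rfl⟩ := Nat.exists_eq_add_of_le h
      rw [pow_add, pow_mul, (hj a).1 ha, one_pow]
  have h24 : (∀ B : Subgroup A, (∀ x ∈ X, B.map x.toMonoidHom = B) → ∃ i : ℕ, ∀ a : A, a ∈ B ↔ a ^ p ^ i = 1) →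
      (∀ B : Subgroup A, (∀ x ∈ X, B.map x.toMonoidHom = B) → (∀ b ∈ B, b ^ p = 1) → B = ⊥ ∨ ∀ a : A, a ∈ B ↔ a ^ p = 1) := by
    intro hii B hBi hB1
    obtain ⟨i, hi⟩ := hii B hBi
    rcases Nat.eq_zero_or_pos i with rfl | hpos
    · left
      rw [eq_bot_iff]
      intro a ha
      have := (hi a).1 ha
      simpa using this
    · right
      intro a
      refine ⟨hB1 a, fun h => (hi a).2 ?_⟩
      obtain ⟨s, rfl⟩ : ∃ s, i = s + 1 := ⟨i - 1, by omega⟩
      rw [pow_succ', pow_mul, h, one_pow]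
  have h42 : (∀ B : Subgroup A, (∀ x ∈ X, B.map x.toMonoidHom = B) → (∀ b ∈ B, b ^ p = 1) → B = ⊥ ∨ ∀ a : A, a ∈ B ↔ a ^ p = 1) →
      (∀ B : Subgroup A, (∀ x ∈ X, B.map x.toMonoidHom = B) → ∃ i : ℕ, ∀ a : A, a ∈ B ↔ a ^ p ^ i = 1) := by
    intro hiii
    have main : ∀ i : ℕ, ∀ B : Subgroup A, (∀ x ∈ X, B.map x.toMonoidHom = B) → (∀ b ∈ B, b ^ (p ^ i) = 1) →
        ∃ j : ℕ, ∀ a : A, a ∈ B ↔ a ^ p ^ j = 1 := by
      intro i
      induction i with
      | zero =>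
        intro B _ hB
        refine ⟨0, fun a => ⟨fun h => by simpa using hB a h, fun h => ?_⟩⟩
        have : a = 1 := by simpa using h
        rw [this]
        exact B.one_mem
      | succ i ih =>
        intro B hBi hB
        have hBi' := (inv_iff X B).1 hBi
        set B' : Subgroup A := B.map (powMonoidHom p) with hB'
        have hB'i : ∀ x ∈ X, B'.map x.toMonoidHom = B' := by
          apply (inv_iff X B').2
          rintro x _ ⟨b, hb, rfl⟩
          refine ⟨_, hBi' x b hb, ?_⟩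
          show ((x : MulAut A) b) ^ p = (x : MulAut A) (b ^ p)
          rw [map_pow]
        obtain ⟨j, hj⟩ := ih B' hB'i (by
          rintro _ ⟨b, hb, rfl⟩
          show (b ^ p) ^ (p ^ i) = 1
          rw [← pow_mul, ← pow_succ']
          exact hB b hb)
        by_cases hB0 : B = ⊥
        · refine ⟨0, fun a => ?_⟩
          rw [hB0, Subgroup.mem_bot]
          simp
        set B₁ : Subgroup A := B ⊓ (powMonoidHom p : A →* A).ker with hB₁
        have hB₁i : ∀ x ∈ X, B₁.map x.toMonoidHom = B₁ := by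
          apply (inv_iff X B₁).2
          rintro x b ⟨hb1, hb2⟩
          refine ⟨hBi' x b hb1, ?_⟩
          show ((x : MulAut A) b) ^ p = 1
          have hb2' : b ^ p = 1 := hb2
          rw [← map_pow, hb2', map_one]
        rcases hiii B₁ hB₁i (fun b hb => hb.2) with h | h
        · exfalso
          apply hB0
          rw [eq_bot_iff]
          intro b hb
          rw [Subgroup.mem_bot]
          by_contra hb1
          -- find element of order p in B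
          obtain ⟨k, hk⟩ := IsPGroup.iff_orderOf.1 hA b
          rcases Nat.eq_zero_or_pos k with rfl | hkpos
          · rw [pow_zero, orderOf_eq_one_iff] at hk
            exact hb1 hk
          obtain ⟨s, rfl⟩ : ∃ s, k = s + 1 := ⟨k - 1, by omega⟩
          have h1 : b ^ (p ^ s) ∈ B₁ := by
            refine ⟨B.pow_mem hb _, ?_⟩
            show (b ^ (p ^ s)) ^ p = 1
            rw [← pow_mul, ← pow_succ, ← hk]
            exact pow_orderOf_eq_one b
          rw [h, Subgroup.mem_bot] at h1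
          have h2 : orderOf b ∣ p ^ s := orderOf_dvd_of_pow_eq_one h1
          rw [hk] at h2
          have h3 := Nat.le_of_dvd (pow_pos hp.pos _) h2
          have h4 : p ^ s < p ^ (s + 1) := Nat.pow_lt_pow_right hp.one_lt (by omega)
          omega
        · refine ⟨j + 1, fun a => ⟨fun ha => ?_, fun ha => ?_⟩⟩
          · have h1 : a ^ p ∈ B' := ⟨a, ha, rfl⟩
            have h2 := (hj _).1 h1
            rw [pow_succ', pow_mul]
            exact h2
          · have h1 : (a ^ p) ^ p ^ j = 1 := by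
              rw [← pow_mul, ← pow_succ']
              exact ha
            obtain ⟨b, hb, hbe⟩ := (hj _).2 h1
            have hbe' : b ^ p = a ^ p := hbe
            have h2 : (a * b⁻¹) ^ p = 1 := by
              rw [mul_pow, inv_pow, hbe', mul_inv_cancel]
            have h3 : a * b⁻¹ ∈ B₁ := (h _).2 h2
            have e2 : a = (a * b⁻¹) * b := by simp
            rw [e2]
            exact B.mul_mem h3.1 hb
    intro B hBi
    obtain ⟨c, hc⟩ := IsPGroup.iff_card.1 hA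
    exact main c B hBi (fun b _ => by rw [← hc]; exact pow_card_eq_one')
  have h14 : (¬ ∃ B C : Subgroup A, B ≠ ⊥ ∧ C ≠ ⊥ ∧ (∀ x ∈ X, B.map x.toMonoidHom = B) ∧ (∀ x ∈ X, C.map x.toMonoidHom = C) ∧ B ⊓ C = ⊥ ∧ B ⊔ C = ⊤) →
      (∀ B : Subgroup A, (∀ x ∈ X, B.map x.toMonoidHom = B) → (∀ b ∈ B, b ^ p = 1) → B = ⊥ ∨ ∀ a : A, a ∈ B ↔ a ^ p = 1) := by
    intro hi B hBi hB1
    by_cases hB0 : B = ⊥
    · exact Or.inl hB0
    right
    have hi' : ∀ C D : Subgroup A, (∀ x : X, ∀ b ∈ C, ρ x b ∈ C) → (∀ x : X, ∀ b ∈ D, ρ x b ∈ D) →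
        C ⊓ D = ⊥ → C ⊔ D = ⊤ → C = ⊥ ∨ D = ⊥ := by
      intro C D hC hD h1 h2
      by_contra hcon
      push Not at hcon
      exact hi ⟨C, D, hcon.1, hcon.2, (inv_iff X C).2 hC, (inv_iff X D).2 hD, h1, h2⟩
    have hex : ∃ e : ℕ, ∀ a : A, a ^ (p ^ e) = 1 := by
      obtain ⟨c, hc⟩ := IsPGroup.iff_card.1 hA
      exact ⟨c, fun a => by rw [← hc]; exact pow_card_eq_one'⟩
    have he0 : Nat.find hex ≠ 0 := by
      intro h0
      have h1 := Nat.find_spec hex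
      rw [h0] at h1
      apply hB0
      rw [eq_bot_iff]
      intro b _
      simpa using h1 b
    obtain ⟨e, he⟩ := Nat.exists_eq_succ_of_ne_zero he0
    have hexp : ∀ a : A, a ^ (p ^ (e + 1)) = 1 := by
      have h1 := Nat.find_spec hex
      rwa [he] at h1
    have hne : ¬ ∀ a : A, a ^ (p ^ e) = 1 := Nat.find_min hex (by omega)
    push Not at hne
    obtain ⟨a₀, ha₀⟩ := hne
    set S₀ : Subgroup A := (powMonoidHom (p ^ e) : A →* A).range with hS₀
    have hS₀ne : S₀ ≠ ⊥ := by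
      intro h0
      apply ha₀
      have h1 : a₀ ^ (p ^ e) ∈ S₀ := ⟨a₀, rfl⟩
      rwa [h0] at h1
    have hS₀inv : ∀ x : X, ∀ s ∈ S₀, ρ x s ∈ S₀ := by
      rintro x _ ⟨v, rfl⟩
      exact ⟨ρ x v, by show (ρ x v) ^ (p ^ e) = ρ x (v ^ (p ^ e)); rw [map_pow]⟩
    obtain ⟨N, H, -, hNS, hNi, hHi, h1, h2, hH⟩ := key hA hX ρ e hexp S₀ ⊥ hS₀inv (by
        rintro _ ⟨v, rfl⟩
        exact ⟨v, rfl⟩) (by
        rintro _ ⟨v, rfl⟩
        show (v ^ (p ^ e)) ^ p = 1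
        rw [← pow_mul, ← pow_succ]
        exact hexp v) (fun x n hn => by
          rw [Subgroup.mem_bot] at hn ⊢
          rw [hn, map_one]) (by simp)
    have hN0 : N = ⊥ := by
      rcases hi' N H hNi hHi h1 h2 with h | h
      · exact h
      · exfalso
        rw [h, sup_bot_eq] at h2
        rw [h2, top_inf_eq] at hNS
        exact hS₀ne hNS
    rw [hN0] at hH
    have hΩ₁ : ∀ z : A, z ^ p = 1 → ∃ v, z = v ^ (p ^ e) := by
      intro z hz
      have h3 := hH z (by rw [hz]; exact Subgroup.one_mem _)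
      rw [sup_bot_eq] at h3
      obtain ⟨v, hv⟩ := h3
      exact ⟨v, hv.symm⟩
    intro a
    refine ⟨hB1 a, fun ha => ?_⟩
    by_contra haB
    -- Maschke in Ω₁
    have hBi' := (inv_iff X B).1 hBi
    let Ω₁ : Subgroup A := (powMonoidHom p : A →* A).ker
    have hΩ₁i : ∀ x : X, ∀ y ∈ Ω₁, ρ x y ∈ Ω₁ := by
      intro x y hy
      have hy' : y ^ p = 1 := hy
      show (ρ x y) ^ p = 1
      rw [← map_pow, hy', map_one]
    have hΩ₁exp : ∀ v : Ω₁, v ^ p = 1 := fun v => Subtype.ext v.2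
    obtain ⟨W, hWi, hWd, hWt⟩ := inv_complement hΩ₁exp hX (resAut ρ Ω₁ hΩ₁i) (B.subgroupOf Ω₁) (by
      intro x u hu
      exact Subgroup.mem_subgroupOf.2 (hBi' x u (Subgroup.mem_subgroupOf.1 hu)))
    set C : Subgroup A := W.map Ω₁.subtype with hC
    have hCne : C ≠ ⊥ := by
      intro h0
      have hW0 : W = ⊥ := by
        rwa [hC, Subgroup.map_eq_bot_iff_of_injective _ Ω₁.subtype_injective] at h0
      rw [hW0, sup_bot_eq] at hWt
      have h3 : (⟨a, ha⟩ : Ω₁) ∈ B.subgroupOf Ω₁ := by rw [hWt]; trivial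
      exact haB (Subgroup.mem_subgroupOf.1 h3)
    have hCi : ∀ x : X, ∀ c ∈ C, ρ x c ∈ C := by
      rintro x _ ⟨w, hw, rfl⟩
      exact ⟨_, hWi x w hw, rfl⟩
    have hCB : C ⊓ B = ⊥ := by
      rw [eq_bot_iff]
      rintro _ ⟨⟨w, hw, rfl⟩, hb⟩
      have h3 : w ∈ B.subgroupOf Ω₁ ⊓ W := ⟨Subgroup.mem_subgroupOf.2 hb, hw⟩
      rw [hWd, Subgroup.mem_bot] at h3
      rw [h3]
      exact Subgroup.one_mem _
    obtain ⟨N', H', hCN, hN'B, hN'i, hH'i, h3, h4, -⟩ := key hA hX ρ e hexp B C hBi'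
      (fun s hs => hΩ₁ s (hB1 s hs)) hB1 hCi hCB
    rcases hi' N' H' hN'i hH'i h3 h4 with h | h
    · apply hCne
      rw [eq_bot_iff, ← h]
      exact hCN
    · rw [h, sup_bot_eq] at h4
      rw [h4, top_inf_eq] at hN'B
      exact hB0 hN'B
  exact ⟨⟨fun hi => h42 (h14 hi), h23⟩, ⟨h24, h42⟩⟩

end Cfsg.Agent.S3775
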