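import Cfsg.Statements.S3780
import Cfsg.Agent.Lib.FGSAut
import Cfsg.Agent.Lib.PGrp2
-- import your own Cfsg.Agent.* helpers here

set_option autoImplicit false
open Cfsg

namespace Cfsg.Agent.S3780

open Subgroup

variable {V : Type*} [CommGroup V]

/-- Iterates as homomorphisms. -/
def iter (f : V →* V) : ℕ → (V →* V)
  | 0 => MonoidHom.id V
  | i + 1 => (iter f i).comp f

theorem iter_succ (f : V →* V) (i : ℕ) (v : V) : iter f (i + 1) v = iter f i (f v) := rfl

theorem iter_range_le (f : V →* V) (i : ℕ) : (iter f (i + 1)).range ≤ (iter f i).range := by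
  rintro _ ⟨v, rfl⟩
  exact ⟨f v, rfl⟩

/-- The index chain. -/
theorem index_chain [Finite V] (f : V →* V) (P : Subgroup V) (m : ℕ) (hm : f.range.index = m) (i : ℕ) :
    ((iter f i).range ⊔ P).index ≤ m ^ i := by
  have hm0 : 0 < m := by rw [← hm]; exact Nat.pos_of_ne_zero Subgroup.index_ne_zero_of_finite
  induction i with
  | zero =>
    have : (iter f 0).range = ⊤ := MonoidHom.range_eq_top.mpr (fun v => ⟨v, rfl⟩)
    rw [this, top_sup_eq]; simp
  | succ i ih =>
    set W := (iter f (i + 1)).range ⊔ P with hW
    set W' := (iter f i).range ⊔ P with hW'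
    have hle : W ≤ W' := sup_le_sup_right (iter_range_le f i) P
    have hsup : (iter f i).range ⊔ W = W' := by
      apply le_antisymm
      · exact sup_le le_sup_left hle
      · exact sup_le le_sup_left (le_trans le_sup_right le_sup_right)
    have h1 : W.relIndex W' = (W.comap (iter f i)).index := by
      rw [← hsup, Subgroup.relIndex_sup_right, Subgroup.index_comap]
    have h2 : f.range ≤ W.comap (iter f i) := by
      rintro _ ⟨v, rfl⟩
      show iter f i (f v) ∈ W
      exact Subgroup.mem_sup_left ⟨v, rfl⟩
    have h3 : (W.comap (iter f i)).index ≤ m := by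
      rw [← hm]
      exact Nat.le_of_dvd (Nat.pos_of_ne_zero Subgroup.index_ne_zero_of_finite)
        (Subgroup.index_dvd_of_le h2)
    have h4 := Subgroup.relIndex_mul_index hle
    rw [← h4, h1, pow_succ, mul_comm (m ^ i)]
    exact Nat.mul_le_mul h3 ih

theorem aux_pow [Finite V] {p : ℕ} (hp : p.Prime) (α : MulAut V) (hα : α ^ p = 1) (f : V →* V)
    (hf : ∀ v, f v = α v * v⁻¹) (v : V) : iter f p v ∈ (powMonoidHom p : V →* V).range := by
  let A : AddMonoid.End (Additive V) := MonoidHom.toAdditive (α : V ≃* V).toMonoidHom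
  have hA : ∀ x, A x = Additive.ofMul (α (Additive.toMul x)) := fun x => rfl
  have hApow : ∀ (k : ℕ) x, (A ^ k) x = Additive.ofMul ((α ^ k) (Additive.toMul x)) := by
    intro k
    induction k with
    | zero => intro x; simp
    | succ k ih =>
      intro x
      rw [pow_succ, pow_succ]
      show (A ^ k) (A x) = _
      rw [ih, hA]
      rfl
  have hAp : A ^ p = 1 := by
    ext x
    rw [hApow, hα]
    rfl
  set B : AddMonoid.End (Additive V) := A + (-1) with hB
  have hBx : ∀ x, B x = Additive.ofMul (f (Additive.toMul x)) := by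
    intro x
    rw [hf]
    rfl
  have hBi : ∀ (i : ℕ) (w : V), (B ^ i) (Additive.ofMul w) = Additive.ofMul (iter f i w) := by
    intro i
    induction i with
    | zero => intro w; rfl
    | succ i ih =>
      intro w
      rw [pow_succ]
      show (B ^ i) (B (Additive.ofMul w)) = _
      rw [hBx]
      exact ih (f w)
  obtain ⟨s, hs⟩ : ∃ s : AddMonoid.End (Additive V), B ^ p = (p : AddMonoid.End (Additive V)) * s := by
    obtain ⟨r, hr⟩ := (Commute.one_right A).neg_right.exists_add_pow_prime_eq hp
    rw [hAp] at hr
    rcases hp.eq_two_or_odd' with rfl | hodd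
    · refine ⟨1 + A * (-1) * r, ?_⟩
      rw [hB, hr, mul_add, mul_one]
      simp only [neg_one_sq, mul_assoc, Nat.cast_ofNat, one_add_one_eq_two]
    · refine ⟨A * (-1) * r, ?_⟩
      rw [hB, hr, hodd.neg_one_pow, add_neg_cancel, zero_add]
      simp only [mul_assoc]
  refine ⟨Additive.toMul (s (Additive.ofMul v)), ?_⟩
  have h1 := hBi p v
  rw [hs] at h1
  have h2 : ((p : AddMonoid.End (Additive V)) * s) (Additive.ofMul v) = p • s (Additive.ofMul v) := rfl
  rw [h2] at h1
  have h3 : Additive.toMul (p • s (Additive.ofMul v)) = iter f p v := by rw [h1]; rfl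
  rw [← h3]
  rfl

/-- Let V be a finite abelian p-group and α an automorphism of V of order p whose fixed-point subgroup has order p^n. Then V can be generated by pn elements: some subset of V with at most pn elements generates V. -/
theorem result {V : Type*} [CommGroup V] [Finite V] {p : ℕ} [Fact p.Prime] (hV : IsPGroup p V) (α : MulAut V) (hα : orderOf α = p) (n : ℕ) (hfix : Nat.card {v : V // α v = v} = p ^ n) : ∃ S : Finset V, S.card ≤ p * n ∧ Subgroup.closure (S : Set V) = ⊤ := by
  classical
  have hpp : p.Prime := Fact.out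
  let f : V →* V :=
    { toFun := fun v => α v * v⁻¹
      map_one' := by simp
      map_mul' := by
        intro a b
        simp only [map_mul, mul_inv]
        rw [mul_mul_mul_comm] }
  have hf : ∀ v, f v = α v * v⁻¹ := fun v => rfl
  have hker : Nat.card f.ker = p ^ n := by
    rw [← hfix]
    refine Nat.card_congr (Equiv.subtypeEquivRight ?_)
    intro v
    rw [MonoidHom.mem_ker, hf, mul_inv_eq_one]
  have hidx : f.range.index = p ^ n := by
    have h1 := f.ker.card_mul_index
    have h2 := f.range.card_mul_index
    rw [Subgroup.index_ker] at h1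
    have h3 : Nat.card f.range * f.range.index = Nat.card f.range * p ^ n := by
      rw [h2, ← h1, hker, mul_comm]
    exact Nat.eq_of_mul_eq_mul_left Nat.card_pos h3
  have hαp : α ^ p = 1 := by rw [← hα]; exact pow_orderOf_eq_one α
  set P : Subgroup V := (powMonoidHom p : V →* V).range with hP
  have hchain := index_chain f P (p ^ n) hidx p
  have hW : (iter f p).range ⊔ P = P := by
    apply sup_eq_right.mpr
    rintro _ ⟨v, rfl⟩
    exact aux_pow hpp α hαp f hf v
  rw [hW] at hchain
  -- frattini
  have hΦ : P ≤ frattini V := by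
    rintro _ ⟨v, rfl⟩
    exact Lib.PGrp.pow_mem_frattini hV v
  have hidx2 : (frattini V).index ≤ (p ^ n) ^ p := by
    refine le_trans (Nat.le_of_dvd (Nat.pos_of_ne_zero Subgroup.index_ne_zero_of_finite)
      (Subgroup.index_dvd_of_le hΦ)) hchain
  obtain ⟨r, hr⟩ : ∃ r, (frattini V).index = p ^ r := by
    have hq : IsPGroup p (V ⧸ frattini V) := hV.to_quotient _
    obtain ⟨r, hr⟩ := IsPGroup.iff_card.mp hq
    exact ⟨r, by rw [← hr]; rfl⟩
  have hrle : r ≤ p * n := by
    rw [hr, ← pow_mul] at hidx2
    have := (Nat.pow_le_pow_iff_right hpp.one_lt).mp hidx2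
    rwa [mul_comm] at this
  -- the quotient as a vector space
  letI hmod : Module (ZMod p) (Additive (V ⧸ frattini V)) := AddCommGroup.zmodModule (by
    intro x
    induction x using Additive.rec with
    | _ y =>
      induction y using QuotientGroup.induction_on with
      | _ v =>
        show Additive.ofMul ((QuotientGroup.mk v : V ⧸ frattini V) ^ p) = 0
        rw [← QuotientGroup.mk_pow, (QuotientGroup.eq_one_iff (v ^ p)).mpr (Lib.PGrp.pow_mem_frattini hV v)]
        rfl)
  obtain ⟨x, hx⟩ := Lib.FGSAut.exists_tuple (p := p) (P := V) (E := V ⧸ frattini V) (r := r)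
    (by rw [← hr]; rfl) (QuotientGroup.mk' _) (QuotientGroup.mk'_surjective _) (QuotientGroup.ker_mk' _)
  refine ⟨Finset.univ.image x, ?_, ?_⟩
  · refine le_trans Finset.card_image_le ?_
    simpa using hrle
  · rw [← hx]
    congr 1
    ext y
    simp

end Cfsg.Agent.S3780
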