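import Cfsg.Statements.S3781
import Mathlib
import Cfsg.Agent.Lib.FGSBasic
-- import your own Cfsg.Agent.* helpers here

set_option autoImplicit false
open Cfsg

namespace Cfsg.Agent.S3781

open scoped commutatorElement

/-- iterated commutators with the whole group -/
def iter {G : Type*} [Group G] (U : Subgroup G) : ℕ → Subgroup G
  | 0 => U
  | j + 1 => ⁅iter U j, ⊤⁆

theorem iter_normal {G : Type*} [Group G] (U : Subgroup G) [hU : U.Normal] : ∀ j, (iter U j).Normal
  | 0 => hU
  | j + 1 => by
    haveI := iter_normal U j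
    show (⁅iter U j, ⊤⁆ : Subgroup G).Normal
    exact Subgroup.commutator_normal _ _

theorem iter_shift {G : Type*} [Group G] (U : Subgroup G) : ∀ j, iter ⁅U, ⊤⁆ j = iter U (j + 1)
  | 0 => rfl
  | j + 1 => by
    show ⁅iter ⁅U, ⊤⁆ j, ⊤⁆ = ⁅iter U (j + 1), ⊤⁆
    rw [iter_shift U j]

theorem comm_lcs_le {G : Type*} [Group G] : ∀ (m : ℕ) (U : Subgroup G) [U.Normal],
    ⁅U, (⊤ : Subgroup G).lowerCentralSeries m⁆ ≤ iter U (m + 1) := by
  intro m
  induction m with
  | zero => intro U _; exact le_rfl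
  | succ m ih =>
    intro U _
    haveI : (iter U (m + 1 + 1)).Normal := iter_normal U _
    rw [Subgroup.lowerCentralSeries_succ, Subgroup.commutator_comm]
    apply Lib.FGSBasic.three_subgroups
    · rw [Subgroup.commutator_comm ⊤ U, Subgroup.commutator_comm]
      have h1 := ih ⁅U, ⊤⁆
      rw [iter_shift] at h1
      rw [Subgroup.commutator_comm]
      exact h1
    · exact Subgroup.commutator_mono (ih U) le_rfl

theorem sup_comm_le {G : Type*} [Group G] (A V : Subgroup G) [hV : V.Normal] :
    ⁅A ⊔ V, (⊤ : Subgroup G)⁆ ≤ ⁅A, (⊤ : Subgroup G)⁆ ⊔ V := by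
  rw [Subgroup.commutator_le]
  intro x hx g _
  rw [← SetLike.mem_coe, Subgroup.mul_normal, Set.mem_mul] at hx
  obtain ⟨a, ha, v, hv, rfl⟩ := hx
  have h1 : ⁅a * v, g⁆ = (a * (v * g * v⁻¹ * g⁻¹) * a⁻¹) * ⁅a, g⁆ := by
    simp only [commutatorElement_def]; group
  rw [h1]
  refine mul_mem (Subgroup.mem_sup_right ?_) (Subgroup.mem_sup_left (Subgroup.commutator_mem_commutator ha (Subgroup.mem_top g)))
  apply hV.conj_mem
  have : v * g * v⁻¹ * g⁻¹ = v * (g * v⁻¹ * g⁻¹) := by group
  rw [this]
  exact mul_mem hv (hV.conj_mem _ (inv_mem hv) g)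

theorem le_of_le_comm {G : Type*} [Group G] [Group.IsNilpotent G] (X V : Subgroup G) [hV : V.Normal]
    (h : X ≤ ⁅X, (⊤ : Subgroup G)⁆ ⊔ V) : X ≤ V := by
  obtain ⟨m, hm⟩ := nilpotent_iff_lowerCentralSeries.mp (inferInstance : Group.IsNilpotent G)
  have key : ∀ k, X ≤ (⊤ : Subgroup G).lowerCentralSeries k ⊔ V := by
    intro k
    induction k with
    | zero => exact le_trans le_top (by simp)
    | succ k ih =>
      refine h.trans (sup_le ?_ le_sup_right)
      refine (Subgroup.commutator_mono ih le_rfl).trans ?_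
      exact sup_comm_le _ V
  have := key m
  rwa [hm, bot_sup_eq] at this

theorem le_relIndex_of_lt {G : Type*} [Group G] [Finite G] {p : ℕ} [hp : Fact p.Prime] (hG : IsPGroup p G)
    {A B : Subgroup G} (h : A ⊓ B ≠ B) : p ≤ A.relIndex B := by
  have hd : A.relIndex B ∣ Nat.card B := Subgroup.relIndex_dvd_card _ _
  obtain ⟨t, ht⟩ := IsPGroup.iff_card.mp (hG.to_subgroup B)
  rw [ht] at hd
  obtain ⟨s, -, hs⟩ := (Nat.dvd_prime_pow hp.out).mp hd
  rw [hs]
  have hs0 : s ≠ 0 := by
    rintro rfl
    rw [pow_zero, Subgroup.relIndex_eq_one] at hs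
    exact h (inf_eq_right.mpr hs)
  calc p = p ^ 1 := (pow_one p).symm
    _ ≤ p ^ s := Nat.pow_le_pow_right hp.out.pos (Nat.pos_of_ne_zero hs0)

theorem lcs_normal {G : Type*} [Group G] (N : Subgroup G) [hN : N.Normal] : ∀ k, (N.lowerCentralSeries k).Normal
  | 0 => hN
  | k + 1 => by
    haveI := lcs_normal N k
    rw [Subgroup.lowerCentralSeries_succ]
    exact Subgroup.commutator_normal _ _

/-- Let G be a finite p-group and n ≥ 1, and write γ_1(G) = G, γ_{k+1}(G) = [γ_k(G), G], and likewise γ_k(N) for a subgroup N. Let N be a normal subgroup of G contained in γ_n(G). If i > 1 and γ_{i+1}(N) ≠ 1, then |γ_i(N) : γ_{i+1}(N)| ≥ p^n. -/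
theorem result {G : Type*} [Group G] [Finite G] {p : ℕ} [Fact p.Prime] (hG : IsPGroup p G) (n : ℕ) (hn : 1 ≤ n) (N : Subgroup G) [N.Normal] (hN : N ≤ (⊤ : Subgroup G).lowerCentralSeries (n - 1)) (i : ℕ) (hi : 1 < i) (hne : N.lowerCentralSeries i ≠ ⊥) : p ^ n ≤ (N.lowerCentralSeries i).relIndex (N.lowerCentralSeries (i - 1)) := by
  haveI : Group.IsNilpotent G := hG.isNilpotent
  obtain ⟨m, rfl⟩ : ∃ m, n = m + 1 := ⟨n - 1, by omega⟩
  obtain ⟨i', rfl⟩ : ∃ i', i = i' + 1 := ⟨i - 1, by omega⟩
  simp only [Nat.add_sub_cancel] at hN ⊢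
  by_contra hlt
  push Not at hlt
  set U := N.lowerCentralSeries i' with hU
  have hUn : U.Normal := lcs_normal N i'
  set V := N.lowerCentralSeries (i' + 1) with hV
  have hVn : V.Normal := lcs_normal N (i' + 1)
  have hVdef : V = ⁅U, N⁆ := rfl
  have hVU : V ≤ U := by
    rw [hVdef]; exact Subgroup.commutator_le_left U N
  have hB : V ≤ iter U (m + 1) := by
    rw [hVdef]
    exact (Subgroup.commutator_mono le_rfl hN).trans (comm_lcs_le m U)
  have hiter_n : ∀ j, (iter U j).Normal := iter_normal U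
  have hiter_le : ∀ j, iter U (j + 1) ≤ iter U j := by
    intro j
    haveI := hiter_n j
    exact Subgroup.commutator_le_left _ _
  have hVcomm : ⁅V, (⊤ : Subgroup G)⁆ ≤ V := Subgroup.commutator_le_left _ _
  have claim : ∀ j, iter U j ⊔ V = V ∨ p ^ j * V.relIndex (iter U j ⊔ V) ≤ V.relIndex U := by
    intro j
    induction j with
    | zero =>
      right
      have : iter U 0 ⊔ V = U := sup_eq_left.mpr hVU
      rw [this, pow_zero, one_mul]
    | succ j ih =>
      by_cases hj : iter U j ⊔ V = V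
      · left
        have h1 : iter U j ≤ V := sup_eq_right.mp hj
        rw [sup_eq_right]
        exact (Subgroup.commutator_mono h1 le_rfl).trans hVcomm
      · right
        have h2 := ih.resolve_left hj
        set X := iter U j ⊔ V with hX
        set X' := iter U (j + 1) ⊔ V with hX'
        have hXX' : X' ≤ X := sup_le_sup_right (hiter_le j) V
        have hVX' : V ≤ X' := le_sup_right
        have hne : X' ⊓ X ≠ X := by
          intro h
          have h3 : X ≤ X' := inf_eq_right.mp h
          have h4 : X ≤ ⁅X, (⊤ : Subgroup G)⁆ ⊔ V := by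
            refine h3.trans (sup_le ?_ le_sup_right)
            exact (Subgroup.commutator_mono le_sup_left le_rfl).trans le_sup_left
          have h5 := le_of_le_comm X V h4
          exact hj (le_antisymm h5 le_sup_right)
        have h6 : p ≤ X'.relIndex X := le_relIndex_of_lt hG hne
        have h7 : V.relIndex X' * X'.relIndex X = V.relIndex X := Subgroup.relIndex_mul_relIndex V X' X hVX' hXX'
        calc p ^ (j + 1) * V.relIndex X' = p ^ j * (V.relIndex X' * p) := by ring
          _ ≤ p ^ j * (V.relIndex X' * X'.relIndex X) := by gcongr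
          _ = p ^ j * V.relIndex X := by rw [h7]
          _ ≤ V.relIndex U := h2
  have hTm : iter U m ≤ V := by
    rcases claim m with h | h
    · exact sup_eq_right.mp h
    · by_contra hnot
      have hne : V ⊓ (iter U m ⊔ V) ≠ iter U m ⊔ V := by
        intro h8
        exact hnot (le_sup_left.trans (inf_eq_right.mp h8))
      have h9 : p ≤ V.relIndex (iter U m ⊔ V) := le_relIndex_of_lt hG hne
      have h10 : p ^ (m + 1) ≤ V.relIndex U := by
        calc p ^ (m + 1) = p ^ m * p := by ring
          _ ≤ p ^ m * V.relIndex (iter U m ⊔ V) := by gcongr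
          _ ≤ _ := h
      exact absurd hlt (not_lt.mpr h10)
  have hVbot : V = ⊥ := by
    rw [← le_bot_iff]
    haveI : (⊥ : Subgroup G).Normal := inferInstance
    apply le_of_le_comm V ⊥
    rw [sup_bot_eq]
    exact hB.trans (Subgroup.commutator_mono hTm le_rfl)
  exact hne hVbot

end Cfsg.Agent.S3781
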