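import Cfsg.Statements.S3784
import Mathlib
-- import your own Cfsg.Agent.* helpers here

set_option autoImplicit false
open Cfsg

namespace Cfsg.Agent.S3784

lemma two_pow_diff_two {a b : ℕ} (h : 2 ^ a = 2 ^ b + 2) : a = 2 ∧ b = 1 := by
  have hb : b ≠ 0 := by
    rintro rfl
    have h3 : 2 ^ a = 3 := by simpa using h
    rcases Nat.eq_zero_or_pos a with h0 | h0
    · subst h0; simp at h3
    · have := dvd_pow_self 2 h0.ne'
      omega
  obtain ⟨b', rfl⟩ := Nat.exists_eq_succ_of_ne_zero hb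
  have ha : a ≠ 0 := by
    rintro rfl
    have : 0 < 2 ^ (b' + 1) := by positivity
    simp at h
  obtain ⟨a', rfl⟩ := Nat.exists_eq_succ_of_ne_zero ha
  simp only [Nat.succ_eq_add_one, pow_succ] at h
  have h' : 2 ^ a' = 2 ^ b' + 1 := by omega
  have hb' : b' = 0 := by
    by_contra hne
    obtain ⟨c, rfl⟩ := Nat.exists_eq_succ_of_ne_zero hne
    have ha' : a' ≠ 0 := by
      rintro rfl
      have : 0 < 2 ^ (c + 1) := by positivity
      simp at h'
    obtain ⟨d, rfl⟩ := Nat.exists_eq_succ_of_ne_zero ha'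
    simp only [Nat.succ_eq_add_one, pow_succ] at h'
    omega
  subst hb'
  simp at h'
  have : a' = 1 := by
    have : 2 ^ a' = 2 ^ 1 := by simpa using h'
    exact Nat.pow_right_injective (le_refl 2) this
  subst this
  simp

/-- For odd prime `p` with `p ^ a = 2 ^ b + 1`: case analysis. -/
lemma odd_case {p a b : ℕ} (hp : p.Prime) (hp2 : p ≠ 2) (ha : 1 ≤ a) (hb : 1 ≤ b)
    (h : p ^ a = 2 ^ b + 1) :
    (a = 1 ∧ (∃ m : ℕ, b = 2 ^ m) ∧ p = 2 ^ b + 1) ∨ (p ^ a = 9 ∧ 2 ^ b = 8) := by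
  have hodd : Odd p := hp.odd_of_ne_two hp2
  rcases Nat.even_or_odd a with he | ho
  · obtain ⟨c, rfl⟩ := he
    right
    have hc : 1 ≤ c := by omega
    have hpc : 1 ≤ p ^ c := Nat.one_le_pow _ _ hp.pos
    have h1 : (p ^ c - 1) * (p ^ c + 1) = 2 ^ b := by
      zify [hpc]
      have h' : (p : ℤ) ^ (c + c) = 2 ^ b + 1 := by exact_mod_cast h
      rw [pow_add] at h'
      linarith
    have hpc2 : 3 ≤ p ^ c := by
      have h3 : 3 ≤ p := by
        have := hp.two_le
        omega
      calc 3 ≤ p := h3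
        _ = p ^ 1 := (pow_one p).symm
        _ ≤ p ^ c := Nat.pow_le_pow_right hp.pos hc
    obtain ⟨i, -, hi⟩ := (Nat.dvd_prime_pow Nat.prime_two).1 (Dvd.intro _ h1)
    obtain ⟨j, -, hj⟩ := (Nat.dvd_prime_pow Nat.prime_two).1 (Dvd.intro_left _ h1)
    have hdiff : 2 ^ j = 2 ^ i + 2 := by omega
    obtain ⟨hj2, hi1⟩ := two_pow_diff_two hdiff
    subst hj2
    subst hi1
    have h3 : p ^ c = 3 := by omega
    have h9 : p ^ (c + c) = 9 := by rw [pow_add, h3]; norm_num
    refine ⟨h9, ?_⟩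
    omega
  · -- a odd
    by_cases ha1 : a = 1
    · subst ha1
      left
      refine ⟨rfl, ?_, by simpa using h⟩
      have hprime : (2 ^ b + 1).Prime := by
        rw [← h]; simpa using hp
      obtain ⟨m, hm⟩ := Nat.pow_of_pow_add_prime (by omega) (by omega) hprime
      exact ⟨m, hm⟩
    · exfalso
      -- (p-1) * (1 + p + ... + p^(a-1)) = 2^b and second factor odd > 1
      have hgeom : (∑ i ∈ Finset.range a, p ^ i) * (p - 1) = p ^ a - 1 := by
        have h1le : 1 ≤ p := hp.pos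
        have h2le : 1 ≤ p ^ a := Nat.one_le_pow _ _ hp.pos
        zify [h1le, h2le]
        exact geom_sum_mul (p : ℤ) a
      have hsumdvd : (∑ i ∈ Finset.range a, p ^ i) ∣ 2 ^ b := by
        refine ⟨p - 1, ?_⟩
        rw [hgeom, h]; simp
      have hsumodd : Odd (∑ i ∈ Finset.range a, p ^ i) := by
        rw [Finset.odd_sum_iff_odd_card_odd]
        have : (Finset.range a).filter (fun i => Odd (p ^ i)) = Finset.range a := by
          ext i
          simp [hodd.pow]
        rw [this]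
        simpa using ho
      obtain ⟨i, -, hi⟩ := (Nat.dvd_prime_pow Nat.prime_two).1 hsumdvd
      have hi0 : i = 0 := by
        by_contra hne
        rw [hi] at hsumodd
        exact (Nat.not_even_iff_odd.mpr hsumodd) ((Nat.even_pow.mpr ⟨even_two, hne⟩))
      subst hi0
      have hsum1 : (∑ i ∈ Finset.range a, p ^ i) = 1 := by simpa using hi
      have h2 : 1 ≤ a := ha
      have hrange : 0 ∈ Finset.range a := by simp; omega
      have hrange1 : 1 ∈ Finset.range a := by simp; omega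
      have : p ^ 0 + p ^ 1 ≤ ∑ i ∈ Finset.range a, p ^ i := by
        have hs : ({0, 1} : Finset ℕ) ⊆ Finset.range a := by
          intro x hx
          simp at hx
          rcases hx with rfl | rfl
          · exact hrange
          · exact hrange1
        calc p ^ 0 + p ^ 1 = ∑ i ∈ ({0, 1} : Finset ℕ), p ^ i := by simp
          _ ≤ _ := Finset.sum_le_sum_of_subset hs
      have := hp.pos
      simp at *
      omega

lemma odd_cofactor {q : ℕ} (hq : q.Prime) (hodd : Odd q) (b : ℕ) (hb : Odd b) :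
    ∃ m, Odd m ∧ q ^ b + 1 = (q + 1) * m := by
  obtain ⟨k, rfl⟩ := hb
  induction k with
  | zero => exact ⟨1, odd_one, by simp⟩
  | succ k ih =>
    obtain ⟨m, hm, hqm⟩ := ih
    have hq1 : 1 ≤ q := hq.pos
    have hmpos : 1 ≤ m := hm.pos
    have hle : q - 1 ≤ q ^ 2 * m := by
      have : q ≤ q ^ 2 * m := by
        calc q ≤ q ^ 2 := by nlinarith
          _ ≤ q ^ 2 * m := Nat.le_mul_of_pos_right _ hmpos
      omega
    refine ⟨q ^ 2 * m - (q - 1), ?_, ?_⟩
    · apply Nat.Odd.sub_even hle (hodd.pow.mul hm) _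
      obtain ⟨r, rfl⟩ := hodd
      simp
    · zify [hle, hq1]
      have hz : (q : ℤ) ^ (2 * k + 1) + 1 = ((q : ℤ) + 1) * m := by exact_mod_cast hqm
      have : (q : ℤ) ^ (2 * (k + 1) + 1) = (q : ℤ) ^ 2 * (q : ℤ) ^ (2 * k + 1) := by ring
      rw [this]
      have h2 : (q : ℤ) ^ (2 * k + 1) = ((q : ℤ) + 1) * m - 1 := by linarith
      rw [h2]
      ring

/-- `2 ^ a = q ^ b + 1` with `q` an odd prime. -/
lemma two_case {q a b : ℕ} (hq : q.Prime) (hq2 : q ≠ 2) (ha : 1 ≤ a) (hb : 1 ≤ b)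
    (h : 2 ^ a = q ^ b + 1) : b = 1 := by
  have hodd : Odd q := hq.odd_of_ne_two hq2
  rcases Nat.even_or_odd b with he | ho
  · exfalso
    obtain ⟨c, rfl⟩ := he
    have hc : 1 ≤ c := by omega
    have h4 : (q ^ c) ^ 2 % 4 = 1 := by
      have : Odd (q ^ c) := hodd.pow
      obtain ⟨k, hk⟩ := this
      rw [hk]
      have : (2 * k + 1) ^ 2 = 4 * (k * k + k) + 1 := by ring
      rw [this]
      omega
    have h2 : q ^ (c + c) = (q ^ c) ^ 2 := by rw [pow_add]; ring
    have h3 : 2 ^ a % 4 = 2 := by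
      rw [h, h2]
      omega
    rcases Nat.lt_or_ge a 2 with hlt | hge
    · have : a = 1 := by omega
      subst this
      have : 1 < q ^ (c + c) := Nat.one_lt_pow (by omega) hq.one_lt
      simp only [pow_one] at h
      omega
    · obtain ⟨k, rfl⟩ := Nat.exists_eq_add_of_le hge
      rw [pow_add] at h3
      omega
  · by_contra hb1
    -- q + 1 divides ; the cofactor is odd
    have hb3 : 3 ≤ b := by
      obtain ⟨k, rfl⟩ := ho
      omega
    obtain ⟨m, hmodd, hm⟩ := odd_cofactor hq hodd b ho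
    have hdvd : m ∣ 2 ^ a := by
      rw [h, hm]; exact Dvd.intro_left _ rfl
    obtain ⟨i, -, hi⟩ := (Nat.dvd_prime_pow Nat.prime_two).1 hdvd
    have hi0 : i = 0 := by
      by_contra hne
      rw [hi] at hmodd
      exact (Nat.not_even_iff_odd.mpr hmodd) ((Nat.even_pow.mpr ⟨even_two, hne⟩))
    subst hi0
    have hm1 : m = 1 := by simpa using hi
    subst hm1
    have : q ^ 1 < q ^ b := Nat.pow_lt_pow_right hq.one_lt (by omega)
    simp at this
    omega

/-- Let p, q be primes and a, b positive integers with p^a = q^b + 1. Then either p = 2, b = 1, a is prime and q = 2^a − 1; or q = 2, a = 1, b is a power of 2 and p = 2^b + 1; or p^a = 9 and q^b = 8. -/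
theorem result (p q a b : ℕ) (hp : p.Prime) (hq : q.Prime) (ha : 1 ≤ a) (hb : 1 ≤ b) (h : p ^ a = q ^ b + 1) : (p = 2 ∧ b = 1 ∧ a.Prime ∧ q + 1 = 2 ^ a) ∨ (q = 2 ∧ a = 1 ∧ (∃ m : ℕ, b = 2 ^ m) ∧ p = 2 ^ b + 1) ∨ (p ^ a = 9 ∧ q ^ b = 8) := by
  by_cases hp2 : p = 2
  · subst hp2
    have hq2 : q ≠ 2 := by
      rintro rfl
      -- 2^a = 2^b + 1 : parity
      have h1 : Even (2 ^ a) := (Nat.even_pow.mpr ⟨even_two, by omega⟩)
      have h2 : Even (2 ^ b) := (Nat.even_pow.mpr ⟨even_two, by omega⟩)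
      rw [h] at h1
      exact (Nat.not_even_iff_odd.mpr h2.add_one) h1
    have hb1 := two_case hq hq2 ha hb h
    subst hb1
    left
    refine ⟨rfl, rfl, ?_, by simpa using h.symm⟩
    have hq' : (2 ^ a - 1).Prime := by
      have : 2 ^ a - 1 = q := by
        rw [h]; simp
      rw [this]; exact hq
    by_cases ha1 : a = 1
    · subst ha1
      exfalso
      rw [pow_one, pow_one] at h
      have := hq.one_lt
      omega
    · exact (Nat.prime_of_pow_sub_one_prime ha1 hq').2
  · have hq2 : q = 2 := by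
      -- p odd ⇒ q^b even
      have h1 : Odd (p ^ a) := (hp.odd_of_ne_two hp2).pow
      rw [h] at h1
      have h2 : Even (q ^ b) := by
        by_contra hne
        rw [Nat.not_even_iff_odd] at hne
        exact (Nat.not_even_iff_odd.mpr h1) hne.add_one
      have h3 : Even q := (Nat.even_pow.mp h2).1
      exact (hq.even_iff.mp h3)
    subst hq2
    rcases odd_case hp hp2 ha hb h with ⟨h1, h2, h3⟩ | ⟨h1, h2⟩
    · right; left
      exact ⟨rfl, h1, h2, h3⟩
    · right; right
      exact ⟨h1, h2⟩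

end Cfsg.Agent.S3784
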