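import Cfsg.Statements.S3790
import Cfsg.Agent.Lib.H1PLenX

set_option autoImplicit false
open Cfsg

namespace Cfsg.Agent.S3790

open Cfsg.Agent.Lib Cfsg.Agent.Lib.H1PLenX Cfsg.Agent.Lib.H1Core

universe u

theorem main_aux (p : ℕ) [hp : Fact p.Prime] {r : ℕ} (q : Fin r → ℕ) (hq : ∀ i, (q i).Prime ∧ q i ≠ p)
    (l : Fin r → ℕ) (S : Finset (Fin r)) :
    ∀ (G : Type u) [Group G] [Finite G],
      (∀ s : ℕ, s.Prime → s ∣ Nat.card G → s ≠ p → ∃ i ∈ S, q i = s) →
      (∀ i ∈ S, Cfsg.PLengthLE (q i) (l i) G) →
      Cfsg.PLengthLE p (∏ i ∈ S, (1 + l i)) G := by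
  classical
  induction S using Finset.induction_on with
  | empty =>
    intro G _ _ hc _
    rw [Finset.prod_empty]
    apply plen_one_of_pgroup
    have h0 : Nat.card G ≠ 0 := Nat.card_pos.ne'
    refine IsPGroup.of_card (n := (Nat.card G).primeFactorsList.length) ?_
    apply Nat.eq_prime_pow_of_unique_prime_dvd h0
    intro d hd hdvd
    by_contra hne
    obtain ⟨i, hi, -⟩ := hc d hd hdvd hne
    exact absurd hi (Finset.notMem_empty i)
  | insert i S' hi ih =>
    intro G _ _ hc hl
    rw [Finset.prod_insert hi]
    set c := ∏ j ∈ S', (1 + l j) with hcdef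
    haveI hsp : Fact (q i).Prime := ⟨(hq i).1⟩
    set s := q i with hs
    have hsne : s ≠ p := (hq i).2
    have key : ∀ (k : ℕ) (G : Type u) [Group G] [Finite G], Cfsg.PLengthLE s k G →
        (∀ j ∈ S', Cfsg.PLengthLE (q j) (l j) G) →
        (∀ t : ℕ, t.Prime → t ∣ Nat.card G → t ≠ p → ∃ j ∈ insert i S', q j = t) →
        Cfsg.PLengthLE p ((1 + k) * c) G := by
      intro k
      induction k with
      | zero =>
        intro G _ _ h1 h2 h3
        rw [add_zero, one_mul]
        apply ih G _ h2
        intro t ht hdvd hne
        obtain ⟨j, hj, hjt⟩ := h3 t ht hdvd hne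
        rcases Finset.mem_insert.mp hj with rfl | hj'
        · exfalso
          unfold Cfsg.PLengthLE at h1
          have h4 : (Cfsg.upperPSeries s G 1).1 = Cfsg.pPrimeCore s G := H1PLen.upper_one
          have h5 : Cfsg.pPrimeCore s G = ⊤ := by
            rw [← h4]
            exact h1
          have h6 := pPrimeCore_coprime (G := G) s
          rw [h5, Subgroup.card_top] at h6
          have h7 : s ∣ Nat.card G := by
            rw [hs, hjt]
            exact hdvd
          have h8 := Nat.Coprime.eq_one_of_dvd h6.symm h7
          exact hsp.out.ne_one h8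
        · exact ⟨j, hj', hjt⟩
      | succ k ihk =>
        intro G _ _ h1 h2 h3
        let N : Subgroup G := Cfsg.pPrimeCore s G
        haveI hNn : N.Normal := pPrimeCore_normal s G
        have hNcop : (Nat.card N).Coprime s := pPrimeCore_coprime s
        have hN : Cfsg.PLengthLE p c N := by
          apply ih N
          · intro t ht hdvd hne
            obtain ⟨j, hj, hjt⟩ := h3 t ht (hdvd.trans (Subgroup.card_subgroup_dvd_card N)) hne
            rcases Finset.mem_insert.mp hj with rfl | hj'
            · exfalso
              have h7 : s ∣ Nat.card N := by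
                rw [hs, hjt]
                exact hdvd
              have h8 := Nat.Coprime.eq_one_of_dvd hNcop.symm h7
              exact hsp.out.ne_one h8
            · exact ⟨j, hj', hjt⟩
          · intro j hj
            haveI : Fact (q j).Prime := ⟨(hq j).1⟩
            exact plen_subgroup N (h2 j hj)
        let G₁ := G ⧸ N
        let T : Subgroup G₁ := Cfsg.pCore s G₁
        haveI hTn : T.Normal := pCore_normal s G₁
        let G₂ := G₁ ⧸ T
        let b : G →* G₂ := (QuotientGroup.mk' T).comp (QuotientGroup.mk' N)
        have hb : Function.Surjective b :=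
          (QuotientGroup.mk'_surjective _).comp (QuotientGroup.mk'_surjective _)
        have hG₂ : Cfsg.PLengthLE p ((1 + k) * c) G₂ := by
          apply ihk G₂ (plen_shift' h1)
          · intro j hj
            haveI : Fact (q j).Prime := ⟨(hq j).1⟩
            exact plen_of_surjective b hb (h2 j hj)
          · intro t ht hdvd hne
            refine h3 t ht (hdvd.trans ?_) hne
            exact Subgroup.card_dvd_of_surjective b hb
        have hT : Cfsg.PLengthLE p 0 T := by
          apply plen_zero_of_coprime
          obtain ⟨n, hn⟩ := IsPGroup.iff_card.mp (pCore_isPGroup (G := G₁) s)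
          have h9 : Nat.card T = s ^ n := hn
          rw [h9]
          exact Nat.Coprime.pow_left n ((Nat.coprime_primes hsp.out hp.out).mpr hsne)
        have E1 : Cfsg.PLengthLE p (0 + (1 + k) * c) G₁ := plen_ext T hT hG₂
        have E2 : Cfsg.PLengthLE p (c + (0 + (1 + k) * c)) G := plen_ext N hN E1
        have heq : (1 + (k + 1)) * c = c + (0 + (1 + k) * c) := by ring
        rw [heq]
        exact E2
    exact key (l i) G (hl i (Finset.mem_insert_self i S'))
      (fun j hj => hl j (Finset.mem_insert_of_mem hj)) hc

/-- Let G be a finite solvable group and p a prime. Suppose p₁, …, p_r are distinct primes, all different from p, that include every prime dividing the order of G other than p, and that G has p_i-length at most l_i for each i. Then G has p-length at most the product of the numbers 1 + l_i. -/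
theorem result {G : Type*} [Group G] [Finite G] (hG : Group.IsSolvable G) (p : ℕ) [Fact p.Prime] (r : ℕ) (q : Fin r → ℕ) (hq : ∀ i, (q i).Prime ∧ q i ≠ p) (hinj : Function.Injective q) (hcover : ∀ s : ℕ, s.Prime → s ∣ Nat.card G → s ≠ p → ∃ i, q i = s) (l : Fin r → ℕ) (hl : ∀ i, Cfsg.PLengthLE (q i) (l i) G) : Cfsg.PLengthLE p (Finset.univ.prod fun i => 1 + l i) G := by

  apply main_aux p q hq l Finset.univ G
  · intro s hs hd hne
    obtain ⟨i, hi⟩ := hcover s hs hd hne
    exact ⟨i, Finset.mem_univ i, hi⟩
  · intro i _
    exact hl i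

end Cfsg.Agent.S3790
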