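import Cfsg.Statements.S3791
import Cfsg.Agent.Lib.H1PLenX

set_option autoImplicit false
open Cfsg

namespace Cfsg.Agent.S3791

open Cfsg.Agent.Lib Cfsg.Agent.Lib.H1PLenX Cfsg.Agent.Lib.H1Core

universe u

theorem sylow_quot {G Y : Type*} [Group G] [Group Y] [Finite G] {p : ℕ} [Fact p.Prime] (f : G →* Y)
    (hf : Function.Surjective f) (n : ℕ)
    (hd : ∀ S : Sylow p G, derivedSeries ↥(S : Subgroup G) n = ⊥) (S' : Sylow p Y) :
    derivedSeries ↥(S' : Subgroup Y) n = ⊥ := by
  obtain ⟨S, rfl⟩ := Sylow.mapSurjective_surjective hf p S'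
  have h1 := map_derivedSeries_eq (f.subgroupMap_surjective (S : Subgroup G)) n
  rw [hd S, Subgroup.map_bot] at h1
  exact h1.symm

theorem main_aux {r : ℕ} (q : Fin r → ℕ) (hq : ∀ i, (q i).Prime) (d : Fin r → ℕ) (L : ℕ) :
    ∀ (l : Fin r → ℕ), (∑ i, l i) = L → ∀ (G : Type u) [Group G] [Finite G],
      (∀ s : ℕ, s.Prime → s ∣ Nat.card G → ∃ i, q i = s) →
      (∀ i, ∀ S : Sylow (q i) G, derivedSeries ↥(S : Subgroup G) (d i) = ⊥) →
      (∀ i, Cfsg.PLengthLE (q i) (l i) G) →
      derivedSeries G (∑ i, d i * l i) = ⊥ := by
  classical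
  induction L using Nat.strong_induction_on with
  | _ L ih =>
    intro l hL G _ _ hc hd hl
    rw [eq_bot_iff]
    intro x hx
    rw [Subgroup.mem_bot]
    by_contra hx1
    have hne : orderOf x ≠ 1 := fun h => hx1 (orderOf_eq_one_iff.mp h)
    obtain ⟨s, hs, hsx⟩ := Nat.exists_prime_and_dvd hne
    obtain ⟨i, rfl⟩ := hc s hs (hsx.trans (orderOf_dvd_natCard x))
    haveI hqi : Fact (q i).Prime := ⟨hq i⟩
    have hclaim : derivedSeries G (∑ j, d j * l j) ≤ Cfsg.pPrimeCore (q i) G := by
      rcases hli : l i with _ | k
      · have h1 := hl i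
        rw [hli] at h1
        unfold Cfsg.PLengthLE at h1
        have h4 : (Cfsg.upperPSeries (q i) G 1).1 = Cfsg.pPrimeCore (q i) G := H1PLen.upper_one
        have h5 : Cfsg.pPrimeCore (q i) G = ⊤ := by
          rw [← h4]
          exact h1
        rw [h5]
        exact le_top
      · set U := (Cfsg.upperPSeries (q i) G 2).1 with hU
        let l' : Fin r → ℕ := Function.update l i k
        have hsplit : ∀ f : Fin r → ℕ, ∑ j, f j = f i + ∑ j ∈ Finset.univ.erase i, f j :=
          fun f => (Finset.add_sum_erase Finset.univ f (Finset.mem_univ i)).symm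
        have hl'i : l' i = k := Function.update_self _ _ _
        have hl'j : ∀ j ∈ Finset.univ.erase i, l' j = l j := fun j hj =>
          Function.update_of_ne (Finset.mem_erase.mp hj).1 _ _
        have hsum1 : (∑ j, l' j) + 1 = L := by
          rw [← hL, hsplit l', hsplit l, hl'i, hli, Finset.sum_congr rfl hl'j]
          ring
        have hsum2 : ∑ j, d j * l j = (∑ j, d j * l' j) + d i := by
          have herase : ∑ j ∈ Finset.univ.erase i, d j * l' j = ∑ j ∈ Finset.univ.erase i, d j * l j :=
            Finset.sum_congr rfl (fun j hj => by rw [hl'j j hj])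
          rw [hsplit (fun j => d j * l j), hsplit (fun j => d j * l' j)]
          simp only [hl'i, hli]
          rw [herase]
          ring
        set S' := ∑ j, d j * l' j with hS'
        have hG₂ : derivedSeries (G ⧸ U) S' = ⊥ := by
          apply ih (∑ j, l' j) (by omega) l' rfl (G ⧸ U)
          · intro s hs hd'
            exact hc s hs (hd'.trans (Subgroup.card_quotient_dvd_card U))
          · intro j S
            haveI : Fact (q j).Prime := ⟨hq j⟩
            exact sylow_quot (QuotientGroup.mk' U) (QuotientGroup.mk'_surjective U) (d j) (hd j) S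
          · intro j
            haveI : Fact (q j).Prime := ⟨hq j⟩
            by_cases hji : j = i
            · subst hji
              rw [hl'i]
              apply plen_shift
              rw [← hli]
              exact hl j
            · have hj' : l' j = l j := Function.update_of_ne hji _ _
              rw [hj']
              exact plen_of_surjective (QuotientGroup.mk' U) (QuotientGroup.mk'_surjective U) (hl j)
        have hleU : derivedSeries G S' ≤ U := by
          have h1 := map_derivedSeries_eq (QuotientGroup.mk'_surjective U) S'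
          rw [hG₂, Subgroup.map_eq_bot_iff, QuotientGroup.ker_mk'] at h1
          exact h1
        -- pass to G₁ = G / O_{q'}(G)
        let N := Cfsg.pPrimeCore (q i) G
        haveI hNn : N.Normal := pPrimeCore_normal (q i) G
        let f₁ := QuotientGroup.mk' N
        have hf₁ : Function.Surjective f₁ := QuotientGroup.mk'_surjective N
        have hA : derivedSeries (G ⧸ N) S' ≤ Cfsg.pCore (q i) (G ⧸ N) := by
          rw [← map_derivedSeries_eq hf₁ S', Subgroup.map_le_iff_le_comap]
          have h2 : U = Cfsg.pPrimePCore (q i) G := H1PLen.upper_two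
          rw [h2] at hleU
          exact hleU
        obtain ⟨Q, hQ⟩ := (pCore_isPGroup (G := G ⧸ N) (q i)).exists_le_sylow
        have hQd : derivedSeries ↥(Q : Subgroup (G ⧸ N)) (d i) = ⊥ :=
          sylow_quot f₁ hf₁ (d i) (hd i) Q
        have hstep : ∀ n, derivedSeries (G ⧸ N) (S' + n) ≤
            (derivedSeries ↥(Q : Subgroup (G ⧸ N)) n).map (Q : Subgroup (G ⧸ N)).subtype := by
          intro n
          induction n with
          | zero =>
            rw [add_zero, derivedSeries_zero, ← MonoidHom.range_eq_map, Subgroup.range_subtype]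
            exact hA.trans hQ
          | succ n ihn =>
            rw [← add_assoc, derivedSeries_succ, derivedSeries_succ, Subgroup.map_commutator]
            exact Subgroup.commutator_mono ihn ihn
        have hfin := hstep (d i)
        rw [hQd, Subgroup.map_bot] at hfin
        have h6 := map_derivedSeries_eq hf₁ (S' + d i)
        rw [le_bot_iff] at hfin
        rw [hfin, Subgroup.map_eq_bot_iff, QuotientGroup.ker_mk'] at h6
        rw [hsum2]
        exact h6
    have h7 := hclaim hx
    have h8 : orderOf (⟨x, h7⟩ : Cfsg.pPrimeCore (q i) G) ∣ Nat.card (Cfsg.pPrimeCore (q i) G) :=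
      orderOf_dvd_natCard _
    rw [Subgroup.orderOf_mk] at h8
    have h9 := Nat.Coprime.eq_one_of_dvd (pPrimeCore_coprime (G := G) (q i)).symm (hsx.trans h8)
    exact hqi.out.ne_one h9

/-- The Hall–Higman bound on derived length: let G be a finite solvable group, let p₁, …, p_r be distinct primes that include every prime dividing the order of G, and suppose that for each i the Sylow p_i-subgroups of G have derived length at most d_i and G has p_i-length at most l_i. Then G has derived length at most Σ d_i l_i. -/
theorem result {G : Type*} [Group G] [Finite G] (hG : Group.IsSolvable G) (r : ℕ) (q : Fin r → ℕ) (hq : ∀ i, (q i).Prime) (hinj : Function.Injective q) (hcover : ∀ s : ℕ, s.Prime → s ∣ Nat.card G → ∃ i, q i = s) (d l : Fin r → ℕ) (hd : ∀ i, ∀ P : Subgroup G, (haveI := Fact.mk (hq i); ∃ S : Sylow (q i) G, (S : Subgroup G) = P) → derivedSeries ↥P (d i) = ⊥) (hl : ∀ i, Cfsg.PLengthLE (q i) (l i) G) : derivedSeries G (Finset.univ.sum fun i => d i * l i) = ⊥ := by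

  apply main_aux q hq d _ l rfl G hcover
  · intro i S
    exact hd i S ⟨S, rfl⟩
  · exact hl

end Cfsg.Agent.S3791
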