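import Cfsg.Statements.S3799
import Mathlib
import Cfsg.Agent.Lib.FGSBasic
import Cfsg.Agent.Lib.PGrp2
-- import your own Cfsg.Agent.* helpers here

set_option autoImplicit false
open Cfsg

namespace Cfsg.Agent.S3799

open Matrix Module
open scoped commutatorElement

@[ext] structure Heis (n p : ℕ) where
  a : Fin n → ZMod p
  b : Fin n → ZMod p
  c : ZMod p

variable {n p : ℕ}

instance : Mul (Heis n p) := ⟨fun x y => ⟨x.a + y.a, x.b + y.b, x.c + y.c + x.a ⬝ᵥ y.b⟩⟩
instance : One (Heis n p) := ⟨⟨0, 0, 0⟩⟩
instance : Inv (Heis n p) := ⟨fun x => ⟨-x.a, -x.b, -x.c + x.a ⬝ᵥ x.b⟩⟩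

@[simp] theorem mul_a' (x y : Heis n p) : (x * y).a = x.a + y.a := rfl
@[simp] theorem mul_b' (x y : Heis n p) : (x * y).b = x.b + y.b := rfl
@[simp] theorem mul_c' (x y : Heis n p) : (x * y).c = x.c + y.c + x.a ⬝ᵥ y.b := rfl
@[simp] theorem one_a' : (1 : Heis n p).a = 0 := rfl
@[simp] theorem one_b' : (1 : Heis n p).b = 0 := rfl
@[simp] theorem one_c' : (1 : Heis n p).c = 0 := rfl
@[simp] theorem inv_a' (x : Heis n p) : (x⁻¹).a = -x.a := rfl
@[simp] theorem inv_b' (x : Heis n p) : (x⁻¹).b = -x.b := rfl
@[simp] theorem inv_c' (x : Heis n p) : (x⁻¹).c = -x.c + x.a ⬝ᵥ x.b := rfl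

instance : Group (Heis n p) :=
  Group.ofLeftAxioms
    (by
      intro x y z
      ext1
      · simp [add_assoc]
      · simp [add_assoc]
      · simp only [mul_c', mul_a', mul_b', add_dotProduct, dotProduct_add]
        abel)
    (by
      intro x
      ext1 <;> simp)
    (by
      intro x
      ext1
      · simp
      · simp
      · simp)

def equivProd : Heis n p ≃ (Fin n → ZMod p) × (Fin n → ZMod p) × ZMod p where
  toFun x := (x.a, x.b, x.c)
  invFun y := ⟨y.1, y.2.1, y.2.2⟩
  left_inv _ := rfl
  right_inv _ := rfl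

theorem card_heis [Fact p.Prime] : Nat.card (Heis n p) = p ^ (1 + 2 * n) := by
  rw [Nat.card_congr equivProd, Nat.card_prod, Nat.card_prod, Nat.card_fun, Nat.card_zmod, Nat.card_fin]
  ring

instance [Fact p.Prime] : Finite (Heis n p) := Finite.of_equiv _ equivProd.symm

theorem mem_center_heis (hn : True) (x : Heis n p) [Fact p.Prime] : x ∈ Subgroup.center (Heis n p) ↔ x.a = 0 ∧ x.b = 0 := by
  rw [Subgroup.mem_center_iff]
  constructor
  · intro h
    constructor
    · ext i
      have h1 := congrArg Heis.c (h ⟨0, Pi.single i 1, 0⟩)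
      simpa [dotProduct_single, add_comm] using h1.symm
    · ext i
      have h1 := congrArg Heis.c (h ⟨Pi.single i 1, 0, 0⟩)
      simpa [single_dotProduct, add_comm] using h1
  · rintro ⟨h1, h2⟩ g
    ext1
    · simp [h1]
    · simp [h2]
    · simp [h1, h2, add_comm]

theorem pow_heis (h : Heis n p) (k : ℕ) :
    h ^ k = ⟨k • h.a, k • h.b, k • h.c + (k.choose 2) • (h.a ⬝ᵥ h.b)⟩ := by
  induction k with
  | zero =>
    rw [pow_zero]
    ext1 <;> simp
  | succ k ih =>
    rw [pow_succ, ih]
    ext1
    · exact (succ_nsmul h.a k).symm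
    · exact (succ_nsmul h.b k).symm
    · have hC : (k + 1).choose 2 = k + k.choose 2 := by
        have := Nat.choose_succ_succ k 1
        simpa using this
      change k • h.c + k.choose 2 • (h.a ⬝ᵥ h.b) + h.c + (k • h.a) ⬝ᵥ h.b = (k + 1) • h.c + (k + 1).choose 2 • (h.a ⬝ᵥ h.b)
      rw [hC, add_smul (k : ℕ) (k.choose 2), succ_nsmul, smul_dotProduct]
      abel

theorem pow_p (hp : p ≠ 2) [hpf : Fact p.Prime] (h : Heis n p) : h ^ p = 1 := by
  rw [pow_heis]
  have hch : (p.choose 2 : ZMod p) = 0 := by
    rw [ZMod.natCast_eq_zero_iff]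
    have h2 := hpf.out.two_le
    exact hpf.out.dvd_choose_self (by norm_num) (by omega)
  ext1
  · ext i
    simp
  · ext i
    simp
  · simp [hch]

theorem commutator_heis (hn : 1 ≤ n) [hpf : Fact p.Prime] : commutator (Heis n p) = Subgroup.center (Heis n p) := by
  apply le_antisymm
  · rw [_root_.commutator_def, Subgroup.commutator_le]
    intro x _ y _
    rw [mem_center_heis trivial, commutatorElement_def]
    constructor
    · simp
    · simp
  · intro x hx
    obtain ⟨h1, h2⟩ := (mem_center_heis trivial x).mp hx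
    set i₀ : Fin n := ⟨0, by omega⟩
    have hx' : x = ⁅(⟨Pi.single i₀ x.c, 0, 0⟩ : Heis n p), (⟨0, Pi.single i₀ 1, 0⟩ : Heis n p)⁆ := by
      rw [commutatorElement_def]
      ext1
      · simp [h1]
      · simp [h2]
      · simp
    rw [hx', _root_.commutator_def]
    exact Subgroup.commutator_mem_commutator (Subgroup.mem_top _) (Subgroup.mem_top _)

theorem frattini_heis (hn : 1 ≤ n) [hpf : Fact p.Prime] : frattini (Heis n p) = Subgroup.center (Heis n p) := by
  have hpg : IsPGroup p (Heis n p) := IsPGroup.of_card (n := 1 + 2 * n) card_heis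
  apply le_antisymm
  · intro x hx
    have hcoat : ∀ (f : Heis n p →* Multiplicative (ZMod p)), Function.Surjective f → f x = 1 := by
      intro f hf
      have hi : f.ker.index = p := by
        rw [Subgroup.index_ker, MonoidHom.range_eq_top.mpr hf, Subgroup.card_top]
        simp
      have hco := Lib.FGSBasic.isCoatom_of_index_prime f.ker (by rw [hi]; exact hpf.out)
      exact frattini_le_coatom hco hx
    rw [mem_center_heis trivial]
    constructor
    · ext i
      let f : Heis n p →* Multiplicative (ZMod p) :=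
        { toFun := fun h => Multiplicative.ofAdd (h.a i)
          map_one' := rfl
          map_mul' := fun _ _ => rfl }
      have h1 := hcoat f (by
        intro y
        refine ⟨⟨Pi.single i (Multiplicative.toAdd y), 0, 0⟩, ?_⟩
        simp [f])
      exact h1
    · ext i
      let f : Heis n p →* Multiplicative (ZMod p) :=
        { toFun := fun h => Multiplicative.ofAdd (h.b i)
          map_one' := rfl
          map_mul' := fun _ _ => rfl }
      have h1 := hcoat f (by
        intro y
        refine ⟨⟨0, Pi.single i (Multiplicative.toAdd y), 0⟩, ?_⟩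
        simp [f])
      exact h1
  · rw [← commutator_heis hn]
    exact Lib.PGrp.commutator_le_frattini hpg

theorem card_center_heis (hn : 1 ≤ n) [hpf : Fact p.Prime] : Nat.card (Subgroup.center (Heis n p)) = p := by
  have h : Nat.card (Subgroup.center (Heis n p)) = Nat.card (ZMod p) := by
    apply Nat.card_eq_of_bijective (fun x : Subgroup.center (Heis n p) => (x : Heis n p).c)
    constructor
    · intro x y hxy
      obtain ⟨h1, h2⟩ := (mem_center_heis trivial _).mp x.2
      obtain ⟨h3, h4⟩ := (mem_center_heis trivial _).mp y.2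
      apply Subtype.ext
      ext1
      · rw [h1, h3]
      · rw [h2, h4]
      · exact hxy
    · intro t
      exact ⟨⟨⟨0, 0, t⟩, (mem_center_heis trivial _).mpr ⟨rfl, rfl⟩⟩, rfl⟩
  rw [h, Nat.card_zmod]

theorem extraspecial_heis (hn : 1 ≤ n) [hpf : Fact p.Prime] : Cfsg.IsExtraspecial p (Heis n p) :=
  ⟨⟨IsPGroup.of_card (n := 1 + 2 * n) card_heis, frattini_heis hn, commutator_heis hn⟩, card_center_heis hn⟩

theorem extraspecial_of_equiv {G K : Type*} [Group G] [Group K] (e : G ≃* K) {p : ℕ} [hpf : Fact p.Prime]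
    (h : Cfsg.IsExtraspecial p G) : Cfsg.IsExtraspecial p K := by
  obtain ⟨⟨h1, h2, h3⟩, h4⟩ := h
  have hcen : (Subgroup.center G).map e.toMonoidHom = Subgroup.center K := by
    ext x
    rw [Subgroup.mem_map_equiv, Subgroup.mem_center_iff, Subgroup.mem_center_iff]
    constructor
    · intro h5 g
      have h6 := h5 (e.symm g)
      have h7 := congrArg e h6
      simpa using h7
    · intro h5 g
      have h6 := h5 (e g)
      have h7 := congrArg e.symm h6
      simpa using h7
  have hcomm : (commutator G).map e.toMonoidHom = commutator K := by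
    rw [_root_.commutator_def, _root_.commutator_def, Subgroup.map_commutator,
      Subgroup.map_top_of_surjective _ e.surjective]
  have hfr : (frattini G).map e.toMonoidHom = frattini K := e.mapSubgroup.map_radical
  refine ⟨⟨?_, ?_, ?_⟩, ?_⟩
  · exact h1.of_surjective e.toMonoidHom e.surjective
  · rw [← hfr, h2, hcen]
  · rw [← hcomm, h3, hcen]
  · rw [← hcen, Subgroup.card_map_of_injective e.injective, h4]

abbrev V3 (n p : ℕ) := ZMod p × (Fin n → ZMod p) × ZMod p

noncomputable def T (h : Heis n p) [Fact p.Prime] : V3 n p →ₗ[ZMod p] V3 n p where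
  toFun v := (v.1 + h.a ⬝ᵥ v.2.1 + h.c * v.2.2, v.2.1 + v.2.2 • h.b, v.2.2)
  map_add' := by
    intro x y
    ext1
    · simp only [Prod.fst_add, Prod.snd_add, dotProduct_add, mul_add]
      abel
    · ext1
      · simp only [Prod.fst_add, Prod.snd_add, add_smul]
        abel
      · simp
  map_smul' := by
    intro r x
    ext1
    · simp only [Prod.smul_fst, Prod.smul_snd, dotProduct_smul, smul_eq_mul, RingHom.id_apply]
      ring
    · ext1
      · simp only [Prod.smul_fst, Prod.smul_snd, smul_add, smul_smul, RingHom.id_apply, smul_eq_mul]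
      · simp

theorem T_apply [Fact p.Prime] (h : Heis n p) (v : V3 n p) :
    T h v = (v.1 + h.a ⬝ᵥ v.2.1 + h.c * v.2.2, v.2.1 + v.2.2 • h.b, v.2.2) := rfl

theorem T_one [Fact p.Prime] : T (1 : Heis n p) = LinearMap.id := by
  apply LinearMap.ext
  intro v
  simp [T_apply]

theorem T_mul [Fact p.Prime] (x y : Heis n p) : T (x * y) = T x ∘ₗ T y := by
  apply LinearMap.ext
  intro v
  simp only [LinearMap.comp_apply, T_apply, mul_a', mul_b', mul_c']
  ext1
  · simp only [add_dotProduct, dotProduct_add, dotProduct_smul, smul_eq_mul]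
    ring
  · ext1
    · simp only [smul_add]
      abel
    · rfl

theorem T_inj [Fact p.Prime] (x y : Heis n p) (h : T x = T y) : x = y := by
  have h1 := LinearMap.congr_fun h (0, 0, 1)
  simp only [T_apply] at h1
  have hc : x.c = y.c := by simpa using congrArg Prod.fst h1
  have hb : x.b = y.b := by simpa using congrArg (fun z => z.2.1) h1
  ext1
  · ext i
    have h2 := LinearMap.congr_fun h (0, Pi.single i 1, 0)
    simp only [T_apply] at h2
    simpa [dotProduct_single] using congrArg Prod.fst h2
  · exact hb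
  · exact hc

/-- For every odd prime p and every n ≥ 1 there is an extraspecial p-group of order p^(1+2n) and exponent p; concretely, the general linear group of degree n + 2 over the field with p elements contains such a subgroup. -/
theorem result (p : ℕ) [Fact p.Prime] (hp : p ≠ 2) (n : ℕ) (hn : 1 ≤ n) : ∃ E : Subgroup (Matrix.GeneralLinearGroup (Fin (n + 2)) (ZMod p)), Cfsg.IsExtraspecial p ↥E ∧ Nat.card E = p ^ (1 + 2 * n) ∧ ∀ x ∈ E, x ^ p = 1 := by
  classical
  have hfr : finrank (ZMod p) (V3 n p) = finrank (ZMod p) (Fin (n + 2) → ZMod p) := by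
    simp only [V3, Module.finrank_prod, Module.finrank_fin_fun, Module.finrank_self]
    omega
  let e : V3 n p ≃ₗ[ZMod p] (Fin (n + 2) → ZMod p) := LinearEquiv.ofFinrankEq _ _ hfr
  have hee : (e.toLinearMap ∘ₗ e.symm.toLinearMap) = LinearMap.id := LinearMap.ext (fun v => e.apply_symm_apply v)
  have hee' : (e.symm.toLinearMap ∘ₗ e.toLinearMap) = LinearMap.id := LinearMap.ext (fun v => e.symm_apply_apply v)
  let ψ₀ : Heis n p →* Matrix (Fin (n + 2)) (Fin (n + 2)) (ZMod p) :=
    { toFun := fun h => LinearMap.toMatrix' (e.toLinearMap ∘ₗ T h ∘ₗ e.symm.toLinearMap)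
      map_one' := by
        rw [T_one, LinearMap.id_comp, hee, LinearMap.toMatrix'_id]
      map_mul' := by
        intro x y
        rw [← LinearMap.toMatrix'_comp]
        congr 1
        rw [T_mul]
        apply LinearMap.ext
        intro v
        simp }
  let ψ : Heis n p →* Matrix.GeneralLinearGroup (Fin (n + 2)) (ZMod p) := ψ₀.toHomUnits
  have hψinj : Function.Injective ψ := by
    intro x y hxy
    have h1 : ψ₀ x = ψ₀ y := congrArg Units.val hxy
    have h2 := LinearMap.toMatrix'.injective h1
    apply T_inj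
    have h3 := congrArg (fun A => e.symm.toLinearMap ∘ₗ A ∘ₗ e.toLinearMap) h2
    simpa [LinearMap.comp_assoc, hee', ← LinearMap.comp_assoc] using h3
  let eq := MonoidHom.ofInjective hψinj
  refine ⟨ψ.range, extraspecial_of_equiv eq (extraspecial_heis hn), ?_, ?_⟩
  · rw [← Nat.card_congr eq.toEquiv, card_heis]
  · rintro _ ⟨h, rfl⟩
    rw [← map_pow, pow_p hp, map_one]

end Cfsg.Agent.S3799
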