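import Cfsg.Statements.S3800
import Cfsg.Agent.Lib.H1Cop
import Cfsg.Agent.Lib.FGS2
-- import your own Cfsg.Agent.* helpers here

set_option autoImplicit false
open Cfsg

namespace Cfsg.Agent.S3800

open scoped Pointwise in
theorem key {G : Type*} [Group G] [Finite G] {p : ℕ} [Fact p.Prime] (N : Subgroup G) [N.Normal] (hN : (Nat.card N).Coprime p) (P : Subgroup G) (hP : IsPGroup p P)
    (q : G ⧸ N) (hq : q ∈ Subgroup.normalizer ((P.map (QuotientGroup.mk' N)) : Set (G ⧸ N))) :
    ∃ g ∈ Subgroup.normalizer (P : Set G), (g : G ⧸ N) = q := by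
  have hp : p.Prime := Fact.out
  obtain ⟨g, rfl⟩ := QuotientGroup.mk_surjective q
  have hL : N ⊔ P = (P.map (QuotientGroup.mk' N)).comap (QuotientGroup.mk' N) := by
    rw [Subgroup.comap_map_eq, QuotientGroup.ker_mk', sup_comm]
  have hgL : g ∈ Subgroup.normalizer ((N ⊔ P : Subgroup G) : Set G) := by
    rw [hL]
    exact Subgroup.le_normalizer_comap _ (show g ∈ _ from hq)
  have hrel : ¬ p ∣ P.relIndex (N ⊔ P) := by
    rw [← Lib.FGSBasic.relIndex_eq_relIndex_sup N P]
    intro hd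
    have h1 : P.relIndex N ∣ Nat.card N := Subgroup.relIndex_dvd_card _ _
    have h2 := Nat.dvd_gcd (hd.trans h1) (dvd_refl p)
    rw [hN] at h2
    exact hp.one_lt.ne' (Nat.dvd_one.1 h2)
  have hS : Lib.H1Cop.IsSylowIn p P (N ⊔ P) := ⟨le_sup_right, hP, hrel⟩
  have hS' := Lib.H1Cop.IsSylowIn.conj_smul hgL hS
  obtain ⟨x, hx, hxe⟩ := hS.exists_conj hS'
  obtain ⟨n, hn, s, hs, rfl⟩ := Subgroup.mem_sup_of_normal_left.1 hx
  have h1 : MulAut.conj s • P = P := Lib.H1Conj.conj_smul_eq_self_of_mem_normalizer (Subgroup.le_normalizer hs)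
  have h2 : MulAut.conj n • P = MulAut.conj g • P := by rw [← hxe, map_mul, mul_smul, h1]
  refine ⟨n⁻¹ * g, Lib.H1Conj.mem_normalizer_of_conj_smul_eq ?_, ?_⟩
  · rw [map_mul, mul_smul, ← h2, ← mul_smul, ← map_mul]
    simp
  · rw [QuotientGroup.mk_mul, QuotientGroup.mk_inv, (QuotientGroup.eq_one_iff n).2 hn]
    simp

/-- Let G be a finite group, N a normal subgroup of G whose order is prime to p, and P a p-subgroup of G. Then in G/N the normalizer of the image of P is the image of N_G(P), and the centralizer of the image of P is the image of C_G(P). -/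
theorem result {G : Type*} [Group G] [Finite G] {p : ℕ} [Fact p.Prime] (N : Subgroup G) [N.Normal] (hN : (Nat.card N).Coprime p) (P : Subgroup G) (hP : IsPGroup p P) : Subgroup.normalizer ((P.map (QuotientGroup.mk' N)) : Set (G ⧸ N)) = (Subgroup.normalizer (P : Set G)).map (QuotientGroup.mk' N) ∧ Subgroup.centralizer ((P.map (QuotientGroup.mk' N)) : Set (G ⧸ N)) = (Subgroup.centralizer (P : Set G)).map (QuotientGroup.mk' N) := by
  have hp : p.Prime := Fact.out
  constructor
  · apply le_antisymm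
    · intro q hq
      obtain ⟨g, hg, rfl⟩ := key N hN P hP q hq
      exact ⟨g, hg, rfl⟩
    · exact Subgroup.le_normalizer_map _
  · apply le_antisymm
    · intro q hq
      have hqn : q ∈ Subgroup.normalizer ((P.map (QuotientGroup.mk' N)) : Set (G ⧸ N)) :=
        Subgroup.centralizer_le_normalizer _ hq
      obtain ⟨g, hg, rfl⟩ := key N hN P hP q hqn
      refine ⟨g, ?_, rfl⟩
      change g ∈ Subgroup.centralizer (P : Set G)
      rw [Subgroup.mem_centralizer_iff]
      intro u hu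
      have h1 : g * u * g⁻¹ ∈ P := (Subgroup.mem_normalizer_iff.1 hg u).1 hu
      have h2 : g * u * g⁻¹ * u⁻¹ ∈ P := P.mul_mem h1 (P.inv_mem hu)
      have h3 : g * u * g⁻¹ * u⁻¹ ∈ N := by
        rw [← QuotientGroup.eq_one_iff]
        have h4 := Subgroup.mem_centralizer_iff.1 hq ((QuotientGroup.mk' N) u) ⟨u, hu, rfl⟩
        have h5 : ((u : G ⧸ N)) * (g : G ⧸ N) = (g : G ⧸ N) * (u : G ⧸ N) := h4
        rw [QuotientGroup.mk_mul, QuotientGroup.mk_mul, QuotientGroup.mk_mul, QuotientGroup.mk_inv, QuotientGroup.mk_inv, ← h5]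
        group
      obtain ⟨n, hn⟩ := hP.exists_card_eq
      have hcop : (Nat.card P).Coprime (Nat.card N) := by
        rw [hn]
        exact (Nat.Coprime.pow_left _ hN.symm)
      have h6 := Subgroup.inf_eq_bot_of_coprime hcop
      have h7 : g * u * g⁻¹ * u⁻¹ ∈ P ⊓ N := Subgroup.mem_inf.2 ⟨h2, h3⟩
      rw [h6, Subgroup.mem_bot] at h7
      have h8 : g * u * g⁻¹ = u := mul_inv_eq_one.1 h7
      have h9 : g * u = u * g := mul_inv_eq_iff_eq_mul.1 h8
      exact h9.symm
    · rintro _ ⟨g, hg, rfl⟩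
      rw [Subgroup.mem_centralizer_iff]
      rintro _ ⟨u, hu, rfl⟩
      have := Subgroup.mem_centralizer_iff.1 hg u hu
      change ((u : G ⧸ N)) * (g : G ⧸ N) = (g : G ⧸ N) * (u : G ⧸ N)
      rw [← QuotientGroup.mk_mul, ← QuotientGroup.mk_mul, this]

end Cfsg.Agent.S3800
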