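import Cfsg.Statements.S3979
import Mathlib
-- import your own Cfsg.Agent.* helpers here

set_option autoImplicit false
open Cfsg

namespace Cfsg.Agent.S3979

/-- A finite cyclic group has trivial Schur multiplier: every finite stem extension of it is an isomorphism, said through `HasCyclicSchurMultiplier G 1`. -/
theorem result {G : Type*} [Group G] [Finite G] [IsCyclic G] : Cfsg.HasCyclicSchurMultiplier G 1 := by
  constructor
  · -- existence: identity
    refine ⟨G, inferInstance, inferInstance, MonoidHom.id G, ?_, ?_⟩
    · refine ⟨Function.surjective_id, ?_, ?_⟩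
      · intro x hx
        have : x = 1 := by simpa using hx
        rw [this]; exact one_mem _
      · intro x hx
        have : x = 1 := by simpa using hx
        rw [this]; exact one_mem _
    · refine ⟨MulEquiv.ofBijective (1 : (MonoidHom.id G).ker →* Multiplicative (ZMod 1)) ?_⟩
      constructor
      · intro a b _
        ext
        have ha : (a : G) = 1 := by simpa using a.2
        have hb : (b : G) = 1 := by simpa using b.2
        rw [ha, hb]
      · intro a
        refine ⟨1, ?_⟩
        exact Subsingleton.elim _ _
  · intro Γ _ _ σ hσ
    obtain ⟨hsurj, hcen, hcomm⟩ := hσ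
    have hab : ∀ a b : Γ, a * b = b * a := commutative_of_cyclic_center_quotient σ hcen
    have hbot : σ.ker = ⊥ := by
      rw [eq_bot_iff]
      refine le_trans hcomm ?_
      rw [commutator_def, Subgroup.commutator_le]
      intro a _ b _
      rw [commutatorElement_eq_one_iff_commute.mpr (hab a b)]
      exact one_mem _
    refine ⟨1, ?_⟩
    intro y
    refine ⟨1, ?_⟩
    ext
    have : (y : Γ) ∈ (⊥ : Subgroup Γ) := by rw [← hbot]; exact y.2
    have hy : (y : Γ) = 1 := by simpa using this
    simp [hy]

end Cfsg.Agent.S3979
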