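import Cfsg.Statements.S3950
import Mathlib
import Cfsg.Agent.S3979
-- import your own Cfsg.Agent.* helpers here

set_option autoImplicit false
open Cfsg

namespace Cfsg.Agent.S3950

universe u

/-- The twisted product (a central extension of `G` by `ZMod p`). -/
def Twist {G : Type u} [CommGroup G] {p : ℕ} (_χ₁ _χ₂ : G →* Multiplicative (ZMod p)) : Type u := G × ZMod p

namespace Twist

variable {G : Type u} [CommGroup G] {p : ℕ} (χ₁ χ₂ : G →* Multiplicative (ZMod p))

/-- The cocycle. -/
def co (x y : G) : ZMod p := Multiplicative.toAdd (χ₁ x) * Multiplicative.toAdd (χ₂ y)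

theorem co_mul_left (x y z : G) : co χ₁ χ₂ (x * y) z = co χ₁ χ₂ x z + co χ₁ χ₂ y z := by
  simp [co, add_mul]

theorem co_mul_right (x y z : G) : co χ₁ χ₂ x (y * z) = co χ₁ χ₂ x y + co χ₁ χ₂ x z := by
  simp [co, mul_add]

theorem co_one_left (y : G) : co χ₁ χ₂ 1 y = 0 := by simp [co]

theorem co_one_right (x : G) : co χ₁ χ₂ x 1 = 0 := by simp [co]

instance : Mul (Twist χ₁ χ₂) := ⟨fun x y => (x.1 * y.1, x.2 + y.2 + co χ₁ χ₂ x.1 y.1)⟩
instance : One (Twist χ₁ χ₂) := ⟨((1 : G), (0 : ZMod p))⟩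
instance : Inv (Twist χ₁ χ₂) := ⟨fun x => (x.1⁻¹, -x.2 - co χ₁ χ₂ x.1⁻¹ x.1)⟩

theorem mul_def (x y : Twist χ₁ χ₂) : x * y = (x.1 * y.1, x.2 + y.2 + co χ₁ χ₂ x.1 y.1) := rfl
theorem one_def : (1 : Twist χ₁ χ₂) = ((1 : G), (0 : ZMod p)) := rfl
theorem inv_def (x : Twist χ₁ χ₂) : x⁻¹ = (x.1⁻¹, -x.2 - co χ₁ χ₂ x.1⁻¹ x.1) := rfl

instance : Group (Twist χ₁ χ₂) :=
  Group.ofLeftAxioms
    (by
      intro x y z
      rw [mul_def, mul_def, mul_def, mul_def]
      apply Prod.ext
      · exact mul_assoc _ _ _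
      · show x.2 + y.2 + co χ₁ χ₂ x.1 y.1 + z.2 + co χ₁ χ₂ (x.1 * y.1) z.1 =
          x.2 + (y.2 + z.2 + co χ₁ χ₂ y.1 z.1) + co χ₁ χ₂ x.1 (y.1 * z.1)
        rw [co_mul_left, co_mul_right]
        ring)
    (by
      intro x
      rw [mul_def, one_def]
      apply Prod.ext
      · exact one_mul _
      · show (0 : ZMod p) + x.2 + co χ₁ χ₂ 1 x.1 = x.2
        rw [co_one_left]; ring)
    (by
      intro x
      rw [mul_def, inv_def, one_def]
      apply Prod.ext
      · exact inv_mul_cancel _
      · show -x.2 - co χ₁ χ₂ x.1⁻¹ x.1 + x.2 + co χ₁ χ₂ x.1⁻¹ x.1 = 0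
        ring)

/-- The projection. -/
def proj : Twist χ₁ χ₂ →* G := MonoidHom.mk' (fun x => x.1) (fun _ _ => rfl)

theorem proj_apply (x : Twist χ₁ χ₂) : proj χ₁ χ₂ x = x.1 := rfl

end Twist

/-- Existence of two independent characters. -/
theorem exists_chars {G : Type u} [CommGroup G] [Finite G] (hc : ¬ IsCyclic G) :
    ∃ (p : ℕ) (_ : Fact p.Prime) (χ₁ χ₂ : G →* Multiplicative (ZMod p)) (g h : G),
      Multiplicative.toAdd (χ₁ g) * Multiplicative.toAdd (χ₂ h) ≠ Multiplicative.toAdd (χ₁ h) * Multiplicative.toAdd (χ₂ g) := by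
  classical
  obtain ⟨ι, hι, p, hp, e, ⟨f⟩⟩ := AddCommGroup.equiv_directSum_zmod_of_finite (Additive G)
  by_cases hpw : Pairwise (Function.onFun Nat.Coprime (fun i => p i ^ e i))
  · exfalso
    apply hc
    let φ : Additive G ≃+ ZMod (∏ i, p i ^ e i) :=
      f.trans ((DirectSum.addEquivProd _).trans (ZMod.prodEquivPi (fun i => p i ^ e i) hpw).symm.toAddEquiv)
    haveI : NeZero (∏ i, p i ^ e i) :=
      ⟨Finset.prod_ne_zero_iff.mpr (fun i _ => pow_ne_zero _ (hp i).ne_zero)⟩
    refine ⟨⟨Additive.toMul (φ.symm 1), fun g => ?_⟩⟩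
    refine ⟨((φ (Additive.ofMul g)).val : ℤ), ?_⟩
    show (Additive.toMul (φ.symm 1)) ^ (((φ (Additive.ofMul g)).val : ℕ) : ℤ) = g
    rw [zpow_natCast, ← toMul_nsmul, ← map_nsmul, nsmul_one, ZMod.natCast_zmod_val, AddEquiv.symm_apply_apply]
    rfl
  · unfold Pairwise at hpw
    push_neg at hpw
    obtain ⟨i, j, hij, hcop⟩ := hpw
    change ¬ Nat.Coprime (p i ^ e i) (p j ^ e j) at hcop
    have hpe : p i = p j := by
      by_contra hne
      exact hcop (Nat.Coprime.pow _ _ ((Nat.coprime_primes (hp i) (hp j)).mpr hne))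
    have hei : e i ≠ 0 := by
      intro h0
      apply hcop
      rw [h0, pow_zero]
      exact Nat.coprime_one_left _
    have hej : e j ≠ 0 := by
      intro h0
      apply hcop
      rw [h0, pow_zero]
      exact Nat.coprime_one_right _
    have hdi : p i ∣ p i ^ e i := dvd_pow_self _ hei
    have hdj : p i ∣ p j ^ e j := by rw [hpe]; exact dvd_pow_self _ hej
    let χ₁ : G →* Multiplicative (ZMod (p i)) := MonoidHom.mk'
      (fun x => Multiplicative.ofAdd (ZMod.castHom hdi (ZMod (p i)) (f (Additive.ofMul x) i)))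
      (by
        intro x y
        show Multiplicative.ofAdd (ZMod.castHom hdi (ZMod (p i)) (f (Additive.ofMul (x * y)) i)) = _
        rw [ofMul_mul, map_add, DirectSum.add_apply, map_add, ofAdd_add])
    let χ₂ : G →* Multiplicative (ZMod (p i)) := MonoidHom.mk'
      (fun x => Multiplicative.ofAdd (ZMod.castHom hdj (ZMod (p i)) (f (Additive.ofMul x) j)))
      (by
        intro x y
        show Multiplicative.ofAdd (ZMod.castHom hdj (ZMod (p i)) (f (Additive.ofMul (x * y)) j)) = _
        rw [ofMul_mul, map_add, DirectSum.add_apply, map_add, ofAdd_add])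
    haveI : Fact (p i).Prime := ⟨hp i⟩
    refine ⟨p i, inferInstance, χ₁, χ₂, Additive.toMul (f.symm (DirectSum.of (fun i => ZMod (p i ^ e i)) i 1)),
      Additive.toMul (f.symm (DirectSum.of (fun i => ZMod (p i ^ e i)) j 1)), ?_⟩
    have hf1 : ∀ k, f (Additive.ofMul (Additive.toMul (f.symm (DirectSum.of (fun i => ZMod (p i ^ e i)) k 1)))) = DirectSum.of (fun i => ZMod (p i ^ e i)) k 1 := by
      intro k
      simp
    show ZMod.castHom hdi (ZMod (p i)) (f (Additive.ofMul (Additive.toMul (f.symm (DirectSum.of (fun i => ZMod (p i ^ e i)) i 1)))) i) *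
        ZMod.castHom hdj (ZMod (p i)) (f (Additive.ofMul (Additive.toMul (f.symm (DirectSum.of (fun i => ZMod (p i ^ e i)) j 1)))) j) ≠
      ZMod.castHom hdi (ZMod (p i)) (f (Additive.ofMul (Additive.toMul (f.symm (DirectSum.of (fun i => ZMod (p i ^ e i)) j 1)))) i) *
        ZMod.castHom hdj (ZMod (p i)) (f (Additive.ofMul (Additive.toMul (f.symm (DirectSum.of (fun i => ZMod (p i ^ e i)) i 1)))) j)
    rw [hf1, hf1, DirectSum.of_eq_same, DirectSum.of_eq_same, DirectSum.of_eq_of_ne _ _ _ (Ne.symm hij), map_zero, mul_zero, map_one, map_one, one_mul]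
    exact one_ne_zero

/-- A finite abelian group has trivial Schur multiplier if and only if it is cyclic. -/
theorem result {G : Type*} [CommGroup G] [Finite G] : Cfsg.HasCyclicSchurMultiplier G 1 ↔ IsCyclic G := by
  constructor
  · intro h
    by_contra hc
    obtain ⟨p, hp, χ₁, χ₂, g, g', hne⟩ := exists_chars hc
    haveI : NeZero p := ⟨hp.out.ne_zero⟩
    haveI : Finite (Twist χ₁ χ₂) := by
      unfold Twist; infer_instance
    let σ := Twist.proj χ₁ χ₂
    have hker : ∀ x : Twist χ₁ χ₂, x ∈ σ.ker ↔ x.1 = 1 := fun x => MonoidHom.mem_ker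
    have hstem : Cfsg.IsStemExtension σ := by
      refine ⟨fun y => ⟨(y, (0 : ZMod p)), rfl⟩, ?_, ?_⟩
      · intro x hx
        rw [Subgroup.mem_center_iff]
        intro y
        have hx1 := (hker x).mp hx
        rw [Twist.mul_def, Twist.mul_def]
        apply Prod.ext
        · show y.1 * x.1 = x.1 * y.1
          rw [mul_comm]
        · show y.2 + x.2 + Twist.co χ₁ χ₂ y.1 x.1 = x.2 + y.2 + Twist.co χ₁ χ₂ x.1 y.1
          rw [hx1, Twist.co_one_left, Twist.co_one_right]
          ring
      · intro x hx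
        have hx1 := (hker x).mp hx
        set d : ZMod p := Multiplicative.toAdd (χ₁ g) * Multiplicative.toAdd (χ₂ g') - Multiplicative.toAdd (χ₁ g') * Multiplicative.toAdd (χ₂ g) with hd
        have hd0 : d ≠ 0 := sub_ne_zero.mpr hne
        let y : Twist χ₁ χ₂ := (g, (0 : ZMod p))
        let y' : Twist χ₁ χ₂ := (g', (0 : ZMod p))
        let z : Twist χ₁ χ₂ := ((1 : G), d)
        have hyz : y * y' = z * (y' * y) := by
          rw [Twist.mul_def, Twist.mul_def, Twist.mul_def]
          apply Prod.ext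
          · show g * g' = 1 * (g' * g)
            rw [one_mul, mul_comm]
          · show (0 : ZMod p) + 0 + Twist.co χ₁ χ₂ g g' = d + (0 + 0 + Twist.co χ₁ χ₂ g' g) + Twist.co χ₁ χ₂ 1 (g' * g)
            rw [Twist.co_one_left, hd]
            simp only [Twist.co]
            ring
        have hz : z ∈ commutator (Twist χ₁ χ₂) := by
          have h1 : y * y' * y⁻¹ * y'⁻¹ ∈ commutator (Twist χ₁ χ₂) :=
            Subgroup.commutator_mem_commutator (Subgroup.mem_top _) (Subgroup.mem_top _)
          have h2 : y * y' * y⁻¹ * y'⁻¹ = z := by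
            rw [hyz]; group
          rwa [h2] at h1
        have hpow : ∀ k : ℕ, z ^ k = ((((1 : G), (k : ZMod p) * d)) : Twist χ₁ χ₂) := by
          intro k
          induction k with
          | zero =>
            rw [pow_zero]
            apply Prod.ext
            · rfl
            · show (0 : ZMod p) = ((0 : ℕ) : ZMod p) * d
              simp
          | succ k ih =>
            rw [pow_succ, ih]
            apply Prod.ext
            · show (1 : G) * 1 = 1
              simp
            · show (k : ZMod p) * d + d + Twist.co χ₁ χ₂ 1 1 = ((k + 1 : ℕ) : ZMod p) * d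
              rw [Twist.co_one_left]
              push_cast
              ring
        have hx2 : x = z ^ (x.2 * d⁻¹).val := by
          rw [hpow]
          apply Prod.ext
          · exact hx1
          · show x.2 = ((x.2 * d⁻¹).val : ZMod p) * d
            rw [ZMod.natCast_zmod_val, mul_assoc, inv_mul_cancel₀ hd0, mul_one]
        rw [hx2]
        exact pow_mem hz _
    obtain ⟨π, hπ⟩ := h.2 _ σ hstem
    -- the kernel is nontrivial
    let t : Twist χ₁ χ₂ := ((1 : G), (1 : ZMod p))
    have ht : t ∈ σ.ker := (hker t).mpr rfl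
    obtain ⟨u, hu⟩ := hπ ⟨t, ht⟩
    have hu1 : u = 1 := Subsingleton.elim _ _
    rw [hu1, map_one] at hu
    have h2 := congrArg (fun x : σ.ker => ((x : Twist χ₁ χ₂).2 : ZMod p)) hu
    exact one_ne_zero h2.symm
  · intro h
    exact Cfsg.Agent.S3979.result

end Cfsg.Agent.S3950
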