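import Cfsg.Statements.S3962
import Mathlib
-- import your own Cfsg.Agent.* helpers here

set_option autoImplicit false
open Cfsg

namespace Cfsg.Agent.S3962

/-- Let `G` be a perfect group and `π : G →* Q` a surjective homomorphism whose kernel is central. Then `π` maps the centre of `G` onto the centre of `Q`. Taking `π` to be the map to `G ⧸ Z(G)` shows that the central quotient of a perfect group has trivial centre. -/
theorem result {G Q : Type*} [Group G] [Group Q] (hG : Group.IsPerfect G) (π : G →* Q) (hπ : Function.Surjective π) (hker : π.ker ≤ Subgroup.center G) : (Subgroup.center G).map π = Subgroup.center Q := by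
  classical
  apply le_antisymm
  · rintro _ ⟨z, hz, rfl⟩
    rw [Subgroup.mem_center_iff]
    intro q
    obtain ⟨g, rfl⟩ := hπ q
    have := (Subgroup.mem_center_iff.mp hz) g
    rw [← map_mul, ← map_mul, this]
  · intro q hq
    obtain ⟨g, rfl⟩ := hπ q
    refine ⟨g, ?_, rfl⟩
    -- x ↦ [g, x] is a homomorphism to the centre
    have hcomm : ∀ x : G, g * x * g⁻¹ * x⁻¹ ∈ π.ker := by
      intro x
      rw [MonoidHom.mem_ker]
      have := (Subgroup.mem_center_iff.mp hq) (π x)
      simp only [map_mul, map_inv]
      rw [← this]; group
    let f : G →* Subgroup.center G :=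
      { toFun := fun x => ⟨g * x * g⁻¹ * x⁻¹, hker (hcomm x)⟩
        map_one' := by ext; simp
        map_mul' := by
          intro x y
          ext
          have h1 := hker (hcomm x)
          have h2 := (Subgroup.mem_center_iff.mp h1)
          simp only [Subgroup.coe_mul]
          have h3 := h2 (g * y * g⁻¹ * y⁻¹)
          -- [g, xy] = [g,x] x [g,y] x⁻¹ = [g,x][g,y]
          have h4 := (Subgroup.mem_center_iff.mp (hker (hcomm y))) x
          calc g * (x * y) * g⁻¹ * (x * y)⁻¹ = (g * x * g⁻¹ * x⁻¹) * (x * (g * y * g⁻¹ * y⁻¹) * x⁻¹) := by group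
            _ = (g * x * g⁻¹ * x⁻¹) * ((g * y * g⁻¹ * y⁻¹) * x * x⁻¹) := by rw [h4]
            _ = (g * x * g⁻¹ * x⁻¹) * (g * y * g⁻¹ * y⁻¹) := by group }
    have htriv : ∀ x : G, f x = 1 := by
      intro x
      have hx : x ∈ commutator G := by rw [hG.commutator_eq_top]; trivial
      have hle : commutator G ≤ f.ker := by
        rw [commutator_def, Subgroup.commutator_le]
        intro a _ b _
        rw [MonoidHom.mem_ker, map_commutatorElement]
        have : Commute (f a) (f b) := by
          ext
          exact (Subgroup.mem_center_iff.mp (f a).2 _).symm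
        rw [commutatorElement_eq_one_iff_commute]
        exact this
      exact hle hx
    show g ∈ Subgroup.center G
    rw [Subgroup.mem_center_iff]
    intro x
    have := congrArg Subtype.val (htriv x)
    simp only [f, MonoidHom.coe_mk, OneHom.coe_mk, OneMemClass.coe_one] at this
    have h5 : g * x * g⁻¹ = x := by
      rw [mul_inv_eq_one] at this; exact this
    rw [mul_inv_eq_iff_eq_mul] at h5
    exact h5.symm

end Cfsg.Agent.S3962
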