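import Cfsg.Statements.S3963
import Mathlib
import Cfsg.Agent.Lib.StemDihedral
-- import your own Cfsg.Agent.* helpers here

set_option autoImplicit false
open Cfsg

namespace Cfsg.Agent.S3963

/-- For every `n ≥ 1` the dicyclic (generalized quaternion) group of order `4 n` has trivial Schur multiplier. -/
theorem result (n : ℕ) [NeZero n] : Cfsg.HasCyclicSchurMultiplier (QuaternionGroup n) 1 := by
  haveI : NeZero (2 * n) := ⟨mul_ne_zero two_ne_zero (NeZero.ne n)⟩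
  refine ⟨Cfsg.Agent.Lib.StemDihedral.exists_trivial_stem _, ?_⟩
  intro Γ _ _ σ hσ
  apply Cfsg.Agent.Lib.StemDihedral.surj_of_trivial
  intro k hk
  obtain ⟨R, hR⟩ := hσ.1 (QuaternionGroup.a 1)
  obtain ⟨S, hS⟩ := hσ.1 (QuaternionGroup.xa 0)
  have h2n : ((n : ZMod (2 * n)) + (n : ZMod (2 * n))) = 0 := by
    have : ((2 * n : ℕ) : ZMod (2 * n)) = 0 := ZMod.natCast_self _
    push_cast at this
    rw [← two_mul]; exact this
  have h1 : (QuaternionGroup.xa 0 : QuaternionGroup n) * QuaternionGroup.a 1 * (QuaternionGroup.xa 0)⁻¹ = (QuaternionGroup.a 1)⁻¹ := by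
    have h5 : (QuaternionGroup.a 1 : QuaternionGroup n)⁻¹ = QuaternionGroup.a (-1) := rfl
    have h6 : (QuaternionGroup.xa 0 : QuaternionGroup n)⁻¹ = QuaternionGroup.xa ((n : ZMod (2 * n)) + 0) := rfl
    rw [h5, h6]
    simp only [QuaternionGroup.xa_mul_a, QuaternionGroup.xa_mul_xa]
    congr 1
    linear_combination h2n
  have hpowa : ∀ i : ZMod (2 * n), (QuaternionGroup.a 1 : QuaternionGroup n) ^ ((i.val : ℤ)) = QuaternionGroup.a i := by
    intro i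
    rw [zpow_natCast, QuaternionGroup.a_one_pow, ZMod.natCast_zmod_val]
  have h2 : ∀ g : QuaternionGroup n, ∃ i : ℤ, g = (QuaternionGroup.a 1) ^ i ∨ g = QuaternionGroup.xa 0 * (QuaternionGroup.a 1) ^ i := by
    rintro (i | i)
    · exact ⟨i.val, Or.inl (hpowa i).symm⟩
    · refine ⟨i.val, Or.inr ?_⟩
      rw [hpowa i, QuaternionGroup.xa_mul_a, zero_add]
  obtain ⟨hc, hSR, -, hdesc⟩ := Cfsg.Agent.Lib.StemDihedral.kernel_description _ _ h1 h2 σ hσ R S hR hS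
  set c := R * (S * R * S⁻¹) with hcdef
  obtain ⟨j, hj, hd⟩ := hdesc k hk
  rw [QuaternionGroup.orderOf_a_one] at hd
  -- S commutes with R ^ n
  have hcomm : S * R ^ n = R ^ n * S := by
    have hd' : (R ^ n)⁻¹ * S ^ 2 ∈ σ.ker := by
      rw [MonoidHom.mem_ker, map_mul, map_inv, map_pow, map_pow, hR, hS, QuaternionGroup.a_one_pow, QuaternionGroup.xa_sq]
      simp
    have hcen := Subgroup.mem_center_iff.mp (hσ.2.1 hd')
    have hRn : R ^ n = S ^ 2 * ((R ^ n)⁻¹ * S ^ 2)⁻¹ := by group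
    rw [hRn]
    have h5 : S * (S ^ 2 * ((R ^ n)⁻¹ * S ^ 2)⁻¹) = S ^ 2 * (S * ((R ^ n)⁻¹ * S ^ 2)⁻¹) := by
      simp only [pow_two, mul_assoc]
    have hcen' : ∀ x : Γ, x * ((R ^ n)⁻¹ * S ^ 2)⁻¹ = ((R ^ n)⁻¹ * S ^ 2)⁻¹ * x := by
      intro x
      have := hcen x⁻¹
      calc x * ((R ^ n)⁻¹ * S ^ 2)⁻¹ = (((R ^ n)⁻¹ * S ^ 2) * x⁻¹)⁻¹ := by group
        _ = (x⁻¹ * ((R ^ n)⁻¹ * S ^ 2))⁻¹ := by rw [hcen x⁻¹]
        _ = _ := by group
    rw [h5, hcen' S]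
    group
  have hwn := Cfsg.Agent.Lib.StemDihedral.w_pow_eq_one σ.ker hσ.2.1 R S c hc hSR n hcomm
  -- n ∣ j
  have hnj : (n : ℤ) ∣ j := by
    have hn0 : (2 : ℤ) ≠ 0 := two_ne_zero
    push_cast at hd
    exact (mul_dvd_mul_iff_left hn0).mp hd
  obtain ⟨t, rfl⟩ := hnj
  rw [hj, zpow_mul, zpow_natCast, hwn, one_zpow]

end Cfsg.Agent.S3963
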