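import Cfsg.Statements.S3964
import Mathlib
import Cfsg.Agent.Lib.StemDihedral
-- import your own Cfsg.Agent.* helpers here

set_option autoImplicit false
open Cfsg

namespace Cfsg.Agent.S3964

/-- For odd `n` the dihedral group of order `2 n` has trivial Schur multiplier. -/
theorem result (n : ℕ) (hn : Odd n) : Cfsg.HasCyclicSchurMultiplier (DihedralGroup n) 1 := by
  haveI : NeZero n := ⟨by rintro rfl; simp at hn⟩
  refine ⟨Cfsg.Agent.Lib.StemDihedral.exists_trivial_stem _, ?_⟩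
  intro Γ _ _ σ hσ
  apply Cfsg.Agent.Lib.StemDihedral.surj_of_trivial
  intro k hk
  obtain ⟨R, hR⟩ := hσ.1 (DihedralGroup.r 1)
  obtain ⟨S, hS⟩ := hσ.1 (DihedralGroup.sr 0)
  have h1 : (DihedralGroup.sr 0 : DihedralGroup n) * DihedralGroup.r 1 * (DihedralGroup.sr 0)⁻¹ = (DihedralGroup.r 1)⁻¹ := by
    simp [DihedralGroup.inv_sr, DihedralGroup.inv_r]
  have hpowa : ∀ i : ZMod n, (DihedralGroup.r 1 : DihedralGroup n) ^ ((i.val : ℤ)) = DihedralGroup.r i := by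
    intro i
    rw [zpow_natCast, DihedralGroup.r_one_pow, ZMod.natCast_zmod_val]
  have h2 : ∀ g : DihedralGroup n, ∃ i : ℤ, g = (DihedralGroup.r 1) ^ i ∨ g = DihedralGroup.sr 0 * (DihedralGroup.r 1) ^ i := by
    rintro (i | i)
    · exact ⟨i.val, Or.inl (hpowa i).symm⟩
    · refine ⟨i.val, Or.inr ?_⟩
      rw [hpowa i, DihedralGroup.sr_mul_r, zero_add]
  obtain ⟨hc, hSR, -, hdesc⟩ := Cfsg.Agent.Lib.StemDihedral.kernel_description _ _ h1 h2 σ hσ R S hR hS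
  set c := R * (S * R * S⁻¹) with hcdef
  obtain ⟨j, hj, hd⟩ := hdesc k hk
  rw [DihedralGroup.orderOf_r_one] at hd
  have hRn : R ^ n ∈ σ.ker := by
    rw [MonoidHom.mem_ker, map_pow, hR, DihedralGroup.r_one_pow_n]
  have hcomm : S * R ^ n = R ^ n * S := (Subgroup.mem_center_iff.mp (hσ.2.1 hRn) S)
  have hwn := Cfsg.Agent.Lib.StemDihedral.w_pow_eq_one σ.ker hσ.2.1 R S c hc hSR n hcomm
  have hnj : (n : ℤ) ∣ j := by
    have hcop : IsCoprime (n : ℤ) 2 := by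
      rw [show (2 : ℤ) = ((2 : ℕ) : ℤ) from rfl, Nat.isCoprime_iff_coprime]
      exact Nat.coprime_two_right.mpr hn
    exact hcop.dvd_of_dvd_mul_left hd
  obtain ⟨t, rfl⟩ := hnj
  rw [hj, zpow_mul, zpow_natCast, hwn, one_zpow]

end Cfsg.Agent.S3964
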