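import Cfsg.Statements.S3966
import Mathlib
-- import your own Cfsg.Agent.* helpers here

set_option autoImplicit false
open Cfsg

namespace Cfsg.Agent.S3966

open QuaternionGroup DihedralGroup in
/-- The canonical map from the dicyclic group onto the dihedral group. -/
noncomputable def sigma (n : ℕ) [NeZero n] : QuaternionGroup n →* DihedralGroup n :=
  MonoidHom.mk' (fun g => match g with
    | QuaternionGroup.a i => DihedralGroup.r (ZMod.castHom (Dvd.intro_left 2 rfl : n ∣ 2 * n) (ZMod n) i)
    | QuaternionGroup.xa i => DihedralGroup.sr (ZMod.castHom (Dvd.intro_left 2 rfl : n ∣ 2 * n) (ZMod n) i))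
    (by
      have hn : ZMod.castHom (Dvd.intro_left 2 rfl : n ∣ 2 * n) (ZMod n) (n : ZMod (2 * n)) = 0 := by
        simp
      rintro (i | i) (j | j)
      · simp [QuaternionGroup.a_mul_a, map_add]
      · simp [QuaternionGroup.a_mul_xa, map_sub]
      · simp [QuaternionGroup.xa_mul_a, map_add]
      · simp [QuaternionGroup.xa_mul_xa, map_sub, map_add, hn])

theorem sigma_a (n : ℕ) [NeZero n] (i : ZMod (2 * n)) :
    sigma n (QuaternionGroup.a i) = DihedralGroup.r (ZMod.castHom (Dvd.intro_left 2 rfl : n ∣ 2 * n) (ZMod n) i) := rfl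

theorem sigma_xa (n : ℕ) [NeZero n] (i : ZMod (2 * n)) :
    sigma n (QuaternionGroup.xa i) = DihedralGroup.sr (ZMod.castHom (Dvd.intro_left 2 rfl : n ∣ 2 * n) (ZMod n) i) := rfl

theorem sigma_surj (n : ℕ) [NeZero n] : Function.Surjective (sigma n) := by
  rintro (i | i)
  · obtain ⟨j, hj⟩ := ZMod.castHom_surjective (Dvd.intro_left 2 rfl : n ∣ 2 * n) i
    exact ⟨QuaternionGroup.a j, by rw [sigma_a, hj]⟩
  · obtain ⟨j, hj⟩ := ZMod.castHom_surjective (Dvd.intro_left 2 rfl : n ∣ 2 * n) i
    exact ⟨QuaternionGroup.xa j, by rw [sigma_xa, hj]⟩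

theorem mem_ker_sigma (n : ℕ) [NeZero n] (g : QuaternionGroup n) :
    g ∈ (sigma n).ker ↔ g = QuaternionGroup.a 0 ∨ g = QuaternionGroup.a (n : ZMod (2 * n)) := by
  rw [MonoidHom.mem_ker]
  constructor
  · intro h
    cases g with
    | a i =>
      rw [sigma_a, DihedralGroup.one_def, DihedralGroup.r.injEq, ZMod.castHom_apply] at h
      haveI : NeZero (2 * n) := ⟨mul_ne_zero two_ne_zero (NeZero.ne n)⟩
      have hlt := ZMod.val_lt i
      have h1 : ((i.val : ℕ) : ZMod n) = 0 := by
        have h2 : ((i.val : ℕ) : ZMod (2 * n)) = i := ZMod.natCast_zmod_val i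
        rw [← h2, ZMod.cast_natCast (Dvd.intro_left 2 rfl : n ∣ 2 * n)] at h
        exact h
      rw [ZMod.natCast_eq_zero_iff] at h1
      obtain ⟨k, hk⟩ := h1
      have hn0 : 0 < n := Nat.pos_of_ne_zero (NeZero.ne n)
      have hk2 : k < 2 := by
        rw [hk] at hlt
        by_contra hk2
        push_neg at hk2
        nlinarith
      interval_cases k
      · left
        congr 1
        rw [← ZMod.natCast_zmod_val i, hk]; simp
      · right
        congr 1
        rw [← ZMod.natCast_zmod_val i, hk]; simp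
    | xa i =>
      rw [sigma_xa, DihedralGroup.one_def] at h
      cases h
  · rintro (rfl | rfl)
    · rw [sigma_a, map_zero]; rfl
    · rw [sigma_a]
      have hn : ZMod.castHom (Dvd.intro_left 2 rfl : n ∣ 2 * n) (ZMod n) (n : ZMod (2 * n)) = 0 := by
        simp
      rw [hn]; rfl

/-- For even `n ≥ 2` the dicyclic group of order `4 n` is a stem extension of the dihedral group of order `2 n` with kernel of order `2`: there is a surjective homomorphism `QuaternionGroup n →* DihedralGroup n` whose kernel is central, lies in the commutator subgroup and has two elements. Together with the order of the multiplier this exhibits the dicyclic group as a Schur covering group of the dihedral group. -/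
theorem result (n : ℕ) [NeZero n] (hn : Even n) : ∃ σ : QuaternionGroup n →* DihedralGroup n, Cfsg.IsStemExtension σ ∧ Nat.card σ.ker = 2 := by
  refine ⟨sigma n, ⟨sigma_surj n, ?_, ?_⟩, ?_⟩
  · intro g hg
    rw [mem_ker_sigma] at hg
    have h0 : (QuaternionGroup.a (n : ZMod (2 * n)) : QuaternionGroup n) ∈ Subgroup.center (QuaternionGroup n) := by
      rw [Subgroup.mem_center_iff]
      rintro (j | j)
      · simp [QuaternionGroup.a_mul_a, add_comm]
      · simp only [QuaternionGroup.xa_mul_a, QuaternionGroup.a_mul_xa]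
        congr 1
        have h2 : ((n : ZMod (2 * n)) + (n : ZMod (2 * n))) = 0 := by
          have : ((2 * n : ℕ) : ZMod (2 * n)) = 0 := ZMod.natCast_self _
          push_cast at this
          rw [← two_mul]; exact this
        have h3 : (n : ZMod (2 * n)) = -(n : ZMod (2 * n)) := eq_neg_of_add_eq_zero_left h2
        rw [sub_eq_add_neg, ← h3]
    rcases hg with rfl | rfl
    · rw [QuaternionGroup.a_zero]; exact one_mem _
    · exact h0
  · intro g hg
    rw [mem_ker_sigma] at hg
    obtain ⟨m, hm⟩ := hn
    have h2 : (QuaternionGroup.a 1 : QuaternionGroup n) ^ 2 ∈ commutator (QuaternionGroup n) := by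
      have h3 : (QuaternionGroup.a 1 : QuaternionGroup n) * QuaternionGroup.xa 0 * (QuaternionGroup.a 1)⁻¹ * (QuaternionGroup.xa 0)⁻¹ ∈ commutator (QuaternionGroup n) :=
        Subgroup.commutator_mem_commutator (Subgroup.mem_top _) (Subgroup.mem_top _)
      have h4 : (QuaternionGroup.a 1 : QuaternionGroup n) * QuaternionGroup.xa 0 * (QuaternionGroup.a 1)⁻¹ * (QuaternionGroup.xa 0)⁻¹ = (QuaternionGroup.a 1) ^ 2 := by
        have h5 : (QuaternionGroup.a 1 : QuaternionGroup n)⁻¹ = QuaternionGroup.a (-1) := rfl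
        have h6 : (QuaternionGroup.xa 0 : QuaternionGroup n)⁻¹ = QuaternionGroup.xa ((n : ZMod (2 * n)) + 0) := rfl
        rw [h5, h6, pow_two]
        simp only [QuaternionGroup.a_mul_xa, QuaternionGroup.xa_mul_a, QuaternionGroup.xa_mul_xa, QuaternionGroup.a_mul_a]
        congr 1
        have h2 : ((n : ZMod (2 * n)) + (n : ZMod (2 * n))) = 0 := by
          have : ((2 * n : ℕ) : ZMod (2 * n)) = 0 := ZMod.natCast_self _
          push_cast at this
          rw [← two_mul]; exact this
        linear_combination h2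
      rwa [h4] at h3
    rcases hg with rfl | rfl
    · rw [QuaternionGroup.a_zero]; exact one_mem _
    · have h5 : (QuaternionGroup.a (n : ZMod (2 * n)) : QuaternionGroup n) = ((QuaternionGroup.a 1) ^ 2) ^ m := by
        rw [← pow_mul, QuaternionGroup.a_one_pow]
        congr 2
        omega
      rw [h5]
      exact pow_mem h2 m
  · rw [Nat.card_eq_two_iff]
    refine ⟨⟨QuaternionGroup.a 0, (mem_ker_sigma n _).mpr (Or.inl rfl)⟩, ⟨QuaternionGroup.a (n : ZMod (2 * n)), (mem_ker_sigma n _).mpr (Or.inr rfl)⟩, ?_, ?_⟩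
    · intro h
      have h1 := congrArg Subtype.val h
      simp only [QuaternionGroup.a.injEq] at h1
      haveI : NeZero (2 * n) := ⟨mul_ne_zero two_ne_zero (NeZero.ne n)⟩
      have h2 : ((n : ℕ) : ZMod (2 * n)) = 0 := h1.symm
      rw [ZMod.natCast_eq_zero_iff] at h2
      have hn0 : 0 < n := Nat.pos_of_ne_zero (NeZero.ne n)
      have := Nat.le_of_dvd hn0 h2
      omega
    · ext ⟨g, hg⟩
      have := (mem_ker_sigma n g).mp hg
      simp only [Set.mem_insert_iff, Set.mem_singleton_iff, Set.mem_univ, iff_true, Subtype.mk.injEq]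
      exact this

end Cfsg.Agent.S3966
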