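import Cfsg.Statements.S3965
import Mathlib
import Cfsg.Agent.Lib.StemDihedral
import Cfsg.Agent.S3966
-- import your own Cfsg.Agent.* helpers here

set_option autoImplicit false
open Cfsg

namespace Cfsg.Agent.S3965

/-- For even `n ≥ 2` the dihedral group of order `2 n` has Schur multiplier cyclic of order `2`. -/
theorem result (n : ℕ) [NeZero n] (hn : Even n) : Cfsg.HasCyclicSchurMultiplier (DihedralGroup n) 2 := by
  haveI : NeZero (2 * n) := ⟨mul_ne_zero two_ne_zero (NeZero.ne n)⟩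
  constructor
  · obtain ⟨σ, hσ, hcard⟩ := Cfsg.Agent.S3966.result n hn
    refine ⟨QuaternionGroup n, inferInstance, inferInstance, σ, hσ, ?_⟩
    haveI : Fact (Nat.Prime 2) := ⟨Nat.prime_two⟩
    have hc2 : Nat.card (Multiplicative (ZMod 2)) = 2 := by simp
    exact ⟨mulEquivOfPrimeCardEq hcard hc2⟩
  intro Γ _ _ σ hσ
  obtain ⟨R, hR⟩ := hσ.1 (DihedralGroup.r 1)
  obtain ⟨S, hS⟩ := hσ.1 (DihedralGroup.sr 0)
  have h1 : (DihedralGroup.sr 0 : DihedralGroup n) * DihedralGroup.r 1 * (DihedralGroup.sr 0)⁻¹ = (DihedralGroup.r 1)⁻¹ := by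
    simp [DihedralGroup.inv_sr, DihedralGroup.inv_r]
  have hpowa : ∀ i : ZMod n, (DihedralGroup.r 1 : DihedralGroup n) ^ ((i.val : ℤ)) = DihedralGroup.r i := by
    intro i
    rw [zpow_natCast, DihedralGroup.r_one_pow, ZMod.natCast_zmod_val]
  have h2 : ∀ g : DihedralGroup n, ∃ i : ℤ, g = (DihedralGroup.r 1) ^ i ∨ g = DihedralGroup.sr 0 * (DihedralGroup.r 1) ^ i := by
    rintro (i | i)
    · exact ⟨i.val, Or.inl (hpowa i).symm⟩
    · refine ⟨i.val, Or.inr ?_⟩
      rw [hpowa i, DihedralGroup.sr_mul_r, zero_add]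
  obtain ⟨hc, hSR, hsq, hdesc⟩ := Cfsg.Agent.Lib.StemDihedral.kernel_description _ _ h1 h2 σ hσ R S hR hS
  set c := R * (S * R * S⁻¹) with hcdef
  have hRn : R ^ n ∈ σ.ker := by
    rw [MonoidHom.mem_ker, map_pow, hR, DihedralGroup.r_one_pow_n]
  have hcomm : S * R ^ n = R ^ n * S := (Subgroup.mem_center_iff.mp (hσ.2.1 hRn) S)
  have hwn := Cfsg.Agent.Lib.StemDihedral.w_pow_eq_one σ.ker hσ.2.1 R S c hc hSR n hcomm
  set w := R⁻¹ * R⁻¹ * c with hw
  obtain ⟨m, hm⟩ := hn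
  have hn2 : n = 2 * m := by omega
  set u := w ^ m with hu
  have hu2 : u ^ 2 = 1 := by
    rw [hu, ← pow_mul, mul_comm, ← hn2, hwn]
  have hform : ∀ k ∈ σ.ker, k = 1 ∨ k = u := by
    intro k hk
    obtain ⟨j, hj, hd⟩ := hdesc k hk
    rw [DihedralGroup.orderOf_r_one, hn2] at hd
    have hmj : (m : ℤ) ∣ j := by
      push_cast at hd
      exact (mul_dvd_mul_iff_left (two_ne_zero)).mp hd
    obtain ⟨t, rfl⟩ := hmj
    rw [hj, zpow_mul, zpow_natCast]
    rcases Int.even_or_odd' t with ⟨s, rfl | rfl⟩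
    · left
      rw [zpow_mul]
      have : u ^ (2 : ℤ) = 1 := by exact_mod_cast hu2
      rw [this, one_zpow]
    · right
      rw [zpow_add, zpow_mul, zpow_one]
      have : u ^ (2 : ℤ) = 1 := by exact_mod_cast hu2
      rw [this, one_zpow, one_mul]
  apply Cfsg.Agent.Lib.StemDihedral.surj_of_two σ.ker hsq
  intro k hk l hl hk1 hl1
  rw [(hform k hk).resolve_left hk1, (hform l hl).resolve_left hl1]

end Cfsg.Agent.S3965
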