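import Cfsg.Statements.S4208
import Cfsg.Agent.Lib.FGSAut
-- import your own Cfsg.Agent.* helpers here

set_option autoImplicit false
open Cfsg

namespace Cfsg.Agent.S4208

/-- Let `P` be a group of order `p^n` whose Frattini subgroup has index `p^r`. Then the order of the automorphism group of `P` divides `p^(r(n-r)) · (p^r - 1)(p^r - p) ⋯ (p^r - p^(r-1))`. -/
theorem result {P : Type*} [Group P] [Finite P] {p n r : ℕ} [Fact p.Prime] (hP : Nat.card P = p ^ n) (hr : (frattini P).index = p ^ r) : Nat.card (MulAut P) ∣ p ^ (r * (n - r)) * ∏ i ∈ Finset.range r, (p ^ r - p ^ i) := by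
  classical
  have hpG : IsPGroup p P := IsPGroup.of_card hP
  have hcomm : ∀ a b : P ⧸ frattini P, a * b = b * a := by
    intro a b
    obtain ⟨x, rfl⟩ := QuotientGroup.mk_surjective a
    obtain ⟨y, rfl⟩ := QuotientGroup.mk_surjective b
    rw [← QuotientGroup.mk_mul, ← QuotientGroup.mk_mul, QuotientGroup.eq]
    have h1 := Lib.PGrp.commutator_le_frattini hpG
    have h2 : y⁻¹ * x⁻¹ * y⁻¹⁻¹ * x⁻¹⁻¹ ∈ commutator P := by
      have := Subgroup.commutator_mem_commutator (Subgroup.mem_top y⁻¹) (Subgroup.mem_top x⁻¹)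
      simpa [commutatorElement_def, commutator_def] using this
    have h3 := h1 h2
    have h4 : (x * y)⁻¹ * (y * x) = y⁻¹ * x⁻¹ * y⁻¹⁻¹ * x⁻¹⁻¹ := by
      group
    rwa [h4]
  letI iC : CommGroup (P ⧸ frattini P) :=
    { (inferInstance : Group (P ⧸ frattini P)) with mul_comm := hcomm }
  have hpow : ∀ x : Additive (P ⧸ frattini P), p • x = 0 := by
    intro a
    obtain ⟨x, hx⟩ := QuotientGroup.mk_surjective (Additive.toMul a)
    have h1 := Lib.PGrp.pow_mem_frattini hpG x
    have h2 : ((x ^ p : P) : P ⧸ frattini P) = 1 := (QuotientGroup.eq_one_iff _).mpr h1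
    have h3 : a = Additive.ofMul (x : P ⧸ frattini P) := by rw [hx]; rfl
    rw [h3, ← ofMul_pow]
    rw [QuotientGroup.mk_pow] at h2
    exact congrArg Additive.ofMul h2
  letI iM : Module (ZMod p) (Additive (P ⧸ frattini P)) := AddCommGroup.zmodModule hpow
  let π : P →* (P ⧸ frattini P) := QuotientGroup.mk' (frattini P)
  have hsurj : Function.Surjective π := QuotientGroup.mk'_surjective _
  have hker : π.ker = frattini P := QuotientGroup.ker_mk' _
  have hcard : Nat.card (P ⧸ frattini P) = p ^ r := hr
  have hF := Lib.FGSAut.frattini_card hP hr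
  have h1 := Lib.FGSAut.card_dvd_of_free (r := r) (⊤ : Subgroup (MulAut P))
    {t : Fin r → P | Subgroup.closure (Set.range t) = ⊤} (fun t ht => ht) (by
      intro α _ t ht
      have h2 : Subgroup.closure (Set.range fun i => α (t i)) = (Subgroup.closure (Set.range t)).map α.toMonoidHom := by
        rw [MonoidHom.map_closure]
        congr 1
        ext y
        simp [Set.mem_image]
      show Subgroup.closure (Set.range fun i => α (t i)) = ⊤
      rw [h2, Set.mem_setOf_eq.mp ht, Subgroup.map_top_of_surjective]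
      exact α.surjective)
  rw [Subgroup.card_top] at h1
  have h2 : Nat.card ({t : Fin r → P | Subgroup.closure (Set.range t) = ⊤} : Set (Fin r → P)) =
      (∏ i : Fin r, (p ^ r - p ^ (i : ℕ))) * Nat.card (frattini P) ^ r :=
    Lib.FGSAut.card_generating hcard π hsurj hker
  rw [h2, hF, Fin.prod_univ_eq_prod_range (fun i => p ^ r - p ^ i) r] at h1
  rwa [mul_comm, ← pow_mul, mul_comm (n - r) r] at h1

end Cfsg.Agent.S4208
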