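import Cfsg.Statements.S3969
import Cfsg.Agent.Lib.FGSAut
import Cfsg.Agent.S4208
-- import your own Cfsg.Agent.* helpers here

set_option autoImplicit false
open Cfsg

namespace Cfsg.Agent.S3969

/-- Let `P` be an abelian Sylow `p`-subgroup of the finite group `G`, generated by `d` elements (`d` its minimal number of generators). If the order of `G` is coprime to `(p - 1)(p ^ 2 - 1) ⋯ (p ^ d - 1)`, then `G` has a normal `p`-complement. (The classical statement needs only the largest number of cyclic factors of `P` of equal order in place of `d`; the form here follows from it.) -/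
theorem result {G : Type*} [Group G] [Finite G] (p : ℕ) [Fact p.Prime] (P : Sylow p G) (hab : IsMulCommutative (P : Subgroup G)) (hcop : Nat.Coprime (Nat.card G) (∏ i ∈ Finset.Icc 1 (Group.rank (P : Subgroup G)), (p ^ i - 1))) : Cfsg.HasNormalPComplement p G := by
  classical
  have hnorm : Subgroup.normalizer (P : Set G) ≤ Subgroup.centralizer (P : Set G) := ?_
  · exact ⟨P, _, inferInstance, MonoidHom.ker_transferSylow_isComplement' P hnorm⟩
  intro y hy
  by_contra hyC
  let N := Subgroup.normalizer ((P : Subgroup G) : Set G)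
  let φ : N →* MulAut (P : Subgroup G) := (P : Subgroup G).normalizerMonoidHom
  have hker : φ.ker = (Subgroup.centralizer ((P : Subgroup G) : Set G)).subgroupOf N :=
    Subgroup.normalizerMonoidHom_ker _
  have hφ1 : φ ⟨y, hy⟩ ≠ 1 := by
    intro h
    apply hyC
    have : (⟨y, hy⟩ : N) ∈ φ.ker := h
    rw [hker] at this
    exact this
  have hpd : ∀ q : ℕ, q.Prime → q ∣ orderOf (φ ⟨y, hy⟩) → q ∣ (P : Subgroup G).index := by
    intro q _ hq
    have h1 : orderOf (φ ⟨y, hy⟩) ∣ Nat.card φ.range := by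
      have := Subgroup.orderOf_dvd_natCard φ.range (x := φ ⟨y, hy⟩) ⟨_, rfl⟩
      exact this
    have h2 : Nat.card φ.range = φ.ker.index := (Subgroup.index_ker φ).symm
    have hle : (P : Subgroup G) ≤ N := Subgroup.le_normalizer
    have h3 : ((P : Subgroup G).subgroupOf N) ≤ φ.ker := by
      rw [hker]
      intro z hz
      rw [Subgroup.mem_subgroupOf] at hz ⊢
      rw [Subgroup.mem_centralizer_iff]
      intro w hw
      have := hab.is_comm.comm ⟨w, hw⟩ ⟨z, hz⟩
      exact congrArg Subtype.val this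
    have h4 : φ.ker.index ∣ ((P : Subgroup G).subgroupOf N).index := Subgroup.index_dvd_of_le h3
    have h5 : ((P : Subgroup G).subgroupOf N).index ∣ (P : Subgroup G).index :=
      Subgroup.relIndex_dvd_index_of_le hle
    exact hq.trans (h1.trans (by rw [h2]; exact h4.trans h5))
  have hord1 : orderOf (φ ⟨y, hy⟩) ≠ 1 := by
    intro h
    exact hφ1 (orderOf_eq_one_iff.mp h)
  obtain ⟨q, hq, hqd⟩ := Nat.exists_prime_and_dvd hord1
  have hqi := hpd q hq hqd
  have hqne : q ≠ p := by
    rintro rfl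
    exact P.not_dvd_index hqi
  have hqA : q ∣ Nat.card (MulAut (P : Subgroup G)) := hqd.trans (orderOf_dvd_natCard _)
  obtain ⟨n, hn⟩ := IsPGroup.iff_card.mp P.2
  have hi : (frattini (P : Subgroup G)).index ∣ p ^ n := by
    rw [← hn]
    exact Subgroup.index_dvd_card _
  obtain ⟨r, _, hr⟩ := (Nat.dvd_prime_pow (Fact.out : p.Prime)).mp hi
  have hA := Cfsg.Agent.S4208.result hn hr
  have hq2 := hqA.trans hA
  have hq3 : ¬ q ∣ p ^ (r * (n - r)) := by
    intro h
    have := hq.dvd_of_dvd_pow h
    exact hqne ((Nat.prime_dvd_prime_iff_eq hq (Fact.out : p.Prime)).mp this)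
  have hq4 := (hq.dvd_mul.mp hq2).resolve_left hq3
  obtain ⟨i, hi1, hi2⟩ := (Prime.dvd_finset_prod_iff hq.prime _).mp hq4
  have hi3 : i < r := Finset.mem_range.mp hi1
  have hi4 : p ^ r - p ^ i = p ^ i * (p ^ (r - i) - 1) := by
    rw [Nat.mul_sub, mul_one, ← pow_add]
    congr 2
    omega
  rw [hi4] at hi2
  have hq5 : q ∣ p ^ (r - i) - 1 := by
    rcases hq.dvd_mul.mp hi2 with h | h
    · exfalso
      have := hq.dvd_of_dvd_pow h
      exact hqne ((Nat.prime_dvd_prime_iff_eq hq (Fact.out : p.Prime)).mp this)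
    · exact h
  -- r ≤ rank
  obtain ⟨S, hS1, hS2⟩ := Group.rank_spec (P : Subgroup G)
  have hrr : r ≤ Group.rank (P : Subgroup G) := by
    rw [← hS1]
    exact Lib.FGSAut.le_rank_of_index hn hr S hS2
  have hq6 : q ∣ ∏ i ∈ Finset.Icc 1 (Group.rank (P : Subgroup G)), (p ^ i - 1) :=
    hq5.trans (Finset.dvd_prod_of_mem _ (Finset.mem_Icc.mpr ⟨by omega, by omega⟩))
  have hq7 : q ∣ Nat.card G := hqi.trans (Subgroup.index_dvd_card _)
  have := Nat.dvd_gcd hq7 hq6
  rw [hcop] at this
  exact hq.one_lt.ne' (Nat.dvd_one.mp this)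

end Cfsg.Agent.S3969
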