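import Cfsg.Statements.S3971
import Cfsg.Agent.Lib.FGSAut
import Cfsg.Agent.S4208
import Cfsg.Agent.Lib.PNilp
import Cfsg.Agent.Lib.Comp2
-- import your own Cfsg.Agent.* helpers here

set_option autoImplicit false
open Cfsg

namespace Cfsg.Agent.S3971

/-- A subgroup with a cyclic subgroup of index at most two has at most two generators. -/
lemma two_gen {Q : Type*} [Group Q] [Finite Q] (C : Subgroup Q) [IsCyclic C]
    (hC : ∀ y z : Q, y ∉ C → z ∉ C → y⁻¹ * z ∈ C) :
    ∃ S : Finset Q, S.card ≤ 2 ∧ Subgroup.closure (S : Set Q) = ⊤ := by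
  classical
  obtain ⟨c, hc⟩ := IsCyclic.exists_generator (α := C)
  by_cases h : ∃ y : Q, y ∉ C
  · obtain ⟨y, hy⟩ := h
    refine ⟨{(c : Q), y}, Finset.card_le_two, ?_⟩
    rw [eq_top_iff]
    intro z _
    have hcmem : (c : Q) ∈ Subgroup.closure (({(c : Q), y} : Finset Q) : Set Q) :=
      Subgroup.subset_closure (by simp)
    have hymem : y ∈ Subgroup.closure (({(c : Q), y} : Finset Q) : Set Q) :=
      Subgroup.subset_closure (by simp)
    have hCmem : ∀ w ∈ C, w ∈ Subgroup.closure (({(c : Q), y} : Finset Q) : Set Q) := by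
      intro w hw
      obtain ⟨k, hk⟩ := hc ⟨w, hw⟩
      have : w = (c : Q) ^ k := by
        have := congrArg Subtype.val hk
        simpa using this.symm
      rw [this]
      exact Subgroup.zpow_mem _ hcmem k
    by_cases hz : z ∈ C
    · exact hCmem z hz
    · have h1 := hCmem _ (hC y z hy hz)
      have : z = y * (y⁻¹ * z) := by group
      rw [this]
      exact Subgroup.mul_mem _ hymem h1
  · push Not at h
    refine ⟨{(c : Q)}, by simp, ?_⟩
    rw [eq_top_iff]
    intro z _
    obtain ⟨k, hk⟩ := hc ⟨z, h z⟩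
    have : z = (c : Q) ^ k := by
      have := congrArg Subtype.val hk
      simpa using this.symm
    rw [this]
    exact Subgroup.zpow_mem _ (Subgroup.subset_closure (by simp)) k

lemma aut_primes {Q : Type*} [Group Q] [Finite Q] {m : ℕ} (hQ : Nat.card Q = 2 ^ m)
    (hS : ∃ S : Finset Q, S.card ≤ 2 ∧ Subgroup.closure (S : Set Q) = ⊤)
    (q : ℕ) (hq : q.Prime) (hqd : q ∣ Nat.card (MulAut Q)) : q = 2 ∨ q = 3 := by
  haveI : Fact (Nat.Prime 2) := ⟨Nat.prime_two⟩
  have hi : (frattini Q).index ∣ 2 ^ m := by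
    rw [← hQ]
    exact Subgroup.index_dvd_card _
  obtain ⟨r, _, hr⟩ := (Nat.dvd_prime_pow Nat.prime_two).mp hi
  obtain ⟨S, hS1, hS2⟩ := hS
  have hrr : r ≤ 2 := (Lib.FGSAut.le_rank_of_index hQ hr S hS2).trans hS1
  have hA := Cfsg.Agent.S4208.result hQ hr
  have h2 := hqd.trans hA
  rcases hq.dvd_mul.mp h2 with h | h
  · left
    exact (Nat.prime_dvd_prime_iff_eq hq Nat.prime_two).mp (hq.dvd_of_dvd_pow h)
  · interval_cases r
    · simp at h
      exact absurd h hq.one_lt.ne'
    · simp at h
      exact absurd h hq.one_lt.ne'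
    · simp [Finset.prod_range_succ] at h
      have h6 : q ∣ 3 * 2 := h
      rcases hq.dvd_mul.mp h6 with h' | h'
      · right
        exact (Nat.prime_dvd_prime_iff_eq hq Nat.prime_three).mp h'
      · left
        exact (Nat.prime_dvd_prime_iff_eq hq Nat.prime_two).mp h'

/-- Let `G` be a finite group of order `2 ^ a * n` with `n` odd and not divisible by `3`, and suppose `G` has an element of order `2 ^ (a - 1)` (so a Sylow `2`-subgroup has a cyclic subgroup of index at most `2`). Then `G` has a normal subgroup of order `n`. -/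
theorem result {G : Type*} [Group G] [Finite G] (a n : ℕ) (hG : Nat.card G = 2 ^ a * n) (hn : Odd n) (h3 : ¬ 3 ∣ n) (hx : ∃ x : G, orderOf x = 2 ^ (a - 1)) : ∃ N : Subgroup G, N.Normal ∧ Nat.card N = n := by
  classical
  haveI : Fact (Nat.Prime 2) := ⟨Nat.prime_two⟩
  obtain ⟨x, hx⟩ := hx
  have hxp : IsPGroup 2 (Subgroup.zpowers x) := by
    apply IsPGroup.of_card (n := a - 1)
    rw [Nat.card_zpowers, hx]
  obtain ⟨P, hP⟩ := hxp.exists_le_sylow
  have hn0 : n ≠ 0 := by
    rintro rfl
    exact absurd hn (by decide)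
  have h2n : ¬ 2 ∣ n := by
    rw [← even_iff_two_dvd, Nat.not_even_iff_odd]
    exact hn
  have hPcard : ∀ R : Sylow 2 G, Nat.card R = 2 ^ a := by
    intro R
    rw [R.card_eq_multiplicity, hG, Nat.factorization_mul (pow_ne_zero _ (by norm_num)) hn0]
    simp [Nat.factorization_eq_zero_of_not_dvd h2n, Nat.Prime.factorization_self Nat.prime_two]
  have h3 : ¬ 3 ∣ Nat.card G := by
    rw [hG]
    intro h
    rcases Nat.prime_three.dvd_mul.mp h with h' | h'
    · have := Nat.prime_three.dvd_of_dvd_pow h'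
      omega
    · exact h3 h'
  -- index of ⟨x⟩ in P
  have hidx : ∀ y z : (P : Subgroup G), y ∉ (Subgroup.zpowers x).subgroupOf (P : Subgroup G) →
      z ∉ (Subgroup.zpowers x).subgroupOf (P : Subgroup G) →
      y⁻¹ * z ∈ (Subgroup.zpowers x).subgroupOf (P : Subgroup G) := by
    intro y z hy hz
    have hle : Subgroup.zpowers x ≤ (P : Subgroup G) := hP
    have hcard : Nat.card ((Subgroup.zpowers x).subgroupOf (P : Subgroup G)) * ((Subgroup.zpowers x).subgroupOf (P : Subgroup G)).index = 2 ^ a := by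
      rw [Subgroup.card_mul_index, hPcard]
    rw [Lib.Comp2.card_subgroupOf_of_le hle, Nat.card_zpowers, hx] at hcard
    by_cases ha : a = 0
    · -- P is trivial
      exfalso
      subst ha
      have h1 : Nat.card (P : Subgroup G) = 1 := by rw [hPcard]; rfl
      have := (Nat.card_eq_one_iff_unique.mp h1).1
      apply hy
      have h5 : y = 1 := Subsingleton.elim _ _
      rw [h5]
      exact Subgroup.one_mem _
    · have hi2 : ((Subgroup.zpowers x).subgroupOf (P : Subgroup G)).index = 2 := by
        have h5 : 2 ^ a = 2 ^ (a - 1) * 2 := by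
          rw [← pow_succ]
          congr 1
          omega
        rw [h5] at hcard
        exact Nat.eq_of_mul_eq_mul_left (by positivity) hcard
      rw [Subgroup.mul_mem_iff_of_index_two hi2]
      simp [hy, hz]
  obtain ⟨P', N, hN, hNc⟩ : Cfsg.HasNormalPComplement 2 G := by
    apply Lib.PNilp.hasNormalPComplement_of_automizer P
    intro Q hQ g hg hgc
    -- φ
    let φ : Subgroup.normalizer (Q : Set G) →* MulAut Q := Q.normalizerMonoidHom
    have hker : φ.ker = (Subgroup.centralizer (Q : Set G)).subgroupOf (Subgroup.normalizer (Q : Set G)) :=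
      Subgroup.normalizerMonoidHom_ker _
    by_contra hgC
    have hφ1 : φ ⟨g, hg⟩ ≠ 1 := by
      intro h
      apply hgC
      have : (⟨g, hg⟩ : Subgroup.normalizer (Q : Set G)) ∈ φ.ker := h
      rw [hker] at this
      exact this
    have hord1 : orderOf (φ ⟨g, hg⟩) ≠ 1 := fun h => hφ1 (orderOf_eq_one_iff.mp h)
    obtain ⟨q, hq, hqd⟩ := Nat.exists_prime_and_dvd hord1
    have h1 : orderOf (φ ⟨g, hg⟩) ∣ orderOf g := by
      have := orderOf_map_dvd φ (⟨g, hg⟩ : Subgroup.normalizer (Q : Set G))
      rwa [Subgroup.orderOf_mk] at this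
    have hqg : q ∣ orderOf g := hqd.trans h1
    have hqG : q ∣ Nat.card G := hqg.trans (orderOf_dvd_natCard g)
    have hqA : q ∣ Nat.card (MulAut Q) := hqd.trans (orderOf_dvd_natCard _)
    have hQp : IsPGroup 2 Q := P.2.to_le hQ
    obtain ⟨m, hm⟩ := IsPGroup.iff_card.mp hQp
    -- generators
    have hgen : ∃ S : Finset Q, S.card ≤ 2 ∧ Subgroup.closure (S : Set Q) = ⊤ := by
      haveI : IsCyclic ((Subgroup.zpowers x).subgroupOf Q) := by
        let f : ((Subgroup.zpowers x).subgroupOf Q) →* Subgroup.zpowers x :=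
          MonoidHom.mk' (fun y => ⟨y.1.1, y.2⟩) (fun _ _ => rfl)
        have hf : Function.Injective f := by
          intro a b h
          have h1 : ((f a : Subgroup.zpowers x) : G) = f b := congrArg Subtype.val h
          exact Subtype.ext (Subtype.ext h1)
        exact isCyclic_of_injective f hf
      apply two_gen ((Subgroup.zpowers x).subgroupOf Q)
      intro y z hy hz
      have hyy : (⟨y, hQ y.2⟩ : (P : Subgroup G)) ∉ (Subgroup.zpowers x).subgroupOf (P : Subgroup G) := hy
      have hzz : (⟨z, hQ z.2⟩ : (P : Subgroup G)) ∉ (Subgroup.zpowers x).subgroupOf (P : Subgroup G) := hz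
      have := hidx _ _ hyy hzz
      exact this
    rcases aut_primes hm hgen q hq hqA with rfl | rfl
    · have := Nat.dvd_gcd hqg (dvd_refl 2)
      rw [hgc] at this
      omega
    · exact h3 hqG
  refine ⟨N, hN, ?_⟩
  have hc := hNc.card_mul
  rw [hPcard, hG, mul_comm] at hc
  exact Nat.eq_of_mul_eq_mul_left (by positivity) hc

end Cfsg.Agent.S3971
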