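import Cfsg.Statements.S3994
import Cfsg.Agent.Lib.FrobCount
-- import your own Cfsg.Agent.* helpers here

set_option autoImplicit false
open Cfsg

namespace Cfsg.Agent.S3994

theorem aux {G : Type*} [Group G] [Finite G] (n q b r : ℕ) (hq : q.Prime)
    (hG : Nat.card G = q ^ b * r) (hc : (q ^ b).Coprime r) (hqn : ¬ q ∣ n) :
    q ^ b ∣ Nat.card {g : G // n ∣ orderOf g} := by
  classical
  haveI := Fintype.ofFinite G
  let U := {u : G // u ^ r = 1 ∧ n ∣ orderOf u}
  haveI : Fintype U := Fintype.ofFinite _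
  have hcount := Lib.FrobCount.card_jordan hc (fun u : G => n ∣ orderOf u) (G := G)
  have hco : ∀ y : G, y ^ q ^ b = 1 → n.Coprime (orderOf y) := by
    intro y hy
    have h1 : orderOf y ∣ q ^ b := orderOf_dvd_of_pow_eq_one hy
    have h2 : n.Coprime (q ^ b) :=
      Nat.Coprime.pow_right _ ((Nat.Prime.coprime_iff_not_dvd hq).2 hqn).symm
    exact Nat.Coprime.coprime_dvd_right h1 h2
  have hord : ∀ u y : G, u ^ r = 1 → y ^ q ^ b = 1 → u * y = y * u →
      orderOf (u * y) = orderOf u * orderOf y := by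
    intro u y hu hy huy
    apply Commute.orderOf_mul_eq_mul_orderOf_of_coprime huy
    exact Nat.Coprime.coprime_dvd_left (orderOf_dvd_of_pow_eq_one hu)
      (Nat.Coprime.coprime_dvd_right (orderOf_dvd_of_pow_eq_one hy) hc.symm)
  have e : Nat.card {g : G // n ∣ orderOf g} = Nat.card {g : G // ∃ u y : G, u ^ r = 1 ∧
      n ∣ orderOf u ∧ y ^ q ^ b = 1 ∧ u * y = y * u ∧ g = u * y} := by
    apply Nat.card_congr
    apply Equiv.subtypeEquivRight
    intro g
    constructor
    · intro hg
      have hg1 : g ^ (q ^ b * r) = 1 := by rw [← hG]; exact pow_card_eq_one'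
      obtain ⟨u, y, hu, hy, huy, rfl⟩ := Lib.FrobCount.exists_jordan hc g hg1
      refine ⟨u, y, hu, ?_, hy, huy, rfl⟩
      rw [hord u y hu hy huy] at hg
      exact (hco y hy).dvd_of_dvd_mul_right hg
    · rintro ⟨u, y, hu, hnu, hy, huy, rfl⟩
      rw [hord u y hu hy huy]
      exact hnu.trans (dvd_mul_right _ _)
  rw [e, hcount]
  apply Lib.FrobCount.dvd_sum_subtype (fun u : G => u ^ r = 1 ∧ n ∣ orderOf u)
  · rintro g u ⟨h1, h2⟩
    refine ⟨?_, ?_⟩
    · rw [conj_pow, h1]; simp
    · rwa [Lib.FGSBasic.orderOf_conj]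
  · exact Lib.FrobCount.F_conj _
  · intro u _
    exact Lib.FrobCount.dvd_index_mul_F (pow_ne_zero _ hq.ne_zero) u (dvd_refl _)
      (Dvd.intro _ hG.symm)

/-- Let G be a finite group and n a positive integer. The number of elements of G whose order is divisible by n is either 0 or divisible by the largest divisor of the order of G that is coprime to n. -/
theorem result {G : Type*} [Group G] [Finite G] (n : ℕ) (hn : 0 < n) :
    Nat.card {g : G // n ∣ orderOf g} = 0 ∨
      (Nat.card G / Nat.gcd (Nat.card G) (n ^ Nat.card G)) ∣ Nat.card {g : G // n ∣ orderOf g} := by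
  by_cases hW : Nat.card {g : G // n ∣ orderOf g} = 0
  · exact Or.inl hW
  right
  set N := Nat.card G with hN
  have hN0 : N ≠ 0 := Nat.card_pos.ne'
  have hn0 : n ≠ 0 := hn.ne'
  have hnN : n ^ N ≠ 0 := pow_ne_zero _ hn0
  have hg0 : Nat.gcd N (n ^ N) ≠ 0 := Nat.gcd_ne_zero_left hN0
  have hk0 : N / Nat.gcd N (n ^ N) ≠ 0 := by
    apply (Nat.div_pos (Nat.le_of_dvd (Nat.pos_of_ne_zero hN0) (Nat.gcd_dvd_left _ _))
      (Nat.pos_of_ne_zero hg0)).ne'
  rw [← Nat.factorization_prime_le_iff_dvd hk0 hW]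
  intro q hq
  have hfact : (N / Nat.gcd N (n ^ N)).factorization q
      = N.factorization q - min (N.factorization q) (N * n.factorization q) := by
    rw [Nat.factorization_div (Nat.gcd_dvd_left _ _), Nat.factorization_gcd hN0 hnN,
      Nat.factorization_pow]
    simp
  by_cases hz : (N / Nat.gcd N (n ^ N)).factorization q = 0
  · rw [hz]; exact Nat.zero_le _
  have hqn : n.factorization q = 0 := by
    by_contra hne
    apply hz
    rw [hfact]
    have h1 : N.factorization q < N := Nat.factorization_lt q hN0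
    have h2 : N ≤ N * n.factorization q := Nat.le_mul_of_pos_right _ (Nat.pos_of_ne_zero hne)
    rw [min_eq_left (by omega)]
    omega
  have hb : (N / Nat.gcd N (n ^ N)).factorization q = N.factorization q := by
    rw [hfact, hqn]; simp
  rw [hb, ← hq.pow_dvd_iff_le_factorization hW]
  have hqn' : ¬ q ∣ n := by
    intro h
    have := (hq.dvd_iff_one_le_factorization hn0).1 h
    omega
  apply aux n q (N.factorization q) (N / q ^ N.factorization q) hq
  · exact (Nat.ordProj_mul_ordCompl_eq_self N q).symm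
  · exact Nat.Coprime.pow_left _ (Nat.coprime_ordCompl hq hN0)
  · exact hqn'

end Cfsg.Agent.S3994
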