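import Cfsg.Statements.S3995
import Mathlib
import Cfsg.Agent.Lib.FrobCount
import Cfsg.Agent.Lib.H1Quat
-- import your own Cfsg.Agent.* helpers here

set_option autoImplicit false
open Cfsg

namespace Cfsg.Agent.S3995

open Subgroup

section
variable {G : Type*} [Group G] [Finite G]

noncomputable def ff (G : Type*) [Group G] (m : ℕ) : ℕ := Nat.card {g : G // orderOf g = m}

theorem sum_fibers (D : Finset ℕ) :
    ∑ m ∈ D, ff G m = Nat.card {x : G // orderOf x ∈ D} := by
  classical
  haveI := Fintype.ofFinite G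
  rw [Nat.card_eq_fintype_card, Fintype.card_subtype]
  rw [Finset.card_eq_sum_card_fiberwise (s := Finset.univ.filter fun x : G => orderOf x ∈ D) (t := D) (f := orderOf)
    (by intro x hx; exact (Finset.mem_filter.mp hx).2)]
  apply Finset.sum_congr rfl
  intro m hm
  unfold ff
  rw [Nat.card_eq_fintype_card, Fintype.card_subtype]
  congr 1
  ext x
  simp only [Finset.mem_filter, Finset.mem_univ, true_and]
  constructor
  · intro h
    exact ⟨by rw [h]; exact hm, h⟩
  · exact fun h => h.2

theorem count_eq {d : ℕ} (D : Finset ℕ) (h1 : ∀ m ∈ D, m ∣ d) (h2 : ∀ x : G, x ^ d = 1 → orderOf x ∈ D) :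
    Nat.card {x : G // x ^ d = 1} = ∑ m ∈ D, ff G m := by
  rw [sum_fibers]
  refine Nat.card_congr (Equiv.subtypeEquivRight fun x => ⟨h2 x, fun h => ?_⟩)
  exact orderOf_dvd_iff_pow_eq_one.mp (h1 _ h)

theorem sum_le (D : Finset ℕ) : ∑ m ∈ D, ff G m ≤ Nat.card G := by
  rw [sum_fibers]
  exact Nat.card_le_card_of_injective _ Subtype.val_injective

theorem ff_one : ff G 1 = 1 := by
  unfold ff
  have : Unique {g : G // orderOf g = 1} := ⟨⟨⟨1, orderOf_one⟩⟩, fun a => Subtype.ext (orderOf_eq_one_iff.mp a.2)⟩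
  exact Nat.card_unique

theorem ff_ne_zero {m : ℕ} {g : G} (hg : orderOf g = m) : ff G m ≠ 0 := by
  unfold ff
  haveI : Nonempty {g : G // orderOf g = m} := ⟨⟨g, hg⟩⟩
  exact Nat.card_pos.ne'

theorem ff_ne_one {m : ℕ} {g : G} (hg : orderOf g = m) (hm : 3 ≤ m) : ff G m ≠ 1 := by
  classical
  intro h
  unfold ff at h
  rw [Nat.card_eq_one_iff_unique] at h
  obtain ⟨hsub, -⟩ := h
  have h1 : g = g⁻¹ := congrArg Subtype.val (hsub.elim (⟨g, hg⟩ : {g : G // orderOf g = m}) ⟨g⁻¹, by rw [orderOf_inv]; exact hg⟩)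
  have h2 : g ^ 2 = 1 := by
    rw [sq]
    nth_rewrite 1 [h1]
    exact inv_mul_cancel g
  have h3 := orderOf_dvd_of_pow_eq_one h2
  rw [hg] at h3
  have := Nat.le_of_dvd (by norm_num) h3
  omega

def PP (m : ℕ) : Type := Fin m

instance (m : ℕ) : Finite (PP m) := inferInstanceAs (Finite (Fin m))

theorem card_PP (m : ℕ) : Nat.card (PP m) = m := Nat.card_fin m

/-- the standing hypotheses -/
structure Hyp (G : Type*) [Group G] (n : ℕ) : Prop where
  val : ∀ g : G, ff G (orderOf g) = 1 ∨ ff G (orderOf g) = n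
  two : 2 ≤ n

variable {n : ℕ}

theorem Hyp.eq_n (H : Hyp G n) {m : ℕ} {g : G} (hg : orderOf g = m) (hm : 3 ≤ m) : ff G m = n := by
  have := H.val g
  rw [hg] at this
  exact this.resolve_left (ff_ne_one hg hm)

theorem L1 {p : ℕ} (hp : p.Prime) (hN : p ∣ Nat.card G) (hf : ff G p = n) : p ∣ 1 + n := by
  have h1 := Lib.FrobCount.dvd_card_pow_eq_one hN
  have hne : (1 : ℕ) ≠ p := hp.one_lt.ne
  rw [count_eq (d := p) {1, p} (by
    intro m hm
    simp only [Finset.mem_insert, Finset.mem_singleton] at hm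
    rcases hm with rfl | rfl
    · exact one_dvd _
    · exact dvd_rfl) (by
    intro x hx
    have := orderOf_dvd_of_pow_eq_one hx
    rcases (Nat.dvd_prime hp).mp this with h | h <;> simp [h])] at h1
  rw [Finset.sum_pair hne, ff_one, hf] at h1
  exact h1

theorem L2 (H : Hyp G n) {p : ℕ} (hp : p.Prime) (hf : ff G p = n) (hd : p ∣ 1 + n) {g : G} (hg : orderOf g = p ^ 2) : False := by
  have hN : p ^ 2 ∣ Nat.card G := hg ▸ orderOf_dvd_natCard g
  have h1 := Lib.FrobCount.dvd_card_pow_eq_one hN
  have hp2 : 2 ≤ p := hp.two_le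
  have hm : 3 ≤ p ^ 2 := by nlinarith
  have hlt : p < p ^ 2 := by nlinarith
  rw [count_eq (d := p ^ 2) {1, p, p ^ 2} (by
    intro m hm
    simp only [Finset.mem_insert, Finset.mem_singleton] at hm
    rcases hm with rfl | rfl | rfl
    · exact one_dvd _
    · exact dvd_pow_self _ (by norm_num)
    · exact dvd_rfl) (by
    intro x hx
    have := orderOf_dvd_of_pow_eq_one hx
    obtain ⟨k, hk, h3⟩ := (Nat.dvd_prime_pow hp).mp this
    have : k = 0 ∨ k = 1 ∨ k = 2 := by omega
    rcases this with rfl | rfl | rfl <;> simp [h3])] at h1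
  rw [Finset.sum_insert (by
      simp only [Finset.mem_insert, Finset.mem_singleton]
      rintro (h | h)
      · exact hp.one_lt.ne h
      · have : 1 < p ^ 2 := by nlinarith
        omega),
    Finset.sum_pair hlt.ne, ff_one, hf, H.eq_n hg hm] at h1
  have h2 : p ∣ 1 + (n + n) := (dvd_pow_self p (by norm_num)).trans h1
  have h3 : p ∣ 2 * (1 + n) - (1 + (n + n)) := Nat.dvd_sub (hd.mul_left 2) h2
  have h4 : 2 * (1 + n) - (1 + (n + n)) = 1 := by omega
  rw [h4] at h3
  exact hp.one_lt.ne' (Nat.dvd_one.mp h3)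

theorem L3 (H : Hyp G n) {p q : ℕ} (hp : p.Prime) (hq : q.Prime) (hpq : p ≠ q) (hfp : ff G p = n) (hfq : ff G q = n)
    (hdp : p ∣ 1 + n) (hdq : q ∣ 1 + n) {g : G} (hg : orderOf g = p * q) : False := by
  have hN : p * q ∣ Nat.card G := hg ▸ orderOf_dvd_natCard g
  have h1 := Lib.FrobCount.dvd_card_pow_eq_one hN
  have hp2 : 2 ≤ p := hp.two_le
  have hq2 : 2 ≤ q := hq.two_le
  have hm : 3 ≤ p * q := by nlinarith
  have hp1 : p ≠ p * q := by
    intro h
    have : p * 1 = p * q := by rw [mul_one]; exact h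
    have := Nat.eq_of_mul_eq_mul_left (by omega) this
    omega
  have hq1 : q ≠ p * q := by
    intro h
    have : 1 * q = p * q := by rw [one_mul]; exact h
    have := Nat.eq_of_mul_eq_mul_right (by omega) this
    omega
  have h1pq : 1 ≠ p * q := by nlinarith
  rw [count_eq (d := p * q) {1, p, q, p * q} (by
    intro m hm
    simp only [Finset.mem_insert, Finset.mem_singleton] at hm
    rcases hm with rfl | rfl | rfl | rfl
    · exact one_dvd _
    · exact dvd_mul_right _ _
    · exact dvd_mul_left _ _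
    · exact dvd_rfl) (by
    intro x hx
    have := orderOf_dvd_of_pow_eq_one hx
    obtain ⟨k₁, k₂, h3, h4, h5⟩ := (Nat.dvd_mul).mp this
    rcases (Nat.dvd_prime hp).mp h3 with rfl | rfl <;> rcases (Nat.dvd_prime hq).mp h4 with rfl | rfl <;> simp [← h5])] at h1
  rw [Finset.sum_insert (by
      simp only [Finset.mem_insert, Finset.mem_singleton]
      rintro (h | h | h)
      · exact hp.one_lt.ne h
      · exact hq.one_lt.ne h
      · exact h1pq h),
    Finset.sum_insert (by
      simp only [Finset.mem_insert, Finset.mem_singleton]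
      rintro (h | h)
      · exact hpq h
      · exact hp1 h),
    Finset.sum_pair hq1, ff_one, hfp, hfq, H.eq_n hg hm] at h1
  have h2 : p ∣ 1 + (n + (n + n)) := (dvd_mul_right p q).trans h1
  have h3 : q ∣ 1 + (n + (n + n)) := (dvd_mul_left q p).trans h1
  have h4 : 3 * (1 + n) - (1 + (n + (n + n))) = 2 := by omega
  have h5 : p ∣ 3 * (1 + n) - (1 + (n + (n + n))) := Nat.dvd_sub (hdp.mul_left 3) h2
  have h6 : q ∣ 3 * (1 + n) - (1 + (n + (n + n))) := Nat.dvd_sub (hdq.mul_left 3) h3
  rw [h4] at h5 h6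
  have h7 := (Nat.prime_dvd_prime_iff_eq hp Nat.prime_two).mp h5
  have h8 := (Nat.prime_dvd_prime_iff_eq hq Nat.prime_two).mp h6
  exact hpq (h7.trans h8.symm)

/-- element orders are prime when all their prime divisors are "generic". -/
theorem L4 (H : Hyp G n) (g : G) (hP : ∀ p : ℕ, p.Prime → p ∣ orderOf g → ff G p = n) :
    orderOf g = 1 ∨ (orderOf g).Prime := by
  by_contra hcon
  push Not at hcon
  obtain ⟨h1, h2⟩ := hcon
  set o := orderOf g with ho
  have ho0 : o ≠ 0 := (orderOf_pos g).ne'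
  set p := o.minFac with hp
  have hpp : p.Prime := Nat.minFac_prime h1
  obtain ⟨t, ht⟩ : p ∣ o := Nat.minFac_dvd o
  have ht1 : t ≠ 1 := by
    rintro rfl
    rw [mul_one] at ht
    rw [ht] at h2
    exact h2 hpp
  set q := t.minFac with hq
  have hqp : q.Prime := Nat.minFac_prime ht1
  obtain ⟨s, hs⟩ : q ∣ t := Nat.minFac_dvd t
  have hs0 : s ≠ 0 := by
    rintro rfl
    rw [hs, mul_zero, mul_zero] at ht
    exact ho0 ht
  have hpo : p ∣ o := ⟨t, ht⟩
  have hqo : q ∣ o := ⟨p * s, by rw [ht, hs]; ring⟩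
  have hN : ∀ r, r ∣ o → r ∣ Nat.card G := fun r hr => hr.trans (orderOf_dvd_natCard g)
  have hfp := hP p hpp hpo
  have hfq := hP q hqp hqo
  have hdp := L1 hpp (hN p hpo) hfp
  have hdq := L1 hqp (hN q hqo) hfq
  have hdiv : o = p * q * s := by rw [ht, hs]; ring
  have hord : orderOf (g ^ s) = p * q := by
    rw [orderOf_pow_of_dvd hs0 ⟨p * q, by rw [← ho, hdiv]; ring⟩, ← ho, hdiv]
    exact Nat.mul_div_cancel _ (Nat.pos_of_ne_zero hs0)
  by_cases hpq : p = q
  · rw [← hpq, ← sq] at hord
    exact L2 H hpp hfp hdp hord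
  · exact L3 H hpp hqp hpq hfp hfq hdp hdq hord

/-- prime powers dividing the order divide `1 + n`. -/
theorem L5 {p k : ℕ} (hp : p.Prime) (hf : ff G p = n) (hN : p ^ k ∣ Nat.card G)
    (hord : ∀ x : G, x ^ p ^ k = 1 → orderOf x = 1 ∨ orderOf x = p) : p ^ k ∣ 1 + n := by
  rcases Nat.eq_zero_or_pos k with rfl | hk
  · simp
  have h1 := Lib.FrobCount.dvd_card_pow_eq_one hN
  have hne : (1 : ℕ) ≠ p := hp.one_lt.ne
  rw [count_eq (d := p ^ k) {1, p} (by
    intro m hm
    simp only [Finset.mem_insert, Finset.mem_singleton] at hm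
    rcases hm with rfl | rfl
    · exact one_dvd _
    · exact dvd_pow_self _ hk.ne') (by
    intro x hx
    rcases hord x hx with h | h <;> simp [h])] at h1
  rw [Finset.sum_pair hne, ff_one, hf] at h1
  exact h1

theorem caseA [Nontrivial G] (H : Hyp G n) (hall : ∀ p : ℕ, p.Prime → p ∣ Nat.card G → ff G p = n) :
    ∃ p : ℕ, p.Prime ∧ IsPGroup p G ∧ 3 ≤ Nat.card G ∧ Monoid.exponent G = p := by
  classical
  have hprime : ∀ g : G, orderOf g = 1 ∨ (orderOf g).Prime := fun g =>
    L4 H g (fun p hp hd => hall p hp (hd.trans (orderOf_dvd_natCard g)))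
  have hdvd : Nat.card G ∣ 1 + n := by
    refine (Nat.dvd_iff_prime_pow_dvd_dvd _ _).mpr fun r k hr hrk => ?_
    rcases Nat.eq_zero_or_pos k with rfl | hk
    · simp
    have hrN : r ∣ Nat.card G := (dvd_pow_self r hk.ne').trans hrk
    refine L5 hr (hall r hr hrN) hrk fun x hx => ?_
    have h1 := orderOf_dvd_of_pow_eq_one hx
    obtain ⟨j, -, hj⟩ := (Nat.dvd_prime_pow hr).mp h1
    rcases hprime x with h | h
    · exact Or.inl h
    · right
      rw [hj] at h ⊢
      rcases Nat.eq_zero_or_pos j with rfl | hj0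
      · exact absurd (by simpa using h : Nat.Prime 1) Nat.not_prime_one
      · have h2 : r ∣ r ^ j := dvd_pow_self r hj0.ne'
        rw [← (Nat.prime_dvd_prime_iff_eq hr h).mp h2]
  have hle : Nat.card G ≤ 1 + n := Nat.le_of_dvd (by omega) hdvd
  have hN1 : Nat.card G ≠ 1 := Finite.one_lt_card.ne'
  set p := (Nat.card G).minFac with hp
  have hpp : p.Prime := Nat.minFac_prime hN1
  have hpN : p ∣ Nat.card G := Nat.minFac_dvd _
  have hfp := hall p hpp hpN
  have honly : ∀ q : ℕ, q.Prime → q ∣ Nat.card G → q = p := by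
    intro q hq hqN
    by_contra hne
    have hfq := hall q hq hqN
    have h1 := sum_le (G := G) {1, p, q}
    rw [Finset.sum_insert (by
        simp only [Finset.mem_insert, Finset.mem_singleton]
        rintro (h | h)
        · exact hpp.one_lt.ne h
        · exact hq.one_lt.ne h),
      Finset.sum_pair (Ne.symm hne), ff_one, hfp, hfq] at h1
    have := H.two
    omega
  have hord : ∀ g : G, g ≠ 1 → orderOf g = p := by
    intro g hg
    rcases hprime g with h | h
    · exact absurd (orderOf_eq_one_iff.mp h) hg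
    · exact honly _ h (orderOf_dvd_natCard g)
  refine ⟨p, hpp, ?_, ?_, ?_⟩
  · intro g
    refine ⟨1, ?_⟩
    by_cases hg : g = 1
    · simp [hg]
    · rw [pow_one, ← hord g hg, pow_orderOf_eq_one]
  · have h1 := sum_le (G := G) {1, p}
    rw [Finset.sum_pair hpp.one_lt.ne, ff_one, hfp] at h1
    have := H.two
    omega
  · exact (Monoid.exponent_eq_prime_iff hpp).mpr hord

theorem caseB (H : Hyp G n) {z : G} (hz : orderOf z = 2) (hf2 : ff G 2 = 1) {g₀ : G} (hg₀ : 3 ≤ orderOf g₀) :
    Nonempty (G ≃* QuaternionGroup 2) ∨ (IsCyclic G ∧ Nat.card G = 4) ∨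
      (∃ (p : ℕ) (P : Type) (_ : Group P) (_ : Finite P), p.Prime ∧ p ≠ 2 ∧ IsPGroup p P ∧ Monoid.exponent P = p ∧
        Nonempty (G ≃* Multiplicative (ZMod 2) × P)) := by
  classical
  have huni : ∀ x : G, orderOf x = 2 → x = z := by
    intro x hx
    unfold ff at hf2
    rw [Nat.card_eq_one_iff_unique] at hf2
    exact congrArg Subtype.val (hf2.1.elim (⟨x, hx⟩ : {g : G // orderOf g = 2}) ⟨z, hz⟩)
  have hcen : ∀ g : G, g * z = z * g := by
    intro g
    have h1 : orderOf (g * z * g⁻¹) = 2 := by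
      rw [← hz]
      exact MulEquiv.orderOf_eq (MulAut.conj g) z
    have h2 := huni _ h1
    calc g * z = (g * z * g⁻¹) * g := by group
      _ = z * g := by rw [h2]
  have hodd : ∀ p : ℕ, p.Prime → p ≠ 2 → p ∣ Nat.card G → ff G p = n := by
    intro p hp hp2 hd
    haveI : Fact p.Prime := ⟨hp⟩
    obtain ⟨x, hx⟩ := exists_prime_orderOf_dvd_card' (G := G) p hd
    have h3 : 3 ≤ p := by
      have := hp.two_le
      omega
    exact H.eq_n hx h3
  have hoddodd : ∀ p : ℕ, p.Prime → p ≠ 2 → p % 2 = 1 := fun p hp hp2 => by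
    rcases hp.eq_two_or_odd with h | h
    · exact absurd h hp2
    · exact h
  have h2p : ∀ p : ℕ, p.Prime → p ≠ 2 → p ∣ Nat.card G → ff G (2 * p) = n := by
    intro p hp hp2 hd
    haveI : Fact p.Prime := ⟨hp⟩
    obtain ⟨x, hx⟩ := exists_prime_orderOf_dvd_card' (G := G) p hd
    have hc : Commute z x := (hcen x).symm
    have h1 : orderOf (z * x) = 2 * p := by
      rw [hc.orderOf_mul_eq_mul_orderOf_of_coprime (by
        rw [hz, hx]
        exact (Nat.coprime_primes Nat.prime_two hp).mpr (Ne.symm hp2)), hz, hx]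
    exact H.eq_n h1 (by have := hp.two_le; omega)
  have h4 : 4 ∣ Nat.card G → ff G 4 = n ∧ 4 ∣ 2 + n := by
    intro hd
    have h1 := Lib.FrobCount.dvd_card_pow_eq_one hd
    rw [count_eq (d := 4) {1, 2, 4} (by
      intro m hm
      simp only [Finset.mem_insert, Finset.mem_singleton] at hm
      rcases hm with rfl | rfl | rfl <;> norm_num) (by
      intro x hx
      have h2 := orderOf_dvd_of_pow_eq_one hx
      obtain ⟨k, hk, h3⟩ := (Nat.dvd_prime_pow Nat.prime_two).mp (show orderOf x ∣ 2 ^ 2 from h2)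
      have : k = 0 ∨ k = 1 ∨ k = 2 := by omega
      rcases this with rfl | rfl | rfl <;> simp [h3])] at h1
    rw [Finset.sum_insert (by norm_num), Finset.sum_pair (by norm_num), ff_one, hf2] at h1
    by_cases hex : ∃ g : G, orderOf g = 4
    · obtain ⟨g, hg⟩ := hex
      have h5 := H.eq_n hg (by norm_num)
      rw [h5] at h1
      exact ⟨h5, by omega⟩
    · exfalso
      have h5 : ff G 4 = 0 := by
        unfold ff
        haveI : IsEmpty {g : G // orderOf g = 4} := ⟨fun a => hex ⟨a.1, a.2⟩⟩
        exact Nat.card_of_isEmpty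
      rw [h5] at h1
      omega
  have h8 : ∀ g : G, orderOf g ≠ 8 := by
    intro g hg
    have h8N : 8 ∣ Nat.card G := hg ▸ orderOf_dvd_natCard g
    have h1 := Lib.FrobCount.dvd_card_pow_eq_one h8N
    rw [count_eq (d := 8) {1, 2, 4, 8} (by
      intro m hm
      simp only [Finset.mem_insert, Finset.mem_singleton] at hm
      rcases hm with rfl | rfl | rfl | rfl <;> norm_num) (by
      intro x hx
      have h2 := orderOf_dvd_of_pow_eq_one hx
      obtain ⟨k, hk, h3⟩ := (Nat.dvd_prime_pow Nat.prime_two).mp (show orderOf x ∣ 2 ^ 3 from h2)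
      have : k = 0 ∨ k = 1 ∨ k = 2 ∨ k = 3 := by omega
      rcases this with rfl | rfl | rfl | rfl <;> simp [h3])] at h1
    rw [Finset.sum_insert (by norm_num), Finset.sum_insert (by norm_num), Finset.sum_pair (by norm_num), ff_one, hf2,
      H.eq_n hg (by norm_num)] at h1
    obtain ⟨h5, h6⟩ := h4 (Dvd.dvd.trans (by norm_num) h8N)
    rw [h5] at h1
    omega
  have h4p : ∀ p : ℕ, p.Prime → p ≠ 2 → p ∣ Nat.card G → ¬ 4 ∣ Nat.card G := by
    intro p hp hp2 hd hd4
    have hpo := hoddodd p hp hp2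
    have hp4 : p ≠ 4 := by
      rintro rfl
      norm_num at hpo
    have hp3 : 3 ≤ p := by have := hp.two_le; omega
    have hco : Nat.Coprime 4 p := by
      have : Nat.Coprime (2 ^ 2) p := Nat.Coprime.pow_left 2 ((Nat.coprime_primes Nat.prime_two hp).mpr (Ne.symm hp2))
      exact this
    have hdN : 4 * p ∣ Nat.card G := hco.mul_dvd_of_dvd_of_dvd hd4 hd
    have h1 := Lib.FrobCount.dvd_card_pow_eq_one hdN
    rw [count_eq (d := 4 * p) {1, 2, 4, p, 2 * p, 4 * p} (by
      intro m hm
      simp only [Finset.mem_insert, Finset.mem_singleton] at hm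
      rcases hm with rfl | rfl | rfl | rfl | rfl | rfl
      · exact one_dvd _
      · exact (by norm_num : 2 ∣ 4).trans (dvd_mul_right 4 p)
      · exact dvd_mul_right _ _
      · exact dvd_mul_left _ _
      · exact mul_dvd_mul_right (by norm_num) p
      · exact dvd_rfl) (by
      intro x hx
      have h2 := orderOf_dvd_of_pow_eq_one hx
      obtain ⟨k₁, k₂, h3, h5, h6⟩ := (Nat.dvd_mul).mp h2
      obtain ⟨k, hk, h7⟩ := (Nat.dvd_prime_pow Nat.prime_two).mp (show k₁ ∣ 2 ^ 2 from h3)
      have h9 : k = 0 ∨ k = 1 ∨ k = 2 := by omega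
      rcases (Nat.dvd_prime hp).mp h5 with rfl | rfl <;> rcases h9 with rfl | rfl | rfl <;> simp [← h6, h7])] at h1
    have hf4 := (h4 hd4).1
    have hfp := hodd p hp hp2 hd
    have hf2p := h2p p hp hp2 hd
    have hdp := L1 hp hd hfp
    rw [Finset.sum_insert (by simp only [Finset.mem_insert, Finset.mem_singleton]; omega),
      Finset.sum_insert (by simp only [Finset.mem_insert, Finset.mem_singleton]; omega),
      Finset.sum_insert (by simp only [Finset.mem_insert, Finset.mem_singleton]; omega),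
      Finset.sum_insert (by simp only [Finset.mem_insert, Finset.mem_singleton]; omega),
      Finset.sum_pair (by omega), ff_one, hf2, hf4, hfp, hf2p] at h1
    have h4d : 4 ∣ 1 + (1 + (n + (n + (n + ff G (4 * p))))) := (dvd_mul_right 4 p).trans h1
    have hpd : p ∣ 1 + (1 + (n + (n + (n + ff G (4 * p))))) := (dvd_mul_left p 4).trans h1
    by_cases hex : ∃ g : G, orderOf g = 4 * p
    · obtain ⟨g, hg⟩ := hex
      rw [H.eq_n hg (by omega)] at h4d
      omega
    · have h5 : ff G (4 * p) = 0 := by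
        unfold ff
        haveI : IsEmpty {g : G // orderOf g = 4 * p} := ⟨fun a => hex ⟨a.1, a.2⟩⟩
        exact Nat.card_of_isEmpty
      rw [h5] at hpd
      have h6 : p ∣ 3 * (1 + n) - (1 + (1 + (n + (n + (n + 0))))) := Nat.dvd_sub (hdp.mul_left 3) hpd
      have h7 : 3 * (1 + n) - (1 + (1 + (n + (n + (n + 0))))) = 1 := by omega
      rw [h7] at h6
      exact hp.one_lt.ne' (Nat.dvd_one.mp h6)
  by_cases hoddex : ∃ p : ℕ, p.Prime ∧ p ≠ 2 ∧ p ∣ Nat.card G
  · obtain ⟨p, hp, hp2, hpN⟩ := hoddex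
    haveI : Fact p.Prime := ⟨hp⟩
    right
    right
    have h4N : ¬ 4 ∣ Nat.card G := h4p p hp hp2 hpN
    have h2N : 2 ∣ Nat.card G := hz ▸ orderOf_dvd_natCard z
    obtain ⟨M, hM⟩ := h2N
    have hMo : ¬ 2 ∣ M := by
      rintro ⟨c, rfl⟩
      apply h4N
      exact ⟨c, by rw [hM]; ring⟩
    have hM0 : M ≠ 0 := by
      rintro rfl
      exact hMo (dvd_zero 2)
    have hMN : M ∣ Nat.card G := ⟨2, by rw [hM]; ring⟩
    have hordp : ∀ (x : G) (r : ℕ), r.Prime → r ≠ 2 → r ∣ Nat.card G → (∃ j, orderOf x = r ^ j) → orderOf x = 1 ∨ orderOf x = r := by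
      rintro x r hr hr2 hrN ⟨j, hj⟩
      have hfr := hodd r hr hr2 hrN
      have h2 := L4 H x (fun q hq hd => by
        rw [hj] at hd
        have := (Nat.prime_dvd_prime_iff_eq hq hr).mp (hq.dvd_of_dvd_pow hd)
        rw [this]
        exact hfr)
      rcases h2 with h | h
      · exact Or.inl h
      · right
        rw [hj] at h ⊢
        rcases Nat.eq_zero_or_pos j with rfl | hj0
        · exact absurd (by simpa using h : Nat.Prime 1) Nat.not_prime_one
        · have h3 : r ∣ r ^ j := dvd_pow_self r hj0.ne'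
          rw [← (Nat.prime_dvd_prime_iff_eq hr h).mp h3]
    have hMdvd : M ∣ 1 + n := by
      refine (Nat.dvd_iff_prime_pow_dvd_dvd _ _).mpr fun r k hr hrk => ?_
      rcases Nat.eq_zero_or_pos k with rfl | hk
      · simp
      have hrM : r ∣ M := (dvd_pow_self r hk.ne').trans hrk
      have hr2 : r ≠ 2 := by
        rintro rfl
        exact hMo hrM
      have hrN : r ∣ Nat.card G := hrM.trans hMN
      refine L5 hr (hodd r hr hr2 hrN) (hrk.trans hMN) fun x hx => ?_
      have h1 := orderOf_dvd_of_pow_eq_one hx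
      obtain ⟨j, -, hj⟩ := (Nat.dvd_prime_pow hr).mp h1
      exact hordp x r hr hr2 hrN ⟨j, hj⟩
    have hMle : M ≤ 1 + n := Nat.le_of_dvd (by omega) hMdvd
    have honly : ∀ q : ℕ, q.Prime → q ≠ 2 → q ∣ Nat.card G → q = p := by
      intro q hq hq2 hqN
      by_contra hne
      have hpo := hoddodd p hp hp2
      have hqo := hoddodd q hq hq2
      have hp3 : 3 ≤ p := by have := hp.two_le; omega
      have hq3 : 3 ≤ q := by have := hq.two_le; omega
      have h1 := sum_le (G := G) {1, 2, p, q, 2 * p, 2 * q}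
      rw [Finset.sum_insert (by simp only [Finset.mem_insert, Finset.mem_singleton]; omega),
        Finset.sum_insert (by simp only [Finset.mem_insert, Finset.mem_singleton]; omega),
        Finset.sum_insert (by simp only [Finset.mem_insert, Finset.mem_singleton]; omega),
        Finset.sum_insert (by simp only [Finset.mem_insert, Finset.mem_singleton]; omega),
        Finset.sum_pair (by omega), ff_one, hf2, hodd p hp hp2 hpN, hodd q hq hq2 hqN,
        h2p p hp hp2 hpN, h2p q hq hq2 hqN, hM] at h1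
      have := H.two
      omega
    obtain ⟨a, ha⟩ : ∃ a, M = p ^ a := ⟨_, Nat.eq_prime_pow_of_unique_prime_dvd hM0 (fun {d} hd hdM => by
      refine honly d hd ?_ (hdM.trans hMN)
      rintro rfl
      exact hMo hdM)⟩
    obtain ⟨K, hK⟩ := Sylow.exists_subgroup_card_pow_prime (G := G) p (n := a) (by rw [← ha]; exact hMN)
    have hKM : Nat.card K = M := by rw [hK, ha]
    have hKord : ∀ x : K, x ≠ 1 → orderOf (x : G) = p := by
      intro x hx
      have h1 : orderOf (x : G) ∣ p ^ a := by
        rw [← hK]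
        exact Subgroup.orderOf_dvd_natCard K x.2
      obtain ⟨j, -, hj⟩ := (Nat.dvd_prime_pow hp).mp h1
      rcases hordp x p hp hp2 hpN ⟨j, hj⟩ with h | h
      · exfalso
        apply hx
        apply Subtype.ext
        exact orderOf_eq_one_iff.mp h
      · exact h
    let θ : Multiplicative (ZMod 2) → G := fun c => z ^ (Multiplicative.toAdd c).val
    have hθ : ∀ c d, θ (c * d) = θ c * θ d := by
      intro c d
      show z ^ (Multiplicative.toAdd c + Multiplicative.toAdd d).val = z ^ (Multiplicative.toAdd c).val * z ^ (Multiplicative.toAdd d).val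
      rw [ZMod.val_add, ← pow_add]
      have h1 := pow_mod_orderOf z ((Multiplicative.toAdd c).val + (Multiplicative.toAdd d).val)
      rwa [hz] at h1
    have hθc : ∀ c (x : G), θ c * x = x * θ c := by
      intro c x
      have h1 : Commute z x := (hcen x).symm
      exact (h1.pow_left _).eq
    let Φ : Multiplicative (ZMod 2) × K →* G := MonoidHom.mk' (fun w => θ w.1 * (w.2 : G)) (by
      intro u v
      show θ (u.1 * v.1) * ((u.2 * v.2 : K) : G) = θ u.1 * (u.2 : G) * (θ v.1 * (v.2 : G))
      rw [hθ, Subgroup.coe_mul]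
      have h1 := hθc v.1 (u.2 : G)
      calc θ u.1 * θ v.1 * ((u.2 : G) * (v.2 : G)) = θ u.1 * (θ v.1 * (u.2 : G)) * (v.2 : G) := by simp only [mul_assoc]
        _ = _ := by rw [h1]; simp only [mul_assoc])
    have hΦinj : Function.Injective Φ := by
      rw [injective_iff_map_eq_one]
      rintro ⟨c, x⟩ hcx
      have h1 : θ c * (x : G) = 1 := hcx
      have h2 : θ c = (x : G)⁻¹ := eq_inv_of_mul_eq_one_left h1
      have hval : (Multiplicative.toAdd c).val < 2 := ZMod.val_lt _
      have hv0 : (Multiplicative.toAdd c).val = 0 := by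
        by_contra hv
        have hv1 : (Multiplicative.toAdd c).val = 1 := by omega
        have h3 : z = (x : G)⁻¹ := by
          have h4 : θ c = z := by
            show z ^ (Multiplicative.toAdd c).val = z
            rw [hv1, pow_one]
          rw [← h4, h2]
        have h5 : z ∈ K := by
          rw [h3]
          exact inv_mem x.2
        have h6 := Subgroup.orderOf_dvd_natCard K h5
        rw [hz, hKM] at h6
        exact hMo h6
      have hc1 : c = 1 := by
        have := (ZMod.val_eq_zero _).mp hv0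
        exact Multiplicative.toAdd.injective this
      have hθ1 : θ c = 1 := by
        show z ^ (Multiplicative.toAdd c).val = 1
        rw [hv0, pow_zero]
      rw [hθ1, one_mul] at h1
      have hx1 : x = 1 := Subtype.ext h1
      rw [hc1, hx1]
      rfl
    have hΦcard : Nat.card (Multiplicative (ZMod 2) × K) = Nat.card G := by
      rw [Nat.card_prod, Nat.card_congr Multiplicative.toAdd, Nat.card_zmod, hKM, hM]
    let e : (Multiplicative (ZMod 2) × K) ≃* G :=
      MulEquiv.ofBijective Φ ((Nat.bijective_iff_injective_and_card Φ).mpr ⟨hΦinj, hΦcard⟩)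
    let e₀ : PP (Nat.card K) ≃ K := (Finite.equivFin K).symm
    letI : Group (PP (Nat.card K)) := e₀.group
    let e₁ : PP (Nat.card K) ≃* K := e₀.mulEquiv
    have hKcard : Nat.card (PP (Nat.card K)) = p ^ a := by
      rw [card_PP, hK]
    have hMgt : 1 < M := by
      have h1 : p ∣ M := by
        have h2 : p ∣ 2 * M := by rw [← hM]; exact hpN
        exact ((Nat.Prime.dvd_mul hp).mp h2).resolve_left (fun h3 => hp2 ((Nat.prime_dvd_prime_iff_eq hp Nat.prime_two).mp h3))
      have h2 := Nat.le_of_dvd (Nat.pos_of_ne_zero hM0) h1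
      have h3 := hp.two_le
      omega
    haveI hnt : Nontrivial (PP (Nat.card K)) := by
      apply Finite.one_lt_card_iff_nontrivial.mp
      rw [card_PP, hKM]
      exact hMgt
    refine ⟨p, PP (Nat.card K), inferInstance, inferInstance, hp, hp2, IsPGroup.of_card hKcard, ?_,
      ⟨e.symm.trans (MulEquiv.prodCongr (MulEquiv.refl _) e₁.symm)⟩⟩
    refine (Monoid.exponent_eq_prime_iff hp).mpr fun g hg => ?_
    rw [← MulEquiv.orderOf_eq e₁, ← Subgroup.orderOf_coe]
    apply hKord
    intro h1
    apply hg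
    exact e₁.injective (by rw [h1, map_one])
  · push Not at hoddex
    have hP2 : IsPGroup 2 G := by
      have hN : Nat.card G = 2 ^ _ := Nat.eq_prime_pow_of_unique_prime_dvd (p := 2) Nat.card_pos.ne' (fun {d} hd hdN => by
        by_contra hne
        exact hoddex d hd hne hdN)
      exact IsPGroup.of_card hN
    obtain ⟨j, hj⟩ := IsPGroup.iff_orderOf.mp hP2 g₀
    have hj2 : 2 ≤ j := by
      by_contra hlt
      have : j = 0 ∨ j = 1 := by omega
      rcases this with rfl | rfl
      · rw [hj] at hg₀; norm_num at hg₀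
      · rw [hj] at hg₀; norm_num at hg₀
    obtain ⟨i, rfl⟩ := Nat.exists_eq_add_of_le hj2
    have hy : orderOf (g₀ ^ 2 ^ i) = 4 := by
      rw [orderOf_pow_of_dvd (by positivity) (by rw [hj]; exact ⟨2 ^ 2, by ring⟩), hj]
      have : 2 ^ (2 + i) = 4 * 2 ^ i := by ring
      rw [this]
      exact Nat.mul_div_cancel _ (by positivity)
    have h4N : 4 ∣ Nat.card G := hy ▸ orderOf_dvd_natCard _
    have hord : ∀ x : G, orderOf x ∣ 4 := by
      intro x
      obtain ⟨k, hk⟩ := IsPGroup.iff_orderOf.mp hP2 x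
      by_contra hnd
      have hk3 : 3 ≤ k := by
        by_contra hlt
        apply hnd
        rw [hk]
        have : 2 ^ k ∣ 2 ^ 2 := pow_dvd_pow 2 (by omega)
        exact this
      obtain ⟨l, rfl⟩ := Nat.exists_eq_add_of_le hk3
      apply h8 (x ^ 2 ^ l)
      rw [orderOf_pow_of_dvd (by positivity) (by rw [hk]; exact ⟨2 ^ 3, by ring⟩), hk]
      have : 2 ^ (3 + l) = 8 * 2 ^ l := by ring
      rw [this]
      exact Nat.mul_div_cancel _ (by positivity)
    have huniq : ∀ A B : Subgroup G, Nat.card A = 2 → Nat.card B = 2 → A = B := by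
      have hall : ∀ A : Subgroup G, Nat.card A = 2 → A = zpowers z := by
        intro A hA
        haveI : Fact (Nat.Prime 2) := ⟨Nat.prime_two⟩
        obtain ⟨x, hx⟩ := exists_prime_orderOf_dvd_card' (G := A) 2 (by rw [hA])
        have h1 : orderOf (x : G) = 2 := by rw [Subgroup.orderOf_coe]; exact hx
        have h2 := huni _ h1
        have h3 : z ∈ A := by rw [← h2]; exact x.2
        symm
        refine Subgroup.eq_of_le_of_card_ge (zpowers_le.mpr h3) ?_
        rw [Nat.card_zpowers, hz, hA]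
      exact fun A B hA hB => (hall A hA).trans (hall B hB).symm
    haveI : Fact (Nat.Prime 2) := ⟨Nat.prime_two⟩
    rcases Lib.H1Quat.cyclic_or_quaternion 2 hP2 huniq with hc | ⟨-, k, ⟨e⟩⟩
    · right
      left
      refine ⟨hc, ?_⟩
      obtain ⟨g, hg⟩ := IsCyclic.exists_generator (α := G)
      have h1 : orderOf g = Nat.card G := orderOf_eq_card_of_forall_mem_zpowers hg
      have h2 := hord g
      rw [h1] at h2
      exact Nat.dvd_antisymm h2 h4N
    · haveI : NeZero (2 ^ k) := ⟨by positivity⟩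
      have h1 : orderOf (e.symm (QuaternionGroup.a 1)) = 2 * 2 ^ k := by
        rw [MulEquiv.orderOf_eq, QuaternionGroup.orderOf_a_one]
      have h2 := hord (e.symm (QuaternionGroup.a 1))
      rw [h1] at h2
      rcases k with _ | _ | k
      · right
        left
        have hcy : IsCyclic (QuaternionGroup (2 ^ 0)) := by
          refine isCyclic_of_orderOf_eq_card (QuaternionGroup.xa 0) ?_
          rw [QuaternionGroup.orderOf_xa, Nat.card_eq_fintype_card, QuaternionGroup.card]
          norm_num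
        refine ⟨isCyclic_of_surjective e.symm e.symm.surjective, ?_⟩
        rw [Nat.card_congr e.toEquiv, Nat.card_eq_fintype_card, QuaternionGroup.card]
        norm_num
      · left
        exact ⟨e.trans (MulEquiv.refl _)⟩
      · exfalso
        have h3 := Nat.le_of_dvd (by norm_num) h2
        have h4 : 8 ≤ 2 * 2 ^ (k + 1 + 1) := by
          have : 2 * 2 ^ (k + 1 + 1) = 8 * 2 ^ k := by ring
          rw [this]
          have := Nat.one_le_two_pow (n := k)
          omega
        omega

end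

/-- Let G be a finite group such that the numbers of elements of each order that occurs in G (the numbers #{g : o(g) = m}, m ranging over the element orders of G) take exactly two values, 1 and some n ≠ 1. Then either G is a p-group of exponent p and order at least 3 for some prime p, or G is the quaternion group of order 8, or G is cyclic of order 4, or G ≅ Z₂ × P for a p-group P of exponent p with p an odd prime. -/
theorem result {G : Type*} [Group G] [Finite G] (n : ℕ) (hn : n ≠ 1) (h : ((fun m : ℕ => Nat.card {g : G // orderOf g = m}) '' Set.range (orderOf : G → ℕ)) = {1, n}) :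
    (∃ p : ℕ, p.Prime ∧ IsPGroup p G ∧ 3 ≤ Nat.card G ∧ Monoid.exponent G = p) ∨
      Nonempty (G ≃* QuaternionGroup 2) ∨ (IsCyclic G ∧ Nat.card G = 4) ∨
      (∃ (p : ℕ) (P : Type) (_ : Group P) (_ : Finite P), p.Prime ∧ p ≠ 2 ∧ IsPGroup p P ∧ Monoid.exponent P = p ∧
        Nonempty (G ≃* Multiplicative (ZMod 2) × P)) := by
  classical
  have hval : ∀ g : G, ff G (orderOf g) = 1 ∨ ff G (orderOf g) = n := by
    intro g
    have h1 : ff G (orderOf g) ∈ ((fun m : ℕ => Nat.card {g : G // orderOf g = m}) '' Set.range (orderOf : G → ℕ)) :=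
      ⟨orderOf g, ⟨g, rfl⟩, rfl⟩
    rw [h] at h1
    simpa using h1
  have hatt : ∃ g : G, ff G (orderOf g) = n := by
    have h1 : n ∈ ((fun m : ℕ => Nat.card {g : G // orderOf g = m}) '' Set.range (orderOf : G → ℕ)) := by
      rw [h]
      simp
    obtain ⟨_, ⟨g, rfl⟩, h2⟩ := h1
    exact ⟨g, h2⟩
  obtain ⟨g₀, hg₀⟩ := hatt
  have htwo : 2 ≤ n := by
    have h1 := ff_ne_zero (g := g₀) rfl
    rw [hg₀] at h1
    omega
  have H : Hyp G n := ⟨hval, htwo⟩
  have hg₀1 : g₀ ≠ 1 := by
    rintro rfl
    rw [orderOf_one, ff_one] at hg₀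
    exact hn hg₀.symm
  by_cases hcase : ∃ z : G, orderOf z = 2 ∧ ff G 2 = 1
  · obtain ⟨z, hz, hf2⟩ := hcase
    have h3 : 3 ≤ orderOf g₀ := by
      have h1 : orderOf g₀ ≠ 1 := fun h1 => hg₀1 (orderOf_eq_one_iff.mp h1)
      have h2 : orderOf g₀ ≠ 2 := by
        intro h2
        rw [h2, hf2] at hg₀
        exact hn hg₀.symm
      have h4 := orderOf_pos g₀
      omega
    exact Or.inr (caseB H hz hf2 h3)
  · left
    haveI : Nontrivial G := ⟨⟨g₀, 1, hg₀1⟩⟩
    refine caseA H fun p hp hd => ?_
    haveI : Fact p.Prime := ⟨hp⟩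
    obtain ⟨x, hx⟩ := exists_prime_orderOf_dvd_card' (G := G) p hd
    have h1 := hval x
    rw [hx] at h1
    rcases h1 with h1 | h1
    · exfalso
      have hp2 : p = 2 := by
        by_contra hne
        have h3 : 3 ≤ p := by have := hp.two_le; omega
        exact ff_ne_one hx h3 h1
      subst hp2
      exact hcase ⟨x, hx, h1⟩
    · exact h1

end Cfsg.Agent.S3995
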