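import Cfsg.Statements.S3997
import Mathlib
import Cfsg.Agent.Lib.FGSBasic
-- import your own Cfsg.Agent.* helpers here

set_option autoImplicit false
open Cfsg

namespace Cfsg.Agent.S3997

open Cfsg.Agent.Lib.FGSBasic in
theorem aux {G H : Type*} [Group G] [Finite G] [Group H] [Finite H] (e : G ≃ H) (he : ∀ g, orderOf (e g) = orderOf g)
    (hG : Group.IsNilpotent G) (p : ℕ) (hp : Fact p.Prime) (P : Sylow p H) : (P : Subgroup H).Normal := by
  classical
  have hcard : Nat.card G = Nat.card H := Nat.card_congr e
  have hG' : ∀ (PG : Sylow p G), (PG : Subgroup G).Normal := fun PG =>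
    (Group.isNilpotent_of_finite_tfae (G := G)).out 0 3 rfl rfl |>.mp hG p hp PG
  obtain ⟨PG⟩ : Nonempty (Sylow p G) := inferInstance
  have hPGn := hG' PG
  let AG : Set G := {g | ∃ k : ℕ, orderOf g = p ^ k}
  let AH : Set H := {g | ∃ k : ℕ, orderOf g = p ^ k}
  have hAG : AG = (PG : Subgroup G) := by
    ext x
    constructor
    · intro hx; exact mem_sylow_of_normal PG hPGn hx
    · intro hx; exact orderOf_of_mem_sylow PG hx
  have himg : e '' AG = AH := by
    ext y
    constructor
    · rintro ⟨x, hx, rfl⟩
      obtain ⟨k, hk⟩ := hx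
      exact ⟨k, by rw [he, hk]⟩
    · rintro ⟨k, hk⟩
      refine ⟨e.symm y, ⟨k, ?_⟩, by simp⟩
      rw [← he]; simpa using hk
  have hPsub : ((P : Subgroup H) : Set H) ⊆ AH := by
    intro x hx
    exact orderOf_of_mem_sylow P hx
  have hcardA : AH.ncard = ((P : Subgroup H) : Set H).ncard := by
    rw [← himg, Set.ncard_image_of_injective _ e.injective, hAG,
      ← _root_.Nat.card_coe_set_eq, ← _root_.Nat.card_coe_set_eq]
    show Nat.card (PG : Subgroup G) = Nat.card (P : Subgroup H)
    rw [Sylow.card_eq_multiplicity, Sylow.card_eq_multiplicity, hcard]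
  have heq : ((P : Subgroup H) : Set H) = AH :=
    Set.eq_of_subset_of_ncard_le hPsub hcardA.le (Set.toFinite _)
  have hall : ∀ x : H, (∃ k, orderOf x = p ^ k) → x ∈ (P : Subgroup H) := by
    intro x hx
    have : x ∈ AH := hx
    rw [← heq] at this
    exact this
  haveI : Subsingleton (Sylow p H) :=
    ⟨fun Q R => (sylow_eq_of_contains_all P Q hall).trans (sylow_eq_of_contains_all P R hall).symm⟩
  exact Sylow.normal_of_subsingleton P

/-- Let G and H be finite groups with the same order type: for every m they have the same number of elements of order m. If G is nilpotent then so is H. -/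
theorem result {G H : Type*} [Group G] [Finite G] [Group H] [Finite H] (hT : (∀ m : ℕ, Nat.card {g : G // orderOf g = m} = Nat.card {h : H // orderOf h = m})) (hG : Group.IsNilpotent G) :
    Group.IsNilpotent H := by
  obtain ⟨e, he⟩ := Cfsg.Agent.Lib.FGSBasic.exists_orderOf_equiv hT
  refine ((Group.isNilpotent_of_finite_tfae (G := H)).out 0 3 rfl rfl).mpr ?_
  intro p hp P
  exact aux e he hG p hp P

end Cfsg.Agent.S3997
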