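import Cfsg.Statements.S3998
import Cfsg.Agent.Lib.OrderType
import Cfsg.Agent.Lib.H1Super2
-- import your own Cfsg.Agent.* helpers here

set_option autoImplicit false
open Cfsg

namespace Cfsg.Agent.S3998

universe u v
theorem aux : ∀ (n : ℕ) (G : Type u) [Group G] [Finite G] (H : Type v) [Group H] [Finite H],
    Nat.card G = n → Cfsg.IsSupersolvable G →
    (∀ d : ℕ, Nat.card {x : G // x ^ d = 1} = Nat.card {x : H // x ^ d = 1}) → Group.IsSolvable H := by
  intro n
  induction n using Nat.strong_induction_on with
  | _ n ih =>
    intro G _ _ H _ _ hn hss hc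
    have hcard : Nat.card G = Nat.card H := by
      have h0 := hc 0
      have e1 : Nat.card {x : G // x ^ 0 = 1} = Nat.card G := Nat.card_congr (Equiv.subtypeUnivEquiv (fun x => pow_zero x))
      have e2 : Nat.card {x : H // x ^ 0 = 1} = Nat.card H := Nat.card_congr (Equiv.subtypeUnivEquiv (fun x => pow_zero x))
      rw [← e1, ← e2]
      exact h0
    rcases subsingleton_or_nontrivial G with hs | hnt
    · have : Nat.card H = 1 := by rw [← hcard]; exact Nat.card_unique
      haveI : Subsingleton H := (Nat.card_eq_one_iff_unique.1 this).1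
      exact Group.isSolvable_of_comm (fun a b => Subsingleton.elim _ _)
    · obtain ⟨s, hs, hsd, hmax⟩ := Cfsg.Agent.Lib.H1Super.exists_largest_prime (G := G)
      haveI : Fact s.Prime := ⟨hs⟩
      obtain ⟨P⟩ : Nonempty (Sylow s G) := inferInstance
      obtain ⟨T⟩ : Nonempty (Sylow s H) := inferInstance
      have hall : ∀ K : Subgroup G, Cfsg.HasSubgroupOfEveryOrder K := fun K =>
        Cfsg.Agent.Lib.H1Super.hasSubgroupOfEveryOrder_aux _ K rfl
          (Cfsg.Agent.Lib.H1Super.isSS_subgroup hss K)
      haveI hPn : (P : Subgroup G).Normal := Cfsg.Agent.Lib.H1Super.sylow_largest_normal hall s hsd hmax P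
      have hcardPT : Nat.card P = Nat.card T := by
        rw [Sylow.card_eq_multiplicity, Sylow.card_eq_multiplicity, hcard]
      have hcP : Nat.card {x : G // x ^ Nat.card P = 1} = Nat.card P := by
        apply Nat.card_congr
        refine Equiv.subtypeEquivRight (fun x => ?_)
        constructor
        · intro hx
          have h1 : orderOf x ∣ Nat.card P := orderOf_dvd_of_pow_eq_one hx
          rw [Sylow.card_eq_multiplicity] at h1
          obtain ⟨j, _, hj⟩ := (Nat.dvd_prime_pow hs).1 h1
          exact Lib.FGSBasic.mem_sylow_of_normal P hPn ⟨j, hj⟩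
        · intro hx
          have : (⟨x, hx⟩ : P) ^ Nat.card P = 1 := pow_card_eq_one'
          have := congrArg Subtype.val this
          simpa using this
      have hcT : Nat.card {x : H // x ^ Nat.card T = 1} = Nat.card T := by
        rw [← hcardPT, ← hc, hcP]
      haveI hTn : (T : Subgroup H).Normal := Lib.OrderType.sylow_normal_of_count T hcT
      have hcopP : (Nat.card P).Coprime (Nat.card (G ⧸ (P : Subgroup G))) := by
        rw [← Subgroup.index_eq_card]
        exact P.card_coprime_index
      have hcopT : (Nat.card T).Coprime (Nat.card (H ⧸ (T : Subgroup H))) := by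
        rw [← Subgroup.index_eq_card]
        exact T.card_coprime_index
      have hq : Nat.card (G ⧸ (P : Subgroup G)) = Nat.card (H ⧸ (T : Subgroup H)) := by
        have h1 := (P : Subgroup G).card_mul_index
        have h2 := (T : Subgroup H).card_mul_index
        rw [Subgroup.index_eq_card] at h1 h2
        have hpos : 0 < Nat.card T := Nat.card_pos
        apply Nat.eq_of_mul_eq_mul_left hpos
        rw [h2, ← hcardPT, h1, hcard]
      have hcq : ∀ d : ℕ, Nat.card {y : G ⧸ (P : Subgroup G) // y ^ d = 1} =
          Nat.card {y : H ⧸ (T : Subgroup H) // y ^ d = 1} := by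
        intro d
        have h1 := Lib.OrderType.card_quot_roots (P : Subgroup G) hcopP d
        have h2 := Lib.OrderType.card_quot_roots (T : Subgroup H) hcopT d
        have hpos : 0 < Nat.card T := Nat.card_pos
        apply Nat.eq_of_mul_eq_mul_right hpos
        rw [h2, ← hq, ← hcardPT, ← hc]
        rw [← h1, hcardPT]
      have hlt : Nat.card (G ⧸ (P : Subgroup G)) < n := by
        have h1 := (P : Subgroup G).card_mul_index
        rw [Subgroup.index_eq_card] at h1
        have hdvdP : s ∣ Nat.card P := P.dvd_card_of_dvd_card hsd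
        have h2 : 2 ≤ Nat.card P := (Nat.le_of_dvd Nat.card_pos hdvdP).trans' hs.two_le
        have h3 : 0 < Nat.card (G ⧸ (P : Subgroup G)) := Nat.card_pos
        rw [← hn, ← h1]
        nlinarith
      have hsolq : Group.IsSolvable (H ⧸ (T : Subgroup H)) :=
        ih _ hlt (G ⧸ (P : Subgroup G)) (H ⧸ (T : Subgroup H)) rfl
          (Cfsg.Agent.Lib.H1Super.isSS_quotient hss _) hcq
      haveI : Group.IsNilpotent (T : Subgroup H) := T.isPGroup'.isNilpotent
      haveI : Group.IsSolvable (T : Subgroup H) := IsNilpotent.to_isSolvable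
      exact Group.isSolvable_of_ker_le_range (T : Subgroup H).subtype (QuotientGroup.mk' (T : Subgroup H)) (by
        intro g hg
        rw [QuotientGroup.ker_mk'] at hg
        exact ⟨⟨g, hg⟩, rfl⟩)

/-- Let G and H be finite groups with the same order type (for every m the same number of elements of order m). If G is supersolvable then H is solvable. -/
theorem result {G H : Type*} [Group G] [Finite G] [Group H] [Finite H] (hT : (∀ m : ℕ, Nat.card {g : G // orderOf g = m} = Nat.card {h : H // orderOf h = m})) (hG : Cfsg.IsSupersolvable G) :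
    Group.IsSolvable H := by
  obtain ⟨e, he⟩ := Lib.FGSBasic.exists_orderOf_equiv hT
  refine aux _ G H rfl hG ?_
  intro d
  apply Nat.card_congr
  refine Equiv.subtypeEquiv e (fun x => ?_)
  rw [← orderOf_dvd_iff_pow_eq_one, ← orderOf_dvd_iff_pow_eq_one, he]

end Cfsg.Agent.S3998
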