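import Cfsg.Statements.S4005
import Cfsg.Agent.Lib.H1FC
import Cfsg.Agent.Lib.H1FC2
import Cfsg.Agent.Lib.H1SZ
import Cfsg.Agent.Lib.CharGal
-- import your own Cfsg.Agent.* helpers here

set_option autoImplicit false
open Cfsg

namespace Cfsg.Agent.S4005

/-- a number with prime factors in {2,3} -/
lemma two_three (n : ℕ) (hn : n ≠ 0) (h : ∀ q : ℕ, q.Prime → q ∣ n → q = 2 ∨ q = 3) :
    ∃ a b, n = 2 ^ a * 3 ^ b := by
  have h1 := Nat.ordProj_mul_ordCompl_eq_self n 2
  have hm : ordCompl[2] n ≠ 0 := by
    intro h0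
    rw [h0, mul_zero] at h1
    exact hn h1.symm
  have hnd := Nat.not_dvd_ordCompl Nat.prime_two hn
  have h2 : ordCompl[2] n = 3 ^ (ordCompl[2] n).primeFactorsList.length := by
    apply Nat.eq_prime_pow_of_unique_prime_dvd hm
    intro d hd hdn
    rcases h d hd (hdn.trans (Nat.ordCompl_dvd n 2)) with rfl | rfl
    · exact absurd hdn hnd
    · rfl
  exact ⟨n.factorization 2, _, by rw [← h2, h1]⟩

/-- A finite group whose set of element orders is exactly {1, 2, 3} has either a normal elementary abelian 3-subgroup of index 2 or a normal elementary abelian 2-subgroup of index 3. -/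
theorem result {G : Type*} [Group G] [Finite G] (h : Set.range (orderOf : G → ℕ) = {k : ℕ | 1 ≤ k ∧ k ≤ 3}) :
    (∃ N : Subgroup G, N.Normal ∧ Cfsg.IsElementaryAbelian 3 N ∧ N.index = 2) ∨
      (∃ N : Subgroup G, N.Normal ∧ Cfsg.IsElementaryAbelian 2 N ∧ N.index = 3) := by
  classical
  haveI : Fact (Nat.Prime 2) := ⟨Nat.prime_two⟩
  haveI : Fact (Nat.Prime 3) := ⟨Nat.prime_three⟩
  have hord : ∀ g : G, orderOf g = 1 ∨ orderOf g = 2 ∨ orderOf g = 3 := by
    intro g
    have h1 : orderOf g ∈ {k : ℕ | 1 ≤ k ∧ k ≤ 3} := h ▸ ⟨g, rfl⟩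
    obtain ⟨h2, h3⟩ := h1
    omega
  obtain ⟨x2, hx2⟩ : ∃ x : G, orderOf x = 2 := by
    have : (2 : ℕ) ∈ Set.range (orderOf : G → ℕ) := by rw [h]; exact ⟨by norm_num, by norm_num⟩
    exact this
  obtain ⟨y3, hy3⟩ : ∃ x : G, orderOf x = 3 := by
    have : (3 : ℕ) ∈ Set.range (orderOf : G → ℕ) := by rw [h]; exact ⟨by norm_num, by norm_num⟩
    exact this
  have hno6 : ∀ s y : G, orderOf s = 2 → orderOf y = 3 → s * y ≠ y * s := by
    intro s y hs hy hc
    have h1 := Commute.orderOf_mul_eq_mul_orderOf_of_coprime hc (by rw [hs, hy]; norm_num)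
    rw [hs, hy] at h1
    rcases hord (s * y) with h2 | h2 | h2 <;> omega
  have hone : ∀ g : G, orderOf g = 1 → g = 1 := fun g hg => orderOf_eq_one_iff.mp hg
  have hP2 : ∀ s c : G, orderOf s = 2 → c * s = s * c → c ^ 2 = 1 := by
    intro s c hs hc
    rcases hord c with h1 | h1 | h1
    · rw [hone c h1, one_pow]
    · rw [← h1]; exact pow_orderOf_eq_one c
    · exact absurd hc.symm (hno6 s c hs h1)
  have hP3 : ∀ y c : G, orderOf y = 3 → c * y = y * c → c ^ 3 = 1 := by
    intro y c hy hc
    rcases hord c with h1 | h1 | h1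
    · rw [hone c h1, one_pow]
    · exact absurd hc (hno6 c y h1 hy)
    · rw [← h1]; exact pow_orderOf_eq_one c
  have h23 : ∀ c : G, c ^ 2 = 1 → c ^ 3 = 1 → c = 1 := by
    intro c h2 h3
    have : c = c ^ 3 * (c ^ 2)⁻¹ := by group
    rw [this, h2, h3]
    simp
  have hprimes : ∀ q : ℕ, q.Prime → q ∣ Nat.card G → q = 2 ∨ q = 3 := by
    intro q hq hd
    haveI : Fact q.Prime := ⟨hq⟩
    obtain ⟨x, hx⟩ := exists_prime_orderOf_dvd_card' q hd
    rcases hord x with h1 | h1 | h1
    · exact absurd (hx.symm.trans h1) hq.one_lt.ne'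
    · exact Or.inl (hx.symm.trans h1)
    · exact Or.inr (hx.symm.trans h1)
  obtain ⟨a, b, hcardG⟩ := two_three _ Nat.card_pos.ne' hprimes
  haveI hsolv : Group.IsSolvable G :=
    Lib.CharGal.solvable_of_card_pq 2 3 a b Nat.prime_two Nat.prime_three hcardG
  haveI : Nontrivial G := by
    refine ⟨⟨x2, 1, ?_⟩⟩
    intro h1
    rw [h1, orderOf_one] at hx2
    omega
  -- order of 2-elements and 3-elements
  have hp2 : ∀ r : G, (∃ k, r ^ 2 ^ k = 1) → r ^ 2 = 1 := by
    intro r ⟨k, hk⟩
    have h1 := orderOf_dvd_of_pow_eq_one hk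
    rcases hord r with h2 | h2 | h2
    · rw [hone r h2, one_pow]
    · rw [← h2]; exact pow_orderOf_eq_one r
    · rw [h2] at h1
      have := Nat.prime_three.dvd_of_dvd_pow h1
      omega
  have hp3 : ∀ r : G, (∃ k, r ^ 3 ^ k = 1) → r ^ 3 = 1 := by
    intro r ⟨k, hk⟩
    have h1 := orderOf_dvd_of_pow_eq_one hk
    rcases hord r with h2 | h2 | h2
    · rw [hone r h2, one_pow]
    · rw [h2] at h1
      have := Nat.prime_two.dvd_of_dvd_pow h1
      omega
    · rw [← h2]; exact pow_orderOf_eq_one r
  have hsyl2 : ∀ (R : Sylow 2 G), ∀ r ∈ (R : Subgroup G), r ^ 2 = 1 := by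
    intro R r hr
    obtain ⟨k, hk⟩ := R.2 ⟨r, hr⟩
    exact hp2 r ⟨k, by simpa using congrArg Subtype.val hk⟩
  have hsq_comm : ∀ c d : G, c ^ 2 = 1 → d ^ 2 = 1 → (c * d) ^ 2 = 1 → c * d = d * c := by
    intro c d hc hd hcd
    have h1 : c * d * (c * d) = 1 := by rw [← pow_two]; exact hcd
    have hc' : c * c = 1 := by rw [← pow_two]; exact hc
    have hd' : d * d = 1 := by rw [← pow_two]; exact hd
    calc c * d = c * d * (c * d) * (d * c) := by
            have : c * d * (c * d) * (d * c) = c * d * (c * (d * d) * c) := by group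
            rw [this, hd', mul_one, hc', mul_one]
      _ = d * c := by rw [h1, one_mul]
  obtain ⟨q, hqf, A, hAn, hAne, hAp⟩ := Lib.H1SZ.exists_normal_pSubgroup (X := G)
  obtain ⟨z, hz, hz1⟩ := A.bot_or_exists_ne_one.resolve_left hAne
  have hq : q.Prime := hqf.out
  have hqd : q ∣ Nat.card G := by
    have hA1 : Nat.card A ≠ 1 := by
      intro h1
      exact hAne (Subgroup.eq_bot_of_card_eq A h1)
    obtain ⟨n, hn⟩ := IsPGroup.iff_card.mp hAp
    have hq1 : q ∣ Nat.card A := by
      rw [hn]
      apply dvd_pow_self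
      rintro rfl
      exact hA1 (by rw [hn, pow_zero])
    exact hq1.trans (Subgroup.card_subgroup_dvd_card A)
  have hApow : ∀ w ∈ A, ∃ k, w ^ q ^ k = 1 := by
    intro w hw
    obtain ⟨k, hk⟩ := hAp ⟨w, hw⟩
    exact ⟨k, by simpa using congrArg Subtype.val hk⟩
  rcases hprimes q hq hqd with rfl | rfl
  · -- normal 2-subgroup: the Sylow 2-subgroup is normal of index 3
    right
    have hzo : orderOf z = 2 := by
      have h1 := hp2 z (hApow z hz)
      rcases hord z with h2 | h2 | h2
      · exact absurd (hone z h2) hz1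
      · exact h2
      · have := orderOf_dvd_of_pow_eq_one h1
        rw [h2] at this
        omega
    have hCsq : ∀ c ∈ Subgroup.centralizer ({z} : Set G), c ^ 2 = 1 := by
      intro c hc
      exact hP2 z c hzo (Subgroup.mem_centralizer_singleton_iff.mp hc)
    have hCp : IsPGroup 2 (Subgroup.centralizer ({z} : Set G)) := by
      intro c
      refine ⟨1, ?_⟩
      apply Subtype.ext
      simpa using hCsq c.1 c.2
    have hSylC : ∀ R : Sylow 2 G, (R : Subgroup G) = Subgroup.centralizer ({z} : Set G) := by
      intro R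
      have hzR : z ∈ (R : Subgroup G) := (hAp.le_sylow_of_normal R) hz
      have hle : (R : Subgroup G) ≤ Subgroup.centralizer ({z} : Set G) := by
        intro r hr
        rw [Subgroup.mem_centralizer_singleton_iff]
        exact hsq_comm r z (hsyl2 R r hr) (hsyl2 R z hzR) (hsyl2 R _ (R.1.mul_mem hr hzR))
      exact (R.is_maximal' hCp hle).symm ▸ rfl
    obtain ⟨T⟩ : Nonempty (Sylow 2 G) := inferInstance
    haveI : Subsingleton (Sylow 2 G) := ⟨fun R₁ R₂ => Sylow.ext (by rw [hSylC, hSylC])⟩
    have hTn : (T : Subgroup G).Normal := Sylow.normal_of_subsingleton T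
    have hTne : (T : Subgroup G) ≠ ⊥ := by
      intro h1
      have : z ∈ (T : Subgroup G) := (hAp.le_sylow_of_normal T) hz
      rw [h1, Subgroup.mem_bot] at this
      exact hz1 this
    obtain ⟨R⟩ : Nonempty (Sylow 3 G) := inferInstance
    have hRfpf : ∀ h ∈ (R : Subgroup G), h ≠ 1 →
        (T : Subgroup G) ⊓ Subgroup.centralizer {h} = ⊥ := by
      intro h hh hh1
      rw [eq_bot_iff]
      rintro w ⟨hw1, hw2⟩
      rw [Subgroup.mem_bot]
      have hh3 : orderOf h = 3 := by
        obtain ⟨k, hk⟩ := R.2 ⟨h, hh⟩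
        have h1 := hp3 h ⟨k, by simpa using congrArg Subtype.val hk⟩
        rcases hord h with h2 | h2 | h2
        · exact absurd (hone h h2) hh1
        · have := orderOf_dvd_of_pow_eq_one h1
          rw [h2] at this
          omega
        · exact h2
      have hwc := Subgroup.mem_centralizer_singleton_iff.mp hw2
      exact h23 w (hsyl2 T w hw1) (hP3 h w hh3 hwc)
    have hcyc : IsCyclic (R : Subgroup G) := by
      rcases Lib.H1FC2.sylow_of_fc (K := (T : Subgroup G)) (H := (R : Subgroup G)) (T := (R : Subgroup G)) (by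
        rw [Subgroup.normalizer_eq_top_iff.mpr hTn]; exact le_top) hTne hRfpf le_rfl 3 R.2 with h1 | h1
      · exact h1
      · omega
    obtain ⟨g, hg⟩ := IsCyclic.exists_ofOrder_eq_natCard (α := (R : Subgroup G))
    have hfac3 : Nat.card (R : Subgroup G) = 3 ^ b := by
      rw [R.card_eq_multiplicity, hcardG, Nat.factorization_mul (by positivity) (by positivity)]
      simp [Nat.Prime.factorization_self Nat.prime_three, Nat.factorization_eq_zero_of_not_dvd (show ¬ 3 ∣ 2 by norm_num)]
    have hfac2 : Nat.card (T : Subgroup G) = 2 ^ a := by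
      rw [T.card_eq_multiplicity, hcardG, Nat.factorization_mul (by positivity) (by positivity)]
      simp [Nat.Prime.factorization_self Nat.prime_two, Nat.factorization_eq_zero_of_not_dvd (show ¬ 2 ∣ 3 by norm_num)]
    have hb : b ≠ 0 := by
      rintro rfl
      have := orderOf_dvd_natCard y3
      rw [hy3, hcardG] at this
      simp at this
      have := Nat.prime_three.dvd_of_dvd_pow this
      omega
    have hR3 : Nat.card (R : Subgroup G) = 3 := by
      have h1 : orderOf ((g : (R : Subgroup G)) : G) = Nat.card (R : Subgroup G) := by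
        rw [Subgroup.orderOf_coe, hg]
      rcases hord (g : G) with h2 | h2 | h2
      · rw [h1, hfac3] at h2
        have : (3 : ℕ) ^ b ≠ 1 := by
          apply Nat.ne_of_gt
          exact Nat.one_lt_pow hb (by norm_num)
        exact absurd h2 this
      · rw [h1, hfac3] at h2
        have h3 : 3 ∣ 3 ^ b := dvd_pow_self 3 hb
        rw [h2] at h3
        omega
      · rw [← h1, h2]
    refine ⟨T, hTn, ⟨?_, hsyl2 T⟩, ?_⟩
    · refine ⟨⟨fun u v => Subtype.ext ?_⟩⟩
      exact hsq_comm u v (hsyl2 T u u.2) (hsyl2 T v v.2) (hsyl2 T _ (T.1.mul_mem u.2 v.2))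
    · have h1 := (T : Subgroup G).card_mul_index
      rw [hfac2, hcardG, ← hfac3, hR3] at h1
      exact Nat.eq_of_mul_eq_mul_left (by positivity) h1
  · -- normal 3-subgroup
    left
    have hzo : orderOf z = 3 := by
      have h1 := hp3 z (hApow z hz)
      rcases hord z with h2 | h2 | h2
      · exact absurd (hone z h2) hz1
      · have := orderOf_dvd_of_pow_eq_one h1
        rw [h2] at this
        omega
      · exact h2
    have hinv : ∀ s : G, orderOf s = 2 → s * z * s⁻¹ = z⁻¹ := by
      intro s hs
      apply Lib.H1FC.inverts_of_fpf (K := A) (by rw [Subgroup.normalizer_eq_top_iff.mpr hAn]; trivial) _ _ hz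
      · rw [← pow_two, ← hs]; exact pow_orderOf_eq_one s
      · intro k hk hc
        have h2 : k * s = s * k := by
          have := congrArg (· * s) hc
          simpa using this.symm
        exact h23 k (hP2 s k hs h2) (hp3 k (hApow k hk))
    obtain ⟨T⟩ : Nonempty (Sylow 2 G) := inferInstance
    have hTuniq : ∀ s s' : G, s ∈ (T : Subgroup G) → s' ∈ (T : Subgroup G) → s ≠ 1 → s' ≠ 1 → s = s' := by
      intro s s' hs hs' hs1 hs'1
      have hso : orderOf s = 2 := orderOf_eq_prime (hsyl2 T s hs) hs1
      have hso' : orderOf s' = 2 := orderOf_eq_prime (hsyl2 T s' hs') hs'1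
      have h1 := hinv s hso
      have h2 := hinv s' hso'
      have h3 : s * s' * z = z * (s * s') := by
        have h4 : s' * z = z⁻¹ * s' := by
          have := congrArg (· * s') h2
          simpa using this
        have h5 : s * z⁻¹ = z * s := by
          have h6 : s * z⁻¹ * s⁻¹ = z := by
            have : s * z⁻¹ * s⁻¹ = (s * z * s⁻¹)⁻¹ := by group
            rw [this, h1, inv_inv]
          have := congrArg (· * s) h6
          simpa using this
        calc s * s' * z = s * (s' * z) := by group
          _ = s * (z⁻¹ * s') := by rw [h4]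
          _ = (s * z⁻¹) * s' := by group
          _ = z * s * s' := by rw [h5]
          _ = z * (s * s') := by group
      have h6 := h23 _ (hsyl2 T _ (T.1.mul_mem hs hs')) (hP3 z _ hzo h3)
      have h7 : s' = s⁻¹ := eq_inv_of_mul_eq_one_right h6
      have h8 : s⁻¹ = s := by
        have := hsyl2 T s hs
        exact inv_eq_of_mul_eq_one_left (by rw [← pow_two]; exact this)
      rw [h7, h8]
    -- T has order 2
    have h2G : 2 ∣ Nat.card G := by
      rw [← hx2]; exact orderOf_dvd_natCard x2
    have hTne : (T : Subgroup G) ≠ ⊥ := by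
      intro h1
      apply T.not_dvd_index
      have : (T : Subgroup G).index = Nat.card G := by
        rw [h1]; exact Subgroup.index_bot
      rw [this]
      exact h2G
    obtain ⟨s, hs, hs1⟩ := (T : Subgroup G).bot_or_exists_ne_one.resolve_left hTne
    have hso : orderOf s = 2 := orderOf_eq_prime (hsyl2 T s hs) hs1
    have hTelt : ∀ r ∈ (T : Subgroup G), r = 1 ∨ r = s := by
      intro r hr
      by_cases h1 : r = 1
      · exact Or.inl h1
      · exact Or.inr (hTuniq r s hr hs h1 hs1)
    have hTeq : (T : Subgroup G) = Subgroup.zpowers s := by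
      apply le_antisymm
      · intro r hr
        rcases hTelt r hr with rfl | rfl
        · exact Subgroup.one_mem _
        · exact Subgroup.mem_zpowers _
      · rw [Subgroup.zpowers_le]
        exact hs
    have hTcard : Nat.card (T : Subgroup G) = 2 := by
      rw [hTeq, Nat.card_zpowers, hso]
    have hNC : Subgroup.normalizer ((T : Subgroup G) : Set G) ≤ Subgroup.centralizer ((T : Subgroup G) : Set G) := by
      intro g hg
      rw [Subgroup.mem_centralizer_iff]
      intro r hr
      have h1 : g * s * g⁻¹ ∈ (T : Subgroup G) := (Subgroup.mem_normalizer_iff.mp hg s).mp hs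
      have h2 : g * s * g⁻¹ ≠ 1 := by
        intro h3
        apply hs1
        have : s = g⁻¹ * (g * s * g⁻¹) * g := by group
        rw [this, h3]
        group
      have h3 : g * s * g⁻¹ = s := hTuniq _ _ h1 hs h2 hs1
      have h4 : g * s = s * g := by
        have := congrArg (· * g) h3
        simpa using this
      rcases hTelt r hr with rfl | rfl
      · simp
      · exact h4.symm
    have hc := MonoidHom.ker_transferSylow_isComplement' T hNC
    set N := (MonoidHom.transferSylow T hNC).ker with hN
    have hNcard : Nat.card N = (T : Subgroup G).index := hc.index_eq_card.symm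
    have hNn : N.Normal := inferInstance
    have hN3 : ∀ w ∈ N, w ^ 3 = 1 := by
      intro w hw
      rcases hord w with h1 | h1 | h1
      · rw [hone w h1, one_pow]
      · exfalso
        apply T.not_dvd_index
        rw [← hNcard, ← h1]
        have := Subgroup.orderOf_coe (⟨w, hw⟩ : N)
        rw [Subgroup.coe_mk] at this
        rw [this]
        exact orderOf_dvd_natCard _
      · rw [← h1]; exact pow_orderOf_eq_one w
    have hinvN : ∀ w ∈ N, s * w * s⁻¹ = w⁻¹ := by
      intro w hw
      apply Lib.H1FC.inverts_of_fpf (K := N) (by rw [Subgroup.normalizer_eq_top_iff.mpr hNn]; trivial) _ _ hw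
      · rw [← pow_two, ← hso]; exact pow_orderOf_eq_one s
      · intro k hk hc
        have h2 : k * s = s * k := by
          have := congrArg (· * s) hc
          simpa using this.symm
        exact h23 k (hP2 s k hso h2) (hN3 k hk)
    refine ⟨N, hNn, ⟨?_, hN3⟩, ?_⟩
    · refine ⟨⟨fun u v => Subtype.ext ?_⟩⟩
      have h1 := hinvN _ (N.mul_mem u.2 v.2)
      have h2 := hinvN u u.2
      have h3 := hinvN v v.2
      have h4 : s * ((u : G) * v) * s⁻¹ = (s * u * s⁻¹) * (s * v * s⁻¹) := by group
      rw [h4, h2, h3, mul_inv_rev] at h1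
      have h5 := congrArg (fun w => w⁻¹) h1
      simp only [mul_inv_rev, inv_inv] at h5
      show (u : G) * v = v * u
      exact h5.symm
    · rw [hc.symm.index_eq_card]
      exact hTcard

end Cfsg.Agent.S4005
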