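import Cfsg.Statements.S4200
import Mathlib
-- import your own Cfsg.Agent.* helpers here

set_option autoImplicit false
open Cfsg

namespace Cfsg.Agent.S4200

/-- A copy of `X` on which a subgroup acts by conjugation. -/
def XX (X : Type*) := X

def XX.v {X : Type*} (x : XX X) : X := x

def XX.mk {X : Type*} (x : X) : XX X := x

theorem XX.ext' {X : Type*} {a b : XX X} (h : a.v = b.v) : a = b := h

instance {X : Type*} [Finite X] : Finite (XX X) := inferInstanceAs (Finite X)

instance conjAction {X : Type*} [Group X] (Y : Subgroup X) : MulAction Y (XX X) where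
  smul y x := XX.mk ((y : X) * x.v * (y : X)⁻¹ : X)
  one_smul x := by
    apply XX.ext'
    show ((1 : Y) : X) * x.v * ((1 : Y) : X)⁻¹ = x.v
    simp
  mul_smul a b x := by
    apply XX.ext'
    show ((a * b : Y) : X) * x.v * ((a * b : Y) : X)⁻¹ = (a : X) * ((b : X) * x.v * (b : X)⁻¹) * (a : X)⁻¹
    simp only [Subgroup.coe_mul]
    group

theorem smul_v {X : Type*} [Group X] (Y : Subgroup X) (y : Y) (x : XX X) :
    (y • x).v = (y : X) * x.v * (y : X)⁻¹ := rfl

theorem card_fixed_le {X : Type*} [Group X] [Finite X] (Y : Subgroup X) (y : Y) :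
    Nat.card (MulAction.fixedBy (XX X) y) ≤ Y.index * Nat.card {z : Y // Commute y z} := by
  classical
  set C := Subgroup.centralizer ({(y : X)} : Set X) with hC
  have h1 : Nat.card (MulAction.fixedBy (XX X) y) = Nat.card C := by
    refine Nat.card_congr ⟨fun x => ⟨x.1.v, ?_⟩, fun x => ⟨XX.mk x.1, ?_⟩, fun _ => rfl, fun _ => rfl⟩
    · have h2 : y • x.1 = x.1 := x.2
      have h3 := congrArg XX.v h2
      rw [smul_v] at h3
      rw [hC, Subgroup.mem_centralizer_singleton_iff]
      rw [mul_inv_eq_iff_eq_mul] at h3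
      exact h3.symm
    · have h2 : x.1 * (y : X) = (y : X) * x.1 :=
        Subgroup.mem_centralizer_singleton_iff.mp x.2
      show y • XX.mk x.1 = XX.mk x.1
      apply XX.ext'
      rw [smul_v]
      show (y : X) * x.1 * (y : X)⁻¹ = x.1
      rw [← h2]
      group
  have h3 : Nat.card {z : Y // Commute y z} = Nat.card (Y ⊓ C : Subgroup X) := by
    refine Nat.card_congr ⟨fun z => ⟨z.1, z.1.2, ?_⟩, fun z => ⟨⟨z.1, z.2.1⟩, ?_⟩, fun _ => rfl, fun _ => rfl⟩
    · have h4 : (y : X) * (z.1 : X) = (z.1 : X) * (y : X) := congrArg Subtype.val z.2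
      exact Subgroup.mem_centralizer_singleton_iff.mpr h4.symm
    · have h4 : (z.1 : X) * (y : X) = (y : X) * (z.1 : X) := Subgroup.mem_centralizer_singleton_iff.mp z.2.2
      exact Subtype.ext h4.symm
  rw [h1, h3]
  have h5 : Nat.card (Y ⊓ C : Subgroup X) * Y.relIndex C = Nat.card C := by
    rw [← Subgroup.inf_relIndex_right, Subgroup.relIndex]
    have h6 := Subgroup.card_mul_index ((Y ⊓ C).subgroupOf C)
    rwa [Nat.card_congr (Subgroup.subgroupOfEquivOfLe (inf_le_right : Y ⊓ C ≤ C)).toEquiv] at h6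
  have h7 : Y.relIndex C ≤ Y.index := by
    have h8 := Subgroup.relIndex_le_of_le_right (H := Y) (le_top : C ≤ ⊤)
      (by rw [Subgroup.relIndex_top_right]; exact Subgroup.index_ne_zero_of_finite)
    rwa [Subgroup.relIndex_top_right] at h8
  rw [← h5, mul_comm]
  exact Nat.mul_le_mul_right _ h7

theorem sum_comm {Y : Type*} [Group Y] [Fintype Y] [DecidableEq Y] :
    ∑ y : Y, Nat.card {z : Y // Commute y z} = Nat.card (ConjClasses Y) * Nat.card Y := by
  rw [← card_comm_eq_card_conjClasses_mul_card]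
  have h1 : Nat.card {p : Y × Y // Commute p.1 p.2} = Nat.card ((a : Y) × {b // Commute a b}) :=
    Nat.card_congr (Equiv.subtypeProdEquivSigmaSubtype Commute)
  rw [h1, Nat.card_sigma]

/-- The number of orbits of `Y` on `X` by conjugation is at most `m k(Y)`. -/
theorem orbits_le {X : Type*} [Group X] [Finite X] (Y : Subgroup X) :
    Nat.card (MulAction.orbitRel.Quotient Y (XX X)) ≤ Y.index * Nat.card (ConjClasses Y) := by
  classical
  haveI := Fintype.ofFinite Y
  haveI := Fintype.ofFinite (XX X)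
  haveI := Fintype.ofFinite (MulAction.orbitRel.Quotient Y (XX X))
  haveI : ∀ g : Y, Fintype (MulAction.fixedBy (XX X) g) := fun g => Fintype.ofFinite _
  have h1 := MulAction.sum_card_fixedBy_eq_card_orbits_mul_card_group Y (XX X)
  have h2 : ∑ y : Y, Fintype.card (MulAction.fixedBy (XX X) y) ≤
      ∑ y : Y, Y.index * Nat.card {z : Y // Commute y z} := by
    apply Finset.sum_le_sum
    intro y _
    rw [← Nat.card_eq_fintype_card]
    exact card_fixed_le Y y
  rw [← Finset.mul_sum, sum_comm, h1] at h2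
  rw [← Nat.card_eq_fintype_card, ← Nat.card_eq_fintype_card, ← mul_assoc] at h2
  exact Nat.le_of_mul_le_mul_right h2 Nat.card_pos

/-- The map from `Y`-orbits to conjugacy classes of `X`. -/
def orbMap {X : Type*} [Group X] (Y : Subgroup X) : MulAction.orbitRel.Quotient Y (XX X) → ConjClasses X :=
  Quotient.lift (fun x : XX X => ConjClasses.mk x.v) (by
    intro a b hab
    obtain ⟨y, hy⟩ := MulAction.orbitRel_apply.mp hab
    rw [ConjClasses.mk_eq_mk_iff_isConj]
    have h1 : a = y • b := hy.symm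
    rw [h1, isConj_comm, isConj_iff]
    exact ⟨y, rfl⟩)

theorem orbMap_surj {X : Type*} [Group X] (Y : Subgroup X) : Function.Surjective (orbMap Y) := by
  intro c
  obtain ⟨x, rfl⟩ := ConjClasses.mk_surjective c
  exact ⟨Quotient.mk _ (XX.mk x), rfl⟩

/-- Let Y be a subgroup of the finite group X, of index m. Then the numbers of conjugacy classes satisfy k(Y) ≤ m·k(X) and k(X) ≤ m·k(Y), and the second inequality is strict unless Y is normal in X. -/
theorem result {X : Type*} [Group X] [Finite X] (Y : Subgroup X) : Nat.card (ConjClasses Y) ≤ Y.index * Nat.card (ConjClasses X) ∧ Nat.card (ConjClasses X) ≤ Y.index * Nat.card (ConjClasses Y) ∧ (¬ Y.Normal → Nat.card (ConjClasses X) < Y.index * Nat.card (ConjClasses Y)) := by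
  classical
  have hkO : Nat.card (ConjClasses X) ≤ Nat.card (MulAction.orbitRel.Quotient Y (XX X)) :=
    Nat.card_le_card_of_surjective _ (orbMap_surj Y)
  have hO := orbits_le Y
  refine ⟨?_, hkO.trans hO, ?_⟩
  · have h1 : Nat.card {p : Y × Y // Commute p.1 p.2} ≤ Nat.card {p : X × X // Commute p.1 p.2} := by
      apply Nat.card_le_card_of_injective (fun p => ⟨(p.1.1, p.1.2), congrArg Subtype.val p.2⟩)
      rintro ⟨⟨a, b⟩, h⟩ ⟨⟨c, d⟩, h'⟩ h2
      have h3 := congrArg Subtype.val h2
      simp only [Prod.mk.injEq] at h3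
      apply Subtype.ext
      exact Prod.ext (Subtype.ext h3.1) (Subtype.ext h3.2)
    rw [card_comm_eq_card_conjClasses_mul_card, card_comm_eq_card_conjClasses_mul_card,
      ← Subgroup.card_mul_index Y] at h1
    have h2 : 0 < Nat.card Y := Nat.card_pos
    apply Nat.le_of_mul_le_mul_right _ h2
    calc Nat.card (ConjClasses ↥Y) * Nat.card ↥Y ≤ Nat.card (ConjClasses X) * (Nat.card ↥Y * Y.index) := h1
      _ = Y.index * Nat.card (ConjClasses X) * Nat.card ↥Y := by ring
  · intro hnn
    refine lt_of_lt_of_le ?_ hO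
    by_contra hcon
    push Not at hcon
    have hinj : Function.Injective (orbMap Y) :=
      ((Nat.bijective_iff_surjective_and_card (orbMap Y)).mpr ⟨orbMap_surj Y, le_antisymm hcon hkO⟩).1
    apply hnn
    refine ⟨fun y hy g => ?_⟩
    have h1 : orbMap Y (Quotient.mk _ (XX.mk y)) = orbMap Y (Quotient.mk _ (XX.mk (g * y * g⁻¹))) := by
      show ConjClasses.mk y = ConjClasses.mk (g * y * g⁻¹)
      rw [ConjClasses.mk_eq_mk_iff_isConj, isConj_iff]
      exact ⟨g, rfl⟩
    have h2 := hinj h1
    have h3 : (XX.mk y) ∈ MulAction.orbit Y (XX.mk (g * y * g⁻¹)) := Quotient.exact h2 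
    obtain ⟨z, hz⟩ := h3
    have h4 := congrArg XX.v hz
    rw [smul_v] at h4
    have h5 : z.1 * (g * y * g⁻¹) * z.1⁻¹ = y := h4
    have h6 : g * y * g⁻¹ = z.1⁻¹ * y * z.1 := by
      have h7 : g * y * g⁻¹ = z.1⁻¹ * (z.1 * (g * y * g⁻¹) * z.1⁻¹) * z.1 := by group
      rw [h7, h5]
    rw [h6]
    exact Y.mul_mem (Y.mul_mem (Y.inv_mem z.2) hy) z.2

end Cfsg.Agent.S4200
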