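import Cfsg.Statements.S4203
import Mathlib
import Cfsg.Agent.Lib.CharGal
-- import your own Cfsg.Agent.* helpers here

set_option autoImplicit false
open Cfsg

namespace Cfsg.Agent.S4203

universe u

theorem index_mod {G : Type u} [Group G] [Finite G] {r : ℕ} [Fact r.Prime] (R : Sylow r G) (M : Subgroup G)
    (hM : Subgroup.normalizer ((R : Subgroup G) : Set G) ≤ M) : M.index ≡ 1 [MOD r] := by
  have hRM : (R : Subgroup G) ≤ M := Subgroup.le_normalizer.trans hM
  have h1 : Nat.card (Sylow r G) ≡ 1 [MOD r] := card_sylow_modEq_one r G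
  have h2 : Nat.card (Sylow r M) ≡ 1 [MOD r] := card_sylow_modEq_one r M
  rw [Sylow.card_eq_index_normalizer R] at h1
  rw [Sylow.card_eq_index_normalizer (R.subtype hRM)] at h2
  have h2' : ((Subgroup.normalizer ((R : Subgroup G) : Set G)).subgroupOf M).index ≡ 1 [MOD r] := by
    rw [Subgroup.subgroupOf_normalizer_eq hRM]
    exact h2
  have h4 : (Subgroup.normalizer ((R : Subgroup G) : Set G)).relIndex M * M.index =
      (Subgroup.normalizer ((R : Subgroup G) : Set G)).index := Subgroup.relIndex_mul_index hM
  have h1' : (Subgroup.normalizer ((R : Subgroup G) : Set G)).index ≡ 1 [MOD r] := h1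
  rw [← h4] at h1'
  have h5 : (Subgroup.normalizer ((R : Subgroup G) : Set G)).relIndex M ≡ 1 [MOD r] := h2'
  have h6 := (h5.mul_right M.index).symm.trans h1'
  simpa using h6

theorem card_of_primes {n : ℕ} (hn : n ≠ 0) (h : ∀ q : ℕ, q.Prime → q ∣ n → q = 2 ∨ q = 3) :
    ∃ a b : ℕ, n = 2 ^ a * 3 ^ b := by
  obtain ⟨a, m, hm, rfl⟩ := Nat.exists_eq_pow_mul_and_not_dvd hn 2 (by norm_num)
  have hm0 : m ≠ 0 := by
    rintro rfl
    simp at hn
  obtain ⟨b, m', hm', rfl⟩ := Nat.exists_eq_pow_mul_and_not_dvd hm0 3 (by norm_num)
  have hm'1 : m' = 1 := by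
    by_contra hne
    obtain ⟨q, hq, hqd⟩ := Nat.exists_prime_and_dvd hne
    have hqn : q ∣ 2 ^ a * (3 ^ b * m') := (hqd.trans (dvd_mul_left _ _)).trans (dvd_mul_left _ _)
    rcases h q hq hqn with rfl | rfl
    · exact hm (hqd.trans (dvd_mul_left _ _))
    · exact hm' hqd
  subst hm'1
  exact ⟨a, b, by ring⟩

theorem aux : ∀ (n : ℕ) (G : Type u) [Group G] [Finite G], Nat.card G = n →
    (∀ M : Subgroup G, IsCoatom M → ∃ p : ℕ, p.Prime ∧ (M.index = p ∨ M.index = p ^ 2)) → Group.IsSolvable G := by
  intro n
  induction n using Nat.strong_induction_on with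
  | _ n ih =>
  intro G _ _ hn h
  by_cases h1 : Nat.card G = 1
  · haveI : Subsingleton G := (Nat.card_eq_one_iff_unique.mp h1).1
    infer_instance
  have hne : (Nat.card G).primeFactors.Nonempty := by
    rw [Nat.nonempty_primeFactors]
    have : 0 < Nat.card G := Nat.card_pos
    omega
  set r := (Nat.card G).primeFactors.max' hne with hr
  have hrmem := Finset.max'_mem _ hne
  rw [← hr] at hrmem
  have hr' := Nat.mem_primeFactors.mp hrmem
  haveI : Fact r.Prime := ⟨hr'.1⟩
  have hmax : ∀ q : ℕ, q.Prime → q ∣ Nat.card G → q ≤ r := fun q hq hqd =>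
    Finset.le_max' _ q (Nat.mem_primeFactors.mpr ⟨hq, hqd, Nat.card_pos.ne'⟩)
  obtain R : Sylow r G := default
  by_cases hRn : (R : Subgroup G).Normal
  · haveI := hRn
    have hRne : 1 < Nat.card R := by
      have h2 := Sylow.card_eq_multiplicity R
      rw [h2]
      apply Nat.one_lt_pow
      · exact (hr'.1.factorization_pos_of_dvd Nat.card_pos.ne' hr'.2.1).ne'
      · exact hr'.1.one_lt
    have hlt : Nat.card (G ⧸ (R : Subgroup G)) < n := by
      rw [← hn, Subgroup.card_eq_card_quotient_mul_card_subgroup (R : Subgroup G)]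
      exact lt_mul_of_one_lt_right Nat.card_pos hRne
    haveI hq : Group.IsSolvable (G ⧸ (R : Subgroup G)) := by
      refine ih _ hlt _ rfl ?_
      intro M hM
      obtain ⟨p, hp, hi⟩ := h (M.comap (QuotientGroup.mk' (R : Subgroup G))) (by
        refine ⟨?_, ?_⟩
        · intro htop
          apply hM.1
          rw [eq_top_iff]
          intro y _
          obtain ⟨x, rfl⟩ := QuotientGroup.mk_surjective y
          have : x ∈ M.comap (QuotientGroup.mk' (R : Subgroup G)) := by rw [htop]; trivial
          exact this
        · intro K hK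
          have hle : (R : Subgroup G) ≤ K := by
            intro x hx
            apply hK.le
            show QuotientGroup.mk' (R : Subgroup G) x ∈ M
            rw [show QuotientGroup.mk' (R : Subgroup G) x = 1 from (QuotientGroup.eq_one_iff x).mpr hx]
            exact one_mem _
          have hMK : M < K.map (QuotientGroup.mk' (R : Subgroup G)) := by
            rw [lt_iff_le_not_ge]
            constructor
            · intro y hy
              obtain ⟨x, rfl⟩ := QuotientGroup.mk_surjective y
              exact ⟨x, hK.le hy, rfl⟩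
            · intro hcon
              exact hK.2 (fun x hx => hcon ⟨x, hx, rfl⟩)
          have htop := hM.2 _ hMK
          rw [eq_top_iff]
          intro x _
          have hx : QuotientGroup.mk' (R : Subgroup G) x ∈ K.map (QuotientGroup.mk' (R : Subgroup G)) := by
            rw [htop]; trivial
          obtain ⟨w, hw, hwx⟩ := hx
          have h3 : w⁻¹ * x ∈ (R : Subgroup G) := by
            apply (QuotientGroup.eq_one_iff _).mp
            show QuotientGroup.mk' (R : Subgroup G) (w⁻¹ * x) = 1
            rw [map_mul, map_inv, hwx]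
            group
          have h4 : x = w * (w⁻¹ * x) := by group
          rw [h4]
          exact mul_mem hw (hle h3))
      refine ⟨p, hp, ?_⟩
      rwa [Subgroup.index_comap_of_surjective _ (QuotientGroup.mk'_surjective _)] at hi
    haveI hRs : Group.IsSolvable (R : Subgroup G) := by
      haveI := R.isPGroup'.isNilpotent
      infer_instance
    exact solvable_of_ker_le_range (R : Subgroup G).subtype (QuotientGroup.mk' (R : Subgroup G)) (by
      intro x hx
      exact ⟨⟨x, (QuotientGroup.eq_one_iff x).mp hx⟩, rfl⟩)
  · have hnt : Subgroup.normalizer ((R : Subgroup G) : Set G) ≠ ⊤ := fun hc => hRn (Subgroup.normalizer_eq_top_iff.mp hc)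
    obtain ⟨M, hM, hNM⟩ := (eq_top_or_exists_le_coatom (Subgroup.normalizer ((R : Subgroup G) : Set G))).resolve_left hnt
    have hmod := index_mod R M hNM
    obtain ⟨q, hq, hi⟩ := h M hM
    have hidvd : M.index ∣ Nat.card G := Subgroup.index_dvd_card M
    have hqdvd : q ∣ Nat.card G := by
      rcases hi with hi | hi
      · rw [← hi]; exact hidvd
      · rw [hi] at hidvd
        exact (dvd_pow_self q (by norm_num)).trans hidvd
    have hqr : q ≤ r := hmax q hq hqdvd
    have hqne : q ≠ r := by
      intro heq
      have h2 : r ∣ M.index := by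
        rcases hi with hi | hi
        · rw [hi, heq]
        · rw [hi, heq]; exact dvd_pow_self r (by norm_num)
      have h3 : M.index % r = 1 % r := hmod
      rw [Nat.mod_eq_zero_of_dvd h2, Nat.mod_eq_of_lt hr'.1.one_lt] at h3
      omega
    have hqlt : q < r := lt_of_le_of_ne hqr hqne
    have hr3 : q = 2 ∧ r = 3 := by
      rcases hi with hi | hi
      · exfalso
        rw [hi] at hmod
        have h3 : q % r = 1 % r := hmod
        rw [Nat.mod_eq_of_lt hqlt, Nat.mod_eq_of_lt hr'.1.one_lt] at h3
        exact hq.one_lt.ne' h3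
      · rw [hi] at hmod
        have h3 : r ∣ q ^ 2 - 1 := (Nat.modEq_iff_dvd' (Nat.one_le_pow _ _ hq.pos)).mp hmod.symm
        have h4 : q ^ 2 - 1 = (q + 1) * (q - 1) := by
          have := hq.pos
          obtain ⟨t, rfl⟩ : ∃ t, q = t + 1 := ⟨q - 1, by omega⟩
          simp only [Nat.add_sub_cancel]
          have h5 : (t + 1) ^ 2 = (t + 1 + 1) * t + 1 := by ring
          omega
        rw [h4] at h3
        rcases (Nat.Prime.dvd_mul hr'.1).mp h3 with h5 | h5
        · have h6 : r ≤ q + 1 := Nat.le_of_dvd (by omega) h5
          have h7 : r = q + 1 := by omega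
          rcases hq.eq_two_or_odd with h8 | h8
          · subst h8
            exact ⟨rfl, h7⟩
          · exfalso
            have h9 : 2 ∣ r := by
              rw [h7]
              omega
            have h10 := (Nat.prime_dvd_prime_iff_eq Nat.prime_two hr'.1).mp h9
            have := hq.two_le
            omega
        · exfalso
          have h6 : 0 < q - 1 := by
            have := hq.two_le
            omega
          have := Nat.le_of_dvd h6 h5
          omega
    obtain ⟨a, b, hab⟩ := card_of_primes (n := Nat.card G) Nat.card_pos.ne' (fun t ht htd => by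
      have h5 := hmax t ht htd
      rw [hr3.2] at h5
      have h6 := ht.two_le
      have h7 : t = 2 ∨ t = 3 := by omega
      exact h7)
    exact Lib.CharGal.solvable_of_card_pq 2 3 a b Nat.prime_two Nat.prime_three hab

/-- A finite group in which every maximal subgroup has index a prime or the square of a prime is solvable. -/
theorem result {G : Type*} [Group G] [Finite G] (h : ∀ M : Subgroup G, IsCoatom M → ∃ p : ℕ, p.Prime ∧ (M.index = p ∨ M.index = p ^ 2)) : Group.IsSolvable G := by
  exact aux _ G rfl h

end Cfsg.Agent.S4203
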