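import Cfsg.Statements.S4204
-- import your own Cfsg.Agent.* helpers here

set_option autoImplicit false
open Cfsg

namespace Cfsg.Agent.S4204

/-- shifted lower central series. -/
def sft {G : Type*} [Group G] (H : Subgroup G) : ℕ → Subgroup G
  | 0 => ⊤
  | k + 1 => H.lowerCentralSeries k

lemma lcs_normal {G : Type*} [Group G] (H : Subgroup G) [H.Normal] : ∀ k, (H.lowerCentralSeries k).Normal := by
  intro k
  induction k with
  | zero => exact (inferInstance : H.Normal)
  | succ k ih =>
    rw [Subgroup.lowerCentralSeries_succ]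
    infer_instance

lemma sft_normal {G : Type*} [Group G] (H : Subgroup G) [H.Normal] : ∀ i, (sft H i).Normal := by
  intro i
  cases i with
  | zero => exact (inferInstance : (⊤ : Subgroup G).Normal)
  | succ k => exact lcs_normal H k

lemma sft_comm {G : Type*} [Group G] (H : Subgroup G) [hH : H.Normal] (i : ℕ) (x : G) (hx : x ∈ sft H i)
    (y : G) (hy : y ∈ H) : x * y * x⁻¹ * y⁻¹ ∈ sft H (i + 1) := by
  cases i with
  | zero => exact H.mul_mem (hH.conj_mem y hy x) (H.inv_mem hy)
  | succ k =>
    have := Subgroup.commutator_mem_commutator (H₁ := H.lowerCentralSeries k) (H₂ := H) hx hy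
    simpa [commutatorElement_def, sft, Subgroup.lowerCentralSeries_succ] using this

lemma sft_anti {G : Type*} [Group G] (H : Subgroup G) : Antitone (sft H) := by
  apply antitone_nat_of_succ_le
  intro i
  cases i with
  | zero => exact le_top
  | succ k => exact Subgroup.lowerCentralSeries_antitone H (Nat.le_succ k)

/-- the "acts trivially mod W" subgroup -/
def wPrime {G : Type*} [Group G] (W Y : Subgroup G) [hW : W.Normal] : Subgroup G where
  carrier := {x | ∀ y ∈ Y, x * y * x⁻¹ * y⁻¹ ∈ W}
  one_mem' := by intro y hy; simp [W.one_mem]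
  mul_mem' := by
    intro a b ha hb y hy
    have h1 := ha y hy
    have h2 := hW.conj_mem _ (hb y hy) a
    have : a * b * y * (a * b)⁻¹ * y⁻¹ = (a * (b * y * b⁻¹ * y⁻¹) * a⁻¹) * (a * y * a⁻¹ * y⁻¹) := by group
    rw [this]
    exact W.mul_mem h2 h1
  inv_mem' := by
    intro a ha y hy
    have h1 := hW.conj_mem _ (W.inv_mem (ha y hy)) a⁻¹
    have : a⁻¹ * y * a⁻¹⁻¹ * y⁻¹ = a⁻¹ * (a * y * a⁻¹ * y⁻¹)⁻¹ * a⁻¹⁻¹ := by group
    rw [this]
    exact h1

lemma wPrime_normal {G : Type*} [Group G] (W Y : Subgroup G) [hW : W.Normal] [hY : Y.Normal] :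
    (wPrime W Y).Normal := by
  constructor
  intro x hx g y hy
  have h1 := hW.conj_mem _ (hx (g⁻¹ * y * g) (by simpa using hY.conj_mem y hy g⁻¹)) g
  have : g * x * g⁻¹ * y * (g * x * g⁻¹)⁻¹ * y⁻¹ = g * (x * (g⁻¹ * y * g) * x⁻¹ * (g⁻¹ * y * g)⁻¹) * g⁻¹ := by group
  rw [this]
  exact h1

lemma key {G : Type*} [Group G] (H K : Subgroup G) [hH : H.Normal] [hK : K.Normal] :
    ∀ (n : ℕ) (W : Subgroup G), W.Normal →
      (∀ i j, i + j = n + 1 → sft H i ⊓ sft K j ≤ W) → (H ⊔ K).lowerCentralSeries n ≤ W := by
  intro n
  induction n with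
  | zero =>
    intro W _ h
    rw [Subgroup.lowerCentralSeries_zero]
    apply sup_le
    · have := h 1 0 rfl
      intro x hx
      exact this ⟨hx, by simp [sft]⟩
    · have := h 0 1 rfl
      intro x hx
      exact this ⟨by simp [sft], hx⟩
  | succ n ih =>
    intro W hW h
    haveI hY : (H ⊔ K).Normal := inferInstance
    have hW' := wPrime_normal W (H ⊔ K)
    have := ih (wPrime W (H ⊔ K)) hW' ?_
    · rw [Subgroup.lowerCentralSeries_succ, Subgroup.commutator_le]
      intro x hx y hy
      exact this hx y hy
    · intro i j hij x hx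
      -- the set of y such that commutator lands in W
      let S : Subgroup G := 
        { carrier := {y | x * y * x⁻¹ * y⁻¹ ∈ W}
          one_mem' := by simp [W.one_mem]
          mul_mem' := by
            intro a b ha hb
            have h2 := hW.conj_mem _ hb a
            have : x * (a * b) * x⁻¹ * (a * b)⁻¹ = (x * a * x⁻¹ * a⁻¹) * (a * (x * b * x⁻¹ * b⁻¹) * a⁻¹) := by group
            show x * (a * b) * x⁻¹ * (a * b)⁻¹ ∈ W
            rw [this]
            exact W.mul_mem ha h2
          inv_mem' := by
            intro a ha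
            have h1 := hW.conj_mem _ (W.inv_mem ha) a⁻¹
            have : x * a⁻¹ * x⁻¹ * a⁻¹⁻¹ = a⁻¹ * (x * a * x⁻¹ * a⁻¹)⁻¹ * a⁻¹⁻¹ := by group
            show x * a⁻¹ * x⁻¹ * a⁻¹⁻¹ ∈ W
            rw [this]
            exact h1 }
      have hS : H ⊔ K ≤ S := by
        apply sup_le
        · intro y hy
          apply h (i + 1) j (by omega)
          constructor
          · exact sft_comm H i x hx.1 y hy
          · haveI := sft_normal K j
            have h1 := (sft_normal K j).conj_mem _ (Subgroup.inv_mem _ hx.2) y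
            have : x * y * x⁻¹ * y⁻¹ = x * (y * x⁻¹ * y⁻¹) := by group
            show x * y * x⁻¹ * y⁻¹ ∈ sft K j
            rw [this]
            exact Subgroup.mul_mem _ hx.2 h1
        · intro y hy
          apply h i (j + 1) (by omega)
          constructor
          · have h1 := (sft_normal H i).conj_mem _ (Subgroup.inv_mem _ hx.1) y
            have : x * y * x⁻¹ * y⁻¹ = x * (y * x⁻¹ * y⁻¹) := by group
            show x * y * x⁻¹ * y⁻¹ ∈ sft H i
            rw [this]
            exact Subgroup.mul_mem _ hx.1 h1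
          · exact sft_comm K j x hx.2 y hy
      intro y hy
      exact hS hy

/-- If `H` and `K` are normal subgroups of a finite group with `H` nilpotent of class at most `c` and `K` nilpotent of class at most `d` (the terms with index `c`, respectively `d`, of their lower central series are trivial, indices starting at `0`), then `HK` is nilpotent of class at most `c + d`. -/
theorem result {G : Type*} [Group G] [Finite G] (H K : Subgroup G) [H.Normal] [K.Normal] (c d : ℕ) (hH : H.lowerCentralSeries c = ⊥) (hK : K.lowerCentralSeries d = ⊥) : (H ⊔ K).lowerCentralSeries (c + d) = ⊥ := by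
  rw [eq_bot_iff]
  apply key H K (c + d) ⊥ inferInstance
  intro i j hij
  by_cases hi : c + 1 ≤ i
  · have h1 : sft H i ≤ sft H (c + 1) := sft_anti H hi
    have h2 : sft H (c + 1) = ⊥ := hH
    rw [h2] at h1
    exact inf_le_left.trans h1
  · have hj : d + 1 ≤ j := by omega
    have h1 : sft K j ≤ sft K (d + 1) := sft_anti K hj
    have h2 : sft K (d + 1) = ⊥ := hK
    rw [h2] at h1
    exact inf_le_right.trans h1

end Cfsg.Agent.S4204
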