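import Cfsg.Statements.S4205
import Mathlib
-- import your own Cfsg.Agent.* helpers here

set_option autoImplicit false
open Cfsg

namespace Cfsg.Agent.S4205

theorem le_iter {G : Type*} [Group G] [Finite G] (H : Subgroup G) (i : ℕ) :
    Subgroup.upperCentralSeries G i ≤ (fun K : Subgroup G => Subgroup.normalizer (K : Set G))^[i] H := by
  induction i with
  | zero => simp [Subgroup.upperCentralSeries_zero]
  | succ i ih =>
    rw [Function.iterate_succ_apply']
    intro x hx
    rw [Subgroup.mem_upperCentralSeries_succ_iff] at hx
    set K := (fun K : Subgroup G => Subgroup.normalizer (K : Set G))^[i] H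
    show x ∈ Subgroup.normalizer (K : Set G)
    rw [Subgroup.mem_normalizer_iff]
    intro k
    have h1 : x * k * x⁻¹ * k⁻¹ ∈ K := ih (hx k)
    constructor
    · intro hk
      have := K.mul_mem h1 hk
      simpa using this
    · intro hk
      have h2 := K.mul_mem (K.inv_mem h1) hk
      have h3 : (x * k * x⁻¹ * k⁻¹)⁻¹ * (x * k * x⁻¹) = k := by group
      rwa [h3] at h2

/-- In a finite group whose upper central series reaches the whole group at step `c` (nilpotent of class at most `c`), starting from any subgroup and taking normalizers `c` times reaches the whole group. -/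
theorem result {G : Type*} [Group G] [Finite G] (c : ℕ) (hG : Subgroup.upperCentralSeries G c = ⊤) (H : Subgroup G) : (fun K : Subgroup G => Subgroup.normalizer (K : Set G))^[c] H = ⊤ := by
  have := le_iter H c
  rw [hG] at this
  exact top_le_iff.mp this

end Cfsg.Agent.S4205
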