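import Cfsg.Statements.S4206
import Mathlib
import Cfsg.Agent.Lib.FGSBasic
-- import your own Cfsg.Agent.* helpers here

set_option autoImplicit false
open Cfsg

namespace Cfsg.Agent.S4206

/-- Let `H 0 ≥ H 1 ≥ H 2 ≥ ⋯` be normal subgroups of a finite group and `L` a subgroup with `⁅H i, L⁆ ≤ H (i+1)` for all `i`. Then `⁅H i, γ⁆ ≤ H (i + j + 1)` where `γ` is the `j`-th term of the lower central series of `L` (indexed from `0`, so the term with index `j` is the `(j+1)`-fold commutator). -/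
theorem result {G : Type*} [Group G] [Finite G] (H : ℕ → Subgroup G) (hN : ∀ i, (H i).Normal) (hdesc : ∀ i, H (i + 1) ≤ H i) (L : Subgroup G) (hL : ∀ i, ⁅H i, L⁆ ≤ H (i + 1)) (i j : ℕ) : ⁅H i, L.lowerCentralSeries j⁆ ≤ H (i + j + 1) := by
  induction j generalizing i with
  | zero => exact hL i
  | succ j ih =>
    have hle : ⁅H i, L.lowerCentralSeries (j + 1)⁆ = ⁅⁅L.lowerCentralSeries j, L⁆, H i⁆ := by
      rw [Subgroup.lowerCentralSeries_succ, Subgroup.commutator_comm]
    rw [hle]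
    haveI := hN (i + (j + 1) + 1)
    apply Cfsg.Agent.Lib.FGSBasic.three_subgroups
    · -- ⁅⁅L, H i⁆, γ_j⁆
      rw [Subgroup.commutator_comm L (H i)]
      calc ⁅⁅H i, L⁆, L.lowerCentralSeries j⁆ ≤ ⁅H (i + 1), L.lowerCentralSeries j⁆ :=
            Subgroup.commutator_mono (hL i) le_rfl
        _ ≤ H (i + 1 + j + 1) := ih (i + 1)
        _ = H (i + (j + 1) + 1) := by congr 1; omega
    · -- ⁅⁅H i, γ_j⁆, L⁆
      calc ⁅⁅H i, L.lowerCentralSeries j⁆, L⁆ ≤ ⁅H (i + j + 1), L⁆ :=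
            Subgroup.commutator_mono (ih i) le_rfl
        _ ≤ H (i + j + 1 + 1) := hL _
        _ = H (i + (j + 1) + 1) := by congr 1

end Cfsg.Agent.S4206
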