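import Cfsg.Statements.S4207
import Cfsg.Agent.Lib.FGSAut
-- import your own Cfsg.Agent.* helpers here

set_option autoImplicit false
open Cfsg

namespace Cfsg.Agent.S4207

/-- Let `P` be a group of order `p^n` whose Frattini subgroup has index `p^r`. Then any group of automorphisms of `P` each of which induces the identity on the Frattini quotient has order dividing `p^(r(n-r))`; in particular it is a `p`-group. -/
theorem result {P : Type*} [Group P] [Finite P] {p n r : ℕ} [Fact p.Prime] (hP : Nat.card P = p ^ n) (hr : (frattini P).index = p ^ r) (A : Subgroup (MulAut P)) (hA : ∀ α ∈ A, ∀ x : P, α x * x⁻¹ ∈ frattini P) : Nat.card A ∣ p ^ (r * (n - r)) := by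
  classical
  have hpG : IsPGroup p P := IsPGroup.of_card hP
  have hcomm : ∀ a b : P ⧸ frattini P, a * b = b * a := by
    intro a b
    obtain ⟨x, rfl⟩ := QuotientGroup.mk_surjective a
    obtain ⟨y, rfl⟩ := QuotientGroup.mk_surjective b
    rw [← QuotientGroup.mk_mul, ← QuotientGroup.mk_mul, QuotientGroup.eq]
    have h1 := Lib.PGrp.commutator_le_frattini hpG
    have h2 : y⁻¹ * x⁻¹ * y⁻¹⁻¹ * x⁻¹⁻¹ ∈ commutator P := by
      have := Subgroup.commutator_mem_commutator (Subgroup.mem_top y⁻¹) (Subgroup.mem_top x⁻¹)
      simpa [commutatorElement_def, commutator_def] using this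
    have h3 := h1 h2
    have h4 : (x * y)⁻¹ * (y * x) = y⁻¹ * x⁻¹ * y⁻¹⁻¹ * x⁻¹⁻¹ := by
      group
    rwa [h4]
  letI iC : CommGroup (P ⧸ frattini P) :=
    { (inferInstance : Group (P ⧸ frattini P)) with mul_comm := hcomm }
  have hpow : ∀ x : Additive (P ⧸ frattini P), p • x = 0 := by
    intro a
    obtain ⟨x, hx⟩ := QuotientGroup.mk_surjective (Additive.toMul a)
    have h1 := Lib.PGrp.pow_mem_frattini hpG x
    have h2 : ((x ^ p : P) : P ⧸ frattini P) = 1 := (QuotientGroup.eq_one_iff _).mpr h1
    have h3 : a = Additive.ofMul (x : P ⧸ frattini P) := by rw [hx]; rfl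
    rw [h3, ← ofMul_pow]
    rw [QuotientGroup.mk_pow] at h2
    exact congrArg Additive.ofMul h2
  letI iM : Module (ZMod p) (Additive (P ⧸ frattini P)) := AddCommGroup.zmodModule hpow
  let π : P →* (P ⧸ frattini P) := QuotientGroup.mk' (frattini P)
  have hsurj : Function.Surjective π := QuotientGroup.mk'_surjective _
  have hker : π.ker = frattini P := QuotientGroup.ker_mk' _
  have hcard : Nat.card (P ⧸ frattini P) = p ^ r := hr
  have hF := Lib.FGSAut.frattini_card hP hr
  have hfrat : ∀ a b : P, a * b⁻¹ ∈ frattini P → π a = π b := by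
    intro a b h
    have : a * b⁻¹ ∈ π.ker := by rw [hker]; exact h
    rw [MonoidHom.mem_ker, map_mul, map_inv] at this
    exact mul_inv_eq_one.mp this
  -- tuple of generators: the images of a basis
  obtain ⟨x, hx⟩ := Lib.FGSAut.exists_lift_generators (p := p) hcard π hsurj hker
  let Ω : Set (Fin r → P) := {t | ∀ i, t i * (x i)⁻¹ ∈ frattini P}
  have h1 := Lib.FGSAut.card_dvd_of_free (r := r) A Ω (by
      intro t ht
      exact hx t (fun i => hfrat _ _ (ht i))) (by
      intro α hα t ht i
      have h2 := hA α hα (t i)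
      have h3 := ht i
      have : α (t i) * (x i)⁻¹ = (α (t i) * (t i)⁻¹) * (t i * (x i)⁻¹) := by group
      show α (t i) * (x i)⁻¹ ∈ frattini P
      rw [this]
      exact Subgroup.mul_mem _ h2 h3)
  let e : Ω ≃ (Fin r → frattini P) :=
    { toFun := fun t i => ⟨t.1 i * (x i)⁻¹, t.2 i⟩
      invFun := fun f => ⟨fun i => (f i : P) * x i, by
        intro i
        simp⟩
      left_inv := by
        intro t
        apply Subtype.ext
        funext i
        simp
      right_inv := by
        intro f
        funext i
        apply Subtype.ext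
        simp }
  rw [Nat.card_congr e, Nat.card_fun, Nat.card_fin, hF, ← pow_mul, mul_comm (n - r) r] at h1
  exact h1

end Cfsg.Agent.S4207
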