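import Cfsg.Statements.S4217
import Mathlib
-- import your own Cfsg.Agent.* helpers here

set_option autoImplicit false
open Cfsg

namespace Cfsg.Agent.S4217

open Subgroup

theorem exists_cross {G : Type*} [Group G] [Finite G] {A : Subgroup G} [hAn : A.Normal]
    (hA : ∀ a b : A, a * b = b * a) (K : Subgroup G) (hKA : K ⊓ A = ⊥) :
    ∃ φ : G → A, (∀ g h, φ (g * h) = φ g * MulAut.conjNormal g (φ h)) ∧
      ∀ a : A, φ a = a ^ (K ⊔ A).index := by
  classical
  letI : CommGroup A := { (inferInstance : Group A) with mul_comm := hA }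
  set P := K ⊔ A with hP
  haveI := Fintype.ofFinite (G ⧸ P)
  have hAP : A ≤ P := le_sup_right
  have hdec : ∀ x : G, ∃ c : A, ∃ k ∈ K, x = c * ((x : G ⧸ P)).out * k := by
    intro x
    set t := (x : G ⧸ P).out with ht
    have h1 : t⁻¹ * x ∈ P := QuotientGroup.eq.mp (QuotientGroup.out_eq' _)
    rw [hP, sup_comm] at h1
    have h2 : t⁻¹ * x ∈ ((A ⊔ K : Subgroup G) : Set G) := h1
    rw [Subgroup.normal_mul] at h2
    obtain ⟨a, ha, k, hk, hak⟩ := Set.mem_mul.mp h2
    refine ⟨⟨t * a * t⁻¹, hAn.conj_mem a ha t⟩, k, hk, ?_⟩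
    show x = t * a * t⁻¹ * t * k
    have h3 : x = t * (t⁻¹ * x) := by group
    rw [h3, ← hak]
    group
  choose b k hk hb using hdec
  have huniq : ∀ (x : G) (c : A) (k' : G), k' ∈ K → x = c * (x : G ⧸ P).out * k' → c = b x := by
    intro x c k' hk' hx
    have h0 := hb x
    set t := (x : G ⧸ P).out with ht
    have h1 : t⁻¹ * (((b x)⁻¹ * c : A) : G) * t = k x * k'⁻¹ := by
      have h2 : (c : G) * t * k' = (b x : G) * t * k x := hx.symm.trans h0
      have h3 : (c : G) = (b x : G) * t * k x * k'⁻¹ * t⁻¹ := by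
        rw [← h2]; group
      show t⁻¹ * (((b x : G))⁻¹ * (c : G)) * t = k x * k'⁻¹
      rw [h3]
      group
    have h2 : k x * k'⁻¹ ∈ K ⊓ A := by
      refine Subgroup.mem_inf.mpr ⟨mul_mem (hk x) (inv_mem hk'), ?_⟩
      rw [← h1]
      have := hAn.conj_mem _ ((b x)⁻¹ * c : A).2 t⁻¹
      rwa [inv_inv] at this
    rw [hKA, Subgroup.mem_bot] at h2
    rw [← h1] at h2
    have h3 : (((b x)⁻¹ * c : A) : G) = 1 := by
      have := congrArg (fun z => t * z * t⁻¹) h2
      simpa [mul_assoc] using this
    have h4 : (b x)⁻¹ * c = 1 := Subtype.ext h3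
    exact (inv_mul_eq_one.mp h4).symm
  have hrel : ∀ (g h : G) (q : G ⧸ P), (b (g * (h * q.out)) : G)
      = (g * b (h * q.out) * g⁻¹) * b (g * (h • q).out) := by
    intro g h q
    have hout : ∀ (u : G) (q : G ⧸ P), ((u * q.out : G) : G ⧸ P) = u • q := by
      intro u q
      have h1 : u • q = u • ((q.out : G) : G ⧸ P) := by rw [QuotientGroup.out_eq']
      rw [h1]
      rfl
    have hq' : ((h * q.out : G) : G ⧸ P) = h • q := hout h q
    have hr : ((g * (h * q.out) : G) : G ⧸ P) = ((g * (h • q).out : G) : G ⧸ P) := by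
      have h2 : ((g * (h * q.out) : G) : G ⧸ P) = g • ((h * q.out : G) : G ⧸ P) := rfl
      rw [h2, hq', hout]
    have e1 := hb (h * q.out)
    rw [hq'] at e1
    have e2 := hb (g * (h • q).out)
    rw [← hr] at e2
    have hc : (⟨g * b (h * q.out) * g⁻¹, hAn.conj_mem _ (b (h * q.out)).2 g⟩ * b (g * (h • q).out) : A)
        = b (g * (h * q.out)) := by
      apply huniq _ _ (k (g * (h • q).out) * k (h * q.out)) (mul_mem (hk _) (hk _))
      show g * (h * q.out) = (g * b (h * q.out) * g⁻¹) * b (g * (h • q).out) * _ * _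
      calc g * (h * q.out) = g * (b (h * q.out) * (h • q).out * k (h * q.out)) := by rw [← e1]
        _ = (g * b (h * q.out) * g⁻¹) * (g * (h • q).out) * k (h * q.out) := by group
        _ = (g * b (h * q.out) * g⁻¹) * (b (g * (h • q).out) * (((g * (h * q.out) : G) : G ⧸ P)).out * k (g * (h • q).out)) * k (h * q.out) := by rw [← e2]
        _ = _ := by
          simp only [mul_assoc]
    rw [← hc]
    rfl
  have hmem : ∀ (a : A) (q : G ⧸ P), b ((a : G) * q.out) = a := by
    intro a q
    have h1 : (((a : G) * q.out : G) : G ⧸ P) = q := by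
      have h3 : (((a : G) * q.out : G) : G ⧸ P) = ((q.out : G) : G ⧸ P) := by
        rw [QuotientGroup.eq]
        apply hAP
        have := hAn.conj_mem _ (inv_mem a.2) (q.out)⁻¹
        convert this using 1
        group
      rw [h3, QuotientGroup.out_eq']
    symm
    apply huniq _ _ 1 (one_mem _)
    rw [h1, mul_one]
  refine ⟨fun g => ∏ q : G ⧸ P, b (g * q.out), ?_, ?_⟩
  · intro g h
    have h2 : ∀ q : G ⧸ P, b (g * h * q.out) = b (g * (h • q).out) * MulAut.conjNormal g (b (h * q.out)) := by
      intro q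
      apply Subtype.ext
      rw [mul_assoc g h, hrel]
      show _ = ((b (g * (h • q).out) : A) : G) * ((MulAut.conjNormal g (b (h * q.out)) : A) : G)
      rw [MulAut.conjNormal_apply]
      have := hA (b (g * (h • q).out)) (MulAut.conjNormal g (b (h * q.out)))
      have h3 := congrArg Subtype.val this
      exact (show _ = _ from by
        rw [← MulAut.conjNormal_apply]
        exact h3.symm)
    show (∏ q : G ⧸ P, b (g * h * q.out)) = (∏ q : G ⧸ P, b (g * q.out)) * MulAut.conjNormal g (∏ q : G ⧸ P, b (h * q.out))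
    simp_rw [h2]
    rw [Finset.prod_mul_distrib, map_prod]
    congr 1
    exact Equiv.prod_comp (MulAction.toPerm h) (fun q : G ⧸ P => b (g * q.out))
  · intro a
    show (∏ q : G ⧸ P, b ((a : G) * q.out)) = a ^ P.index
    simp_rw [hmem]
    rw [Finset.prod_const, Finset.card_univ, Subgroup.index, Nat.card_eq_fintype_card]

/-- Let `A` be an abelian normal subgroup of the finite group `G`. Then `A` has a complement in `G` if and only if, for every prime `p` dividing the index of `A`, there are a Sylow `p`-subgroup `S` of `G/A` and a subgroup `K` of `G` with `K ∩ A = 1` and `KA` equal to the preimage of `S` (that is, `A` has a complement in the preimage of a Sylow `p`-subgroup of `G/A`). -/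
theorem result {G : Type*} [Group G] [Finite G] (A : Subgroup G) [A.Normal] (hA : IsMulCommutative A) : (∃ K : Subgroup G, K.IsComplement' A) ↔ ∀ p : ℕ, p.Prime → p ∣ A.index → ∃ (S : Sylow p (G ⧸ A)) (K : Subgroup G), K ⊓ A = ⊥ ∧ K ⊔ A = (S : Subgroup (G ⧸ A)).comap (QuotientGroup.mk' A) := by
  classical
  letI : CommGroup A := { (inferInstance : Group A) with mul_comm := hA.is_comm.comm }
  constructor
  · rintro ⟨K, hK⟩ p hp _
    haveI : Fact p.Prime := ⟨hp⟩
    let S : Sylow p (G ⧸ A) := default
    have hAP : A ≤ (S : Subgroup (G ⧸ A)).comap (QuotientGroup.mk' A) := by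
      intro a ha
      show ((a : G) : G ⧸ A) ∈ (S : Subgroup (G ⧸ A))
      rw [(QuotientGroup.eq_one_iff a).mpr ha]
      exact one_mem _
    refine ⟨S, K ⊓ (S : Subgroup (G ⧸ A)).comap (QuotientGroup.mk' A), ?_, ?_⟩
    · rw [eq_bot_iff]
      rintro x hx
      have h1 : x ∈ K ⊓ A := Subgroup.mem_inf.mpr ⟨(Subgroup.mem_inf.mp (Subgroup.mem_inf.mp hx).1).1, (Subgroup.mem_inf.mp hx).2⟩
      rwa [hK.disjoint.eq_bot] at h1
    · apply le_antisymm
      · exact sup_le inf_le_right hAP
      · intro x hx
        have h1 : x ∈ ((K ⊔ A : Subgroup G) : Set G) := by rw [hK.sup_eq_top]; trivial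
        rw [Subgroup.mul_normal] at h1
        obtain ⟨k, hk, a, ha, hka⟩ := Set.mem_mul.mp h1
        have h2 : k ∈ (S : Subgroup (G ⧸ A)).comap (QuotientGroup.mk' A) := by
          have : k = x * a⁻¹ := by rw [← hka]; group
          rw [this]
          exact mul_mem hx (hAP (inv_mem ha))
        rw [← hka]
        exact mul_mem (Subgroup.mem_sup_left (Subgroup.mem_inf.mpr ⟨hk, h2⟩)) (Subgroup.mem_sup_right ha)
  · intro h
    let I : Ideal ℤ :=
      { carrier := {m | ∃ φ : G → A, (∀ g h, φ (g * h) = φ g * MulAut.conjNormal g (φ h)) ∧ ∀ a : A, φ a = a ^ m}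
        add_mem' := by
          rintro m₁ m₂ ⟨φ₁, h1, h2⟩ ⟨φ₂, h3, h4⟩
          refine ⟨fun g => φ₁ g * φ₂ g, ?_, ?_⟩
          · intro g h
            simp only [h1, h3, map_mul]
            exact mul_mul_mul_comm _ _ _ _
          · intro a
            simp only [h2, h4, zpow_add]
        zero_mem' := by
          refine ⟨fun _ => 1, ?_, ?_⟩
          · intro g h
            simp
          · intro a
            simp
        smul_mem' := by
          rintro c m ⟨φ, h1, h2⟩
          refine ⟨fun g => φ g ^ c, ?_, ?_⟩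
          · intro g h
            simp only [h1, mul_zpow, map_zpow]
          · intro a
            simp only [h2, smul_eq_mul]
            rw [mul_comm c m, zpow_mul] }
    have hI : ∀ (K : Subgroup G), K ⊓ A = ⊥ → (((K ⊔ A).index : ℕ) : ℤ) ∈ I := by
      intro K hK
      obtain ⟨φ, h1, h2⟩ := exists_cross hA.is_comm.comm K hK
      refine ⟨φ, h1, fun a => ?_⟩
      rw [h2, zpow_natCast]
    have hcardI : ((Nat.card A : ℕ) : ℤ) ∈ I := by
      refine ⟨fun _ => 1, by simp, fun a => ?_⟩
      rw [zpow_natCast, pow_card_eq_one']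
    have hidxI : ((A.index : ℕ) : ℤ) ∈ I := by
      have := hI ⊥ (bot_inf_eq A)
      rwa [bot_sup_eq] at this
    have hone : (1 : ℤ) ∈ I := by
      obtain ⟨d, hd⟩ := (IsPrincipalIdealRing.principal I : I.IsPrincipal)
      have hdvd : ∀ m, m ∈ I → d ∣ m := fun m hm => by
        rw [hd] at hm
        exact Ideal.mem_span_singleton.mp hm
      have hd1 : d.natAbs = 1 := by
        by_contra hne
        obtain ⟨q, hq, hqd⟩ := Nat.exists_prime_and_dvd hne
        have hqI : ∀ n : ℕ, ((n : ℕ) : ℤ) ∈ I → q ∣ n := fun n hn => by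
          have h1 := hdvd _ hn
          exact hqd.trans (Int.natAbs_dvd_natAbs.mpr h1 |>.trans (by simp))
        obtain ⟨S, K, hK1, hK2⟩ := h q hq (hqI _ hidxI)
        haveI : Fact q.Prime := ⟨hq⟩
        have h3 := hqI _ (hI K hK1)
        rw [hK2, Subgroup.index_comap_of_surjective _ (QuotientGroup.mk'_surjective A)] at h3
        exact S.not_dvd_index h3
      have hd2 : d = 1 ∨ d = -1 := Int.natAbs_eq_iff.mp (by simpa using hd1) |>.imp (by simp) (by simp)
      have hdI : d ∈ I := by
        rw [hd]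
        exact Ideal.mem_span_singleton_self d
      rcases hd2 with rfl | rfl
      · exact hdI
      · simpa using I.neg_mem hdI
    obtain ⟨φ, h1, h2⟩ := hone
    have h2' : ∀ a : A, φ a = a := fun a => by rw [h2, zpow_one]
    let K₀ : Subgroup G :=
      { carrier := {g | φ g = 1}
        mul_mem' := by
          intro a b ha hb
          show φ (a * b) = 1
          rw [h1, show φ a = 1 from ha, show φ b = 1 from hb, map_one, one_mul]
        one_mem' := by
          show φ 1 = 1
          exact h2' 1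
        inv_mem' := by
          intro a ha
          show φ a⁻¹ = 1
          have h3 := h1 a⁻¹ a
          rw [inv_mul_cancel, show φ a = 1 from ha, map_one, mul_one] at h3
          rw [← h3]
          exact h2' 1 }
    refine ⟨K₀, Subgroup.isComplement'_of_disjoint_and_mul_eq_univ ?_ ?_⟩
    · rw [Subgroup.disjoint_def]
      intro x hx hxA
      have h3 : φ x = 1 := hx
      have h4 := h2' ⟨x, hxA⟩
      have h5 : φ x = ⟨x, hxA⟩ := h4
      rw [h3] at h5
      exact (congrArg Subtype.val h5).symm
    · rw [Set.eq_univ_iff_forall]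
      intro g
      refine Set.mem_mul.mpr ⟨g * ((MulAut.conjNormal g⁻¹ (φ g)⁻¹ : A) : G), ?_, ((MulAut.conjNormal g⁻¹ (φ g)⁻¹ : A) : G)⁻¹, ?_, by group⟩
      · show φ _ = 1
        rw [h1, h2']
        rw [← MulAut.mul_apply, ← map_mul, mul_inv_cancel, map_one]
        simp
      · exact inv_mem (MulAut.conjNormal g⁻¹ (φ g)⁻¹ : A).2

end Cfsg.Agent.S4217
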