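import Cfsg.Statements.S4218
import Mathlib
import Cfsg.Agent.Lib.PSolv
import Cfsg.Agent.Lib.H1Fit
import Cfsg.Agent.Lib.H1Cop
import Cfsg.Agent.Lib.PGrp2
-- import your own Cfsg.Agent.* helpers here

set_option autoImplicit false
open Cfsg

namespace Cfsg.Agent.S4218

open Subgroup Cfsg Cfsg.Agent.Lib.H1Core
open scoped commutatorElement

/-- `O_{p'} = 1`: an element centralizing `O_p / Φ(O_p)` lies in `O_p`. -/
theorem mem_core_of_frattini {X : Type*} [Group X] [Finite X] {p : ℕ} [Fact p.Prime]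
    (hO : pPrimeCore p X = ⊥) (hs : IsPSolvable p X) (y : X)
    (hy : ∀ z ∈ pCore p X, y * z * y⁻¹ * z⁻¹ ∈ (frattini (pCore p X)).map (pCore p X).subtype) :
    y ∈ pCore p X := by
  classical
  set Q := pCore p X with hQ
  haveI hQn : Q.Normal := pCore_normal p X
  have hQp : IsPGroup p Q := pCore_isPGroup p
  set F : Subgroup X := (frattini Q).map Q.subtype with hF
  haveI hFn : F.Normal := normal_map_of_characteristic Q (frattini Q)
  have hFQ : F ≤ Q := by
    rintro _ ⟨x, _, rfl⟩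
    exact x.2
  let C : Subgroup X :=
    { carrier := {y | ∀ z ∈ Q, y * z * y⁻¹ * z⁻¹ ∈ F}
      mul_mem' := by
        intro a b ha hb z hz
        have h1 := hFn.conj_mem _ (hb z hz) a
        have h2 := ha z hz
        have e : a * b * z * (a * b)⁻¹ * z⁻¹ = (a * (b * z * b⁻¹ * z⁻¹) * a⁻¹) * (a * z * a⁻¹ * z⁻¹) := by group
        rw [e]
        exact F.mul_mem h1 h2
      one_mem' := by
        intro z _
        simp [F.one_mem]
      inv_mem' := by
        intro a ha z hz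
        have h1 := hFn.conj_mem _ (F.inv_mem (ha z hz)) a⁻¹
        have e : a⁻¹ * z * a⁻¹⁻¹ * z⁻¹ = a⁻¹ * (a * z * a⁻¹ * z⁻¹)⁻¹ * a⁻¹⁻¹ := by group
        rw [e]
        exact h1 }
  have hCmem : ∀ a, a ∈ C ↔ ∀ z ∈ Q, a * z * a⁻¹ * z⁻¹ ∈ F := fun a => Iff.rfl
  haveI hCn : C.Normal := by
    constructor
    intro a ha g z hz
    have hz' := hQn.conj_mem z hz g⁻¹
    have h1 := hFn.conj_mem _ (ha _ hz') g
    have e : g * a * g⁻¹ * z * (g * a * g⁻¹)⁻¹ * z⁻¹ =
        g * (a * (g⁻¹ * z * g⁻¹⁻¹) * a⁻¹ * (g⁻¹ * z * g⁻¹⁻¹)⁻¹) * g⁻¹ := by group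
    rw [e]
    exact h1
  have hCp : IsPGroup p C := by
    rw [IsPGroup.iff_card]
    refine ⟨_, Nat.eq_prime_pow_of_unique_prime_dvd Nat.card_pos.ne' ?_⟩
    intro q hq hqd
    by_contra hqp
    haveI : Fact q.Prime := ⟨hq⟩
    obtain ⟨t, ht⟩ := exists_prime_orderOf_dvd_card' q hqd
    have htord : orderOf (t : X) = q := (Subgroup.orderOf_coe t).trans ht
    set A := Subgroup.zpowers (t : X) with hA
    have hAC : A ≤ C := (Subgroup.zpowers_le).mpr t.2
    have hcardA : Nat.card A = q := by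
      rw [hA, Nat.card_zpowers, htord]
    have hcop : (Nat.card A).Coprime (Nat.card Q) := by
      rw [hcardA]
      obtain ⟨k, hk⟩ := IsPGroup.iff_card.mp hQp
      rw [hk]
      exact Nat.Coprime.pow_right _ ((Nat.coprime_primes hq Fact.out).mpr hqp)
    have hAQ : A ≤ normalizer (Q : Set X) := by
      rw [Subgroup.normalizer_eq_top_iff.mpr hQn]; exact le_top
    have hsolv : Group.IsSolvable A ∨ Group.IsSolvable Q := by
      left
      haveI : IsCyclic A := Subgroup.isCyclic_zpowers _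
      infer_instance
    have h1 := Cfsg.Agent.Lib.H1Cop.commutator_sup_centralizer hAQ hcop hsolv
    have h2 : ⁅Q, A⁆ ≤ F := by
      rw [Subgroup.commutator_le]
      intro z hz a ha
      have h3 := F.inv_mem (hAC ha z hz)
      have e : ⁅z, a⁆ = (a * z * a⁻¹ * z⁻¹)⁻¹ := by
        simp only [commutatorElement_def]
        group
      rw [e]
      exact h3
    -- `Q` centralizes `A`
    have hQc : Q ≤ centralizer (A : Set X) := by
      by_contra hnot
      have hT : (centralizer (A : Set X)).subgroupOf Q ≠ ⊤ := by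
        intro h
        apply hnot
        intro z hz
        have : (⟨z, hz⟩ : Q) ∈ (centralizer (A : Set X)).subgroupOf Q := by rw [h]; trivial
        exact this
      obtain ⟨M, hM, hle⟩ := (eq_top_or_exists_le_coatom _).resolve_left hT
      have hFM : frattini Q ≤ M := frattini_le_coatom hM
      apply hM.1
      rw [eq_top_iff]
      rintro ⟨z, hz⟩ -
      have hz' : z ∈ ⁅Q, A⁆ ⊔ (Q ⊓ centralizer (A : Set X)) := by rw [h1]; exact hz
      have hle2 : ⁅Q, A⁆ ⊔ (Q ⊓ centralizer (A : Set X)) ≤ M.map Q.subtype := by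
        apply sup_le
        · refine h2.trans ?_
          rw [hF]
          exact Subgroup.map_mono hFM
        · rintro w ⟨hw1, hw2⟩
          refine ⟨⟨w, hw1⟩, hle hw2, rfl⟩
      obtain ⟨w, hw, hwz⟩ := hle2 hz'
      have : w = ⟨z, hz⟩ := Subtype.ext hwz
      rwa [this] at hw
    have htc : (t : X) ∈ centralizer (Q : Set X) := by
      rw [Subgroup.mem_centralizer_iff]
      intro z hz
      have h3 := hQc hz
      have h4 : z ∈ centralizer (A : Set X) := h3
      exact (Subgroup.mem_centralizer_iff.mp h4 _ (Subgroup.mem_zpowers (t : X))).symm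
    have hsc : IsPSolvable p (centralizer (Q : Set X)) :=
      Cfsg.Agent.Lib.PSolv.isPSolvable_subgroup hs _
    have htQ := Cfsg.Agent.Lib.PSolv.centralizer_le_of_isPSolvable hO hsc htc
    have hel : IsPGroup p (zpowers (t : X)) := hQp.to_le ((Subgroup.zpowers_le).mpr htQ)
    obtain ⟨k, hk⟩ := IsPGroup.iff_card.mp hel
    rw [show Nat.card (zpowers (t : X)) = q from hcardA] at hk
    have : q ∣ p ^ k := hk ▸ dvd_rfl
    exact hqp ((Nat.prime_dvd_prime_iff_eq hq Fact.out).mp (hq.dvd_of_dvd_pow this))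
  exact le_pCore hCn hCp hy

/-- Let `G` be a finite `p`-solvable group, `N₀ = O_{p'}(G)`, `P₁ = O_{p',p}(G)`, and let `F ≤ P₁` be the preimage of the Frattini subgroup of `P₁/N₀`. Then an element `g` of `G` induces the identity on `P₁/F` by conjugation (that is, `g x g⁻¹ x⁻¹ ∈ F` for all `x ∈ P₁`) if and only if `g ∈ P₁`: the group `G/P₁` acts faithfully on `P₁/F`. -/
theorem result {G : Type*} [Group G] [Finite G] {p : ℕ} [Fact p.Prime] (hG : Cfsg.IsPSolvable p G) (g : G) : (∀ x ∈ Cfsg.pPrimePCore p G, g * x * g⁻¹ * x⁻¹ ∈ ((frattini (↥(Cfsg.pPrimePCore p G) ⧸ (Cfsg.pPrimeCore p G).subgroupOf (Cfsg.pPrimePCore p G))).comap (QuotientGroup.mk' ((Cfsg.pPrimeCore p G).subgroupOf (Cfsg.pPrimePCore p G)))).map (Cfsg.pPrimePCore p G).subtype) ↔ g ∈ Cfsg.pPrimePCore p G := by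
  classical
  set N₀ := pPrimeCore p G with hN₀
  set P₁ := pPrimePCore p G with hP₁
  have hP₁def : P₁ = (pCore p (G ⧸ N₀)).comap (QuotientGroup.mk' N₀) := rfl
  haveI hN₀n : N₀.Normal := Cfsg.Agent.Lib.H1Core.pPrimeCore_normal p G
  set π := QuotientGroup.mk' N₀ with hπ
  set Q := pCore p (G ⧸ N₀) with hQ
  have hmemP₁ : ∀ x, x ∈ P₁ ↔ π x ∈ Q := fun x => by rw [hP₁def]; rfl
  have hsurj : Function.Surjective π := QuotientGroup.mk'_surjective N₀
  -- the isomorphism between `P₁ / N₀` and `Q`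
  let f : ↥P₁ →* ↥Q := (π.comp P₁.subtype).codRestrict Q (fun x => (hmemP₁ _).mp x.2)
  have hfs : Function.Surjective f := by
    rintro ⟨z, hz⟩
    obtain ⟨x, rfl⟩ := hsurj z
    exact ⟨⟨x, (hmemP₁ x).mpr hz⟩, rfl⟩
  have hker : N₀.subgroupOf P₁ = f.ker := by
    ext x
    rw [Subgroup.mem_subgroupOf, MonoidHom.mem_ker]
    constructor
    · intro h
      apply Subtype.ext
      exact (QuotientGroup.eq_one_iff _).mpr h
    · intro h
      have h2 := congrArg Subtype.val h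
      exact (QuotientGroup.eq_one_iff _).mp h2
  let e : (↥P₁ ⧸ N₀.subgroupOf P₁) ≃* ↥Q :=
    (QuotientGroup.quotientMulEquivOfEq hker).trans (QuotientGroup.quotientKerEquivOfSurjective f hfs)
  have he : ∀ x : ↥P₁, e (QuotientGroup.mk' _ x) = f x := fun x => rfl
  have hVp : IsPGroup p (↥P₁ ⧸ N₀.subgroupOf P₁) := by
    have hQp : IsPGroup p Q := Cfsg.Agent.Lib.H1Core.pCore_isPGroup p
    intro v
    obtain ⟨k, hk⟩ := hQp (e v)
    refine ⟨k, e.injective ?_⟩
    rw [map_pow, hk, map_one]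
  constructor
  · intro h
    rw [hmemP₁]
    haveI hPs : IsPSolvable p (G ⧸ N₀) :=
      Cfsg.Agent.Lib.PSolv.isPSolvable_of_surjective π hsurj hG
    apply mem_core_of_frattini (Cfsg.Agent.Lib.H1Fit.pPrimeCore_quotient p) hPs
    intro z hz
    obtain ⟨x, rfl⟩ := hsurj z
    have hx : x ∈ P₁ := (hmemP₁ x).mpr hz
    obtain ⟨c, hc, hce⟩ := h x hx
    have hc2 : QuotientGroup.mk' _ c ∈ frattini (↥P₁ ⧸ N₀.subgroupOf P₁) := hc
    have hfr : (frattini (↥P₁ ⧸ N₀.subgroupOf P₁)).map e.toMonoidHom = frattini Q := e.mapSubgroup.map_radical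
    have h3 : f c ∈ frattini Q := by
      rw [← hfr, ← he]
      exact ⟨_, hc2, rfl⟩
    refine ⟨f c, h3, ?_⟩
    show π (c : G) = _
    have hce' : (c : G) = g * x * g⁻¹ * x⁻¹ := hce
    rw [hce']
    simp only [map_mul, map_inv]
  · intro hg x hx
    have hcm : g * x * g⁻¹ * x⁻¹ ∈ P₁ :=
      P₁.mul_mem (P₁.mul_mem (P₁.mul_mem hg hx) (P₁.inv_mem hg)) (P₁.inv_mem hx)
    refine ⟨⟨_, hcm⟩, ?_, rfl⟩
    show QuotientGroup.mk' _ _ ∈ frattini _
    have h1 := Cfsg.Agent.Lib.PGrp.commutator_le_frattini hVp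
    apply h1
    have e1 : (⟨_, hcm⟩ : ↥P₁) = ⁅(⟨g, hg⟩ : ↥P₁), (⟨x, hx⟩ : ↥P₁)⁆ := by
      apply Subtype.ext
      simp [commutatorElement_def]
    rw [e1, map_commutatorElement]
    exact Subgroup.commutator_mem_commutator (Subgroup.mem_top _) (Subgroup.mem_top _)

end Cfsg.Agent.S4218
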