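import Cfsg.Statements.S4219
import Cfsg.Agent.Lib.Herstein
-- import your own Cfsg.Agent.* helpers here

set_option autoImplicit false
open Cfsg

namespace Cfsg.Agent.S4219

open Subgroup

theorem mk_sylow {G : Type*} [Group G] [Finite G] {p : ℕ} [Fact p.Prime] (S : Subgroup G) (P : Sylow p S)
    (g : G) (hg : (((P : Subgroup S).map S.subtype).map (MulAut.conj g).toMonoidHom) ≤ S) :
    ∃ Q : Sylow p S, (Q : Subgroup S) =
      (((P : Subgroup S).map S.subtype).map (MulAut.conj g).toMonoidHom).subgroupOf S := by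
  have h1 : Nat.card ((((P : Subgroup S).map S.subtype).map (MulAut.conj g).toMonoidHom).subgroupOf S) =
      Nat.card (P : Subgroup S) := by
    rw [show Nat.card ((((P : Subgroup S).map S.subtype).map (MulAut.conj g).toMonoidHom).subgroupOf S) =
      Nat.card (((P : Subgroup S).map S.subtype).map (MulAut.conj g).toMonoidHom) from
        Nat.card_congr (Subgroup.subgroupOfEquivOfLe hg).toEquiv]
    rw [Subgroup.card_map_of_injective (MulAut.conj g).injective,
      Subgroup.card_map_of_injective S.subtype_injective]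
  refine ⟨Sylow.ofCard _ (by rw [h1]; exact P.card_eq_multiplicity), ?_⟩
  rfl

/-- Let a finite group `G` act `t`-fold transitively on a finite set, let `H` be the stabilizer of `t` distinct points and `P` a Sylow `p`-subgroup of `H`. Then the normalizer of `P` in `G` is `t`-fold transitive on the fixed points of `P`: any `t` distinct fixed points of `P` can be carried to any other `t` distinct fixed points of `P` by an element normalizing `P`. -/
theorem result {G : Type*} [Group G] [Finite G] {α : Type*} [Fintype α] [MulAction G α] {t : ℕ} (hG : MulAction.IsMultiplyPretransitive G α t) (x : Fin t ↪ α) {p : ℕ} [Fact p.Prime] (P : Sylow p (MulAction.stabilizer G x)) (a b : Fin t ↪ α) (ha : ∀ i, a i ∈ MulAction.fixedPoints ((P : Subgroup (MulAction.stabilizer G x)).map (MulAction.stabilizer G x).subtype) α) (hb : ∀ i, b i ∈ MulAction.fixedPoints ((P : Subgroup (MulAction.stabilizer G x)).map (MulAction.stabilizer G x).subtype) α) : ∃ g ∈ Subgroup.normalizer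 ((((P : Subgroup (MulAction.stabilizer G x)).map (MulAction.stabilizer G x).subtype) : Subgroup G) : Set G), g • a = b := by
  classical
  set P₁ : Subgroup G := (P : Subgroup (MulAction.stabilizer G x)).map (MulAction.stabilizer G x).subtype with hP₁
  obtain ⟨g₁, hg₁⟩ := MulAction.exists_smul_eq G x a
  obtain ⟨g₂, hg₂⟩ := MulAction.exists_smul_eq G x b
  have hfixa : ∀ u ∈ P₁, u • a = a := by
    intro u hu
    ext i
    exact ha i ⟨u, hu⟩
  have hfixb : ∀ u ∈ P₁, u • b = b := by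
    intro u hu
    ext i
    exact hb i ⟨u, hu⟩
  have hQ : ∀ (g : G) (c : Fin t ↪ α), g • x = c → (∀ u ∈ P₁, u • c = c) →
      P₁.map (MulAut.conj g⁻¹).toMonoidHom ≤ MulAction.stabilizer G x := by
    rintro g c hgc hfix _ ⟨u, hu, rfl⟩
    show (g⁻¹ * u * g⁻¹⁻¹) • x = x
    rw [inv_inv, mul_smul, mul_smul, hgc, hfix u hu, ← hgc, inv_smul_smul]
  obtain ⟨Q₁, hQ₁⟩ := mk_sylow (MulAction.stabilizer G x) P g₁⁻¹ (hQ g₁ a hg₁ hfixa)
  obtain ⟨Q₂, hQ₂⟩ := mk_sylow (MulAction.stabilizer G x) P g₂⁻¹ (hQ g₂ b hg₂ hfixb)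
  obtain ⟨h, hh⟩ := MulAction.exists_smul_eq (MulAction.stabilizer G x) Q₁ Q₂
  refine ⟨g₂ * h * g₁⁻¹, ?_, ?_⟩
  · apply Lib.Herstein.mem_normalizer_of_conj_le
    intro u hu
    -- `v = g₁⁻¹ u g₁` lies in `Q₁`
    have hvS := hQ g₁ a hg₁ hfixa ⟨u, hu, rfl⟩
    have hv : (⟨_, hvS⟩ : MulAction.stabilizer G x) ∈ (Q₁ : Subgroup (MulAction.stabilizer G x)) := by
      rw [hQ₁]
      exact ⟨u, hu, rfl⟩
    have hv2 : h * ⟨_, hvS⟩ * h⁻¹ ∈ (Q₂ : Subgroup (MulAction.stabilizer G x)) := by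
      rw [← hh]
      exact Subgroup.smul_mem_pointwise_smul _ _ _ hv
    rw [hQ₂] at hv2
    obtain ⟨u', hu', he⟩ := hv2
    have he' : g₂⁻¹ * u' * g₂⁻¹⁻¹ = (h : G) * (g₁⁻¹ * u * g₁⁻¹⁻¹) * (h : G)⁻¹ := he
    have : g₂ * (h : G) * g₁⁻¹ * u * (g₂ * (h : G) * g₁⁻¹)⁻¹ = u' := by
      have h1 : u' = g₂ * (g₂⁻¹ * u' * g₂⁻¹⁻¹) * g₂⁻¹ := by group
      rw [h1, he']; group
    rw [this]; exact hu'
  · rw [mul_smul, mul_smul, ← hg₁, inv_smul_smul, ← hg₂]
    congr 1
    exact h.2

end Cfsg.Agent.S4219
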