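import Cfsg.Statements.S4223
import Mathlib
-- import your own Cfsg.Agent.* helpers here

set_option autoImplicit false
open Cfsg

namespace Cfsg.Agent.S4223

universe u v

section Fit
variable {X : Type*} [Group X]

theorem end_mul_apply (a b : Monoid.End X) (x : X) : (a * b) x = a (b x) := rfl

theorem idem_pow [Finite X] (f : Monoid.End X) : ∃ k : ℕ, 1 ≤ k ∧ f ^ k * f ^ k = f ^ k := by
  haveI : Finite (Monoid.End X) :=
    Finite.of_injective (fun f : Monoid.End X => (f : X → X)) DFunLike.coe_injective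
  obtain ⟨a, b, hab, h⟩ := Finite.exists_ne_map_eq_of_infinite (fun k : ℕ => f ^ k)
  wlog hlt : a < b generalizing a b
  · exact this b a hab.symm h.symm (lt_of_le_of_ne (not_lt.1 hlt) hab.symm)
  obtain ⟨d, rfl⟩ : ∃ d, b = a + d := ⟨b - a, by omega⟩
  have hd : 1 ≤ d := by omega
  have h' : f ^ a = f ^ (a + d) := h
  have h1 : ∀ t r : ℕ, f ^ (a + r + t * d) = f ^ (a + r) := by
    intro t r
    induction t with
    | zero => simp
    | succ t ih =>
      have e1 : a + r + (t + 1) * d = (a + d) + (r + t * d) := by ring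
      have e2 : a + r + t * d = a + (r + t * d) := by ring
      rw [e1, pow_add, ← h', ← pow_add, ← e2, ih]
  refine ⟨(a + 1) * d, Nat.mul_pos (by omega) hd, ?_⟩
  have hge : a ≤ (a + 1) * d := by nlinarith
  obtain ⟨r, hr⟩ : ∃ r, (a + 1) * d = a + r := ⟨(a + 1) * d - a, by omega⟩
  rw [← pow_add]
  conv_lhs => rw [show (a + 1) * d + (a + 1) * d = a + ((a + 1) * d - a) + (a + 1) * d by omega]
  rw [h1]
  congr 1
  omega

theorem fitting [Finite X]
    (hX : ∀ H K : Subgroup X, H.Normal → K.Normal → H ⊓ K = ⊥ → H ⊔ K = ⊤ → H = ⊥ ∨ K = ⊥)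
    (f : Monoid.End X) (hf : ∀ x y : X, f (y * x * y⁻¹) = y * f x * y⁻¹) :
    Function.Bijective f ∨ ∃ k : ℕ, ∀ x : X, (f ^ k) x = 1 := by
  obtain ⟨k, hk, hid⟩ := idem_pow f
  have hn : ∀ (t : ℕ) (x y : X), (f ^ t) (y * x * y⁻¹) = y * (f ^ t) x * y⁻¹ := by
    intro t
    induction t with
    | zero => intro x y; simp
    | succ t ih =>
      intro x y
      rw [pow_succ, end_mul_apply, hf, ih, end_mul_apply]
  set e : X →* X := f ^ k with he
  have hee : ∀ x, e (e x) = e x := fun x => by
    have := DFunLike.congr_fun hid x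
    exact this
  have hnk : ∀ x y : X, e (y * x * y⁻¹) = y * e x * y⁻¹ := hn k
  have hN : e.ker.Normal := inferInstance
  have hM : e.range.Normal := by
    refine ⟨?_⟩
    rintro _ ⟨x, rfl⟩ y
    exact ⟨y * x * y⁻¹, hnk x y⟩
  have hinf : e.ker ⊓ e.range = ⊥ := by
    rw [eq_bot_iff]
    rintro z ⟨hz1, ⟨x, rfl⟩⟩
    have : e (e x) = 1 := hz1
    rw [hee] at this
    exact this
  have hsup : e.ker ⊔ e.range = ⊤ := by
    rw [eq_top_iff]
    intro x _
    have h1 : x = (x * (e x)⁻¹) * e x := by group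
    rw [h1]
    refine Subgroup.mul_mem _ (Subgroup.mem_sup_left ?_) (Subgroup.mem_sup_right ⟨x, rfl⟩)
    rw [MonoidHom.mem_ker, map_mul, map_inv, hee, mul_inv_cancel]
  rcases hX _ _ hN hM hinf hsup with h | h
  · left
    have hinj : Function.Injective e := (MonoidHom.ker_eq_bot_iff e).1 h
    have hf_inj : Function.Injective f := by
      intro a b hab
      apply hinj
      obtain ⟨t, rfl⟩ : ∃ t, k = t + 1 := ⟨k - 1, by omega⟩
      change (f ^ (t + 1)) a = (f ^ (t + 1)) b
      rw [pow_succ, end_mul_apply, end_mul_apply, hab]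
    exact Finite.injective_iff_bijective.1 hf_inj
  · right
    refine ⟨k, fun x => ?_⟩
    have : e x ∈ e.range := ⟨x, rfl⟩
    rw [h] at this
    exact this

theorem sum_lemma [Finite X]
    (hX : ∀ H K : Subgroup X, H.Normal → K.Normal → H ⊓ K = ⊥ → H ⊔ K = ⊤ → H = ⊥ ∨ K = ⊥)
    (f g h : X →* X) (hf : ∀ x y : X, f (y * x * y⁻¹) = y * f x * y⁻¹)
    (hg : ∀ x y : X, g (y * x * y⁻¹) = y * g x * y⁻¹)
    (hh : ∀ x y : X, h (y * x * y⁻¹) = y * h x * y⁻¹)
    (hs : ∀ x, h x = f x * g x) (hb : Function.Bijective h) :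
    Function.Bijective f ∨ Function.Bijective g := by
  let E : X ≃* X := MulEquiv.ofBijective h hb
  have hE : ∀ x, h (E.symm x) = x := fun x => E.apply_symm_apply x
  let f' : Monoid.End X := f.comp E.symm.toMonoidHom
  have hEn : ∀ x y : X, E.symm (y * x * y⁻¹) = y * E.symm x * y⁻¹ := by
    intro x y
    apply hb.1
    rw [hE, hh, hE]
  have hf' : ∀ x y : X, f' (y * x * y⁻¹) = y * f' x * y⁻¹ := by
    intro x y
    change f (E.symm (y * x * y⁻¹)) = y * f (E.symm x) * y⁻¹
    rw [hEn, hf]
  have hf'a : ∀ x, f' x = f (E.symm x) := fun _ => rfl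
  rcases fitting hX f' hf' with h1 | ⟨k, hk⟩
  · left
    have : (f : X → X) = f' ∘ E := by
      funext x
      simp [hf'a]
    rw [this]
    exact h1.comp E.bijective
  · right
    -- `g ∘ E⁻¹` is injective
    have hsum : ∀ x, f' x * g (E.symm x) = x := by
      intro x
      rw [hf'a, ← hs, hE]
    have hg_inj : Function.Injective g := by
      rw [injective_iff_map_eq_one]
      intro a ha
      have h0 : f' (E a) = E a := by
        have := hsum (E a)
        rw [E.symm_apply_apply, ha, mul_one] at this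
        exact this
      have h1 : ∀ t : ℕ, (f' ^ t) (E a) = E a := by
        intro t
        induction t with
        | zero => simp
        | succ t ih => rw [pow_succ, end_mul_apply, h0, ih]
      have h2 : E a = 1 := by rw [← h1 k]; exact hk _
      exact (map_eq_one_iff E E.injective).1 h2
    exact Finite.injective_iff_bijective.1 hg_inj

end Fit

section Tau
variable {J : Type*} [DecidableEq J] {B : J → Type*} [∀ j, Group (B j)]

/-- keep the coordinates in `S`. -/
def tau (S : Finset J) : (∀ j, B j) →* (∀ j, B j) where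
  toFun g j := if j ∈ S then g j else 1
  map_one' := by ext j; simp
  map_mul' a b := by
    ext j
    by_cases hj : j ∈ S <;> simp [hj]

theorem tau_apply (S : Finset J) (g : ∀ j, B j) (j : J) :
    tau S g j = if j ∈ S then g j else 1 := rfl

theorem exists_single [Fintype J] {X : Type*} [Group X] [Finite X] [Nontrivial X]
    (hX : ∀ H K : Subgroup X, H.Normal → K.Normal → H ⊓ K = ⊥ → H ⊔ K = ⊤ → H = ⊥ ∨ K = ⊥)
    (ι : X →* (∀ j, B j)) (π : (∀ j, B j) →* X) (hπι : ∀ x, π (ι x) = x) :
    ∃ j, Function.Bijective (fun x => π (Pi.mulSingle j (ι x j))) := by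
  let φ : Finset J → (X →* X) := fun S => π.comp ((tau S).comp ι)
  have hφ : ∀ S x, φ S x = π (tau S (ι x)) := fun _ _ => rfl
  have hnorm : ∀ (S : Finset J) (x y : X), φ S (y * x * y⁻¹) = y * φ S x * y⁻¹ := by
    intro S x y
    have key : tau S (ι y) * tau S (ι x) * (tau S (ι y))⁻¹ =
        ι y * tau S (ι x) * (ι y)⁻¹ := by
      ext j
      by_cases hj : j ∈ S <;> simp [tau_apply, hj]
    have h1 : φ S (y * x * y⁻¹) = π (tau S (ι y) * tau S (ι x) * (tau S (ι y))⁻¹) := by
      rw [hφ]; simp only [map_mul, map_inv]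
    rw [h1, key]
    simp only [map_mul, map_inv, hπι, hφ]
  have hsing : ∀ j x, φ {j} x = π (Pi.mulSingle j (ι x j)) := by
    intro j x
    rw [hφ]
    congr 1
    ext i
    by_cases hi : i = j
    · subst hi; simp [tau_apply]
    · simp [tau_apply, hi, Pi.mulSingle_eq_of_ne hi]
  have hind : ∀ S : Finset J, Function.Bijective (φ S) → ∃ j ∈ S, Function.Bijective (φ {j}) := by
    intro S
    induction S using Finset.induction_on with
    | empty =>
      intro hb
      exfalso
      obtain ⟨a, ha⟩ := exists_ne (1 : X)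
      apply ha
      apply hb.1
      rw [map_one]
      rw [hφ]
      have : tau (∅ : Finset J) (ι a) = 1 := by ext j; simp [tau_apply]
      rw [this, map_one]
    | insert a T ha ih =>
      intro hb
      have hs : ∀ x, φ (insert a T) x = φ T x * φ {a} x := by
        intro x
        rw [hφ, hφ, hφ, ← map_mul]
        congr 1
        ext j
        by_cases hj : j = a
        · subst hj; simp [tau_apply, ha]
        · by_cases hj2 : j ∈ T <;> simp [tau_apply, hj, hj2]
      rcases sum_lemma hX (φ T) (φ {a}) (φ (insert a T)) (hnorm T) (hnorm {a}) (hnorm _) hs hb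
        with h1 | h1
      · obtain ⟨j, hj, hbj⟩ := ih h1
        exact ⟨j, Finset.mem_insert_of_mem hj, hbj⟩
      · exact ⟨a, Finset.mem_insert_self _ _, h1⟩
  have huniv : Function.Bijective (φ Finset.univ) := by
    have : ∀ x, φ Finset.univ x = x := by
      intro x
      rw [hφ]
      have : tau (Finset.univ : Finset J) (ι x) = ι x := by ext j; simp [tau_apply]
      rw [this, hπι]
    constructor
    · intro a b hab; rwa [this, this] at hab
    · intro a; exact ⟨a, this a⟩
  obtain ⟨j, -, hj⟩ := hind _ huniv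
  refine ⟨j, ?_⟩
  convert hj using 1
  funext x
  exact (hsing j x).symm

end Tau

theorem key {m n : ℕ} {A : Fin (m + 1) → Type u} {B : Fin (n + 1) → Type v}
    [∀ i, Group (A i)] [∀ j, Group (B j)] [∀ i, Finite (A i)] [∀ j, Finite (B j)]
    (hA : Nontrivial (A 0) ∧ ∀ H K : Subgroup (A 0), H.Normal → K.Normal → H ⊓ K = ⊥ → H ⊔ K = ⊤ → H = ⊥ ∨ K = ⊥)
    (hB : ∀ j, ∀ H K : Subgroup (B j), H.Normal → K.Normal → H ⊓ K = ⊥ → H ⊔ K = ⊤ → H = ⊥ ∨ K = ⊥)
    (e : ((i : Fin (m + 1)) → A i) ≃* ((j : Fin (n + 1)) → B j)) :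
    ∃ j : Fin (n + 1), Nonempty (A 0 ≃* B j) ∧
      Nonempty (((i : Fin m) → A i.succ) ≃* ((k : Fin n) → B (j.succAbove k))) := by
  haveI := hA.1
  let ι : A 0 →* ((j : Fin (n + 1)) → B j) :=
    e.toMonoidHom.comp (MonoidHom.mulSingle A 0)
  let π : ((j : Fin (n + 1)) → B j) →* A 0 :=
    (Pi.evalMonoidHom A 0).comp e.symm.toMonoidHom
  have hιa : ∀ x, ι x = e (Pi.mulSingle 0 x) := fun _ => rfl
  have hπa : ∀ g, π g = e.symm g 0 := fun _ => rfl
  have hπι : ∀ x, π (ι x) = x := by
    intro x
    rw [hπa, hιa, e.symm_apply_apply]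
    simp
  have hconj : ∀ g x, g * ι x * g⁻¹ = ι (π g * x * (π g)⁻¹) := by
    intro g x
    apply e.symm.injective
    rw [hιa, map_mul, map_mul, map_inv, e.symm_apply_apply, hιa, e.symm_apply_apply, hπa]
    ext i
    by_cases hi : i = 0
    · subst hi; simp
    · simp [Pi.mulSingle_eq_of_ne hi]
  obtain ⟨j, hj⟩ := exists_single hA.2 ι π hπι
  -- the two maps
  let α : A 0 →* B j := (Pi.evalMonoidHom B j).comp ι
  let β : B j →* A 0 := π.comp (MonoidHom.mulSingle B j)
  have hαa : ∀ x, α x = ι x j := fun _ => rfl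
  have hβa : ∀ z, β z = π (Pi.mulSingle j z) := fun _ => rfl
  have hφ : Function.Bijective (fun x => β (α x)) := hj
  have hαinj : Function.Injective α := by
    intro a b hab
    apply hφ.1
    change β (α a) = β (α b)
    rw [hab]
  let ψ : Monoid.End (B j) := α.comp β
  have hψa : ∀ z, ψ z = α (β z) := fun _ => rfl
  have hψn : ∀ x y : B j, ψ (y * x * y⁻¹) = y * ψ x * y⁻¹ := by
    intro x y
    have h1 := congrFun (hconj (Pi.mulSingle j y) (β x)) j
    simp only [Pi.mul_apply, Pi.inv_apply, Pi.mulSingle_eq_same] at h1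
    have h2 : β (y * x * y⁻¹) = π (Pi.mulSingle j y) * β x * (π (Pi.mulSingle j y))⁻¹ := by
      rw [map_mul, map_mul, map_inv, hβa y]
    rw [hψa, hψa, h2, hαa, ← h1, hαa]
  have hψb : Function.Bijective ψ := by
    rcases fitting (hB j) ψ hψn with h | ⟨k, hk⟩
    · exact h
    · exfalso
      have h1 : ∀ (t : ℕ) x, (ψ ^ t) (α x) = α ((fun x => β (α x))^[t] x) := by
        intro t
        induction t with
        | zero => intro x; simp
        | succ t ih =>
          intro x
          rw [pow_succ, end_mul_apply, Function.iterate_succ_apply]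
          rw [hψa]
          exact ih _
      obtain ⟨a, ha⟩ := exists_ne (1 : A 0)
      have h2 : α ((fun x => β (α x))^[k] a) = α ((fun x => β (α x))^[k] 1) := by
        rw [← h1, ← h1, hk, hk]
      have h3 := (hφ.1.iterate k) (hαinj h2)
      exact ha h3
  have hαb : Function.Bijective α := ⟨hαinj, fun z => by
    obtain ⟨w, hw⟩ := hψb.2 z
    exact ⟨β w, hw⟩⟩
  refine ⟨j, ⟨MulEquiv.ofBijective α hαb⟩, ?_⟩
  -- the exchange map
  let ins : ((k : Fin n) → B (j.succAbove k)) →* ((j' : Fin (n + 1)) → B j') :=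
    { toFun := fun b => j.insertNth 1 b
      map_one' := by
        ext i
        refine Fin.succAboveCases j ?_ ?_ i
        · simp
        · intro k; simp
      map_mul' := by
        intro a b
        ext i
        refine Fin.succAboveCases j ?_ ?_ i
        · simp
        · intro k; simp }
  have hinsj : ∀ b, ins b j = 1 := fun b => by
    change j.insertNth (α := fun j' => B j') 1 b j = 1
    simp
  have hinsk : ∀ b k, ins b (j.succAbove k) = b k := fun b k => by
    change j.insertNth (α := fun j' => B j') 1 b (j.succAbove k) = b k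
    simp
  let θ : ((k : Fin n) → B (j.succAbove k)) →* ((i : Fin m) → A i.succ) :=
    { toFun := fun b i => e.symm (ins b) i.succ
      map_one' := by ext i; simp
      map_mul' := by intro a b; ext i; simp }
  have hθa : ∀ b i, θ b i = e.symm (ins b) i.succ := fun _ _ => rfl
  have hθinj : Function.Injective θ := by
    rw [injective_iff_map_eq_one]
    intro b hb
    have h1 : e.symm (ins b) = Pi.mulSingle 0 (e.symm (ins b) 0) := by
      ext i
      refine Fin.cases ?_ (fun i' => ?_) i
      · simp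
      · have := congrFun hb i'
        rw [hθa] at this
        rw [this]
        simp [Pi.mulSingle_eq_of_ne (Fin.succ_ne_zero i')]
    set x := e.symm (ins b) 0 with hx
    have h2 : ins b = ι x := by
      rw [hιa, ← h1, e.apply_symm_apply]
    have h3 : α x = 1 := by
      rw [hαa, ← h2, hinsj]
    have h4 : x = 1 := by
      apply hαinj
      rw [h3, map_one]
    have h5 : ins b = 1 := by
      rw [h2, h4, map_one]
    ext k
    rw [← hinsk b k, h5]
    simp
  have hcard : Nat.card ((i : Fin m) → A i.succ) ≤ Nat.card ((k : Fin n) → B (j.succAbove k)) := by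
    have h1 : Nat.card ((i : Fin (m + 1)) → A i) = Nat.card ((j : Fin (n + 1)) → B j) :=
      Nat.card_congr e.toEquiv
    rw [Nat.card_pi, Nat.card_pi, Fin.prod_univ_succ, Fin.prod_univ_succAbove _ j] at h1
    have h2 : Nat.card (A 0) = Nat.card (B j) := Nat.card_congr (MulEquiv.ofBijective α hαb).toEquiv
    rw [h2] at h1
    have h3 : 0 < Nat.card (B j) := Nat.card_pos
    have h4 := Nat.eq_of_mul_eq_mul_left h3 h1
    rw [Nat.card_pi, Nat.card_pi, h4]
  exact ⟨(MulEquiv.ofBijective θ (hθinj.bijective_of_nat_card_le hcard)).symm⟩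

theorem main : ∀ (m n : ℕ) (A : Fin m → Type u) (B : Fin n → Type v)
    [∀ i, Group (A i)] [∀ j, Group (B j)] [∀ i, Finite (A i)] [∀ j, Finite (B j)]
    (_ : ∀ i, Nontrivial (A i) ∧ ∀ H K : Subgroup (A i), H.Normal → K.Normal → H ⊓ K = ⊥ → H ⊔ K = ⊤ → H = ⊥ ∨ K = ⊥)
    (_ : ∀ j, Nontrivial (B j) ∧ ∀ H K : Subgroup (B j), H.Normal → K.Normal → H ⊓ K = ⊥ → H ⊔ K = ⊤ → H = ⊥ ∨ K = ⊥)
    (_ : ((i : Fin m) → A i) ≃* ((j : Fin n) → B j)),
    ∃ σ : Fin m ≃ Fin n, ∀ i, Nonempty (A i ≃* B (σ i)) := by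
  intro m
  induction m with
  | zero =>
    intro n A B _ _ _ _ hA hB e
    cases n with
    | zero => exact ⟨Equiv.refl _, fun i => i.elim0⟩
    | succ n =>
      exfalso
      haveI := (hB 0).1
      obtain ⟨a, ha⟩ := exists_ne (1 : B 0)
      have h1 : e.symm (Pi.mulSingle 0 a) = 1 := by
        ext i; exact i.elim0
      have h2 : (Pi.mulSingle 0 a : (j : Fin (n + 1)) → B j) = 1 :=
        (map_eq_one_iff e.symm e.symm.injective).1 h1
      have h3 := congrFun h2 0
      simp at h3
      exact ha h3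
  | succ m ih =>
    intro n A B _ _ _ _ hA hB e
    cases n with
    | zero =>
      exfalso
      haveI := (hA 0).1
      obtain ⟨a, ha⟩ := exists_ne (1 : A 0)
      have h1 : e (Pi.mulSingle 0 a) = 1 := by
        ext i; exact i.elim0
      have h2 : (Pi.mulSingle 0 a : (i : Fin (m + 1)) → A i) = 1 :=
        (map_eq_one_iff e e.injective).1 h1
      have h3 := congrFun h2 0
      simp at h3
      exact ha h3
    | succ n =>
      obtain ⟨j, ⟨iso⟩, ⟨e'⟩⟩ := key (hA 0) (fun j => (hB j).2) e
      obtain ⟨σ', hσ'⟩ := ih n (fun i => A i.succ) (fun k => B (j.succAbove k))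
        (fun i => hA i.succ) (fun k => hB (j.succAbove k)) e'
      let σ : Fin (m + 1) ≃ Fin (n + 1) :=
        (finSuccEquiv m).trans ((Equiv.optionCongr σ').trans (finSuccEquiv' j).symm)
      have h0 : σ 0 = j := by simp [σ]
      have hs : ∀ i, σ i.succ = j.succAbove (σ' i) := by
        intro i; simp [σ]
      refine ⟨σ, fun i => ?_⟩
      refine Fin.cases ?_ (fun i' => ?_) i
      · rw [h0]; exact ⟨iso⟩
      · rw [hs]; exact hσ' i'

/-- If a finite group is isomorphic both to a direct product of `m` directly indecomposable nontrivial groups and to a direct product of `n` such groups (a group is directly indecomposable when it is not the internal direct product of two nontrivial normal subgroups), then `m = n` and the factors are isomorphic in pairs after a suitable matching. -/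
theorem result {m n : ℕ} {A : Fin m → Type*} {B : Fin n → Type*} [∀ i, Group (A i)] [∀ j, Group (B j)] [∀ i, Finite (A i)] [∀ j, Finite (B j)] (hA : ∀ i, Nontrivial (A i) ∧ ∀ H K : Subgroup (A i), H.Normal → K.Normal → H ⊓ K = ⊥ → H ⊔ K = ⊤ → H = ⊥ ∨ K = ⊥) (hB : ∀ j, Nontrivial (B j) ∧ ∀ H K : Subgroup (B j), H.Normal → K.Normal → H ⊓ K = ⊥ → H ⊔ K = ⊤ → H = ⊥ ∨ K = ⊥) (e : ((i : Fin m) → A i) ≃* ((j : Fin n) → B j)) : ∃ σ : Fin m ≃ Fin n, ∀ i, Nonempty (A i ≃* B (σ i)) := by
  exact main m n A B hA hB e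

end Cfsg.Agent.S4223
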