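import Cfsg.Statements.S4224
import Mathlib
import Cfsg.Agent.Lib.RegP
-- import your own Cfsg.Agent.* helpers here

set_option autoImplicit false
open Cfsg

namespace Cfsg.Agent.S4224

/-- In a regular `p`-group, for all elements `a`, `b` and every power `q = p^k`: `a^q` commutes with `b` if and only if the commutator `a⁻¹b⁻¹ab` has `q`-th power equal to `1`. -/
theorem result {G : Type*} [Group G] [Finite G] {p : ℕ} [Fact p.Prime] (hG : Cfsg.IsRegularPGroup p G) (a b : G) (k : ℕ) : a ^ p ^ k * b = b * a ^ p ^ k ↔ (a⁻¹ * b⁻¹ * a * b) ^ p ^ k = 1 := by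
  have h := Lib.RegP.main p _ G rfl hG k a⁻¹ (b⁻¹ * a * b)
  have e1 : a⁻¹ * (b⁻¹ * a * b) = a⁻¹ * b⁻¹ * a * b := by group
  rw [e1] at h
  rw [h, inv_pow]
  have e2 : (b⁻¹ * a * b) ^ p ^ k = b⁻¹ * a ^ p ^ k * b := by
    have := conj_pow (a := b⁻¹) (b := a) (i := p ^ k)
    simpa using this
  rw [e2]
  constructor
  · intro h1
    rw [mul_assoc b⁻¹, h1]
    group
  · intro h1
    have h2 : b⁻¹ * a ^ p ^ k * b = a ^ p ^ k := by
      have := congrArg (fun t => a ^ p ^ k * t) h1
      simpa using this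
    have h3 := congrArg (fun t => b * t) h2
    simpa [mul_assoc] using h3

end Cfsg.Agent.S4224
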