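import Cfsg.Statements.S4275
-- import your own Cfsg.Agent.* helpers here

set_option autoImplicit false
open Cfsg

namespace Cfsg.Agent.S4275

/-- Let G be a transitive group of permutations of a finite set Ω, let o ∈ Ω, and let α be an automorphism of G. Then α is induced by conjugation by a permutation of Ω normalizing G if and only if the image under α of the stabilizer of o fixes some point of Ω. -/
theorem result {Ω : Type*} [Fintype Ω] (G : Subgroup (Equiv.Perm Ω)) (htr : MulAction.IsPretransitive G Ω) (o : Ω) (α : G ≃* G) : (∃ σ : Equiv.Perm Ω, σ ∈ Subgroup.normalizer (G : Set (Equiv.Perm Ω)) ∧ ∀ g : G, ((α g : G) : Equiv.Perm Ω) = σ * (g : Equiv.Perm Ω) * σ⁻¹) ↔ ∃ ω : Ω, ∀ g ∈ (MulAction.stabilizer G o).map α.toMonoidHom, g • ω = ω := by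
  classical
  constructor
  · rintro ⟨σ, -, hσ⟩
    refine ⟨σ o, ?_⟩
    rintro _ ⟨h, hh, rfl⟩
    have hh' : (h : Equiv.Perm Ω) o = o := hh
    show ((α h : G) : Equiv.Perm Ω) (σ o) = σ o
    rw [hσ h]
    simp [hh']
  · rintro ⟨ω, hω⟩
    have hle : (MulAction.stabilizer G o).map α.toMonoidHom ≤ MulAction.stabilizer G ω := by
      intro g hg
      exact hω g hg
    have hEq : (MulAction.stabilizer G o).map α.toMonoidHom = MulAction.stabilizer G ω := by
      apply Subgroup.eq_of_le_of_card_ge hle
      rw [Subgroup.card_map_of_injective α.injective]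
      have h1 := Subgroup.card_mul_index (MulAction.stabilizer G o)
      have h2 := Subgroup.card_mul_index (MulAction.stabilizer G ω)
      rw [MulAction.index_stabilizer_of_transitive] at h1 h2
      have hpos : 0 < Nat.card Ω := Nat.card_pos_iff.mpr ⟨⟨o⟩, inferInstance⟩
      exact le_of_eq (Nat.eq_of_mul_eq_mul_right hpos (h2.trans h1.symm))
    choose gx hgx using fun x : Ω => htr.exists_smul_eq o x
    let f : Ω → Ω := fun x => (α (gx x) : G) • ω
    have hf : ∀ g : G, f (g • o) = α g • ω := by
      intro g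
      show (α (gx (g • o)) : G) • ω = α g • ω
      have h1 : g⁻¹ * gx (g • o) ∈ MulAction.stabilizer G o := by
        rw [MulAction.mem_stabilizer_iff, mul_smul, hgx]
        simp
      have h2 : α (g⁻¹ * gx (g • o)) ∈ MulAction.stabilizer G ω := by
        apply hle
        exact ⟨_, h1, rfl⟩
      rw [MulAction.mem_stabilizer_iff, map_mul, mul_smul, map_inv, inv_smul_eq_iff] at h2
      exact h2
    have hinj : Function.Injective f := by
      intro x y hxy
      have h1 : (α (gx y))⁻¹ * α (gx x) ∈ MulAction.stabilizer G ω := by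
        rw [MulAction.mem_stabilizer_iff, mul_smul, inv_smul_eq_iff]
        exact hxy
      rw [← hEq] at h1
      obtain ⟨k, hk, hk2⟩ := h1
      have hk3 : k = (gx y)⁻¹ * gx x := by
        apply α.injective
        have : α k = _ := hk2
        rw [this, map_mul, map_inv]
      have hk' : (gx y)⁻¹ * gx x ∈ MulAction.stabilizer G o := hk3 ▸ hk
      rw [MulAction.mem_stabilizer_iff, mul_smul, inv_smul_eq_iff, hgx, hgx] at hk'
      exact hk'
    let σ : Equiv.Perm Ω := Equiv.ofBijective f (Finite.injective_iff_bijective.mp hinj)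
    have hσ : ∀ g : G, ((α g : G) : Equiv.Perm Ω) = σ * (g : Equiv.Perm Ω) * σ⁻¹ := by
      intro g
      rw [eq_mul_inv_iff_mul_eq]
      ext x
      show ((α g : G) : Equiv.Perm Ω) (f x) = f ((g : Equiv.Perm Ω) x)
      have hx := hgx x
      have h1 : f x = α (gx x) • ω := rfl
      have h2 : ((g : Equiv.Perm Ω) x) = (g * gx x) • o := by
        rw [mul_smul, hgx]
        rfl
      rw [h2, hf, h1, map_mul, mul_smul]
      rfl
    refine ⟨σ, ?_, hσ⟩
    rw [Subgroup.mem_normalizer_iff]
    intro h
    constructor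
    · intro hh
      have := hσ ⟨h, hh⟩
      show σ * h * σ⁻¹ ∈ G
      rw [← show ((α ⟨h, hh⟩ : G) : Equiv.Perm Ω) = σ * h * σ⁻¹ from this]
      exact (α ⟨h, hh⟩).2
    · intro hh
      have h1 := hσ (α.symm ⟨_, hh⟩)
      rw [MulEquiv.apply_symm_apply] at h1
      have h2 : σ * h * σ⁻¹ = σ * ((α.symm ⟨_, hh⟩ : G) : Equiv.Perm Ω) * σ⁻¹ := h1
      have h3 : h = ((α.symm ⟨_, hh⟩ : G) : Equiv.Perm Ω) := by
        simpa using h2
      rw [h3]
      exact (α.symm ⟨_, hh⟩).2

end Cfsg.Agent.S4275
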