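import Cfsg.Statements.S4283
import Cfsg.Agent.Lib.H1Frob
-- import your own Cfsg.Agent.* helpers here

set_option autoImplicit false
open Cfsg

namespace Cfsg.Agent.S4283

open Subgroup
open scoped Pointwise

/-- Let G be a finite group with centre Z and let K, H be abelian subgroups of G containing Z such that G/Z is a Frobenius group with complement H/Z and kernel K/Z. Then the conjugacy class sizes of G are exactly 1, [G : K] and [G : H], and these two indices are coprime. (This is the converse half of the characterization of finite groups whose conjugacy class sizes are exactly 1, m and n with m and n coprime.) -/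
theorem result {G : Type*} [Group G] [Finite G] (K H : Subgroup G) (hZK : Subgroup.center G ≤ K) (hZH : Subgroup.center G ≤ H) (hK : IsMulCommutative K) (hH : IsMulCommutative H) (hFrob : Cfsg.IsFrobeniusComplement (H.map (QuotientGroup.mk' (Subgroup.center G)))) (hker : Cfsg.frobeniusKernel (H.map (QuotientGroup.mk' (Subgroup.center G))) = (K.map (QuotientGroup.mk' (Subgroup.center G)) : Set (G ⧸ Subgroup.center G))) : Set.range (fun x : G => (Subgroup.centralizer ({x} : Set G)).index) = ({1, K.index, H.index} : Set ℕ) ∧ K.index.Coprime H.index := by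
  classical
  set Z := Subgroup.center G with hZ
  let π := QuotientGroup.mk' Z
  have hπs : Function.Surjective π := QuotientGroup.mk'_surjective Z
  have hπ1 : ∀ x, π x = 1 ↔ x ∈ Z := fun x => QuotientGroup.eq_one_iff x
  set Hb := H.map π with hHb
  set Kb := K.map π with hKb
  have hcomap : ∀ (L : Subgroup G), Z ≤ L → ∀ g, π g ∈ L.map π → g ∈ L := by
    intro L hL g hg
    obtain ⟨l, hl, hlg⟩ := hg
    have h1 : l⁻¹ * g ∈ Z := by
      rw [← hπ1, map_mul, map_inv, hlg, inv_mul_cancel]
    have h2 := L.mul_mem hl (hL h1)
    simpa using h2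
  have hkermem : ∀ x, x ∈ Kb ↔ x ∈ frobeniusKernel Hb := by
    intro x
    rw [hker]
    rfl
  have hHcomm : ∀ a ∈ H, ∀ b ∈ H, a * b = b * a := by
    intro a ha b hb
    have := hH.is_comm.comm (⟨a, ha⟩ : H) (⟨b, hb⟩ : H)
    exact congrArg Subtype.val this
  have hKcomm : ∀ a ∈ K, ∀ b ∈ K, a * b = b * a := by
    intro a ha b hb
    have := hK.is_comm.comm (⟨a, ha⟩ : K) (⟨b, hb⟩ : K)
    exact congrArg Subtype.val this
  -- centralizers of elements of `H`
  have cH : ∀ x ∈ H, x ∉ Z → centralizer ({x} : Set G) = H := by
    intro x hx hxZ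
    ext g
    rw [mem_centralizer_singleton_iff]
    constructor
    · intro hg
      by_contra hgH
      have hgb : π g ∉ Hb := fun h => hgH (hcomap H hZH g h)
      have h0 := hFrob.2.2 (π g) hgb
      have h1 : π x ∈ Hb ⊓ (MulAut.conj (π g) • Hb) := by
        refine ⟨⟨x, hx, rfl⟩, Lib.H1Core.mem_conj_smul.mpr ?_⟩
        have e : (π g)⁻¹ * π x * π g = π x := by
          rw [← map_inv, ← map_mul, ← map_mul]
          congr 1
          rw [mul_assoc, ← hg]; group
        rw [e]
        exact ⟨x, hx, rfl⟩
      rw [h0] at h1
      exact hxZ ((hπ1 x).mp h1)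
    · intro hg
      exact hHcomm g hg x hx
  -- centralizers of elements of `K`
  have cK : ∀ x ∈ K, x ∉ Z → centralizer ({x} : Set G) = K := by
    intro x hx hxZ
    ext g
    rw [mem_centralizer_singleton_iff]
    constructor
    · intro hg
      by_contra hgK
      have hgb : π g ∉ frobeniusKernel Hb := by
        rw [← hkermem]
        exact fun h => hgK (hcomap K hZK g h)
      obtain ⟨hg1, u, hu⟩ := Lib.H1Frob.not_mem_kernel_iff.mp hgb
      have hxb : π x ∈ frobeniusKernel Hb := (hkermem _).mp ⟨x, hx, rfl⟩
      have hx1 : π x ≠ 1 := fun h => hxZ ((hπ1 x).mp h)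
      have hcom : π g * π x = π x * π g := by rw [← map_mul, hg, map_mul]
      set ybar := u⁻¹ * π x * u with hy
      set hbar := u⁻¹ * π g * u with hh
      have hcom2 : hbar * ybar = ybar * hbar := by
        calc hbar * ybar = u⁻¹ * (π g * π x) * u := by rw [hh, hy]; group
          _ = u⁻¹ * (π x * π g) * u := by rw [hcom]
          _ = ybar * hbar := by rw [hh, hy]; group
      have hb1 : hbar ≠ 1 := by
        intro h
        apply hg1
        have : π g = u * hbar * u⁻¹ := by rw [hh]; group
        rw [this, h]; group
      have hyH : ybar ∈ Hb := by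
        by_contra hyH
        have h0 := hFrob.2.2 ybar hyH
        have h1 : hbar ∈ Hb ⊓ (MulAut.conj ybar • Hb) := by
          refine ⟨hu, Lib.H1Core.mem_conj_smul.mpr ?_⟩
          have e : ybar⁻¹ * hbar * ybar = hbar := by
            rw [mul_assoc, hcom2]; group
          rw [e]
          exact hu
        rw [h0] at h1
        exact hb1 h1
      exact (Lib.H1Frob.not_mem_kernel_iff.mpr ⟨hx1, u, hyH⟩) hxb
    · intro hg
      exact hKcomm g hg x hx
  -- conjugate centralizers
  have cconj : ∀ x u : G, (centralizer ({u⁻¹ * x * u} : Set G)).index = (centralizer ({x} : Set G)).index := by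
    intro x u
    have h1 : centralizer ({u⁻¹ * x * u} : Set G) = (centralizer ({x} : Set G)).comap (MulAut.conj u).toMonoidHom := by
      ext g
      rw [Subgroup.mem_comap, mem_centralizer_singleton_iff, mem_centralizer_singleton_iff]
      show g * (u⁻¹ * x * u) = u⁻¹ * x * u * g ↔ u * g * u⁻¹ * x = x * (u * g * u⁻¹)
      constructor
      · intro h
        calc u * g * u⁻¹ * x = u * (g * (u⁻¹ * x * u)) * u⁻¹ := by group
          _ = u * (u⁻¹ * x * u * g) * u⁻¹ := by rw [h]
          _ = x * (u * g * u⁻¹) := by group
      · intro h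
        calc g * (u⁻¹ * x * u) = u⁻¹ * (u * g * u⁻¹ * x) * u := by group
          _ = u⁻¹ * (x * (u * g * u⁻¹)) * u := by rw [h]
          _ = u⁻¹ * x * u * g := by group
    rw [h1, Subgroup.index_comap_of_surjective _ (MulAut.conj u).surjective]
  have hcenter1 : ∀ x ∈ Z, (centralizer ({x} : Set G)).index = 1 := by
    intro x hx
    rw [Subgroup.index_eq_one, eq_top_iff]
    intro g _
    rw [mem_centralizer_singleton_iff]
    exact (Subgroup.mem_center_iff.mp hx g)
  -- the kernel has order the index of H
  have hcardK : Nat.card Kb = Hb.index := by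
    have h1 := Lib.H1Frob.card_kernel hFrob
    rw [hker] at h1
    exact h1
  have hHbne : Hb.index ≠ 1 := by
    intro h
    rw [Subgroup.index_eq_one] at h
    exact hFrob.2.1 h
  constructor
  · ext n
    constructor
    · rintro ⟨x, rfl⟩
      by_cases hxZ : x ∈ Z
      · exact Or.inl (hcenter1 x hxZ)
      by_cases hxK : x ∈ K
      · right; left
        show (centralizer ({x} : Set G)).index = K.index
        rw [cK x hxK hxZ]
      · right; right
        have hxb : π x ∉ frobeniusKernel Hb := by
          rw [← hkermem]
          exact fun h => hxK (hcomap K hZK x h)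
        obtain ⟨-, ub, hub⟩ := Lib.H1Frob.not_mem_kernel_iff.mp hxb
        obtain ⟨u, rfl⟩ := hπs ub
        have hy : u⁻¹ * x * u ∈ H := by
          apply hcomap H hZH
          rw [map_mul, map_mul, map_inv]
          exact hub
        have hyZ : u⁻¹ * x * u ∉ Z := by
          intro h
          apply hxZ
          have h1 := (inferInstance : Z.Normal).conj_mem _ h u
          have e : u * (u⁻¹ * x * u) * u⁻¹ = x := by group
          rwa [e] at h1
        show (centralizer ({x} : Set G)).index = H.index
        rw [← cconj x u, cH _ hy hyZ]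
    · rintro (rfl | rfl | rfl)
      · exact ⟨1, hcenter1 1 (one_mem _)⟩
      · -- an element of `K` outside the centre
        have h1 : 1 < Nat.card Kb := by
          rw [hcardK]
          have h2 : 0 < Hb.index := Nat.pos_of_ne_zero Subgroup.index_ne_zero_of_finite
          omega
        haveI : Nontrivial Kb := Finite.one_lt_card_iff_nontrivial.mp h1
        obtain ⟨⟨xb, hxb⟩, hne⟩ := exists_ne (1 : Kb)
        obtain ⟨x, hx, rfl⟩ := hxb
        have hxZ : x ∉ Z := by
          intro h
          apply hne
          apply Subtype.ext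
          exact (hπ1 x).mpr h
        refine ⟨x, ?_⟩
        show (centralizer ({x} : Set G)).index = K.index
        rw [cK x hx hxZ]
      · obtain ⟨xb, hxb, hne⟩ := (Subgroup.ne_bot_iff_exists_ne_one.mp hFrob.1) |> fun ⟨x, hx⟩ =>
          (⟨x.1, x.2, fun h => hx (Subtype.ext h)⟩ : ∃ y, y ∈ Hb ∧ y ≠ 1)
        obtain ⟨x, hx, rfl⟩ := hxb
        have hxZ : x ∉ Z := fun h => hne ((hπ1 x).mpr h)
        refine ⟨x, ?_⟩
        show (centralizer ({x} : Set G)).index = H.index
        rw [cH x hx hxZ]
  · have hKi : K.index = Kb.index := by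
      have h1 : Kb.comap π = K := by
        rw [hKb, Subgroup.comap_map_eq_self]
        rw [QuotientGroup.ker_mk']
        exact hZK
      rw [← h1, Subgroup.index_comap_of_surjective _ hπs]
    have hHi : H.index = Hb.index := by
      have h1 : Hb.comap π = H := by
        rw [hHb, Subgroup.comap_map_eq_self]
        rw [QuotientGroup.ker_mk']
        exact hZH
      rw [← h1, Subgroup.index_comap_of_surjective _ hπs]
    have hKbi : Kb.index = Nat.card Hb := by
      have h1 := Kb.card_mul_index
      have h2 := Hb.card_mul_index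
      rw [hcardK, ← h2, mul_comm] at h1
      exact Nat.eq_of_mul_eq_mul_right (Nat.pos_of_ne_zero Subgroup.index_ne_zero_of_finite) h1
    rw [hKi, hHi, hKbi]
    have hm := Lib.H1Frob.index_mod hFrob
    have hmod : Hb.index ≡ 1 [MOD Nat.card Hb] := hm
    have h3 := hmod.gcd_eq
    rw [Nat.gcd_one_left] at h3
    rw [Nat.Coprime, Nat.gcd_comm]
    exact h3

end Cfsg.Agent.S4283
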