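import Cfsg.Statements.S4293
import Cfsg.Agent.Lib.H1FrobMod

set_option autoImplicit false
open Cfsg

namespace Cfsg.Agent.S4293

theorem frob_of_R {D : Type*} [DivisionRing D] (H : Subgroup Dˣ) [Finite H] [Nontrivial H]
    (R : AddSubgroup D) (p : ℕ) (hp : p.Prime) (hFG : AddGroup.FG R)
    (hmulT : ∀ u ∈ H, ∀ x ∈ R, (u : D) * x ∈ R)
    (hA : ∀ u ∈ H, u ≠ 1 → ∀ x ∈ R, ∀ y ∈ R, ((u : D) - 1) * x = (p : D) * y → ∃ w ∈ R, x = (p : D) * w)
    (hB : ∃ x ∈ R, ∀ w ∈ R, x ≠ (p : D) * w) :
    ∃ (L : Type) (_ : Group L) (_ : Finite L) (C : Subgroup L), Cfsg.IsFrobeniusComplement C ∧ Nonempty (H ≃* C) := by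
  classical
  let lm : H → (R →+ R) := fun u =>
    AddMonoidHom.mk' (fun x => ⟨((u : Dˣ) : D) * x, hmulT u u.2 x x.2⟩) (fun x y => by
      apply Subtype.ext
      show ((u : Dˣ) : D) * ((x : D) + y) = ((u : Dˣ) : D) * x + ((u : Dˣ) : D) * y
      rw [mul_add])
  have hlm : ∀ (u : H) (x : R), ((lm u x : R) : D) = ((u : Dˣ) : D) * x := fun u x => rfl
  let pM : AddSubgroup R := (zsmulAddGroupHom (p : ℤ) : R →+ R).range
  have hpM : ∀ x : R, x ∈ pM ↔ ∃ w : R, (x : D) = (p : D) * w := by
    intro x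
    constructor
    · rintro ⟨w, rfl⟩
      refine ⟨w, ?_⟩
      show (((p : ℤ) • w : R) : D) = _
      rw [AddSubgroup.coe_zsmul, zsmul_eq_mul]
      simp
    · rintro ⟨w, hw⟩
      refine ⟨w, ?_⟩
      apply Subtype.ext
      show (((p : ℤ) • w : R) : D) = _
      rw [AddSubgroup.coe_zsmul, zsmul_eq_mul, hw]
      simp
  have hpres : ∀ u : H, pM ≤ pM.comap (lm u) := by
    intro u x hx
    obtain ⟨w, hw⟩ := (hpM x).mp hx
    refine (hpM _).mpr ⟨lm u w, ?_⟩
    rw [hlm, hlm, hw, ← mul_assoc, ← mul_assoc]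
    rw [(Nat.cast_commute p ((u : Dˣ) : D)).eq]
  let q : H → ((R ⧸ pM) →+ (R ⧸ pM)) := fun u => QuotientAddGroup.map pM pM (lm u) (hpres u)
  have hq : ∀ (u : H) (x : R), q u (x : R ⧸ pM) = ((lm u x : R) : R ⧸ pM) := fun u x => rfl
  let f : H →* AddMonoid.End (R ⧸ pM) :=
    { toFun := q
      map_one' := by
        apply AddMonoidHom.ext
        intro x
        induction x using QuotientAddGroup.induction_on with
        | H y =>
          show q 1 (y : R ⧸ pM) = (y : R ⧸ pM)
          rw [hq]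
          congr 1
          apply Subtype.ext
          rw [hlm]
          simp
      map_mul' := fun u v => by
        apply AddMonoidHom.ext
        intro x
        induction x using QuotientAddGroup.induction_on with
        | H y =>
          show q (u * v) (y : R ⧸ pM) = q u (q v (y : R ⧸ pM))
          rw [hq, hq, hq]
          congr 1
          apply Subtype.ext
          rw [hlm, hlm, hlm]
          simp [mul_assoc] }
  have hfpf : ∀ k : H, k ≠ 1 → ∀ v, f k v = v → v = 0 := by
    intro k hk v hv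
    induction v using QuotientAddGroup.induction_on with
    | H y =>
      have h1 : ((lm k y : R) : R ⧸ pM) = (y : R ⧸ pM) := hv
      have h2 := QuotientAddGroup.eq.mp h1
      obtain ⟨w, hw⟩ := (hpM _).mp h2
      have h3 : (-(lm k y : R) + y : D) = (p : D) * w := by
        simpa using hw
      rw [hlm] at h3
      have hk' : (k : Dˣ) ≠ 1 := fun h => hk (Subtype.ext h)
      obtain ⟨w', hw', hxw⟩ := hA k k.2 hk' y y.2 (-w : R) (-w : R).2 (by
        have : (((k : Dˣ) : D) - 1) * y = -(-((((k : Dˣ) : D)) * y) + y) := by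
          noncomm_ring
        rw [this, h3]
        simp)
      have h4 : y ∈ pM := (hpM y).mpr ⟨⟨w', hw'⟩, hxw⟩
      exact (QuotientAddGroup.eq_zero_iff y).mpr h4
  haveI hV : Nontrivial (R ⧸ pM) := by
    rw [QuotientAddGroup.nontrivial_iff]
    intro htop
    obtain ⟨x, hx, hne⟩ := hB
    have h1 : (⟨x, hx⟩ : R) ∈ pM := by rw [htop]; trivial
    obtain ⟨w, hw⟩ := (hpM _).mp h1
    exact hne w w.2 hw
  haveI hV2 : Finite (R ⧸ pM) := by
    haveI : AddGroup.FG R := hFG
    apply AddCommGroup.finite_of_fg_isAddTorsion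
    intro x
    induction x using QuotientAddGroup.induction_on with
    | H y =>
      refine isOfFinAddOrder_iff_nsmul_eq_zero.mpr ⟨p, hp.pos, ?_⟩
      rw [← QuotientAddGroup.mk_nsmul, QuotientAddGroup.eq_zero_iff]
      refine ⟨y, ?_⟩
      show (p : ℤ) • y = p • y
      exact natCast_zsmul y p
  exact Lib.H1FrobMod.frob_of_module f hfpf

theorem hA_zero {D : Type*} [DivisionRing D] [CharZero D] (H : Subgroup Dˣ) [Finite H]
    (R : AddSubgroup D) (p : ℕ) (hp : p.Prime) (hpH : Nat.card H < p)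
    (hT : ∀ u ∈ H, (u : D) ∈ R)
    (hmul : ∀ a ∈ R, ∀ x ∈ R, a * x ∈ R) :
    ∀ u ∈ H, u ≠ 1 → ∀ x ∈ R, ∀ y ∈ R, ((u : D) - 1) * x = (p : D) * y → ∃ w ∈ R, x = (p : D) * w := by
  intro u hu hu1 x hx y hy hxy
  set g : D := (u : D) with hg
  have hg1 : g - 1 ≠ 0 := by
    intro h
    apply hu1
    apply Units.ext
    rw [Units.val_one]
    exact sub_eq_zero.mp h
  have hpow : ∀ i : ℕ, g ^ i ∈ R := by
    intro i
    have : g ^ i = ((u ^ i : Dˣ) : D) := by simp [hg]
    rw [this]
    exact hT _ (H.pow_mem hu i)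
  let n := orderOf u
  have hun : u ^ n = 1 := pow_orderOf_eq_one u
  have hgn : g ^ n = 1 := by
    have := congrArg (fun v : Dˣ => (v : D)) hun
    simpa [hg] using this
  have hnH : n ∣ Nat.card H := by
    have h1 : orderOf (⟨u, hu⟩ : H) = orderOf u := Subgroup.orderOf_mk u hu
    show orderOf u ∣ _
    rw [← h1]
    exact orderOf_dvd_natCard _
  have hn0 : 0 < n := orderOf_pos_iff.mpr (isOfFinOrder_iff_pow_eq_one.mpr ⟨Nat.card H, Nat.card_pos, by
    have h2 := pow_card_eq_one' (G := H) (x := ⟨u, hu⟩)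
    have h3 : (⟨u, hu⟩ : H) ^ Nat.card H = 1 := h2
    exact congrArg Subtype.val h3⟩)
  have hnp : n < p := lt_of_le_of_lt (Nat.le_of_dvd Nat.card_pos hnH) hpH
  have hs0 : ∑ i ∈ Finset.range n, g ^ i = 0 := by
    have h1 := geom_sum_mul g n
    rw [hgn, sub_self] at h1
    exact (mul_eq_zero.mp h1).resolve_right hg1
  have hid : ∀ m : ℕ, ∃ t ∈ R, ∑ i ∈ Finset.range m, g ^ i = (m : D) + t * (g - 1) := by
    intro m
    induction m with
    | zero => exact ⟨0, R.zero_mem, by simp⟩
    | succ m ih =>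
      obtain ⟨t, ht, hts⟩ := ih
      refine ⟨t + ∑ j ∈ Finset.range m, g ^ j, R.add_mem ht (R.sum_mem (fun j _ => hpow j)), ?_⟩
      rw [Finset.sum_range_succ, add_mul, geom_sum_mul, hts]
      push_cast
      abel
  obtain ⟨t, ht, hts⟩ := hid n
  rw [hs0] at hts
  have hn : (n : D) * x = (p : D) * (-(t * y)) := by
    have h1 : (n : D) = -(t * (g - 1)) := eq_neg_of_add_eq_zero_left hts.symm
    rw [h1, neg_mul, mul_assoc, hxy, mul_neg, ← mul_assoc, ← mul_assoc, (Nat.cast_commute p t).eq]
  have hcop : IsCoprime (n : ℤ) (p : ℤ) := by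
    rw [Nat.isCoprime_iff_coprime]
    exact (Nat.coprime_of_lt_prime hn0.ne' hnp hp).symm
  obtain ⟨a, b, hab⟩ := hcop
  refine ⟨a • (-(t * y)) + b • x, R.add_mem (R.zsmul_mem (R.neg_mem (hmul _ ht _ hy)) a) (R.zsmul_mem hx b), ?_⟩
  have h2 : ((a * n + b * p : ℤ) : D) = 1 := by rw [hab]; simp
  push_cast at h2
  calc x = ((a : D) * n + b * p) * x := by rw [h2, one_mul]
    _ = (a : D) * ((n : D) * x) + (b : D) * ((p : D) * x) := by rw [add_mul, mul_assoc, mul_assoc]
    _ = (a : D) * ((p : D) * (-(t * y))) + (b : D) * ((p : D) * x) := by rw [hn]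
    _ = (p : D) * (a • (-(t * y)) + b • x) := by
      rw [zsmul_eq_mul, zsmul_eq_mul, mul_add, ← mul_assoc (a : D), ← mul_assoc (b : D),
        ← mul_assoc (p : D), ← mul_assoc (p : D), (Int.cast_commute a (p : D)).eq,
        (Int.cast_commute b (p : D)).eq]
/-- A nontrivial finite subgroup of the multiplicative group of a division ring occurs as a Frobenius complement of some finite Frobenius group. -/
theorem result {D : Type*} [DivisionRing D] (H : Subgroup Dˣ) [Finite H] (hH : H ≠ ⊥) :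
    ∃ (L : Type) (_ : Group L) (_ : Finite L) (C : Subgroup L), Cfsg.IsFrobeniusComplement C ∧ Nonempty (H ≃* C) := by

  classical
  haveI : Nontrivial H := (Subgroup.nontrivial_iff_ne_bot H).mpr hH
  let T : Set D := (fun u : Dˣ => (u : D)) '' (H : Set Dˣ)
  have hTfin : T.Finite := Set.Finite.image _ (Set.toFinite _)
  let R : AddSubgroup D := AddSubgroup.closure T
  have hT : ∀ u ∈ H, (u : D) ∈ R := fun u hu => AddSubgroup.subset_closure ⟨u, hu, rfl⟩
  have hmulT : ∀ u ∈ H, ∀ x ∈ R, (u : D) * x ∈ R := by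
    intro u hu x hx
    induction hx using AddSubgroup.closure_induction with
    | mem x hx =>
      obtain ⟨v, hv, rfl⟩ := hx
      exact hT (u * v) (H.mul_mem hu hv)
    | zero => rw [mul_zero]; exact R.zero_mem
    | add a b _ _ ha hb => rw [mul_add]; exact R.add_mem ha hb
    | neg a _ ha => rw [mul_neg]; exact R.neg_mem ha
  have hmul : ∀ a ∈ R, ∀ x ∈ R, a * x ∈ R := by
    intro a ha x hx
    induction ha using AddSubgroup.closure_induction with
    | mem a ha =>
      obtain ⟨v, hv, rfl⟩ := ha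
      exact hmulT v hv x hx
    | zero => rw [zero_mul]; exact R.zero_mem
    | add a b _ _ ha hb => rw [add_mul]; exact R.add_mem ha hb
    | neg a _ ha => rw [neg_mul]; exact R.neg_mem ha
  have hone : (1 : D) ∈ R := by
    have := hT 1 H.one_mem
    simpa using this
  have hFG : AddGroup.FG R := by
    rw [AddGroup.fg_iff_addSubgroup_fg]
    exact ⟨hTfin.toFinset, by rw [Set.Finite.coe_toFinset]⟩
  rcases CharP.char_is_prime_or_zero D (ringChar D) with hq | hq
  · -- positive characteristic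
    haveI hc : CharP D (ringChar D) := ringChar.charP D
    have hq0 : ((ringChar D : ℕ) : D) = 0 := CharP.cast_eq_zero D _
    refine frob_of_R H R (ringChar D) hq hFG hmulT ?_ ?_
    · intro u hu hu1 x hx y hy hxy
      rw [hq0, zero_mul] at hxy
      have hg1 : (u : D) - 1 ≠ 0 := by
        intro h
        apply hu1
        apply Units.ext
        simpa [sub_eq_zero] using h
      refine ⟨0, R.zero_mem, ?_⟩
      rw [mul_zero]
      exact (mul_eq_zero.mp hxy).resolve_left hg1
    · refine ⟨1, hone, fun w _ => ?_⟩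
      rw [hq0, zero_mul]
      exact one_ne_zero
  · -- characteristic zero
    haveI hc0 : CharP D 0 := by
      have := ringChar.charP D
      rwa [hq] at this
    haveI hcz : CharZero D := CharP.charP_to_charZero D
    obtain ⟨p, hpge, hp⟩ := Nat.exists_infinite_primes (Nat.card H + 1)
    refine frob_of_R H R p hp hFG hmulT (hA_zero H R p hp (by omega) hT hmul) ?_
    by_contra hcon
    push Not at hcon
    let N : Submodule ℤ D := Submodule.span ℤ T
    have hNR : ∀ x, x ∈ N ↔ x ∈ R := by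
      intro x
      have h1 := Submodule.span_int_eq_addSubgroupClosure T
      constructor
      · intro hx
        have h2 : x ∈ (Submodule.span ℤ T).toAddSubgroup := hx
        rw [h1] at h2
        exact h2
      · intro hx
        have h2 : x ∈ AddSubgroup.closure T := hx
        rw [← h1] at h2
        exact h2
    have hNfg : N.FG := Submodule.fg_span hTfin
    have hle : N ≤ Ideal.span {(p : ℤ)} • N := by
      intro x hx
      obtain ⟨w, hw, hxw⟩ := hcon x ((hNR x).mp hx)
      have h2 : x = (p : ℤ) • w := by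
        rw [hxw, zsmul_eq_mul]
        simp
      rw [h2]
      exact Submodule.smul_mem_smul (Ideal.mem_span_singleton_self _) ((hNR w).mpr hw)
    obtain ⟨r, hr1, hr0⟩ := Submodule.exists_sub_one_mem_and_smul_eq_zero_of_fg_of_le_smul _ N hNfg hle
    have h1 := hr0 1 ((hNR 1).mpr hone)
    rw [zsmul_eq_mul, mul_one, Int.cast_eq_zero] at h1
    rw [h1, Ideal.mem_span_singleton, zero_sub, dvd_neg] at hr1
    have h3 : p ∣ 1 := by exact_mod_cast hr1
    exact hp.one_lt.ne' (Nat.dvd_one.mp h3)

end Cfsg.Agent.S4293
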