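import Cfsg.Statements.S4295
import Cfsg.Agent.Lib.H1Q8

set_option autoImplicit false
open Cfsg

namespace Cfsg.Agent.S4295

theorem exists_module (r : ℕ) : Odd r → ∃ (V : Type) (_ : AddCommGroup V) (_ : Finite V) (i j : V →+ V),
    (∀ x, i (i x) = -x) ∧ (∀ x, j (j x) = -x) ∧ (∀ x, i (j x) = - j (i x)) ∧ Nat.card V = r ^ 2 := by
  induction r using Nat.strong_induction_on with
  | _ r ih =>
    intro hr
    by_cases hr1 : r = 1
    · subst hr1
      exact ⟨PUnit, inferInstance, inferInstance, 0, 0, fun _ => rfl, fun _ => rfl, fun _ => rfl, by simp⟩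
    have hp : (r.minFac).Prime := Nat.minFac_prime hr1
    set p := r.minFac with hpdef
    haveI : Fact p.Prime := ⟨hp⟩
    obtain ⟨s, hs⟩ := Nat.minFac_dvd r
    rw [← hpdef] at hs
    have hr0 : 0 < r := hr.pos
    have hs0 : 0 < s := by
      rcases Nat.eq_zero_or_pos s with h | h
      · rw [h, mul_zero] at hs; omega
      · exact h
    have hs1 : s < r := by
      rw [hs]
      have := hp.two_le
      nlinarith
    have hodds : Odd s := by
      rw [hs] at hr
      exact (Nat.odd_mul.mp hr).2
    obtain ⟨V', _, _, i', j', hi', hj', hij', hc'⟩ := ih s hs1 hodds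
    obtain ⟨a, b, hab⟩ := ZMod.sq_add_sq p (-1)
    let I : ZMod p × ZMod p →+ ZMod p × ZMod p :=
      AddMonoidHom.mk' (fun x => (-x.2, x.1)) (fun x y => by ext <;> simp <;> abel)
    let J : ZMod p × ZMod p →+ ZMod p × ZMod p :=
      AddMonoidHom.mk' (fun x => (a * x.1 + b * x.2, b * x.1 - a * x.2))
        (fun x y => by ext <;> simp <;> ring)
    have hI : ∀ x, I (I x) = -x := fun x => rfl
    have hJ : ∀ x, J (J x) = -x := by
      intro x
      ext
      · show a * (a * x.1 + b * x.2) + b * (b * x.1 - a * x.2) = -x.1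
        linear_combination x.1 * hab
      · show b * (a * x.1 + b * x.2) - a * (b * x.1 - a * x.2) = -x.2
        linear_combination x.2 * hab
    have hIJ : ∀ x, I (J x) = - J (I x) := by
      intro x
      ext
      · show -(b * x.1 - a * x.2) = -(a * (-x.2) + b * x.1)
        ring
      · show a * x.1 + b * x.2 = -(b * (-x.2) - a * x.1)
        ring
    refine ⟨(ZMod p × ZMod p) × V', inferInstance, inferInstance, I.prodMap i', J.prodMap j', ?_, ?_, ?_, ?_⟩
    · intro x; exact Prod.ext (hI x.1) (hi' x.2)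
    · intro x; exact Prod.ext (hJ x.1) (hj' x.2)
    · intro x; exact Prod.ext (hIJ x.1) (hij' x.2)
    · rw [Nat.card_prod, Nat.card_prod, hc', Nat.card_zmod, hs]
      ring

theorem exists_hom {V : Type} [AddCommGroup V] (i j : V →+ V) (hi : ∀ x, i (i x) = -x)
    (hj : ∀ x, j (j x) = -x) (hij : ∀ x, i (j x) = - j (i x)) :
    ∃ f : QuaternionGroup 2 →* AddMonoid.End V, ∀ v, f (QuaternionGroup.a 2) v = -v := by
  let I : AddMonoid.End V := i
  let J : AddMonoid.End V := j
  have hII : I * I = -1 := AddMonoidHom.ext hi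
  have hJJ : J * J = -1 := AddMonoidHom.ext hj
  have hIJ : I * J = -(J * I) := AddMonoidHom.ext hij
  have hI4 : I ^ 4 = 1 := by
    have : I ^ 4 = (I * I) * (I * I) := by noncomm_ring
    rw [this, hII]; simp
  have hall : ∀ k : ZMod (2 * 2), k = 0 ∨ k = 1 ∨ k = 2 ∨ k = 3 := by decide
  have hadd : ∀ k l : ZMod (2 * 2), I ^ (k + l).val = I ^ k.val * I ^ l.val := by
    intro k l
    rw [← pow_add, ZMod.val_add]
    exact (pow_eq_pow_mod _ hI4).symm
  have hJcomm : ∀ k : ZMod (2 * 2), I ^ k.val * J = J * I ^ (-k).val := by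
    intro k
    rcases hall k with rfl | rfl | rfl | rfl
    · show I ^ 0 * J = J * I ^ 0
      simp
    · show I ^ 1 * J = J * I ^ 3
      have : I ^ 3 = (I * I) * I := by noncomm_ring
      rw [this, hII, pow_one, hIJ]
      noncomm_ring
    · show I ^ 2 * J = J * I ^ 2
      rw [sq, hII]
      noncomm_ring
    · show I ^ 3 * J = J * I ^ 1
      have : I ^ 3 = (I * I) * I := by noncomm_ring
      rw [this, hII, pow_one, neg_mul, one_mul, neg_mul, hIJ, neg_neg]
  have h2val : ((2 : ℕ) : ZMod (2 * 2)).val = 2 := rfl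
  have hI2 : I ^ ((2 : ℕ) : ZMod (2 * 2)).val = -1 := by
    rw [h2val, sq, hII]
  let f0 : QuaternionGroup 2 → AddMonoid.End V := fun g =>
    match g with
    | .a k => I ^ k.val
    | .xa k => J * I ^ k.val
  have hmul : ∀ g h, f0 (g * h) = f0 g * f0 h := by
    intro g h
    cases g with
    | a k =>
      cases h with
      | a l =>
        rw [QuaternionGroup.a_mul_a]
        exact hadd k l
      | xa l =>
        rw [QuaternionGroup.a_mul_xa]
        show J * I ^ (l - k).val = I ^ k.val * (J * I ^ l.val)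
        rw [← mul_assoc, hJcomm, mul_assoc, ← hadd, sub_eq_neg_add]
    | xa k =>
      cases h with
      | a l =>
        rw [QuaternionGroup.xa_mul_a]
        show J * I ^ (k + l).val = J * I ^ k.val * I ^ l.val
        rw [hadd, mul_assoc]
      | xa l =>
        rw [QuaternionGroup.xa_mul_xa]
        show I ^ (((2 : ℕ) : ZMod (2 * 2)) + l - k).val = J * I ^ k.val * (J * I ^ l.val)
        rw [mul_assoc J, ← mul_assoc (I ^ k.val), hJcomm, mul_assoc J, ← mul_assoc J J, hJJ,
          ← hadd, show ((2 : ℕ) : ZMod (2 * 2)) + l - k = ((2 : ℕ) : ZMod (2 * 2)) + (-k + l) by ring,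
          hadd, hI2]
  have hone : f0 1 = 1 := by
    show I ^ (0 : ZMod (2 * 2)).val = 1
    show I ^ 0 = 1
    simp
  refine ⟨⟨⟨f0, hone⟩, hmul⟩, ?_⟩
  intro v
  have h1 : f0 (QuaternionGroup.a 2) = -1 := by
    show I ^ (2 : ZMod (2 * 2)).val = -1
    show I ^ 2 = -1
    rw [sq, hII]
  show f0 (QuaternionGroup.a 2) v = -v
  rw [h1]
  rfl

theorem exists_frob (r : ℕ) (hr : Odd r) (hr1 : 1 < r) :
    ∃ (L : Type) (_ : Group L) (_ : Finite L) (H : Subgroup L), Cfsg.IsFrobeniusComplement H ∧
      Nonempty (H ≃* QuaternionGroup 2) ∧ Nat.card (Cfsg.frobeniusKernel H) = r ^ 2 := by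
  classical
  obtain ⟨V, _, _, i, j, hi, hj, hij, hc⟩ := exists_module r hr
  obtain ⟨f, hf⟩ := exists_hom i j hi hj hij
  have hfmul : ∀ g h v, f (g * h) v = f g (f h v) := fun g h v => by rw [map_mul]; rfl
  have hfone : ∀ v, f 1 v = v := fun v => by rw [map_one]; rfl
  let φ : QuaternionGroup 2 →* MulAut (Multiplicative V) :=
    { toFun := fun g =>
        { toFun := fun w => Multiplicative.ofAdd (f g (Multiplicative.toAdd w))
          invFun := fun w => Multiplicative.ofAdd (f g⁻¹ (Multiplicative.toAdd w))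
          left_inv := fun w => by
            simp only [toAdd_ofAdd]
            rw [← hfmul, inv_mul_cancel, hfone]
            rfl
          right_inv := fun w => by
            simp only [toAdd_ofAdd]
            rw [← hfmul, mul_inv_cancel, hfone]
            rfl
          map_mul' := fun w w' => by
            show Multiplicative.ofAdd (f g (w.toAdd + w'.toAdd)) = _
            rw [map_add]
            rfl }
      map_one' := by
        refine MulEquiv.ext (fun w => ?_)
        show Multiplicative.ofAdd (f 1 (Multiplicative.toAdd w)) = w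
        rw [hfone]
        rfl
      map_mul' := fun g h => by
        refine MulEquiv.ext (fun w => ?_)
        show Multiplicative.ofAdd (f (g * h) (Multiplicative.toAdd w)) = _
        rw [hfmul]
        rfl }
  have hoddV : Odd (Nat.card V) := by rw [hc]; exact hr.pow
  have hpow : ∀ g : QuaternionGroup 2, g ≠ 1 → ∃ m : Fin 4, g ^ (m : ℕ) = QuaternionGroup.a 2 := by
    set_option maxRecDepth 100000 in decide
  have hφ : ∀ k : QuaternionGroup 2, k ≠ 1 → ∀ v : Multiplicative V, φ k v = v → v = 1 := by
    intro k hk v hv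
    have hv' : f k (Multiplicative.toAdd v) = Multiplicative.toAdd v := congrArg Multiplicative.toAdd hv
    have key : Multiplicative.toAdd v = 0 := by
      generalize Multiplicative.toAdd v = w at hv'
      obtain ⟨m, hm⟩ := hpow k hk
      have h1 : ∀ n : ℕ, f (k ^ n) w = w := by
        intro n
        induction n with
        | zero => rw [pow_zero, hfone]
        | succ n ih => rw [pow_succ, hfmul, hv', ih]
      have h2 := h1 m
      rw [hm, hf] at h2
      have h3 : 2 • w = 0 := by
        rw [two_nsmul]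
        nth_rewrite 1 [← h2]
        simp
      have h4 : addOrderOf w ∣ 2 := addOrderOf_dvd_of_nsmul_eq_zero h3
      have h5 : addOrderOf w ∣ Nat.card V := addOrderOf_dvd_natCard w
      have h6 : addOrderOf w ∣ Nat.gcd 2 (Nat.card V) := Nat.dvd_gcd h4 h5
      have h7 : Nat.gcd 2 (Nat.card V) = 1 := (Nat.coprime_two_left).mpr hoddV
      rw [h7, Nat.dvd_one, AddMonoid.addOrderOf_eq_one_iff] at h6
      exact h6
    exact key
  haveI : Nontrivial (QuaternionGroup 2) := ⟨⟨.a 0, .xa 0, fun h => by cases h⟩⟩
  haveI : Finite (Multiplicative V) := inferInstanceAs (Finite V)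
  haveI : Nontrivial (Multiplicative V) := by
    have h1 : 1 < Nat.card V := by
      rw [hc]
      exact Nat.one_lt_pow (by norm_num) hr1
    have h2 : Nontrivial V := Finite.one_lt_card_iff_nontrivial.mp h1
    exact inferInstanceAs (Nontrivial V)
  haveI hL : Finite (Multiplicative V ⋊[φ] QuaternionGroup 2) :=
    Finite.of_equiv _ SemidirectProduct.equivProd.symm
  have hfrob := Lib.FrobEx.inr_isFrob φ hφ
  refine ⟨Multiplicative V ⋊[φ] QuaternionGroup 2, inferInstance, hL,
    (SemidirectProduct.inr : QuaternionGroup 2 →* Multiplicative V ⋊[φ] QuaternionGroup 2).range,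
    hfrob, ⟨(Lib.FrobEx.inrEquiv φ).symm⟩, ?_⟩
  rw [(Cfsg.Agent.S0034.result _ hfrob).1]
  have h1 := Subgroup.card_mul_index (SemidirectProduct.inr : QuaternionGroup 2 →* Multiplicative V ⋊[φ] QuaternionGroup 2).range
  rw [SemidirectProduct.card] at h1
  have h2 : Nat.card (SemidirectProduct.inr : QuaternionGroup 2 →* Multiplicative V ⋊[φ] QuaternionGroup 2).range = Nat.card (QuaternionGroup 2) :=
    Nat.card_congr (Lib.FrobEx.inrEquiv φ).symm.toEquiv
  rw [h2] at h1
  have h3 : 0 < Nat.card (QuaternionGroup 2) := Nat.card_pos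
  have h4 : Nat.card (Multiplicative V) = r ^ 2 := hc
  rw [h4, mul_comm] at h1
  exact Nat.eq_of_mul_eq_mul_right h3 h1
/-- For a natural number m the following are equivalent: (a) some finite group has a Frobenius complement isomorphic to the quaternion group of order 8 whose Frobenius kernel (the identity together with the elements lying in no conjugate of the complement) has exactly m elements; (b) m is an odd perfect square greater than 1. -/
theorem result (m : ℕ) :
    (∃ (L : Type) (_ : Group L) (_ : Finite L) (H : Subgroup L), Cfsg.IsFrobeniusComplement H ∧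
        Nonempty (H ≃* QuaternionGroup 2) ∧ Nat.card (Cfsg.frobeniusKernel H) = m) ↔
    (Odd m ∧ IsSquare m ∧ 1 < m) := by

  classical
  constructor
  · rintro ⟨L, _, _, H, hF, ⟨e⟩, rfl⟩
    have h := Lib.H1Q8.odd_square H hF (e.symm (.a 1)) (e.symm (.xa 0)) (e.symm (.a 2))
      (e.symm _).2 (e.symm _).2 ?_ ?_ ?_ ?_ ?_
    · refine ⟨h.1, h.2, ?_⟩
      rw [(Cfsg.Agent.S0034.result _ hF).1]
      exact Subgroup.one_lt_index_of_ne_top hF.2.1
    · intro h1
      have h2 : (e.symm (.a 2) : H) = 1 := Subtype.ext h1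
      have h3 : (QuaternionGroup.a 2 : QuaternionGroup 2) = 1 := e.symm.injective (by rw [h2, map_one])
      revert h3
      decide
    · have : (QuaternionGroup.a 2 : QuaternionGroup 2) * .a 2 = 1 := by decide
      show ((e.symm (.a 2) * e.symm (.a 2) : H) : L) = 1
      rw [← map_mul, this, map_one]
      rfl
    · have : (QuaternionGroup.a 1 : QuaternionGroup 2) * .a 1 = .a 2 := by decide
      show ((e.symm (.a 1) * e.symm (.a 1) : H) : L) = _
      rw [← map_mul, this]
    · have : (QuaternionGroup.xa 0 : QuaternionGroup 2) * .xa 0 = .a 2 := by decide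
      show ((e.symm (.xa 0) * e.symm (.xa 0) : H) : L) = _
      rw [← map_mul, this]
    · have : (QuaternionGroup.a 1 : QuaternionGroup 2) * .xa 0 = .a 2 * .xa 0 * .a 1 := by decide
      show ((e.symm (.a 1) * e.symm (.xa 0) : H) : L) = ((e.symm (.a 2) * e.symm (.xa 0) * e.symm (.a 1) : H) : L)
      rw [← map_mul, ← map_mul, ← map_mul, this]
  · rintro ⟨hodd, ⟨r, rfl⟩, h1⟩
    have hr : Odd r := (Nat.odd_mul.mp hodd).1
    have hr1 : 1 < r := by
      rcases Nat.lt_or_ge 1 r with h | h
      · exact h
      · interval_cases r <;> omega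
    obtain ⟨L, i1, i2, H, hF, he, hc⟩ := exists_frob r hr hr1
    exact ⟨L, i1, i2, H, hF, he, by rw [hc, sq]⟩

end Cfsg.Agent.S4295
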