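import Cfsg.Statements.S4296
import Cfsg.Agent.Lib.H1Q8

set_option autoImplicit false
open Cfsg

namespace Cfsg.Agent.S4296

/-- Let H be a Frobenius complement in a finite group, and suppose some Sylow subgroup of H is not cyclic. Then the number of elements of the Frobenius kernel (the identity together with the elements lying in no conjugate of H) is an odd perfect square. -/
theorem result {L : Type*} [Group L] [Finite L] (H : Subgroup L) (hF : Cfsg.IsFrobeniusComplement H)
    (hZ : ∃ (p : ℕ) (_ : Fact p.Prime) (P : Sylow p H), ¬ IsCyclic P) :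
    Odd (Nat.card (Cfsg.frobeniusKernel H)) ∧ IsSquare (Nat.card (Cfsg.frobeniusKernel H)) := by
  classical
  obtain ⟨p, hp, P, hnc⟩ := hZ
  haveI := hp
  have hPp : IsPGroup p (P : Subgroup H) := P.isPGroup'
  have huniq := Lib.H1Q8.unique_order_p H hF p (P : Subgroup H) hPp
  rcases Lib.H1Quat.cyclic_or_quaternion p hPp huniq with hc | ⟨hp2, n, ⟨e⟩⟩
  · exact absurd hc hnc
  subst hp2
  -- `n` is positive
  obtain ⟨m, rfl⟩ : ∃ m, n = m + 1 := by
    rcases n with _ | m
    · exfalso
      apply hnc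
      haveI : IsCyclic (QuaternionGroup (2 ^ 0)) := by
        simpa using QuaternionGroup.quaternionGroup_one_isCyclic
      exact isCyclic_of_surjective e.symm e.symm.surjective
    · exact ⟨m, rfl⟩
  let ι : QuaternionGroup (2 ^ (m + 1)) →* L :=
    H.subtype.comp ((P : Subgroup H).subtype.comp e.symm.toMonoidHom)
  have hι : Function.Injective ι :=
    Subtype.val_injective.comp (Subtype.val_injective.comp e.symm.injective)
  have hιH : ∀ x, ι x ∈ H := fun x => (e.symm x : H).2
  let k : ZMod (2 * 2 ^ (m + 1)) := ((2 ^ m : ℕ) : ZMod (2 * 2 ^ (m + 1)))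
  let z0 : ZMod (2 * 2 ^ (m + 1)) := ((2 ^ (m + 1) : ℕ) : ZMod (2 * 2 ^ (m + 1)))
  have hz0 : z0 = k + k := by
    simp only [z0, k]
    push_cast
    ring
  have hz00 : z0 + z0 = 0 := by
    have : ((2 * 2 ^ (m + 1) : ℕ) : ZMod (2 * 2 ^ (m + 1))) = 0 := ZMod.natCast_self _
    rw [← this]
    simp only [z0]
    push_cast
    ring
  have hz0ne : z0 ≠ 0 := by
    intro h
    simp only [z0] at h
    rw [ZMod.natCast_eq_zero_iff] at h
    have := Nat.le_of_dvd (by positivity) h
    have h2 : 0 < 2 ^ (m + 1) := by positivity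
    omega
  refine Lib.H1Q8.odd_square H hF (ι (.a k)) (ι (.xa 0)) (ι (.a z0)) (hιH _) (hιH _) ?_ ?_ ?_ ?_ ?_
  · intro h
    have h1 : (QuaternionGroup.a z0 : QuaternionGroup (2 ^ (m + 1))) = 1 := hι (by rw [h, map_one])
    rw [QuaternionGroup.one_def] at h1
    exact hz0ne (QuaternionGroup.a.inj h1)
  · rw [← map_mul, QuaternionGroup.a_mul_a, hz00]
    rw [← QuaternionGroup.one_def, map_one]
  · rw [← map_mul, QuaternionGroup.a_mul_a, hz0]
  · rw [← map_mul, QuaternionGroup.xa_mul_xa]
    congr 2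
    simp only [z0]
    ring
  · rw [← map_mul, ← map_mul, ← map_mul, QuaternionGroup.a_mul_xa, QuaternionGroup.a_mul_xa,
      QuaternionGroup.xa_mul_a]
    congr 2
    rw [hz0]
    ring

end Cfsg.Agent.S4296
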