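import Cfsg.Statements.S4297
import Cfsg.Agent.Lib.FrobEx
-- import your own Cfsg.Agent.* helpers here

set_option autoImplicit false
open Cfsg

namespace Cfsg.Agent.S4297

open Subgroup

section
variable {n : ℕ} {F : Type} [Field F] (χ : ZMod (2 * n) → F)

/-- The two-dimensional representation of the dicyclic group. -/
def rhoFun (g : QuaternionGroup n) (w : F × F) : F × F :=
  match g with
  | .a i => (χ i * w.1, χ (-i) * w.2)
  | .xa j => (χ (-j) * w.2, -χ j * w.1)

theorem rho_one (h0 : χ 0 = 1) (w : F × F) : rhoFun χ (1 : QuaternionGroup n) w = w := by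
  rw [QuaternionGroup.one_def]
  simp [rhoFun, h0]

theorem rho_mul (hadd : ∀ i j, χ (i + j) = χ i * χ j) (hm : χ (n : ZMod (2 * n)) = -1)
    (hm' : χ (-(n : ZMod (2 * n))) = -1) (g h : QuaternionGroup n) (w : F × F) :
    rhoFun χ (g * h) w = rhoFun χ g (rhoFun χ h w) := by
  cases g with
  | a i =>
    cases h with
    | a j =>
      rw [QuaternionGroup.a_mul_a]
      simp only [rhoFun]
      rw [show -(i + j) = -i + -j by ring, hadd, hadd]
      ext <;> simp [mul_assoc]
    | xa j =>
      rw [QuaternionGroup.a_mul_xa]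
      simp only [rhoFun]
      rw [show -(j - i) = i + -j by ring, show j - i = -i + j by ring, hadd, hadd]
      ext <;> simp [mul_assoc]
  | xa i =>
    cases h with
    | a j =>
      rw [QuaternionGroup.xa_mul_a]
      simp only [rhoFun]
      rw [show -(i + j) = -i + -j by ring, hadd, hadd]
      ext <;> simp [mul_assoc]
    | xa j =>
      rw [QuaternionGroup.xa_mul_xa]
      simp only [rhoFun]
      rw [show -((n : ZMod (2 * n)) + j - i) = -(n : ZMod (2 * n)) + (i + -j) by ring,
        show (n : ZMod (2 * n)) + j - i = (n : ZMod (2 * n)) + (-i + j) by ring, hadd, hadd, hadd, hadd, hm, hm']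
      ext <;> simp [mul_assoc]

theorem rho_add (g : QuaternionGroup n) (w w' : F × F) :
    rhoFun χ g (w + w') = rhoFun χ g w + rhoFun χ g w' := by
  cases g with
  | a i =>
    simp only [rhoFun]
    ext <;> simp [mul_add]
  | xa j =>
    simp only [rhoFun]
    ext <;> simp [mul_add]

/-- The representation as a homomorphism to automorphisms. -/
def rhoHom (h0 : χ 0 = 1) (hadd : ∀ i j, χ (i + j) = χ i * χ j) (hm : χ (n : ZMod (2 * n)) = -1)
    (hm' : χ (-(n : ZMod (2 * n))) = -1) : QuaternionGroup n →* MulAut (Multiplicative (F × F)) where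
  toFun g :=
    { toFun := fun w => Multiplicative.ofAdd (rhoFun χ g (Multiplicative.toAdd w))
      invFun := fun w => Multiplicative.ofAdd (rhoFun χ g⁻¹ (Multiplicative.toAdd w))
      left_inv := fun w => by
        simp only [toAdd_ofAdd]
        rw [← rho_mul χ hadd hm hm', inv_mul_cancel, rho_one χ h0]
        rfl
      right_inv := fun w => by
        simp only [toAdd_ofAdd]
        rw [← rho_mul χ hadd hm hm', mul_inv_cancel, rho_one χ h0]
        rfl
      map_mul' := fun w w' => by
        show Multiplicative.ofAdd (rhoFun χ g (w.toAdd + w'.toAdd)) = _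
        rw [rho_add]
        rfl }
  map_one' := by
    refine MulEquiv.ext (fun w => ?_)
    show Multiplicative.ofAdd (rhoFun χ 1 (Multiplicative.toAdd w)) = w
    rw [rho_one χ h0]
    rfl
  map_mul' g h := by
    refine MulEquiv.ext (fun w => ?_)
    show Multiplicative.ofAdd (rhoFun χ (g * h) (Multiplicative.toAdd w)) = _
    rw [rho_mul χ hadd hm hm']
    rfl
end

/-- For every n ≥ 2 the dicyclic group of order 4n (generated by an element a of order 2n and an element x with x² = aⁿ and x a x⁻¹ = a⁻¹) occurs as a Frobenius complement of some finite Frobenius group. -/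
theorem result (n : ℕ) (hn : 2 ≤ n) :
    ∃ (L : Type) (_ : Group L) (_ : Finite L) (H : Subgroup L), Cfsg.IsFrobeniusComplement H ∧ Nonempty (H ≃* QuaternionGroup n) := by
  classical
  haveI : NeZero n := ⟨by omega⟩
  haveI h2n : NeZero (2 * n) := ⟨by omega⟩
  obtain ⟨q, hq, hq2, hqmod⟩ := Nat.exists_prime_gt_modEq_one 2 (k := 2 * n) (by omega)
  haveI : Fact q.Prime := ⟨hq⟩
  have hdvd : 2 * n ∣ q - 1 := (Nat.modEq_iff_dvd' hq.one_lt.le).mp hqmod.symm
  obtain ⟨g, hg⟩ := IsCyclic.exists_generator (α := (ZMod q)ˣ)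
  have hog : orderOf g = q - 1 := by
    rw [orderOf_eq_card_of_forall_mem_zpowers hg, Nat.card_eq_fintype_card, ZMod.card_units]
  set ζ := g ^ ((q - 1) / (2 * n)) with hζ
  have hoζ : orderOf ζ = 2 * n := by
    rw [hζ, ← hog]
    exact orderOf_pow_orderOf_div (by rw [hog]; omega) (by rw [hog]; exact hdvd)
  let χ : ZMod (2 * n) → ZMod q := fun i => ((ζ ^ i.val : (ZMod q)ˣ) : ZMod q)
  have h0 : χ 0 = 1 := by simp [χ]
  have hadd : ∀ i j, χ (i + j) = χ i * χ j := by
    intro i j
    simp only [χ]
    rw [← Units.val_mul, ← pow_add, ZMod.val_add]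
    have hz : ζ ^ (2 * n) = 1 := by rw [← hoζ]; exact pow_orderOf_eq_one ζ
    rw [← pow_eq_pow_mod _ hz]
  have hvaln : ((n : ℕ) : ZMod (2 * n)).val = n := ZMod.val_natCast_of_lt (by omega)
  have hm : χ (n : ZMod (2 * n)) = -1 := by
    simp only [χ]
    rw [hvaln]
    have h1 : ((ζ ^ n : (ZMod q)ˣ) : ZMod q) * ((ζ ^ n : (ZMod q)ˣ) : ZMod q) = 1 := by
      rw [← Units.val_mul, ← pow_add, ← two_mul, ← hoζ, pow_orderOf_eq_one]
      rfl
    rcases mul_self_eq_one_iff.mp h1 with h2 | h2
    · exfalso
      have h3 : ζ ^ n = 1 := Units.ext h2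
      have h4 := orderOf_le_of_pow_eq_one (by omega) h3
      omega
    · exact h2
  have hm' : χ (-(n : ZMod (2 * n))) = -1 := by
    have h1 := hadd (n : ZMod (2 * n)) (-(n : ZMod (2 * n)))
    rw [add_neg_cancel, h0, hm] at h1
    linear_combination h1
  have hχne : ∀ i : ZMod (2 * n), i ≠ 0 → χ i ≠ 1 := by
    intro i hi h1
    have h2 : ζ ^ i.val = 1 := Units.ext h1
    have h3 := orderOf_dvd_of_pow_eq_one h2
    rw [hoζ] at h3
    have h4 : i.val < 2 * n := ZMod.val_lt i
    have h5 : i.val = 0 := Nat.eq_zero_of_dvd_of_lt h3 h4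
    exact hi ((ZMod.val_eq_zero i).mp h5)
  have h2ne : (2 : ZMod q) ≠ 0 := by
    intro h
    have h1 : ((2 : ℕ) : ZMod q) = 0 := by exact_mod_cast h
    rw [ZMod.natCast_eq_zero_iff] at h1
    have := Nat.le_of_dvd (by norm_num) h1
    omega
  let φ := rhoHom χ h0 hadd hm hm'
  have hφ : ∀ k : QuaternionGroup n, k ≠ 1 → ∀ v : Multiplicative (ZMod q × ZMod q), φ k v = v → v = 1 := by
    intro k hk v hv
    have hv' : rhoFun χ k (Multiplicative.toAdd v) = Multiplicative.toAdd v := congrArg Multiplicative.toAdd hv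
    have key : Multiplicative.toAdd v = 0 := by
      generalize Multiplicative.toAdd v = w at hv'
      have hcancel : ∀ x y : ZMod q, x ≠ 1 → x * y = y → y = 0 := by
        intro x y hx h
        have h3 : (x - 1) * y = 0 := by rw [sub_mul, h, one_mul, sub_self]
        rcases mul_eq_zero.mp h3 with h5 | h5
        · exact absurd (sub_eq_zero.mp h5) hx
        · exact h5
      cases k with
      | a i =>
        have hi : i ≠ 0 := by
          rintro rfl
          exact hk rfl
        have hi' : -i ≠ 0 := neg_ne_zero.mpr hi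
        have e1 : χ i * w.1 = w.1 := congrArg Prod.fst hv'
        have e2 : χ (-i) * w.2 = w.2 := congrArg Prod.snd hv'
        exact Prod.ext (hcancel _ _ (hχne i hi) e1) (hcancel _ _ (hχne _ hi') e2)
      | xa j =>
        have e1 : χ (-j) * w.2 = w.1 := congrArg Prod.fst hv'
        have e2 : -χ j * w.1 = w.2 := congrArg Prod.snd hv'
        have h1 : χ j * χ (-j) = 1 := by rw [← hadd, add_neg_cancel, h0]
        have h2 : (2 : ZMod q) * w.2 = 0 := by
          rw [← e1] at e2
          linear_combination -e2 + (-w.2) * h1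
        have h3 : w.2 = 0 := by
          rcases mul_eq_zero.mp h2 with h5 | h5
          · exact absurd h5 h2ne
          · exact h5
        refine Prod.ext ?_ h3
        rw [← e1, h3, mul_zero]
        rfl
    exact key
  haveI : Nontrivial (QuaternionGroup n) := ⟨⟨.a 0, .xa 0, fun h => by cases h⟩⟩
  haveI : Nontrivial (Multiplicative (ZMod q × ZMod q)) := inferInstanceAs (Nontrivial (ZMod q × ZMod q))
  haveI : Finite (Multiplicative (ZMod q × ZMod q)) := inferInstanceAs (Finite (ZMod q × ZMod q))
  refine ⟨Multiplicative (ZMod q × ZMod q) ⋊[φ] QuaternionGroup n, inferInstance,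
    Finite.of_equiv _ SemidirectProduct.equivProd.symm,
    (SemidirectProduct.inr : QuaternionGroup n →* Multiplicative (ZMod q × ZMod q) ⋊[φ] QuaternionGroup n).range,
    Lib.FrobEx.inr_isFrob φ hφ, ⟨(Lib.FrobEx.inrEquiv φ).symm⟩⟩

end Cfsg.Agent.S4297
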