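import Cfsg.Statements.S4298
import Cfsg.Agent.Lib.FrobEx
-- import your own Cfsg.Agent.* helpers here

set_option autoImplicit false
open Cfsg

namespace Cfsg.Agent.S4298

open Subgroup

abbrev Q4 := ZMod 5 × ZMod 5 × ZMod 5 × ZMod 5

/-- The table of an embedding of `SL(2,3)` into `SL(2,5)`. -/
def tbl : List Q4 := [(1,0,0,1), (1,0,0,1), (1,0,0,1), (1,0,0,1), (1,0,0,1), (1,0,0,1), (1,0,0,1), (1,0,0,1), (1,0,0,1), (1,0,0,1), (1,0,0,1), (1,0,0,1), (1,0,0,1), (1,0,0,1), (1,0,0,1), (0,4,1,0), (2,4,3,4), (3,2,1,1), (1,0,0,1), (1,0,0,1), (1,0,0,1), (0,1,4,0), (2,3,4,4), (3,1,2,1), (1,0,0,1), (1,0,0,1), (1,0,0,1), (1,0,0,1), (1,0,0,1), (1,0,0,1), (1,0,0,1), (1,2,1,3), (1,0,0,1), (1,0,0,1), (3,3,4,1), (1,0,0,1), (1,0,0,1), (1,1,2,3), (1,0,0,1), (1,0,0,1), (1,0,0,1), (0,2,2,0), (4,2,1,2), (1,0,0,1), (1,0,0,1), (1,0,0,1), (3,4,3,1), (1,0,0,1), (4,1,2,2), (1,0,0,1), (1,0,0,1), (1,0,0,1), (1,0,0,1), (3,0,0,2), (1,0,0,1), (1,0,0,1),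 (4,0,0,4), (1,0,0,1), (1,0,0,1), (2,2,1,4), (1,0,0,1), (1,0,0,1), (4,3,4,2), (1,0,0,1), (1,0,0,1), (2,1,2,4), (1,0,0,1), (2,0,0,3), (1,0,0,1), (1,4,3,3), (1,0,0,1), (1,0,0,1), (1,0,0,1), (1,0,0,1), (4,4,3,2), (1,3,4,3), (1,0,0,1), (1,0,0,1), (1,0,0,1), (0,3,3,0), (1,0,0,1)]

def psi (a b c d : ZMod 3) : Q4 :=
  tbl.getD (27 * a.val + 9 * b.val + 3 * c.val + d.val) (1, 0, 0, 1)

def mulT (A B : Q4) : Q4 :=
  (A.1 * B.1 + A.2.1 * B.2.2.1, A.1 * B.2.1 + A.2.1 * B.2.2.2,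
    A.2.2.1 * B.1 + A.2.2.2 * B.2.2.1, A.2.2.1 * B.2.1 + A.2.2.2 * B.2.2.2)

def act (A : Q4) (w : ZMod 5 × ZMod 5) : ZMod 5 × ZMod 5 :=
  (A.1 * w.1 + A.2.1 * w.2, A.2.2.1 * w.1 + A.2.2.2 * w.2)

theorem act_mul (A B : Q4) (w : ZMod 5 × ZMod 5) : act (mulT A B) w = act A (act B w) := by
  simp only [act, mulT]
  ext <;> simp only <;> ring

theorem act_add (A : Q4) (w w' : ZMod 5 × ZMod 5) : act A (w + w') = act A w + act A w' := by
  simp only [act]
  ext <;> simp <;> ring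

theorem act_one (w : ZMod 5 × ZMod 5) : act (1, 0, 0, 1) w = w := by
  simp [act]

theorem psi_one : psi 1 0 0 1 = (1, 0, 0, 1) := by decide +kernel

theorem psi_mul : ∀ a b c d e f g h : ZMod 3, a * d - b * c = 1 → e * h - f * g = 1 →
    psi (a * e + b * g) (a * f + b * h) (c * e + d * g) (c * f + d * h) = mulT (psi a b c d) (psi e f g h) := by
  decide +kernel

theorem psi_fpf : ∀ a b c d : ZMod 3, a * d - b * c = 1 → ¬ (a = 1 ∧ b = 0 ∧ c = 0 ∧ d = 1) →
    ∀ x y : ZMod 5, act (psi a b c d) (x, y) = (x, y) → x = 0 ∧ y = 0 := by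
  decide +kernel

abbrev SL23 := Matrix.SpecialLinearGroup (Fin 2) (ZMod 3)

def rho (g : SL23) (w : ZMod 5 × ZMod 5) : ZMod 5 × ZMod 5 :=
  act (psi (g 0 0) (g 0 1) (g 1 0) (g 1 1)) w

theorem det_eq (g : SL23) : g 0 0 * g 1 1 - g 0 1 * g 1 0 = 1 := by
  have := g.2
  rw [Matrix.det_fin_two] at this
  exact this

theorem rho_one (w : ZMod 5 × ZMod 5) : rho 1 w = w := by
  have h : psi ((1 : SL23) 0 0) ((1 : SL23) 0 1) ((1 : SL23) 1 0) ((1 : SL23) 1 1) = (1, 0, 0, 1) := by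
    simp only [Matrix.SpecialLinearGroup.coe_one, Matrix.one_apply_eq, Matrix.one_apply_ne (by decide : (0 : Fin 2) ≠ 1),
      Matrix.one_apply_ne (by decide : (1 : Fin 2) ≠ 0)]
    exact psi_one
  rw [rho, h, act_one]

theorem rho_mul (g h : SL23) (w : ZMod 5 × ZMod 5) : rho (g * h) w = rho g (rho h w) := by
  have e := psi_mul _ _ _ _ _ _ _ _ (det_eq g) (det_eq h)
  simp only [rho]
  rw [← act_mul, ← e]
  simp only [Matrix.SpecialLinearGroup.coe_mul, Matrix.mul_apply, Fin.sum_univ_two]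

theorem rho_add (g : SL23) (w w' : ZMod 5 × ZMod 5) : rho g (w + w') = rho g w + rho g w' :=
  act_add _ _ _

def rhoHom : SL23 →* MulAut (Multiplicative (ZMod 5 × ZMod 5)) where
  toFun g :=
    { toFun := fun w => Multiplicative.ofAdd (rho g (Multiplicative.toAdd w))
      invFun := fun w => Multiplicative.ofAdd (rho g⁻¹ (Multiplicative.toAdd w))
      left_inv := fun w => by
        simp only [toAdd_ofAdd]
        rw [← rho_mul, inv_mul_cancel, rho_one]
        rfl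
      right_inv := fun w => by
        simp only [toAdd_ofAdd]
        rw [← rho_mul, mul_inv_cancel, rho_one]
        rfl
      map_mul' := fun w w' => by
        show Multiplicative.ofAdd (rho g (w.toAdd + w'.toAdd)) = _
        rw [rho_add]
        rfl }
  map_one' := by
    refine MulEquiv.ext (fun w => ?_)
    show Multiplicative.ofAdd (rho 1 (Multiplicative.toAdd w)) = w
    rw [rho_one]
    rfl
  map_mul' g h := by
    refine MulEquiv.ext (fun w => ?_)
    show Multiplicative.ofAdd (rho (g * h) (Multiplicative.toAdd w)) = _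
    rw [rho_mul]
    rfl

/-- The group SL(2,3) of order 24 (the binary tetrahedral group) occurs as a Frobenius complement of some finite Frobenius group. -/
theorem result :
    ∃ (L : Type) (_ : Group L) (_ : Finite L) (H : Subgroup L), Cfsg.IsFrobeniusComplement H ∧ Nonempty (H ≃* Matrix.SpecialLinearGroup (Fin 2) (ZMod 3)) := by
  classical
  have hφ : ∀ k : SL23, k ≠ 1 → ∀ v : Multiplicative (ZMod 5 × ZMod 5), rhoHom k v = v → v = 1 := by
    intro k hk v hv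
    have hv' : rho k (Multiplicative.toAdd v) = Multiplicative.toAdd v := congrArg Multiplicative.toAdd hv
    have hne : ¬ (k 0 0 = 1 ∧ k 0 1 = 0 ∧ k 1 0 = 0 ∧ k 1 1 = 1) := by
      rintro ⟨h1, h2, h3, h4⟩
      apply hk
      ext i j
      fin_cases i <;> fin_cases j <;> simp [h1, h2, h3, h4]
    have key : Multiplicative.toAdd v = 0 := by
      generalize Multiplicative.toAdd v = w at hv'
      obtain ⟨x, y⟩ := w
      have := psi_fpf _ _ _ _ (det_eq k) hne x y hv'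
      exact Prod.ext this.1 this.2
    exact key
  haveI : Nontrivial SL23 := by
    refine ⟨⟨1, -1, ?_⟩⟩
    intro h
    have := congrArg (fun g : SL23 => g 0 0) h
    revert this
    decide +kernel
  haveI : Fact (Nat.Prime 5) := ⟨by norm_num⟩
  haveI : Nontrivial (Multiplicative (ZMod 5 × ZMod 5)) := inferInstanceAs (Nontrivial (ZMod 5 × ZMod 5))
  haveI : Finite (Multiplicative (ZMod 5 × ZMod 5)) := inferInstanceAs (Finite (ZMod 5 × ZMod 5))
  refine ⟨Multiplicative (ZMod 5 × ZMod 5) ⋊[rhoHom] SL23, inferInstance,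
    Finite.of_equiv _ SemidirectProduct.equivProd.symm,
    (SemidirectProduct.inr : SL23 →* Multiplicative (ZMod 5 × ZMod 5) ⋊[rhoHom] SL23).range,
    Lib.FrobEx.inr_isFrob rhoHom hφ, ⟨(Lib.FrobEx.inrEquiv rhoHom).symm⟩⟩

end Cfsg.Agent.S4298
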