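import Cfsg.Statements.S4299
import Cfsg.Agent.Lib.FrobEx
-- import your own Cfsg.Agent.* helpers here

set_option autoImplicit false
open Cfsg

namespace Cfsg.Agent.S4299

open Subgroup

/-- Every nontrivial finite cyclic group occurs as a Frobenius complement of some finite Frobenius group. -/
theorem result {C : Type*} [Group C] [Finite C] [IsCyclic C] [Nontrivial C] :
    ∃ (L : Type) (_ : Group L) (_ : Finite L) (H : Subgroup L), Cfsg.IsFrobeniusComplement H ∧ Nonempty (C ≃* H) := by
  classical
  have hn : 2 ≤ Nat.card C := by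
    have := Finite.one_lt_card_iff_nontrivial (α := C) |>.mpr inferInstance
    omega
  obtain ⟨q, hq, -, hqmod⟩ := Nat.exists_prime_gt_modEq_one 1 (k := Nat.card C) (by omega) 
  haveI : Fact q.Prime := ⟨hq⟩
  have hdvd : Nat.card C ∣ q - 1 := (Nat.modEq_iff_dvd' hq.one_lt.le).mp hqmod.symm
  obtain ⟨g, hg⟩ := IsCyclic.exists_generator (α := (ZMod q)ˣ)
  have hog : orderOf g = q - 1 := by
    rw [orderOf_eq_card_of_forall_mem_zpowers hg, Nat.card_eq_fintype_card, ZMod.card_units]
  set ζ := g ^ ((q - 1) / Nat.card C) with hζ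
  have hoζ : orderOf ζ = Nat.card C := by
    rw [hζ, ← hog]
    exact orderOf_pow_orderOf_div (by rw [hog]; have := hq.one_lt; omega) (by rw [hog]; exact hdvd)
  let K := zpowers ζ
  have hKc : Nat.card K = Nat.card C := by rw [Nat.card_zpowers, hoζ]
  haveI hKnt : Nontrivial K := by
    rw [← Finite.one_lt_card_iff_nontrivial, hKc]; omega
  let V := Multiplicative (ZMod q)
  let φ : K →* MulAut V :=
    (MulAutMultiplicative (ZMod q)).symm.toMonoidHom.comp (AddAut.mulLeft.comp K.subtype)
  have hφ : ∀ k : K, k ≠ 1 → ∀ v : V, φ k v = v → v = 1 := by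
    intro k hk v hv
    have h1 : ((k : (ZMod q)ˣ) : ZMod q) * Multiplicative.toAdd v = Multiplicative.toAdd v := by
      have := congrArg Multiplicative.toAdd hv
      exact this
    have h2 : ((k : (ZMod q)ˣ) : ZMod q) ≠ 1 := by
      intro h
      apply hk
      apply Subtype.ext
      exact Units.ext h
    have h3 : (((k : (ZMod q)ˣ) : ZMod q) - 1) * Multiplicative.toAdd v = 0 := by
      rw [sub_mul, h1, one_mul, sub_self]
    have h4 : Multiplicative.toAdd v = 0 := by
      rcases mul_eq_zero.mp h3 with h5 | h5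
      · exact absurd (sub_eq_zero.mp h5) h2
      · exact h5
    exact h4
  haveI : Nontrivial V := inferInstanceAs (Nontrivial (Multiplicative (ZMod q)))
  haveI : Finite V := inferInstanceAs (Finite (Multiplicative (ZMod q)))
  haveI : IsCyclic K := inferInstance
  refine ⟨V ⋊[φ] K, inferInstance, Finite.of_equiv _ SemidirectProduct.equivProd.symm,
    (SemidirectProduct.inr : K →* V ⋊[φ] K).range, Lib.FrobEx.inr_isFrob φ hφ, ?_⟩
  exact ⟨(mulEquivOfCyclicCardEq hKc.symm).trans (Lib.FrobEx.inrEquiv φ)⟩

end Cfsg.Agent.S4299
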