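import Cfsg.Statements.S4300
-- import your own Cfsg.Agent.* helpers here

set_option autoImplicit false
open Cfsg

namespace Cfsg.Agent.S4300

/-- Let G act faithfully and primitively on a set X, and suppose the stabilizer of some point is a simple group. Then either G is simple, or G has a normal subgroup, neither trivial nor the whole group, that acts regularly on X (transitively with trivial point stabilizers). -/
theorem result {G : Type*} [Group G] {X : Type*} [MulAction G X] [FaithfulSMul G X]
    (hprim : MulAction.IsPreprimitive G X) (x : X) (hsimple : IsSimpleGroup (MulAction.stabilizer G x)) :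
    IsSimpleGroup G ∨ ∃ N : Subgroup G, N.Normal ∧ N ≠ ⊥ ∧ N ≠ ⊤ ∧
      MulAction.IsPretransitive N X ∧ ∀ y : X, MulAction.stabilizer N y = ⊥ := by
  classical
  by_contra hcon
  push Not at hcon
  obtain ⟨hns, hno⟩ := hcon
  have hnt : Nontrivial G := by
    obtain ⟨a, ha⟩ := exists_ne (1 : MulAction.stabilizer G x)
    exact ⟨⟨a.1, 1, fun h => ha (Subtype.ext h)⟩⟩
  have hex : ∃ N : Subgroup G, N.Normal ∧ N ≠ ⊥ ∧ N ≠ ⊤ := by
    by_contra h
    push Not at h
    apply hns
    refine ⟨fun N hN => ?_⟩
    by_cases hb : N = ⊥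
    · exact Or.inl hb
    · exact Or.inr (h N hN hb)
  obtain ⟨N, hNn, hN1, hN2⟩ := hex
  have hfp : MulAction.fixedPoints N X ≠ Set.univ := by
    intro h
    apply hN1
    rw [eq_bot_iff]
    intro n hn
    have h1 : n = 1 := by
      apply FaithfulSMul.eq_of_smul_eq_smul (α := X)
      intro y
      have h2 := (Set.eq_univ_iff_forall.mp h y) ⟨n, hn⟩
      rw [one_smul]
      exact h2
    rw [h1]
    exact Subgroup.one_mem _
  haveI : MulAction.IsQuasiPreprimitive G X := MulAction.IsPreprimitive.isQuasiPreprimitive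
  have htr : MulAction.IsPretransitive N X := MulAction.IsQuasiPreprimitive.isPretransitive_of_normal hfp
  have hK : (N.subgroupOf (MulAction.stabilizer G x)).Normal := Subgroup.normal_subgroupOf
  rcases hK.eq_bot_or_eq_top with h | h
  · obtain ⟨y, hy⟩ := hno N hNn hN1 hN2 htr
    apply hy
    obtain ⟨⟨n, hn⟩, rfl⟩ := htr.exists_smul_eq x y
    rw [eq_bot_iff]
    rintro ⟨m, hm⟩ hm2
    have hm3 : m • ((⟨n, hn⟩ : N) • x) = (⟨n, hn⟩ : N) • x := hm2
    have hm4 : (n⁻¹ * m * n) • x = x := by
      rw [mul_smul, mul_smul]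
      have : n • x = (⟨n, hn⟩ : N) • x := rfl
      rw [this, hm3]
      show n⁻¹ • n • x = x
      simp
    have hmem : (⟨n⁻¹ * m * n, hm4⟩ : MulAction.stabilizer G x) ∈ N.subgroupOf (MulAction.stabilizer G x) := by
      rw [Subgroup.mem_subgroupOf]
      have h5 := hNn.conj_mem m hm n⁻¹
      simpa using h5
    rw [h] at hmem
    have h6 : n⁻¹ * m * n = 1 := congrArg Subtype.val (Subgroup.mem_bot.mp hmem)
    have h7 : m = 1 := by
      have : m = n * (n⁻¹ * m * n) * n⁻¹ := by group
      rw [this, h6]; group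
    rw [Subgroup.mem_bot]
    exact Subtype.ext h7
  · apply hN2
    rw [eq_top_iff]
    intro g _
    obtain ⟨⟨n, hn⟩, hnx⟩ := htr.exists_smul_eq x (g • x)
    have hnx' : n • x = g • x := hnx
    have h1 : (n⁻¹ * g) • x = x := by
      rw [mul_smul, ← hnx']
      simp
    have h2 : (⟨n⁻¹ * g, h1⟩ : MulAction.stabilizer G x) ∈ N.subgroupOf (MulAction.stabilizer G x) := by
      rw [h]; exact Subgroup.mem_top _
    have h3 : n⁻¹ * g ∈ N := Subgroup.mem_subgroupOf.mp h2
    have h4 : g = n * (n⁻¹ * g) := by group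
    rw [h4]
    exact N.mul_mem hn h3

end Cfsg.Agent.S4300
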