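import Cfsg.Statements.S4301
import Mathlib
-- import your own Cfsg.Agent.* helpers here

set_option autoImplicit false
open Cfsg

namespace Cfsg.Agent.S4301

theorem exists_emb {X : Type*} (k : ℕ) (hk : 2 ≤ k) (e : Fin k ↪ X) (u v : X) (huv : u ≠ v) :
    ∃ a : Fin k ↪ X, a ⟨0, by omega⟩ = u ∧ a ⟨1, by omega⟩ = v := by
  classical
  set e0 := e ⟨0, by omega⟩ with he0
  set e1 := e ⟨1, by omega⟩ with he1
  have h01 : e0 ≠ e1 := by
    intro h
    have := e.injective h
    simp at this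
  set τ₁ := Equiv.swap e0 u with hτ₁
  set e1' := τ₁ e1 with he1'
  have hne : u ≠ e1' := by
    intro h
    have h2 : τ₁ e0 = u := Equiv.swap_apply_left _ _
    rw [← h2] at h
    exact h01 (τ₁.injective h)
  set τ₂ := Equiv.swap e1' v with hτ₂
  refine ⟨e.trans (τ₁.trans τ₂).toEmbedding, ?_, ?_⟩
  · show τ₂ (τ₁ e0) = u
    rw [hτ₁, Equiv.swap_apply_left, hτ₂, Equiv.swap_apply_of_ne_of_ne hne huv]
  · show τ₂ (τ₁ e1) = v
    rw [← he1', hτ₂, Equiv.swap_apply_left]

/-- One-point extension of a multiply transitive group. Let X be a set and G a group of permutations of Option X (the set X with one extra point ∗ = none) all of whose elements fix ∗, such that G is k-transitive on the points of X for some k ≥ 2, X having at least k points. Suppose a permutation h of Option X and an element g of G satisfy: h interchanges ∗ with a point x of X and fixes a point y of X; g interchanges x and y; (g h)³ and h² lie in G; and for every f in G fixing x, the product h f h lies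 in G and fixes x. Then an element of the group generated by G and h fixes ∗ exactly when it lies in G, and that group acts (k+1)-transitively on Option X. -/
theorem result {X : Type*} (G : Subgroup (Equiv.Perm (Option X))) (hfix : ∀ f ∈ G, f none = none)
    (k : ℕ) (hk : 2 ≤ k) (hkX : Nonempty (Fin k ↪ X))
    (htrans : ∀ a b : Fin k ↪ X, ∃ f ∈ G, ∀ i, f (some (a i)) = some (b i))
    (h g : Equiv.Perm (Option X)) (hg : g ∈ G) (x y : X)
    (h1 : h none = some x) (h2 : h (some x) = none) (h3 : h (some y) = some y)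
    (h4 : g (some x) = some y) (h5 : g (some y) = some x)
    (h6 : (g * h) ^ 3 ∈ G) (h7 : h ^ 2 ∈ G)
    (h8 : ∀ f ∈ G, f (some x) = some x → h * f * h ∈ G ∧ (h * f * h) (some x) = some x) :
    (∀ f ∈ Subgroup.closure ((G : Set (Equiv.Perm (Option X))) ∪ {h}), f none = none ↔ f ∈ G) ∧
      MulAction.IsMultiplyPretransitive (Subgroup.closure ((G : Set (Equiv.Perm (Option X))) ∪ {h})) (Option X) (k + 1) := by
  classical
  set H := Subgroup.closure ((G : Set (Equiv.Perm (Option X))) ∪ {h}) with hH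
  have hxy : x ≠ y := by
    rintro rfl
    rw [h2] at h3
    exact absurd h3 (by simp)
  obtain ⟨e⟩ := hkX
  have two : ∀ u v u' v' : X, u ≠ v → u' ≠ v' → ∃ f ∈ G, f (some u) = some u' ∧ f (some v) = some v' := by
    intro u v u' v' h₁ h₂
    obtain ⟨a, ha0, ha1⟩ := exists_emb k hk e u v h₁
    obtain ⟨b, hb0, hb1⟩ := exists_emb k hk e u' v' h₂
    obtain ⟨f, hf, hfab⟩ := htrans a b
    refine ⟨f, hf, ?_, ?_⟩
    · rw [← ha0, ← hb0]; exact hfab _
    · rw [← ha1, ← hb1]; exact hfab _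
  have hu2 : h ^ 2 * h⁻¹ = h := by rw [sq]; group
  have hhinv : h⁻¹ = (h ^ 2)⁻¹ * h := by rw [sq]; group
  have hux : (h ^ 2) (some x) = some x := by
    rw [sq, Equiv.Perm.mul_apply, h2, h1]
  have huxi : ((h ^ 2)⁻¹) (some x) = some x := by
    rw [Equiv.Perm.inv_eq_iff_eq]
    exact hux.symm
  have hA : ∀ f ∈ G, f (some x) = some x → h * f * h⁻¹ ∈ G := by
    intro f hf hfx
    have h₀ : h * f * h⁻¹ = h * (f * (h ^ 2)⁻¹) * h := by
      rw [hhinv]; group
    rw [h₀]
    refine (h8 _ (G.mul_mem hf (G.inv_mem h7)) ?_).1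
    rw [Equiv.Perm.mul_apply, huxi, hfx]
  have hC : ∀ f ∈ G, f (some x) = some x → h⁻¹ * f * h ∈ G := by
    intro f hf hfx
    have h₀ : h⁻¹ * f * h = (h ^ 2)⁻¹ * (h * f * h) := by
      rw [hhinv]; group
    rw [h₀]
    exact G.mul_mem (G.inv_mem h7) (h8 f hf hfx).1
  have hghg : h * g * h = (g⁻¹ * (g * h) ^ 3 * (h ^ 2)⁻¹) * h * g⁻¹ := by
    simp only [pow_succ, pow_zero, one_mul]
    group
  let U : Equiv.Perm (Option X) → Prop := fun f => f ∈ G ∨ ∃ a ∈ G, ∃ b ∈ G, f = a * h * b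
  have hwh : ∀ w ∈ G, U (h * w * h) := by
    intro w hw
    by_cases hwx : w (some x) = some x
    · exact Or.inl (h8 w hw hwx).1
    · right
      -- `z` with `w z = x`
      have hzne : w⁻¹ (some x) ≠ none := by
        intro hz
        have h₀ : w⁻¹ none = none := hfix _ (G.inv_mem hw)
        rw [← h₀] at hz
        exact absurd ((w⁻¹).injective hz) (by simp)
      obtain ⟨z, hz⟩ := Option.ne_none_iff_exists'.mp hzne
      have hzx : x ≠ z := by
        rintro rfl
        apply hwx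
        rw [Equiv.Perm.inv_eq_iff_eq] at hz
        exact hz.symm
      obtain ⟨f₂, hf₂, hf₂x, hf₂z⟩ := two x z x y hzx hxy
      set f₁ := w * f₂⁻¹ * g⁻¹ with hf₁
      have hf₁G : f₁ ∈ G := G.mul_mem (G.mul_mem hw (G.inv_mem hf₂)) (G.inv_mem hg)
      have hgi : g⁻¹ (some x) = some y := by
        rw [Equiv.Perm.inv_eq_iff_eq]
        exact h5.symm
      have hf₂i : f₂⁻¹ (some y) = some z := by
        rw [Equiv.Perm.inv_eq_iff_eq]
        exact hf₂z.symm
      have hwz : w (some z) = some x := by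
        rw [Equiv.Perm.inv_eq_iff_eq] at hz
        exact hz.symm
      have hf₁x : f₁ (some x) = some x := by
        rw [hf₁, Equiv.Perm.mul_apply, Equiv.Perm.mul_apply, hgi, hf₂i, hwz]
      have hwdec : w = f₁ * g * f₂ := by
        rw [hf₁]; group
      have hAG := hA f₁ hf₁G hf₁x
      have hCG := hC f₂ hf₂ hf₂x
      refine ⟨(h * f₁ * h⁻¹) * (g⁻¹ * (g * h) ^ 3 * (h ^ 2)⁻¹), G.mul_mem hAG
        (G.mul_mem (G.mul_mem (G.inv_mem hg) h6) (G.inv_mem h7)), g⁻¹ * (h⁻¹ * f₂ * h), G.mul_mem (G.inv_mem hg) hCG, ?_⟩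
      have h₃ : h * w * h = (h * f₁ * h⁻¹) * (h * g * h) * (h⁻¹ * f₂ * h) := by
        rw [hwdec]; group
      rw [h₃, hghg]
      group
  have hU_mul : ∀ f₁ f₂, U f₁ → U f₂ → U (f₁ * f₂) := by
    rintro f₁ f₂ (hf₁ | ⟨a, ha, b, hb, rfl⟩) (hf₂ | ⟨c, hc, d, hd, rfl⟩)
    · exact Or.inl (G.mul_mem hf₁ hf₂)
    · exact Or.inr ⟨f₁ * c, G.mul_mem hf₁ hc, d, hd, by group⟩
    · exact Or.inr ⟨a, ha, b * f₂, G.mul_mem hb hf₂, by group⟩
    · rcases hwh (b * c) (G.mul_mem hb hc) with h₀ | ⟨p, hp, q, hq, hpq⟩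
      · left
        have h₁ : a * h * b * (c * h * d) = a * (h * (b * c) * h) * d := by group
        rw [h₁]
        exact G.mul_mem (G.mul_mem ha h₀) hd
      · right
        refine ⟨a * p, G.mul_mem ha hp, q * d, G.mul_mem hq hd, ?_⟩
        have h₁ : a * h * b * (c * h * d) = a * (h * (b * c) * h) * d := by group
        rw [h₁, hpq]
        group
  have hU_inv : ∀ f, U f → U f⁻¹ := by
    rintro f (hf | ⟨a, ha, b, hb, rfl⟩)
    · exact Or.inl (G.inv_mem hf)
    · refine Or.inr ⟨b⁻¹ * (h ^ 2)⁻¹, G.mul_mem (G.inv_mem hb) (G.inv_mem h7), a⁻¹, G.inv_mem ha, ?_⟩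
      have h₀ : (a * h * b)⁻¹ = b⁻¹ * h⁻¹ * a⁻¹ := by group
      rw [h₀, hhinv]
      group
  have hcl : ∀ f ∈ H, U f := by
    intro f hf
    induction hf using Subgroup.closure_induction with
    | mem f hf =>
      rcases hf with hf | hf
      · exact Or.inl hf
      · rw [Set.mem_singleton_iff.mp hf]
        exact Or.inr ⟨1, G.one_mem, 1, G.one_mem, by group⟩
    | one => exact Or.inl G.one_mem
    | mul a b _ _ ha hb => exact hU_mul a b ha hb
    | inv a _ ha => exact hU_inv a ha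
  have hGH : ∀ f ∈ G, f ∈ H := fun f hf => Subgroup.subset_closure (Or.inl hf)
  have hhH : h ∈ H := Subgroup.subset_closure (Or.inr rfl)
  refine ⟨?_, ?_⟩
  · intro f hf
    constructor
    · intro hfn
      rcases hcl f hf with h₀ | ⟨a, ha, b, hb, rfl⟩
      · exact h₀
      · exfalso
        have h₁ : (a * h * b) none = a (some x) := by
          rw [Equiv.Perm.mul_apply, Equiv.Perm.mul_apply, hfix b hb, h1]
        rw [h₁] at hfn
        have h₂ : a none = none := hfix a ha
        rw [← h₂] at hfn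
        exact absurd (a.injective hfn) (by simp)
    · exact fun h₀ => hfix f h₀
  · have hstd : ∀ a : Fin (k + 1) ↪ Option X, ∃ f ∈ H, f (a 0) = none ∧ ∀ i : Fin k, f (a i.succ) = some (e i) := by
      intro a
      obtain ⟨f₀, hf₀, hf₀0⟩ : ∃ f₀ ∈ H, f₀ (a 0) = none := by
        rcases ha : a 0 with _ | z
        · exact ⟨1, H.one_mem, rfl⟩
        · obtain ⟨v, hv⟩ : ∃ v, v ≠ z := by
            by_cases hzx : z = x
            · exact ⟨y, by rw [hzx]; exact hxy.symm⟩
            · exact ⟨x, fun h₀ => hzx h₀.symm⟩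
          obtain ⟨w, hw, hw1, -⟩ := two z v x y hv.symm hxy
          refine ⟨h * w, H.mul_mem hhH (hGH w hw), ?_⟩
          rw [Equiv.Perm.mul_apply, hw1, h2]
      have hne : ∀ i : Fin k, f₀ (a i.succ) ≠ none := by
        intro i hi
        rw [← hf₀0] at hi
        have h₀ := a.injective (f₀.injective hi)
        exact absurd h₀ (Fin.succ_ne_zero i)
      choose z hz using fun i => Option.ne_none_iff_exists'.mp (hne i)
      have hzinj : Function.Injective z := by
        intro i j hij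
        have h₀ : f₀ (a i.succ) = f₀ (a j.succ) := by rw [hz, hz, hij]
        exact Fin.succ_injective _ (a.injective (f₀.injective h₀))
      obtain ⟨f₁, hf₁, hf₁s⟩ := htrans ⟨z, hzinj⟩ e
      refine ⟨f₁ * f₀, H.mul_mem (hGH f₁ hf₁) hf₀, ?_, ?_⟩
      · rw [Equiv.Perm.mul_apply, hf₀0]
        exact hfix f₁ hf₁
      · intro i
        rw [Equiv.Perm.mul_apply, hz]
        exact hf₁s i
    refine ⟨fun a b => ?_⟩
    obtain ⟨f, hf, hf0, hfs⟩ := hstd a
    obtain ⟨f', hf', hf'0, hf's⟩ := hstd b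
    refine ⟨⟨f'⁻¹ * f, H.mul_mem (H.inv_mem hf') hf⟩, ?_⟩
    refine Function.Embedding.ext (fun i => ?_)
    show ((f'⁻¹ * f) (a i)) = b i
    rw [Equiv.Perm.mul_apply, Equiv.Perm.inv_eq_iff_eq]
    refine Fin.cases ?_ (fun j => ?_) i
    · rw [hf0, hf'0]
    · rw [hfs, hf's]

end Cfsg.Agent.S4301
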