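import Cfsg.Statements.S4421
import Mathlib
import Cfsg.Agent.Lib.FGSBasic
-- import your own Cfsg.Agent.* helpers here

set_option autoImplicit false
open Cfsg

namespace Cfsg.Agent.S4421

/-- A factorization of a normalizer from two-step control of fusion. Let `G` be a finite group and `A ≤ S ≤ H` subgroups of `G` such that: (i) `S` controls the `G`-fusion of `A` in the sense that every `G`-conjugate of `A` lying in `S` is an `S`-conjugate of `A`; (ii) `H` controls the `G`-fusion of `S` in the same sense; (iii) every conjugate of `S` by an element of the normalizer of `A` lies in `H`. Then `N_G(A) = N_H(A) · (N_G(S) ∩ N_G(A))`: every element of the normalizer of `A` is a product of an element of `H` normalizing `A` and an element normalizing both `S` and `A`. -/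
theorem result {G : Type*} [Group G] [Finite G] (A S H : Subgroup G)
    (hAS : A ≤ S) (hSH : S ≤ H)
    (h1 : ∀ g : G, A.map (MulAut.conj g).toMonoidHom ≤ S → ∃ s ∈ S, A.map (MulAut.conj g).toMonoidHom = A.map (MulAut.conj s).toMonoidHom)
    (h2 : ∀ g : G, S.map (MulAut.conj g).toMonoidHom ≤ H → ∃ y ∈ H, S.map (MulAut.conj g).toMonoidHom = S.map (MulAut.conj y).toMonoidHom)
    (h3 : ∀ x ∈ Subgroup.normalizer (A : Set G), S.map (MulAut.conj x).toMonoidHom ≤ H) :
    ∀ x ∈ Subgroup.normalizer (A : Set G), ∃ y ∈ H ⊓ Subgroup.normalizer (A : Set G),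
      ∃ z ∈ Subgroup.normalizer (S : Set G) ⊓ Subgroup.normalizer (A : Set G), x = y * z := by
  classical
  open Cfsg.Agent.Lib.FGSBasic in
  intro x hx
  obtain ⟨y₁, hy₁H, hy₁⟩ := h2 x (h3 x hx)
  have hz₁ : y₁⁻¹ * x ∈ Subgroup.normalizer (S : Set G) := (map_conj_eq_iff S x y₁).mp hy₁
  set z₁ := y₁⁻¹ * x with hz₁def
  have hAz : A.map (MulAut.conj z₁).toMonoidHom ≤ S := by
    intro a ha
    rw [mem_map_conj] at ha
    have := (Subgroup.mem_normalizer_iff.mp hz₁ _).mp (hAS ha)
    have h4 : z₁ * (z₁⁻¹ * a * z₁) * z₁⁻¹ = a := by group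
    rwa [h4] at this
  obtain ⟨s, hsS, hs⟩ := h1 z₁ hAz
  have hz : s⁻¹ * z₁ ∈ Subgroup.normalizer (A : Set G) := (map_conj_eq_iff A z₁ s).mp hs
  have hsN : s⁻¹ ∈ Subgroup.normalizer (S : Set G) := by
    rw [Subgroup.mem_normalizer_iff]
    intro t
    constructor
    · intro ht
      exact mul_mem (mul_mem (inv_mem hsS) ht) (by simpa using hsS)
    · intro ht
      have := mul_mem (mul_mem hsS ht) (inv_mem hsS)
      have h4 : s * (s⁻¹ * t * s⁻¹⁻¹) * s⁻¹ = t := by group
      rwa [h4] at this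
  have hzS := mul_mem hsN hz₁
  refine ⟨y₁ * s, ⟨mul_mem hy₁H (hSH hsS), ?_⟩, s⁻¹ * z₁, ⟨hzS, hz⟩, ?_⟩
  · have h5 : y₁ * s = x * (s⁻¹ * z₁)⁻¹ := by
      rw [hz₁def]; group
    rw [h5]
    exact Subgroup.mul_mem _ hx (Subgroup.inv_mem _ hz)
  · rw [hz₁def]; group

end Cfsg.Agent.S4421
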