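import Cfsg.Statements.S4422
import Mathlib
-- import your own Cfsg.Agent.* helpers here

set_option autoImplicit false
open Cfsg

namespace Cfsg.Agent.S4422

theorem mod_of_prime (q e r : ℕ) (hq : 2 ≤ q) (he : 1 ≤ e) (hr : r.Prime) (hm : r ∣ q ^ e - 1)
    (hcop : ∀ i : ℕ, 1 ≤ i → i < e → Nat.Coprime r (q ^ i - 1)) : r % e = 1 % e := by
  haveI : Fact r.Prime := ⟨hr⟩
  have hqe : 1 ≤ q ^ e := Nat.one_le_pow _ _ (by omega)
  have hqz : ((q : ZMod r)) ^ e = 1 := by
    have h1 : ((q ^ e - 1 : ℕ) : ZMod r) = 0 := (ZMod.natCast_eq_zero_iff _ _).mpr hm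
    rw [Nat.cast_sub hqe] at h1
    simp only [Nat.cast_pow, Nat.cast_one] at h1
    exact sub_eq_zero.mp h1
  have hord : orderOf (q : ZMod r) = e := by
    have h1 : orderOf (q : ZMod r) ∣ e := orderOf_dvd_of_pow_eq_one hqz
    by_contra hne
    have hpos : 1 ≤ orderOf (q : ZMod r) := Nat.pos_of_dvd_of_pos h1 (by omega)
    have hlt : orderOf (q : ZMod r) < e := lt_of_le_of_ne (Nat.le_of_dvd (by omega) h1) hne
    have hc := hcop _ hpos hlt
    have hd : r ∣ q ^ orderOf (q : ZMod r) - 1 := by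
      rw [← ZMod.natCast_eq_zero_iff]
      rw [Nat.cast_sub (Nat.one_le_pow _ _ (by omega))]
      simp [pow_orderOf_eq_one]
    have : r ∣ 1 := by
      have h2 := Nat.dvd_gcd (dvd_refl r) hd
      rwa [Nat.Coprime.gcd_eq_one hc] at h2
    exact hr.one_lt.ne' (Nat.dvd_one.mp this)
  have hq0 : (q : ZMod r) ≠ 0 := by
    intro h0
    rw [h0, zero_pow (by omega)] at hqz
    exact zero_ne_one hqz
  have hdvd : e ∣ r - 1 := by
    rw [← hord]
    exact ZMod.orderOf_dvd_card_sub_one hq0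
  have h1r : 1 ≤ r := hr.one_lt.le
  exact (Nat.modEq_iff_dvd' h1r).mpr hdvd |>.symm

/-- Primitive divisors of `q^e - 1` are congruent to 1 modulo `e`. Let `q ≥ 2` and `e ≥ 1` be natural numbers and let `m` be a divisor of `q^e - 1` that is coprime to `q^i - 1` for every `1 ≤ i < e` (so `m` divides the primitive part of `q^e - 1`, the largest such divisor). Then `m ≡ 1 (mod e)`. -/
theorem result (q e m : ℕ) (hq : 2 ≤ q) (he : 1 ≤ e)
    (hm : m ∣ q ^ e - 1) (hcop : ∀ i : ℕ, 1 ≤ i → i < e → Nat.Coprime m (q ^ i - 1)) :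
    m % e = 1 % e := by
  have hqe : 1 ≤ q ^ e := Nat.one_le_pow _ _ (by omega)
  have hpos : 0 < q ^ e - 1 := by
    have : 2 ^ 1 ≤ q ^ e := le_trans (by simpa using hq) (Nat.pow_le_pow_right (by omega) he)
    omega
  have hm0 : m ≠ 0 := by
    rintro rfl
    exact hpos.ne' (Nat.eq_zero_of_zero_dvd hm)
  induction m using Nat.recOnMul with
  | zero => exact absurd rfl hm0
  | one => rfl
  | prime p hp =>
    exact mod_of_prime q e p hq he hp hm hcop
  | mul a b ha hb =>
    have ha0 : a ≠ 0 := left_ne_zero_of_mul hm0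
    have hb0 : b ≠ 0 := right_ne_zero_of_mul hm0
    have h1 := ha (dvd_trans (dvd_mul_right _ _) hm) (fun i hi hie => Nat.Coprime.coprime_dvd_left (dvd_mul_right _ _) (hcop i hi hie)) ha0
    have h2 := hb (dvd_trans (dvd_mul_left _ _) hm) (fun i hi hie => Nat.Coprime.coprime_dvd_left (dvd_mul_left _ _) (hcop i hi hie)) hb0
    have h3 : a * b ≡ 1 * 1 [MOD e] := Nat.ModEq.mul h1 h2
    simpa [Nat.ModEq] using h3

end Cfsg.Agent.S4422
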