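import Cfsg.Statements.S4424
import Cfsg.Agent.Lib.BlockFrob

set_option autoImplicit false
open Cfsg

namespace Cfsg.Agent.S4424

/-- Let χ be an irreducible character of the finite group G lying in the p-block B (relative to a maximal ideal M of the algebraic integers containing p), and let p^a be the p-part of the order of G. Then the class function that equals p^a · χ on the p-regular elements and vanishes on the p-singular elements is an integer combination of the irreducible characters in B: there are integers a_ψ, zero for ψ outside B, with that function equal to Σ a_ψ ψ. -/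
theorem result {G : Type*} [Group G] [Finite G] (p : ℕ) [Fact p.Prime] (M : Ideal Cfsg.AlgInt) (hM : Cfsg.IsPModular p M) (B : Set (Cfsg.IrrCharacter G)) (hB : Cfsg.IsPBlock M B) (χ : Cfsg.IrrCharacter G) (hχ : χ ∈ B) : ∃ a : Cfsg.IrrCharacter G → ℤ, (∀ ψ, ψ ∉ B → a ψ = 0) ∧ (fun x : G => if p ∣ orderOf x then (0 : ℂ) else ((p ^ (Nat.card G).factorization p : ℕ) : ℂ) * (χ : G → ℂ) x) = fun x => ∑ᶠ ψ : Cfsg.IrrCharacter G, (a ψ : ℂ) * (ψ : G → ℂ) x := by
  classical
  have := Fintype.ofFinite G
  have hp : p.Prime := Fact.out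
  have := hM.2.1.isPrime
  choose n hn using fun ψ : IrrCharacter G => Lib.BlockFrob.regInner_eq_mul hp χ ψ
  refine ⟨n, ?_, ?_⟩
  · intro ψ hψ
    have h1 : ¬ SameBlock M χ.1 ψ.1 := by
      intro h
      apply hψ
      rw [Lib.BlockDefect.eq_blockOf_of_mem hB hχ]
      exact h
    have h2 := Lib.BlockOku.regInner_eq_zero hM h1
    rw [hn ψ] at h2
    have hm : ((ordCompl[p] (Nat.card G) : ℕ) : ℂ) ≠ 0 :=
      Nat.cast_ne_zero.mpr (Nat.ordCompl_pos p Nat.card_pos.ne').ne'
    have h3 : (n ψ : ℂ) = 0 := (mul_eq_zero.mp h2).resolve_left hm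
    exact_mod_cast h3
  · have hf := Lib.BlockFrob.isClassFunction_tilde (p := p) (((p ^ (Nat.card G).factorization p : ℕ) : ℂ)) χ
    have h1 := Lib.CharOrth.classFun_eq_sum _ hf
    funext x
    rw [finsum_eq_sum_of_fintype]
    refine (congrFun h1 x).trans ?_
    simp only [Finset.sum_apply, Pi.smul_apply, smul_eq_mul]
    refine Finset.sum_congr rfl fun ψ _ => ?_
    rw [Lib.BlockFrob.inner_tilde_int hp (hn ψ)]

end Cfsg.Agent.S4424
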