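import Cfsg.Statements.S4426
import Cfsg.Agent.Lib.BlockFrob

set_option autoImplicit false
open Cfsg

namespace Cfsg.Agent.S4426

/-- Let χ be an irreducible character in the p-block B of the finite group G (relative to a maximal ideal M of the algebraic integers containing p), let p^a be the p-part of the order of G, and let χ̃ be the class function equal to p^a · χ on p-regular elements and zero elsewhere. For ξ ∈ B the inner product [χ̃, ξ] is an integer. The following are equivalent: (a) χ has height zero in B; (b) for some ξ ∈ B the integer [χ̃, ξ] is nonzero and the exact power of p dividing it equals the exact power of p dividing ξ(1); (c) the same holds for every ξ ∈ B. -/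
theorem result {G : Type*} [Group G] [Fintype G] (p : ℕ) [Fact p.Prime] (M : Ideal Cfsg.AlgInt) (hM : Cfsg.IsPModular p M) (B : Set (Cfsg.IrrCharacter G)) (hB : Cfsg.IsPBlock M B) (χ : Cfsg.IrrCharacter G) (hχ : χ ∈ B) : (Cfsg.blockHeight p B (χ : G → ℂ) = 0 ↔ ∃ ξ ∈ B, ∃ n : ℤ, Cfsg.classInner (fun x : G => if p ∣ orderOf x then (0 : ℂ) else ((p ^ (Nat.card G).factorization p : ℕ) : ℂ) * (χ : G → ℂ) x) (ξ : G → ℂ) = (n : ℂ) ∧ n ≠ 0 ∧ padicValInt p n = (Cfsg.charDegree (ξ : G → ℂ)).factorization p) ∧ (Cfsg.blockHeight p B (χ : G → ℂ) = 0 ↔ ∀ ξ ∈ B, ∃ n : ℤ, Cfsg.classInner (fun x : G => if p ∣ orderOf x then (0 : ℂ) else ((p ^ (Nat.card G).factorization p : ℕ) : ℂ) * (χ : G → ℂ) x) (ξ : G → ℂ) = (n : ℂ) ∧ n ≠ 0 ∧ padicValInt p n = (Cfsg.charDegree (ξ : G → ℂ)).factorization p) := by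
  classical
  have hp : p.Prime := Fact.out
  have := hM.2.1.isPrime
  choose n hn using fun ξ : IrrCharacter G => Lib.BlockFrob.regInner_eq_mul hp χ ξ
  have hinner := fun ξ : IrrCharacter G => Lib.BlockFrob.inner_tilde_int hp (hn ξ)
  have hsymm : ∀ ξ : IrrCharacter G, Lib.BlockOku.regInner p ξ χ = ((ordCompl[p] (Nat.card G) : ℕ) : ℂ) * n ξ := by
    intro ξ
    rw [Lib.BlockOku.regInner_symm, hn]
  have hunit := fun ξ : IrrCharacter G => Lib.BlockFrob.unit_iff (M := M) hM (hsymm ξ)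
  have hval : ∀ ξ : IrrCharacter G, (∃ m : ℤ, classInner (fun x : G => if p ∣ orderOf x then (0 : ℂ) else ((p ^ (Nat.card G).factorization p : ℕ) : ℂ) * (χ : G → ℂ) x) (ξ : G → ℂ) = (m : ℂ) ∧ m ≠ 0 ∧ padicValInt p m = (charDegree (ξ : G → ℂ)).factorization p) ↔ ¬ MemLocalIdeal M (Lib.BlockCore.omegaA ξ (Lib.BlockOku.zReg p M χ)) := by
    intro ξ
    rw [hunit ξ]
    constructor
    · rintro ⟨m, h1, h2, h3⟩
      have h4 : n ξ = m := by
        have := (hinner ξ).symm.trans h1
        exact_mod_cast this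
      subst h4
      refine ⟨h2, ?_⟩
      rw [← h3, Nat.factorization_def _ hp, padicValInt]
    · rintro ⟨h1, h2⟩
      refine ⟨n ξ, hinner ξ, h1, ?_⟩
      rw [← h2, Nat.factorization_def _ hp, padicValInt]
  have hcongr : ∀ ξ ∈ B, (¬ MemLocalIdeal M (Lib.BlockCore.omegaA ξ (Lib.BlockOku.zReg p M χ)) ↔ ¬ MemLocalIdeal M (Lib.BlockCore.omegaA χ (Lib.BlockOku.zReg p M χ))) := by
    intro ξ hξ
    have h1 := Lib.BlockCore.omegaA_sub_of_sameBlock (Lib.BlockDefect.sameBlock_of_mem hB hξ hχ) (Lib.BlockOku.isCentral_zReg (M := M) (p := p) χ)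
    refine not_congr ⟨fun h => ?_, fun h => ?_⟩
    · have := Lib.LocRing.memLocalIdeal_sub h h1
      simpa using this
    · have := Lib.LocRing.memLocalIdeal_add h1 h
      simpa using this
  have hh := Lib.BlockOku.height_zero_iff hM hB hχ
  constructor
  · rw [hh]
    constructor
    · intro h
      exact ⟨χ, hχ, (hval χ).mpr h⟩
    · rintro ⟨ξ, hξ, h⟩
      exact (hcongr ξ hξ).mp ((hval ξ).mp h)
  · rw [hh]
    constructor
    · intro h ξ hξ
      exact (hval ξ).mpr ((hcongr ξ hξ).mpr h)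
    · intro h
      exact (hval χ).mp (h χ hχ)

end Cfsg.Agent.S4426
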