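import Cfsg.Statements.S4483
import Cfsg.Agent.Lib.BlockReg2

set_option autoImplicit false
open Cfsg

namespace Cfsg.Agent.S4483

/-- Let G be a finite group of order 2^n·g₀ with g₀ odd, and M a maximal ideal of the algebraic integers containing 2. Every real-valued irreducible character of G of odd degree lies in the principal 2-block; consequently G has at most 2^(2n) real-valued irreducible characters of odd degree. -/
theorem result {G : Type*} [Group G] [Finite G] (M : Ideal Cfsg.AlgInt) (hM : Cfsg.IsPModular 2 M) : (∀ χ : Cfsg.IrrCharacter G, (∀ g : G, ((χ : G → ℂ) g).im = 0) → Odd (Cfsg.charDegree (χ : G → ℂ)) → χ ∈ Cfsg.principalBlock M G) ∧ Nat.card {χ : Cfsg.IrrCharacter G // (∀ g : G, ((χ : G → ℂ) g).im = 0) ∧ Odd (Cfsg.charDegree (χ : G → ℂ))} ≤ 2 ^ (2 * (Nat.card G).factorization 2) := by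
  classical
  have := Fintype.ofFinite G
  have := Fintype.ofFinite (IrrCharacter G)
  have := hM.2.1.isPrime
  have hf2 : Fact (Nat.Prime 2) := ⟨Nat.prime_two⟩
  have hp : Nat.Prime 2 := Nat.prime_two
  have hpart1 : ∀ χ : IrrCharacter G, (∀ g : G, (χ.1 g).im = 0) → Odd (charDegree χ.1) → χ ∈ principalBlock M G := by
    intro χ hreal hodd
    have hB : IsPBlock M (blockOf M χ.1) := ⟨χ, rfl⟩
    have hχ := Lib.BlockDefect.mem_blockOf_self (M := M) χ
    have hm : Lib.BlockReg.minV 2 (blockOf M χ.1) = 0 := by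
      have h1 := Lib.BlockReg.minV_le (p := 2) hχ
      have h2 : (charDegree χ.1).factorization 2 = 0 :=
        Nat.factorization_eq_zero_of_not_dvd (fun h => (Nat.not_even_iff_odd.mpr hodd) (even_iff_two_dvd.mpr h))
      omega
    have hdef : blockDefect 2 (blockOf M χ.1) = (Nat.card G).factorization 2 := by
      have := Lib.BlockReg.defect_add (p := 2) hB
      omega
    have hst : ∀ ψ : IrrCharacter G, ψ ∈ blockOf M χ.1 ↔ Lib.BlockReg2.conjI ψ ∈ blockOf M χ.1 := by
      have h1 : ∀ ψ : IrrCharacter G, ψ ∈ blockOf M χ.1 → Lib.BlockReg2.conjI ψ ∈ blockOf M χ.1 := by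
        intro ψ hψ
        have h2 := Lib.BlockReg2.sameBlock_conjI (M := M) (χ := χ) (ψ := ψ) hψ
        rwa [Lib.BlockReg2.conjI_eq_of_real hreal] at h2
      intro ψ
      refine ⟨h1 ψ, fun h2 => ?_⟩
      have h3 := h1 _ h2
      rwa [Lib.BlockReg2.conjI_conjI] at h3
    have h3 := Lib.BlockReg2.principal_of_real hM hB hdef (Lib.BlockReg2.blockCoeff_inv_of_stable hst)
    rw [← h3]
    exact hχ
  refine ⟨hpart1, ?_⟩
  have hB0 : IsPBlock M (principalBlock M G) := Lib.BlockMain4.isPBlock_principal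
  have h1 := Lib.BlockReg.sum_block_pow_height (p := 2) hM hB0
  have h2 : Nat.card {χ : IrrCharacter G // (∀ g : G, (χ.1 g).im = 0) ∧ Odd (charDegree χ.1)} ≤
      ∑ ξ : IrrCharacter G, (if ξ ∈ principalBlock M G then 2 ^ (2 * blockHeight 2 (principalBlock M G) ξ.1) else 0) := by
    rw [Nat.card_eq_fintype_card, Fintype.card_subtype, Finset.card_filter]
    refine Finset.sum_le_sum fun ξ _ => ?_
    by_cases hξ : (∀ g : G, (ξ.1 g).im = 0) ∧ Odd (charDegree ξ.1)
    · rw [if_pos hξ, if_pos (hpart1 ξ hξ.1 hξ.2)]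
      exact Nat.one_le_pow _ _ hp.pos
    · rw [if_neg hξ]
      exact Nat.zero_le _
  have h3 : blockDefect 2 (principalBlock M G) ≤ (Nat.card G).factorization 2 := Nat.sub_le _ _
  have h4 : 2 ^ (2 * blockDefect 2 (principalBlock M G)) ≤ 2 ^ (2 * (Nat.card G).factorization 2) :=
    Nat.pow_le_pow_right hp.pos (by omega)
  obtain ⟨a, ha⟩ : ∃ a, a = (Nat.card G).factorization 2 := ⟨_, rfl⟩
  rw [← ha] at h3 h4 ⊢
  rcases Nat.eq_zero_or_pos a with h0 | h0
  · subst h0
    simp only [mul_zero, pow_zero] at h4 ⊢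
    omega
  · have h5 : 4 ≤ 2 ^ (2 * a) := by
      calc 4 = 2 ^ 2 := by norm_num
        _ ≤ 2 ^ (2 * a) := Nat.pow_le_pow_right hp.pos (by omega)
    omega

end Cfsg.Agent.S4483
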