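import Cfsg.Statements.S4485
import Cfsg.Agent.Lib.H3Exc5

set_option autoImplicit false
open Cfsg

namespace Cfsg.Agent.S4485

/-- Let G be a finite group and p a prime dividing its order such that every non-identity element of a Sylow p-subgroup P has the same centralizer as P itself (so P is abelian); let p^n be the order of P. If G has a faithful character of degree x with x² < p^n − 1, then P is normal in G. -/
theorem result {G : Type*} [Group G] [Finite G] (p : ℕ) (hp : p.Prime) (hpG : p ∣ Nat.card G) (P : Sylow p G) (hstar : ∀ x ∈ (P : Subgroup G), x ≠ 1 → Subgroup.centralizer ({x} : Set G) = Subgroup.centralizer ((P : Subgroup G) : Set G)) (n : ℕ) (hn : Nat.card P = p ^ n) (χ : G → ℂ) (hχ : Cfsg.IsCharacter G χ) (hfaith : ∀ g : G, χ g = χ 1 → g = 1) (hdeg : Cfsg.charDegree χ ^ 2 + 1 < p ^ n) : (P : Subgroup G).Normal := by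
  classical
  haveI : Fact p.Prime := ⟨hp⟩
  letI : Fintype G := Fintype.ofFinite G
  obtain ⟨x, hx⟩ := Cfsg.Agent.Lib.CharAlg.IsCharacter.map_one_nat hχ
  have hdegx : Cfsg.charDegree χ = x := Cfsg.Agent.Lib.CharGlaub5.charDegree_of_nat hx
  rw [hdegx] at hdeg
  exact Cfsg.Agent.Lib.H3Exc.normal_of_faithful P hstar hn hχ hfaith hx hdeg

end Cfsg.Agent.S4485
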