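import Cfsg.Statements.S4490
import Cfsg.Agent.Lib.BlockReg2

set_option autoImplicit false
open Cfsg

namespace Cfsg.Agent.S4490

/-- Let G be a finite group and M a maximal ideal of the algebraic integers containing 2. Every 2-block B of G whose defect groups are the Sylow 2-subgroups of G (a block of full defect) and which is not the principal block is different from its complex-conjugate block, the block formed by the complex conjugates of the members of B. -/
theorem result {G : Type*} [Group G] [Finite G] (M : Ideal Cfsg.AlgInt) (hM : Cfsg.IsPModular 2 M) (B : Set (Cfsg.IrrCharacter G)) (hB : Cfsg.IsPBlock M B) (P : Sylow 2 G) (hfull : Cfsg.IsDefectGroup 2 M B (P : Subgroup G)) (hnp : B ≠ Cfsg.principalBlock M G) : {ψ : Cfsg.IrrCharacter G | ∃ χ ∈ B, (ψ : G → ℂ) = fun g => (starRingEnd ℂ) ((χ : G → ℂ) g)} ≠ B := by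
  classical
  have := Fintype.ofFinite G
  have := hM.2.1.isPrime
  have hf2 : Fact (Nat.Prime 2) := ⟨Nat.prime_two⟩
  intro h
  apply hnp
  have hdef : blockDefect 2 B = (Nat.card G).factorization 2 := by
    have h1 := Lib.BlockMain3.card_defectGroup hM hB hfull
    have h2 := Sylow.card_eq_multiplicity P
    rw [h2] at h1
    exact (Nat.pow_right_injective (le_refl 2) h1).symm
  refine Lib.BlockReg2.principal_of_real hM hB hdef (Lib.BlockReg2.blockCoeff_inv_of_stable ?_)
  intro χ
  constructor
  · intro hχ
    rw [← h]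
    exact ⟨χ, hχ, rfl⟩
  · intro hχ
    rw [← h] at hχ
    obtain ⟨χ', hχ', h1⟩ := hχ
    have h2 : Lib.BlockReg2.conjI χ = Lib.BlockReg2.conjI χ' := Subtype.ext h1
    have h3 : χ = χ' := by
      rw [← Lib.BlockReg2.conjI_conjI χ, h2, Lib.BlockReg2.conjI_conjI]
    rwa [h3]

end Cfsg.Agent.S4490
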