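import Cfsg.Statements.S4499
import Cfsg.Agent.Lib.BlockFeit

set_option autoImplicit false
open Cfsg

namespace Cfsg.Agent.S4499

/-- Let G be a finite group whose order has p-part p^a (a ≥ 1), and fix a maximal ideal M of the algebraic integers containing p. If the degree of one irreducible character of a p-block B is divisible by p^(a−1), then the degree of every irreducible character in B is divisible by p^(a−1) (so B has defect at most 1). -/
theorem result {G : Type*} [Group G] [Finite G] (p : ℕ) [Fact p.Prime] (M : Ideal Cfsg.AlgInt) (hM : Cfsg.IsPModular p M) (hpa : p ∣ Nat.card G) (B : Set (Cfsg.IrrCharacter G)) (hB : Cfsg.IsPBlock M B) (χ : Cfsg.IrrCharacter G) (hχ : χ ∈ B) (hdiv : p ^ ((Nat.card G).factorization p - 1) ∣ Cfsg.charDegree (χ : G → ℂ)) (ψ : Cfsg.IrrCharacter G) (hψ : ψ ∈ B) : p ^ ((Nat.card G).factorization p - 1) ∣ Cfsg.charDegree (ψ : G → ℂ) := by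
  classical
  have hp : p.Prime := Fact.out
  have := Fintype.ofFinite G
  have := Fintype.ofFinite (Cfsg.IrrCharacter G)
  have := hM.2.1.isPrime
  have ha : 1 ≤ (Nat.card G).factorization p :=
    hp.factorization_pos_of_dvd Nat.card_pos.ne' hpa
  have hd := Lib.BlockReg.defect_add (p := p) hB
  have hh := Lib.BlockReg.height_add (p := p) hχ
  have hχd := Cfsg.Agent.Lib.BlockOku.charDegree_ne_zero' χ
  have h1 : (Nat.card G).factorization p - 1 ≤ (Cfsg.charDegree (χ : G → ℂ)).factorization p :=
    (hp.pow_dvd_iff_le_factorization hχd).mp hdiv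
  have hd1 : Cfsg.blockDefect p B ≤ 1 := by
    by_contra hlt
    by_cases h0 : Cfsg.blockHeight p B (χ : G → ℂ) = 0
    · omega
    · have h2 := Lib.BlockFeit.height_add_two_le hM hB hχ (Nat.one_le_iff_ne_zero.mpr h0)
      omega
  rw [Lib.BlockReg2.charDegree_eq_mul (p := p) hψ]
  refine Dvd.dvd.mul_right (pow_dvd_pow p ?_) _
  omega

end Cfsg.Agent.S4499
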