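import Cfsg.Statements.S4636
import Cfsg.Agent.Lib.LConn2

set_option autoImplicit false
open scoped Pointwise
open Cfsg

namespace Cfsg.Agent.S4636

/-- Let P be a nontrivial cyclic p-subgroup of the finite group G and Z its subgroup of order p. For every x outside N_G(Z), P meets its conjugate xPx⁻¹ trivially; consequently N_G(Q) ≤ N_G(Z) for every nontrivial subgroup Q of P. -/
theorem result {G : Type*} [Group G] [Finite G] (p : ℕ) [Fact p.Prime] (P : Subgroup G) (hP : IsPGroup p P) (hP1 : P ≠ ⊥) (hcyc : IsCyclic P) (Z : Subgroup G) (hZ : Z ≤ P) (hZcard : Nat.card Z = p) : (∀ x : G, x ∉ Subgroup.normalizer (Z : Set G) → P ⊓ MulAut.conj x • P = ⊥) ∧ ∀ Q : Subgroup G, Q ≤ P → Q ≠ ⊥ → Subgroup.normalizer (Q : Set G) ≤ Subgroup.normalizer (Z : Set G) := by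
  classical
  have huniq : ∀ A : Subgroup G, A ≤ P → Nat.card A = p → A = Z := by
    intro A hA hAc
    have h1 : A.subgroupOf P = Z.subgroupOf P := by
      apply Cfsg.Agent.Lib.LConn.unique_of_cyclic (p := p)
      · rw [Nat.card_congr (Subgroup.subgroupOfEquivOfLe hA).toEquiv]; exact hAc
      · rw [Nat.card_congr (Subgroup.subgroupOfEquivOfLe hZ).toEquiv]; exact hZcard
    rw [Subgroup.subgroupOf_inj, inf_of_le_left hA, inf_of_le_left hZ] at h1
    exact h1
  have hnorm : ∀ x : G, MulAut.conj x • Z ≤ P → x ∈ Subgroup.normalizer (Z : Set G) := by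
    intro x hx
    have hc : Nat.card (MulAut.conj x • Z : Subgroup G) = p := by
      rw [← hZcard]
      exact Nat.card_congr (Subgroup.equivSMul (MulAut.conj x) Z).symm.toEquiv
    have h1 := huniq _ hx hc
    rw [Subgroup.mem_normalizer_iff]
    intro h
    constructor
    · intro hh
      have : MulAut.conj x • h ∈ (MulAut.conj x • Z : Subgroup G) :=
        Subgroup.smul_mem_pointwise_smul h (MulAut.conj x) Z hh
      rw [h1] at this
      exact this
    · intro hh
      have h2 : MulAut.conj x • h ∈ (MulAut.conj x • Z : Subgroup G) := by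
        rw [h1]; exact hh
      exact (Subgroup.smul_mem_pointwise_smul_iff).1 h2
  -- every nontrivial subgroup of P contains Z
  have hcont : ∀ Q : Subgroup G, Q ≤ P → Q ≠ ⊥ → Z ≤ Q := by
    intro Q hQ hQ1
    have hQp : IsPGroup p Q := hP.to_le hQ
    haveI : Nontrivial Q := (Subgroup.nontrivial_iff_ne_bot Q).2 hQ1
    obtain ⟨n, hn0, hn⟩ := hQp.nontrivial_iff_card.1 inferInstance
    obtain ⟨⟨y, hyQ⟩, hy⟩ := exists_prime_orderOf_dvd_card' (G := Q) p
      (by rw [hn]; exact dvd_pow_self p hn0.ne')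
    have hy' : orderOf y = p := by
      rw [← hy]; exact (Subgroup.orderOf_mk y hyQ).symm
    have hzp : Subgroup.zpowers y ≤ Q := (Subgroup.zpowers_le).2 hyQ
    have : Subgroup.zpowers y = Z := huniq _ (hzp.trans hQ) (by rw [Nat.card_zpowers, hy'])
    rw [← this]
    exact hzp
  refine ⟨?_, ?_⟩
  · intro x hx
    by_contra hne
    have hZle : Z ≤ P ⊓ MulAut.conj x • P := hcont _ inf_le_left hne
    apply hx
    have hxi : x⁻¹ ∈ Subgroup.normalizer (Z : Set G) := by
      apply hnorm
      intro y hy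
      obtain ⟨z, hz, rfl⟩ := Subgroup.mem_smul_pointwise_iff_exists _ _ _ |>.1 hy
      have h3 := (hZle hz).2
      obtain ⟨w, hw, hwz⟩ := Subgroup.mem_smul_pointwise_iff_exists _ _ _ |>.1 h3
      have : MulAut.conj x⁻¹ • z = w := by
        rw [← hwz]
        show x⁻¹ * (x * w * x⁻¹) * x⁻¹⁻¹ = w
        group
      rw [this]
      exact hw
    simpa using Subgroup.inv_mem _ hxi
  · intro Q hQ hQ1 x hx
    apply hnorm
    intro y hy
    obtain ⟨z, hz, rfl⟩ := Subgroup.mem_smul_pointwise_iff_exists _ _ _ |>.1 hy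
    exact hQ ((Subgroup.mem_normalizer_iff.1 hx z).1 (hcont Q hQ hQ1 hz))

end Cfsg.Agent.S4636
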