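import Cfsg.Statements.S4652
import Cfsg.Agent.Lib.BlockElt

set_option autoImplicit false
open Cfsg

namespace Cfsg.Agent.S4652

/-- Fix a prime p and a maximal ideal M of the algebraic integers containing p. The defect groups of the principal p-block of a finite group G are exactly the Sylow p-subgroups of G: a subgroup D is a defect group of the principal block if and only if D is a Sylow p-subgroup. -/
theorem result {G : Type*} [Group G] [Fintype G] (p : ℕ) [Fact p.Prime] (M : Ideal Cfsg.AlgInt) (hM : Cfsg.IsPModular p M) (D : Subgroup G) : Cfsg.IsDefectGroup p M (Cfsg.principalBlock M G) D ↔ ∃ S : Sylow p G, (S : Subgroup G) = D := by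
  classical
  have := hM.2.1.isPrime
  have hp : p.Prime := hM.1
  have hforward : ∀ D : Subgroup G, Cfsg.IsDefectGroup p M (Cfsg.principalBlock M G) D →
      ∃ S : Sylow p G, (S : Subgroup G) = D := by
    intro D hD
    have hc := Lib.BlockMain3.card_defectGroup hM Lib.BlockMain4.isPBlock_principal hD
    have h0 : blockDefect p (principalBlock M G) = (Nat.card G).factorization p := by
      unfold blockDefect
      have h1 : sInf ((fun χ : IrrCharacter G => (charDegree χ.1).factorization p) '' principalBlock M G) = 0 := by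
        apply Nat.sInf_eq_zero.mpr
        left
        refine ⟨Lib.BlockMain4.oneIrr G, Lib.BlockMain4.oneIrr_mem, ?_⟩
        simp [charDegree, Lib.BlockMain4.oneIrr]
      rw [h1, Nat.sub_zero]
    rw [h0] at hc
    exact ⟨Sylow.ofCard D hc, Sylow.coe_ofCard _ _⟩
  constructor
  · exact hforward D
  · rintro ⟨S, rfl⟩
    obtain ⟨g, hg⟩ := Lib.BlockDefect.exists_isDefectClass hM (Lib.BlockMain4.isPBlock_principal (M := M) (G := G))
    obtain ⟨T⟩ : Nonempty (Sylow p (Subgroup.centralizer ({g} : Set G))) := inferInstance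
    obtain ⟨S₀, hS₀⟩ := hforward _ ⟨g, hg, T, rfl⟩
    obtain ⟨x, hx⟩ := MulAction.exists_smul_eq G S₀ S
    have hSg : (S : Subgroup G) ≤ Subgroup.centralizer ({x * g * x⁻¹} : Set G) := by
      intro s hs
      have h1 : ((x • S₀ : Sylow p G) : Subgroup G) = (S₀ : Subgroup G).map (MulAut.conj x).toMonoidHom := rfl
      rw [← hx, h1] at hs
      obtain ⟨t, ht, rfl⟩ := hs
      have ht' : t ∈ Subgroup.centralizer ({g} : Set G) := by
        rw [hS₀] at ht
        exact Lib.BlockDefect.map_sylow_le T ht
      rw [Subgroup.mem_centralizer_singleton_iff] at ht' ⊢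
      simp only [MulEquiv.coe_toMonoidHom, MulAut.conj_apply]
      calc x * t * x⁻¹ * (x * g * x⁻¹) = x * (t * g) * x⁻¹ := by group
        _ = x * (g * t) * x⁻¹ := by rw [ht']
        _ = x * g * x⁻¹ * (x * t * x⁻¹) := by group
    refine ⟨x * g * x⁻¹, ⟨?_, ?_, ?_⟩, S.subtype hSg, ?_⟩
    · rw [Lib.BlockCore.blockCoeff_conj]; exact hg.1
    · rw [Lib.BlockCore.blockCoeff_conj]; exact hg.2.1
    · intro χ hχ
      have h1 := Lib.BlockMain.centralChar_congr χ (isConj_iff.mpr ⟨x, rfl⟩ : IsConj g (x * g * x⁻¹))
      rw [← h1]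
      exact hg.2.2 χ hχ
    · rw [Sylow.coe_subtype, Subgroup.subgroupOf_map_subtype]
      exact (inf_eq_left.mpr hSg).symm

end Cfsg.Agent.S4652
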