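import Cfsg.Statements.S4665
import Cfsg.Agent.Lib.BlockReg2

set_option autoImplicit false
open Cfsg

namespace Cfsg.Agent.S4665

/-- Fix a prime p, a maximal ideal M of the algebraic integers containing p, and a p-block B of the finite group G, and let p^a be the p-part of the order of G. Let χ be an integer combination of the irreducible characters in B. If the function that agrees with χ on p-regular elements and vanishes on p-singular elements is again an integer combination of the irreducible characters in B, then p^a divides χ(1). -/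
theorem result {G : Type*} [Group G] [Fintype G] (p : ℕ) [Fact p.Prime] (M : Ideal Cfsg.AlgInt) (hM : Cfsg.IsPModular p M) (B : Set (Cfsg.IrrCharacter G)) (hB : Cfsg.IsPBlock M B) (χ : G → ℂ) (hχ : (∃ n : Cfsg.IrrCharacter G → ℤ, ∀ g : G, χ g = ∑ᶠ ψ ∈ B, (n ψ : ℂ) * (ψ : G → ℂ) g)) (h0 : (∃ n : Cfsg.IrrCharacter G → ℤ, ∀ g : G, Cfsg.pRegularPart p χ g = ∑ᶠ ψ ∈ B, (n ψ : ℂ) * (ψ : G → ℂ) g)) : ∃ k : ℤ, χ 1 = (p ^ (Nat.card G).factorization p : ℂ) * k := by
  classical
  have := Fintype.ofFinite (IrrCharacter G)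
  have hp : p.Prime := Fact.out
  have := hM.2.1.isPrime
  obtain ⟨n, hn⟩ := h0
  have h1 := Lib.BlockReg2.dvd_of_vanish (p := p) (fun ξ => if ξ ∈ B then n ξ else 0) (by
    intro g hg
    have h2 := hn g
    rw [Lib.BlockReg2.pRegularPart_of_singular χ hg, Lib.BlockCore.finsum_mem_eq_sum_ite] at h2
    rw [h2]
    refine Finset.sum_congr rfl fun ξ _ => ?_
    by_cases hξ : ξ ∈ B <;> simp [hξ])
  obtain ⟨k, hk⟩ := h1
  refine ⟨k, ?_⟩
  have h2 := hn 1
  rw [Lib.BlockReg2.pRegularPart_of_regular χ (by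
    rw [orderOf_one]
    exact fun h => hp.one_lt.ne' (Nat.dvd_one.mp h)), Lib.BlockCore.finsum_mem_eq_sum_ite] at h2
  rw [h2]
  have h4 := congrArg (Int.cast (R := ℂ)) hk
  push_cast at h4
  rw [← h4]
  refine Finset.sum_congr rfl fun ξ _ => ?_
  by_cases hξ : ξ ∈ B
  · simp only [hξ, if_true]
    rw [Lib.BlockOku.val_one_eq_charDegree]
  · simp [hξ]

end Cfsg.Agent.S4665
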