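import Cfsg.Statements.S4666
import Cfsg.Agent.Lib.BlockReg2

set_option autoImplicit false
open Cfsg

namespace Cfsg.Agent.S4666

/-- Fix a prime p and a maximal ideal M of the algebraic integers containing p, and a p-block B of the finite group G of defect d. For every integer combination χ of the irreducible characters in B, p^d times the function that agrees with χ on p-regular elements and vanishes elsewhere is again an integer combination of the irreducible characters in B. -/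
theorem result {G : Type*} [Group G] [Fintype G] (p : ℕ) [Fact p.Prime] (M : Ideal Cfsg.AlgInt) (hM : Cfsg.IsPModular p M) (B : Set (Cfsg.IrrCharacter G)) (hB : Cfsg.IsPBlock M B) (χ : G → ℂ) (hχ : (∃ n : Cfsg.IrrCharacter G → ℤ, ∀ g : G, χ g = ∑ᶠ ψ ∈ B, (n ψ : ℂ) * (ψ : G → ℂ) g)) : (∃ n : Cfsg.IrrCharacter G → ℤ, ∀ g : G, (p ^ Cfsg.blockDefect p B : ℂ) * Cfsg.pRegularPart p χ g = ∑ᶠ ψ ∈ B, (n ψ : ℂ) * (ψ : G → ℂ) g) := by
  classical
  have := Fintype.ofFinite (IrrCharacter G)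
  have hp : p.Prime := Fact.out
  have := hM.2.1.isPrime
  obtain ⟨n, hn⟩ := hχ
  refine ⟨fun ξ => ∑ ψ : IrrCharacter G, if ψ ∈ B then n ψ * Lib.BlockReg.regA p B ψ ξ else 0, fun g => ?_⟩
  rw [Lib.BlockCore.finsum_mem_eq_sum_ite]
  have h1 : ∀ ξ : IrrCharacter G, (if ξ ∈ B then (((∑ ψ : IrrCharacter G, if ψ ∈ B then n ψ * Lib.BlockReg.regA p B ψ ξ else 0 : ℤ)) : ℂ) * ξ.1 g else 0) =
      ∑ ψ : IrrCharacter G, if ψ ∈ B then (n ψ : ℂ) * ((Lib.BlockReg.regA p B ψ ξ : ℂ) * ξ.1 g) else 0 := by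
    intro ξ
    by_cases hξ : ξ ∈ B
    · simp only [hξ, if_true]
      push_cast
      rw [Finset.sum_mul]
      refine Finset.sum_congr rfl fun ψ _ => ?_
      split_ifs <;> ring
    · simp only [hξ, if_false]
      symm
      refine Finset.sum_eq_zero fun ψ _ => ?_
      by_cases hψ : ψ ∈ B
      · rw [if_pos hψ, Lib.BlockReg.regA_eq_zero hM hB hψ hξ]
        simp
      · rw [if_neg hψ]
  simp_rw [h1]
  rw [Finset.sum_comm]
  have h2 : ∀ ψ : IrrCharacter G, (∑ ξ : IrrCharacter G, if ψ ∈ B then (n ψ : ℂ) * ((Lib.BlockReg.regA p B ψ ξ : ℂ) * ξ.1 g) else 0) =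
      if ψ ∈ B then (n ψ : ℂ) * (if p ∣ orderOf g then (0 : ℂ) else ((p ^ blockDefect p B : ℕ) : ℂ) * ψ.1 g) else 0 := by
    intro ψ
    by_cases hψ : ψ ∈ B
    · simp only [hψ, if_true]
      rw [← Finset.mul_sum, Lib.BlockReg2.reg_expansion_A hM hB hψ g]
    · simp [hψ]
  simp_rw [h2]
  rw [pRegularPart]
  simp only [IsPRegular]
  by_cases hg : p ∣ orderOf g
  · simp [hg]
  · simp only [hg, if_false, not_false_eq_true, if_true]
    rw [hn g, Lib.BlockCore.finsum_mem_eq_sum_ite, Finset.mul_sum]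
    refine Finset.sum_congr rfl fun ψ _ => ?_
    by_cases hψ : ψ ∈ B
    · simp only [hψ, if_true]
      push_cast
      ring
    · simp [hψ]

end Cfsg.Agent.S4666
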