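import Cfsg.Statements.S4667
import Cfsg.Agent.Lib.BlockRank

set_option autoImplicit false
open Cfsg

namespace Cfsg.Agent.S4667

/-- Fix a prime p and a maximal ideal M of the algebraic integers containing p, and a p-block B of the finite group G. The p-regular rank of B (the number of irreducible Brauer characters in B) times the order of G equals the sum over the p-regular elements x of G of Σ_{χ ∈ B} χ(x) χ(x⁻¹) (written with the restriction of χ to p-regular elements, which vanishes at p-singular x). -/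
theorem result {G : Type*} [Group G] [Fintype G] (p : ℕ) [Fact p.Prime] (M : Ideal Cfsg.AlgInt) (hM : Cfsg.IsPModular p M) (B : Set (Cfsg.IrrCharacter G)) (hB : Cfsg.IsPBlock M B) : (Nat.card G : ℂ) * (Cfsg.blockRank p B : ℂ) = ∑ x : G, ∑ᶠ χ ∈ B, Cfsg.pRegularPart p (χ : G → ℂ) x * (χ : G → ℂ) x⁻¹ := by
  classical
  have := Fintype.ofFinite (IrrCharacter G)
  have := hM.2.1.isPrime
  have hne : (Nat.card G : ℂ) ≠ 0 := Nat.cast_ne_zero.mpr Nat.card_pos.ne'
  rw [Lib.BlockRank.blockRank_eq_sum hM hB, Finset.mul_sum]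
  simp_rw [Lib.BlockCore.finsum_mem_eq_sum_ite]
  rw [Finset.sum_comm]
  refine Finset.sum_congr rfl fun ξ _ => ?_
  by_cases hξ : ξ ∈ B
  · simp only [hξ, if_true]
    rw [Lib.BlockOku.regInner]
    have h1 : ∀ x : G, (if ¬ p ∣ orderOf x then ξ.1 x * (starRingEnd ℂ) (ξ.1 x) else 0) = pRegularPart p ξ.1 x * ξ.1 x⁻¹ := by
      intro x
      by_cases hx : p ∣ orderOf x
      · rw [Lib.BlockReg2.pRegularPart_of_singular _ hx]
        simp [hx]
      · rw [Lib.BlockReg2.pRegularPart_of_regular _ hx, if_pos hx, Lib.IrrBasic.val_inv]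
    simp_rw [h1]
    field_simp
  · simp [hξ]

end Cfsg.Agent.S4667
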