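import Cfsg.Statements.S4713
import Cfsg.Agent.Lib.BlockE6

set_option autoImplicit false
open Cfsg

namespace Cfsg.Agent.S4713

/-- Let p be a prime and G a finite p-solvable group. Then G has a normal abelian Sylow p-subgroup if and only if the degree of every irreducible character of G is prime to p. -/
theorem result {G : Type*} [Group G] [Finite G] (p : ℕ) [Fact p.Prime] (hsolv : Cfsg.IsPSolvable p G) (P : Sylow p G) : ((P : Subgroup G).Normal ∧ IsMulCommutative P) ↔ ∀ χ : Cfsg.IrrCharacter G, ¬ p ∣ Cfsg.charDegree (χ : G → ℂ) := by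
  classical
  have := Fintype.ofFinite G
  constructor
  · rintro ⟨hn, hab⟩ χ
    have := hn
    refine Cfsg.Agent.Lib.BlockPair.ito_forward (P : Subgroup G) (fun a ha b hb => ?_) P.not_dvd_index χ
    have h1 : (⟨a, ha⟩ : (P : Subgroup G)) * ⟨b, hb⟩ = ⟨b, hb⟩ * ⟨a, ha⟩ := hab.is_comm.comm _ _
    exact congrArg (fun z : (P : Subgroup G) => (z : G)) h1
  · intro hd
    obtain ⟨h1, h2⟩ := Cfsg.Agent.Lib.BlockPair.ito_main (Or.inl hsolv) hd P
    exact ⟨h1, ⟨⟨fun a b => Subtype.ext (h2 a a.2 b b.2)⟩⟩⟩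

end Cfsg.Agent.S4713
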