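import Cfsg.Statements.S4965
import Mathlib.GroupTheory.GroupAction.CardCommute

set_option autoImplicit false
open Cfsg

namespace Cfsg.Agent.S4965

/-- Let X be a finite group with an abelian normal subgroup V (any two elements of V commute), and let φ be the action of X ⧸ V on V induced by conjugation (well defined because V is abelian; the hypothesis hφ says that the class of x acts as conjugation by x). Then X has at most as many conjugacy classes as the semidirect product of V by X ⧸ V formed with this action: the split extension has the largest class number among extensions with the given action. -/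
theorem result {X : Type*} [Group X] [Finite X] (V : Subgroup X) [V.Normal] (hab : ∀ a ∈ V, ∀ b ∈ V, a * b = b * a) (φ : X ⧸ V →* MulAut ↥V) (hφ : ∀ (x : X) (v : ↥V), ((φ (QuotientGroup.mk x) v : ↥V) : X) = x * v * x⁻¹) : Nat.card (ConjClasses X) ≤ Nat.card (ConjClasses (SemidirectProduct ↥V (X ⧸ V) φ)) := by
  classical
  set Q := X ⧸ V
  let Cm := {p : X × X // Commute p.1 p.2}
  let π : Cm → Q × Q := fun z => ((QuotientGroup.mk z.1.1 : Q), (QuotientGroup.mk z.1.2 : Q))
  haveI : Nonempty Cm := ⟨⟨(1, 1), Commute.one_left _⟩⟩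
  let b : Cm → Cm := fun z => Function.invFun π (π z)
  have hb : ∀ z, π (b z) = π z := fun z => Function.invFun_eq ⟨z, rfl⟩
  have hb1 : ∀ z, (QuotientGroup.mk (b z).1.1 : Q) = QuotientGroup.mk z.1.1 := fun z =>
    congrArg Prod.fst (hb z)
  have hb2 : ∀ z, (QuotientGroup.mk (b z).1.2 : Q) = QuotientGroup.mk z.1.2 := fun z =>
    congrArg Prod.snd (hb z)
  have hu : ∀ z : Cm, z.1.1 * (b z).1.1⁻¹ ∈ V := fun z => by
    have := QuotientGroup.eq_iff_div_mem.mp (hb1 z).symm
    simpa [div_eq_mul_inv] using this
  have hw : ∀ z : Cm, z.1.2 * (b z).1.2⁻¹ ∈ V := fun z => by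
    have := QuotientGroup.eq_iff_div_mem.mp (hb2 z).symm
    simpa [div_eq_mul_inv] using this
  let Y := SemidirectProduct ↥V (X ⧸ V) φ
  let F : Cm → {p : Y × Y // Commute p.1 p.2} := fun z =>
    ⟨(⟨⟨z.1.1 * (b z).1.1⁻¹, hu z⟩, QuotientGroup.mk z.1.1⟩,
      ⟨⟨z.1.2 * (b z).1.2⁻¹, hw z⟩, QuotientGroup.mk z.1.2⟩), by
      have hc := z.2
      have hc0 := (b z).2
      simp only [Commute, SemiconjBy] at hc hc0
      show _ * _ = _ * _
      have e1 : ∀ a b : Y, (a * b).left = a.left * φ a.right b.left := fun _ _ => rfl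
      have e2 : ∀ a b : Y, (a * b).right = a.right * b.right := fun _ _ => rfl
      apply SemidirectProduct.ext
      · apply Subtype.ext
        rw [e1, e1]
        show (z.1.1 * (b z).1.1⁻¹) * ((φ (QuotientGroup.mk z.1.1) ⟨z.1.2 * (b z).1.2⁻¹, hw z⟩ : ↥V) : X) =
          (z.1.2 * (b z).1.2⁻¹) * ((φ (QuotientGroup.mk z.1.2) ⟨z.1.1 * (b z).1.1⁻¹, hu z⟩ : ↥V) : X)
        rw [← hb1 z, ← hb2 z, hφ, hφ]
        have key : z.1.1 * z.1.2 = z.1.2 * z.1.1 := hc
        set x₀ := (b z).1.1
        set y₀ := (b z).1.2
        set x := z.1.1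
        set y := z.1.2
        have h0 : x₀ * y₀ = y₀ * x₀ := hc0
        have : x * x₀⁻¹ * (x₀ * (y * y₀⁻¹) * x₀⁻¹) * (x₀ * y₀) =
            y * y₀⁻¹ * (y₀ * (x * x₀⁻¹) * y₀⁻¹) * (y₀ * x₀) := by
          simp only [mul_assoc, inv_mul_cancel_left, inv_mul_cancel_right, inv_mul_cancel, mul_one]
          simpa [mul_assoc] using key
        rw [h0] at this
        exact mul_right_cancel this
      · rw [e2, e2]
        have := congrArg (QuotientGroup.mk : X → Q) hc
        exact this⟩
  have hF : Function.Injective F := by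
    intro z z' h
    have h1 := congrArg (fun t => t.1.1.right) h
    have h2 := congrArg (fun t => t.1.2.right) h
    have h3 := congrArg (fun t => t.1.1.left) h
    have h4 := congrArg (fun t => t.1.2.left) h
    simp only [F] at h1 h2 h3 h4
    have hpi : π z = π z' := Prod.ext h1 h2
    have hbb : b z = b z' := by simp only [b, hpi]
    have h3' := congrArg Subtype.val h3
    have h4' := congrArg Subtype.val h4
    simp only [hbb] at h3' h4'
    apply Subtype.ext
    apply Prod.ext
    · exact mul_right_cancel h3'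
    · exact mul_right_cancel h4'
  haveI : Finite Y := Finite.of_equiv _ (SemidirectProduct.equivProd (φ := φ)).symm
  have hcard : Nat.card Cm ≤ Nat.card {p : Y × Y // Commute p.1 p.2} :=
    Nat.card_le_card_of_injective F hF
  rw [show Nat.card Cm = _ from card_comm_eq_card_conjClasses_mul_card X, card_comm_eq_card_conjClasses_mul_card Y] at hcard
  have hY : Nat.card Y = Nat.card X := by
    rw [Nat.card_congr (SemidirectProduct.equivProd (φ := φ)), Nat.card_prod,
      Subgroup.card_eq_card_quotient_mul_card_subgroup V, mul_comm]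
  rw [hY] at hcard
  exact Nat.le_of_mul_le_mul_right hcard Nat.card_pos

end Cfsg.Agent.S4965
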