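import Cfsg.Statements.S5015
import Cfsg.Agent.Lib.RankOne

set_option autoImplicit false
open Cfsg

namespace Cfsg.Agent.S5015

open Cfsg.Agent.Lib.RankOne

variable {Y Ω : Type*} [Group Y] [MulAction Y Ω]

theorem conj_eq_of_smul_eq {α : Ω} {A : Subgroup Y}
    (hAn : ∀ y ∈ MulAction.stabilizer Y α, Cfsg.conjBy A y = A) {g g' : Y}
    (e : g • α = g' • α) : Cfsg.conjBy A g = Cfsg.conjBy A g' := by
  have hs : g'⁻¹ * g ∈ MulAction.stabilizer Y α := by
    rw [MulAction.mem_stabilizer_iff, mul_smul, e, inv_smul_smul]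
  have := hAn _ hs
  have e2 : g = g' * (g'⁻¹ * g) := by group
  rw [e2, conjBy_mul, this]

/-- Let a group Y act doubly transitively on a set Ω with at least three points, and suppose that the stabilizer of a point α contains a nilpotent subgroup A, normalized by that stabilizer, which acts regularly on the points other than α. Then for any y in Y moving α, the subgroups A and y A y⁻¹ are the unipotent subgroups of a rank one group, and the normal closure of A in Y (the subgroup generated by all conjugates of A) is generated by A and y A y⁻¹ alone. -/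
theorem result {Y Ω : Type*} [Group Y] [MulAction Y Ω]
    (h2 : MulAction.IsMultiplyPretransitive Y Ω 2) (hΩ : 3 ≤ ENat.card Ω) (α : Ω) (A : Subgroup Y)
    (hA : A ≤ MulAction.stabilizer Y α) (hAn : ∀ y ∈ MulAction.stabilizer Y α, Cfsg.conjBy A y = A)
    (hnil : Group.IsNilpotent A) (hreg : ∀ β γ : Ω, β ≠ α → γ ≠ α → ∃! a : Y, a ∈ A ∧ a • β = γ)
    (y : Y) (hy : y ∉ MulAction.stabilizer Y α) :
    Cfsg.IsRankOnePair A (Cfsg.conjBy A y) ∧ Subgroup.normalClosure (A : Set Y) = A ⊔ Cfsg.conjBy A y := by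
  set β : Ω := y • α with hβ
  have hβα : β ≠ α := hy
  set B := Cfsg.conjBy A y with hB
  have hAfix : ∀ a ∈ A, a • α = α := fun a ha => hA ha
  -- uniqueness in regular action
  have huniq : ∀ a ∈ A, ∀ γ : Ω, γ ≠ α → a • γ = γ → a = 1 := by
    intro a ha γ hγ hfix
    obtain ⟨a₀, -, hu⟩ := hreg γ γ hγ hγ
    rw [hu a ⟨ha, hfix⟩, hu 1 ⟨A.one_mem, one_smul _ _⟩]
  -- B regular on Ω \ {β}
  have hBreg : ∀ γ δ : Ω, γ ≠ β → δ ≠ β → ∃ b ∈ B, b • γ = δ := by
    intro γ δ hγ hδ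
    have h1 : y⁻¹ • γ ≠ α := fun e => hγ (by rw [hβ, ← e, smul_inv_smul])
    have h2 : y⁻¹ • δ ≠ α := fun e => hδ (by rw [hβ, ← e, smul_inv_smul])
    obtain ⟨a, ⟨ha, e⟩, -⟩ := hreg _ _ h1 h2
    refine ⟨y * a * y⁻¹, conj_mem_conjBy ha, ?_⟩
    simp only [mul_smul, e, smul_inv_smul]
  have hBfix : ∀ b ∈ B, b • β = β := by
    rintro _ ⟨a, ha, rfl⟩
    simp only [MulEquiv.coe_toMonoidHom, MulAut.conj_apply, hβ, mul_smul, inv_smul_smul, hAfix a ha]
  have hBuniq : ∀ b ∈ B, ∀ γ : Ω, γ ≠ β → b • γ = γ → b = 1 := by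
    rintro _ ⟨a, ha, rfl⟩ γ hγ hfix
    have h1 : y⁻¹ • γ ≠ α := fun e => hγ (by rw [hβ, ← e, smul_inv_smul])
    have : a = 1 := by
      apply huniq a ha _ h1
      simp only [MulEquiv.coe_toMonoidHom, MulAut.conj_apply, mul_smul] at hfix
      rw [← smul_left_cancel_iff y, smul_inv_smul, hfix]
    simp [this]
  -- the third point
  obtain ⟨γ₀, hγ₀α, hγ₀β⟩ := ENat.exists_ne_ne_of_three_le hΩ α β
  have hBfromα : ∀ γ : Ω, γ ≠ β → ∃ b ∈ B, b • α = γ := fun γ hγ => hBreg α γ hβα.symm hγ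
  have hne : A ≠ B := by
    intro e
    obtain ⟨a, ⟨ha, e1⟩, -⟩ := hreg β γ₀ hβα hγ₀α
    rw [hBfix a (e ▸ ha)] at e1
    exact hγ₀β e1.symm
  -- the key equation
  have hkey : ∀ (a b : Y), b⁻¹ • α = a⁻¹ • β → Cfsg.conjBy A b⁻¹ = Cfsg.conjBy B a⁻¹ := by
    intro a b e
    rw [hB, conjBy_conjBy]
    apply conj_eq_of_smul_eq hAn
    rw [e, mul_smul]
  have hnilB : Group.IsNilpotent B := by
    have e : A ≃* conjBy A y := A.equivMapOfInjective _ (MulAut.conj y).injective
    exact Group.nilpotent_of_surjective e.toMonoidHom e.surjective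
  have hpair : Cfsg.IsRankOnePair A B := by
    refine ⟨hne, hnil, hnilB, ?_, ?_⟩
    · intro a ha ha1
      have h1 : a⁻¹ • β ≠ β := by
        intro hfix
        have := huniq a⁻¹ (A.inv_mem ha) β hβα hfix
        exact ha1 (by simpa using this)
      obtain ⟨b₀, hb₀, e⟩ := hBfromα _ h1
      refine ⟨b₀⁻¹, B.inv_mem hb₀, ?_, ?_⟩
      · intro hb
        have : b₀ = 1 := by simpa using hb
        rw [this, one_smul] at e
        apply hβα
        rw [← smul_left_cancel_iff a⁻¹, ← e, hAfix a⁻¹ (A.inv_mem ha)]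
      · apply hkey
        rw [inv_inv, e]
    · intro b hb hb1
      have h1 : b⁻¹ • α ≠ α := by
        intro hfix
        have := hBuniq b⁻¹ (B.inv_mem hb) α hβα.symm hfix
        exact hb1 (by simpa using this)
      obtain ⟨a₀, ⟨ha₀, e⟩, -⟩ := hreg β _ hβα h1
      refine ⟨a₀⁻¹, A.inv_mem ha₀, ?_, ?_⟩
      · intro ha
        have : a₀ = 1 := by simpa using ha
        rw [this, one_smul] at e
        apply hβα
        rw [← smul_left_cancel_iff b⁻¹, ← e, hBfix b⁻¹ (B.inv_mem hb)]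
      · symm
        apply hkey
        rw [inv_inv, e]
  refine ⟨hpair, ?_⟩
  -- transitivity of ⟨A,B⟩
  have htrans : ∀ γ : Ω, ∃ x ∈ A ⊔ B, x • α = γ := by
    intro γ
    by_cases hγ : γ = β
    · obtain ⟨b, hb, e⟩ := hBfromα γ₀ hγ₀β
      obtain ⟨a, ⟨ha, e'⟩, -⟩ := hreg γ₀ γ hγ₀α (by rw [hγ]; exact hβα)
      refine ⟨a * b, Subgroup.mul_mem _ (Subgroup.mem_sup_left ha) (Subgroup.mem_sup_right hb), ?_⟩
      rw [mul_smul, e, e']
    · obtain ⟨b, hb, e⟩ := hBfromα γ hγ
      exact ⟨b, Subgroup.mem_sup_right hb, e⟩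
  apply le_antisymm
  · rw [Subgroup.normalClosure, Subgroup.closure_le]
    intro z hz
    rw [Group.mem_conjugatesOfSet_iff] at hz
    obtain ⟨a, ha, hconj⟩ := hz
    rw [isConj_iff] at hconj
    obtain ⟨g, rfl⟩ := hconj
    obtain ⟨x, hx, e⟩ := htrans (g • α)
    have e2 : Cfsg.conjBy A g = Cfsg.conjBy A x := conj_eq_of_smul_eq hAn e.symm
    have : g * a * g⁻¹ ∈ Cfsg.conjBy A x := by
      rw [← e2]; exact conj_mem_conjBy ha
    exact conjBy_le_of_le_of_mem le_sup_left hx this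
  · refine sup_le (fun a ha => Subgroup.subset_normalClosure ha) ?_
    rw [conjBy_le_iff]
    intro a ha
    exact (Subgroup.normalClosure_normal).conj_mem a (Subgroup.subset_normalClosure ha) y

end Cfsg.Agent.S5015
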