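import Cfsg.Statements.S5016
import Cfsg.Agent.Lib.RankOne

set_option autoImplicit false
open Cfsg

namespace Cfsg.Agent.S5016

open Cfsg.Agent.Lib.RankOne Matrix

variable {k : Type*} [Field k]

/-- lower unitriangular element -/
def L (s : k) : SpecialLinearGroup (Fin 2) k :=
  ⟨!![1, 0; s, 1], by simp [Matrix.det_fin_two]⟩

/-- upper unitriangular element -/
def U (s : k) : SpecialLinearGroup (Fin 2) k :=
  ⟨!![1, s; 0, 1], by simp [Matrix.det_fin_two]⟩

theorem coe_L (s : k) : (L s : Matrix (Fin 2) (Fin 2) k) = !![1, 0; s, 1] := rfl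
theorem coe_U (s : k) : (U s : Matrix (Fin 2) (Fin 2) k) = !![1, s; 0, 1] := rfl

theorem sl_ext {x y : SpecialLinearGroup (Fin 2) k}
    (h : (x : Matrix (Fin 2) (Fin 2) k) = (y : Matrix (Fin 2) (Fin 2) k)) : x = y := Subtype.ext h

theorem L_add (s t : k) : L s * L t = L (s + t) := by
  apply sl_ext
  show (!![1, 0; s, 1] * !![1, 0; t, 1] : Matrix (Fin 2) (Fin 2) k) = !![1, 0; s + t, 1]
  rw [Matrix.mul_fin_two]
  simp [add_comm]

theorem U_add (s t : k) : U s * U t = U (s + t) := by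
  apply sl_ext
  show (!![1, s; 0, 1] * !![1, t; 0, 1] : Matrix (Fin 2) (Fin 2) k) = !![1, s + t; 0, 1]
  rw [Matrix.mul_fin_two]
  simp [add_comm]

theorem L_zero : L (0 : k) = 1 := by
  apply sl_ext
  show (!![1, 0; 0, 1] : Matrix (Fin 2) (Fin 2) k) = 1
  rw [Matrix.one_fin_two]

theorem U_zero : U (0 : k) = 1 := by
  apply sl_ext
  show (!![1, 0; 0, 1] : Matrix (Fin 2) (Fin 2) k) = 1
  rw [Matrix.one_fin_two]

theorem L_neg (s : k) : (L s)⁻¹ = L (-s) := by
  rw [inv_eq_iff_mul_eq_one, L_add]; simp [L_zero]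

theorem U_neg (s : k) : (U s)⁻¹ = U (-s) := by
  rw [inv_eq_iff_mul_eq_one, U_add]; simp [U_zero]

theorem L_inj {s t : k} (h : L s = L t) : s = t := by
  have := congrArg (fun g : SpecialLinearGroup (Fin 2) k => (g : Matrix (Fin 2) (Fin 2) k) 1 0) h
  have h2 : (!![1, 0; s, 1] : Matrix (Fin 2) (Fin 2) k) 1 0 = (!![1, 0; t, 1] : Matrix (Fin 2) (Fin 2) k) 1 0 := this
  simpa using h2

theorem U_inj {s t : k} (h : U s = U t) : s = t := by
  have := congrArg (fun g : SpecialLinearGroup (Fin 2) k => (g : Matrix (Fin 2) (Fin 2) k) 0 1) h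
  have h2 : (!![1, s; 0, 1] : Matrix (Fin 2) (Fin 2) k) 0 1 = (!![1, t; 0, 1] : Matrix (Fin 2) (Fin 2) k) 0 1 := this
  simpa using h2

theorem mem_lower_iff {g : SpecialLinearGroup (Fin 2) k} : g ∈ lowerUnipotentSL2 k ↔ ∃ s, g = L s := by
  constructor
  · intro hg
    induction hg using Subgroup.closure_induction with
    | mem x hx =>
      obtain ⟨h1, h2, h3⟩ := hx
      refine ⟨(x : Matrix (Fin 2) (Fin 2) k) 1 0, ?_⟩
      apply sl_ext
      show (x : Matrix (Fin 2) (Fin 2) k) = !![1, 0; (x : Matrix (Fin 2) (Fin 2) k) 1 0, 1]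
      ext i j
      fin_cases i <;> fin_cases j <;> simp [h1, h2, h3]
    | one => exact ⟨0, L_zero.symm⟩
    | mul x y _ _ hx hy =>
      obtain ⟨s, rfl⟩ := hx
      obtain ⟨t, rfl⟩ := hy
      exact ⟨s + t, L_add s t⟩
    | inv x _ hx =>
      obtain ⟨s, rfl⟩ := hx
      exact ⟨-s, L_neg s⟩
  · rintro ⟨s, rfl⟩
    apply Subgroup.subset_closure
    show (!![1, 0; s, 1] : Matrix (Fin 2) (Fin 2) k) 0 1 = 0 ∧ (!![1, 0; s, 1] : Matrix (Fin 2) (Fin 2) k) 0 0 = 1 ∧
      (!![1, 0; s, 1] : Matrix (Fin 2) (Fin 2) k) 1 1 = 1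
    simp

theorem mem_upper_iff {g : SpecialLinearGroup (Fin 2) k} : g ∈ upperUnipotentSL2 k ↔ ∃ s, g = U s := by
  constructor
  · intro hg
    induction hg using Subgroup.closure_induction with
    | mem x hx =>
      obtain ⟨h1, h2, h3⟩ := hx
      refine ⟨(x : Matrix (Fin 2) (Fin 2) k) 0 1, ?_⟩
      apply sl_ext
      show (x : Matrix (Fin 2) (Fin 2) k) = !![1, (x : Matrix (Fin 2) (Fin 2) k) 0 1; 0, 1]
      ext i j
      fin_cases i <;> fin_cases j <;> simp [h1, h2, h3]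
    | one => exact ⟨0, U_zero.symm⟩
    | mul x y _ _ hx hy =>
      obtain ⟨s, rfl⟩ := hx
      obtain ⟨t, rfl⟩ := hy
      exact ⟨s + t, U_add s t⟩
    | inv x _ hx =>
      obtain ⟨s, rfl⟩ := hx
      exact ⟨-s, U_neg s⟩
  · rintro ⟨s, rfl⟩
    apply Subgroup.subset_closure
    show (!![1, s; 0, 1] : Matrix (Fin 2) (Fin 2) k) 1 0 = 0 ∧ (!![1, s; 0, 1] : Matrix (Fin 2) (Fin 2) k) 0 0 = 1 ∧
      (!![1, s; 0, 1] : Matrix (Fin 2) (Fin 2) k) 1 1 = 1
    simp

theorem comm_lower : IsMulCommutative (lowerUnipotentSL2 k) := by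
  refine ⟨⟨?_⟩⟩
  rintro ⟨x, hx⟩ ⟨y, hy⟩
  obtain ⟨s, rfl⟩ := mem_lower_iff.1 hx
  obtain ⟨t, rfl⟩ := mem_lower_iff.1 hy
  ext1
  show L s * L t = L t * L s
  rw [L_add, L_add, add_comm]

theorem comm_upper : IsMulCommutative (upperUnipotentSL2 k) := by
  refine ⟨⟨?_⟩⟩
  rintro ⟨x, hx⟩ ⟨y, hy⟩
  obtain ⟨s, rfl⟩ := mem_upper_iff.1 hx
  obtain ⟨t, rfl⟩ := mem_upper_iff.1 hy
  ext1
  show U s * U t = U t * U s
  rw [U_add, U_add, add_comm]

theorem mat_ULU (a b c : k) : ((U a * L b * U c : SpecialLinearGroup (Fin 2) k) : Matrix (Fin 2) (Fin 2) k) =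
    !![1 + a * b, a + c + a * b * c; b, 1 + b * c] := by
  show (!![1, a; 0, 1] * !![1, 0; b, 1] * !![1, c; 0, 1] : Matrix (Fin 2) (Fin 2) k) = _
  rw [Matrix.mul_fin_two, Matrix.mul_fin_two]
  ext i j
  fin_cases i <;> fin_cases j <;> simp <;> ring

theorem mat_LUL (a b c : k) : ((L a * U b * L c : SpecialLinearGroup (Fin 2) k) : Matrix (Fin 2) (Fin 2) k) =
    !![1 + b * c, b; a + c + a * b * c, 1 + a * b] := by
  show (!![1, 0; a, 1] * !![1, b; 0, 1] * !![1, 0; c, 1] : Matrix (Fin 2) (Fin 2) k) = _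
  rw [Matrix.mul_fin_two, Matrix.mul_fin_two]
  ext i j
  fin_cases i <;> fin_cases j <;> simp <;> ring

/-- every element is in `⟨L, U⟩`. -/
theorem sup_eq_top : lowerUnipotentSL2 k ⊔ upperUnipotentSL2 k = ⊤ := by
  rw [eq_top_iff]
  rintro g -
  have hL : ∀ s : k, L s ∈ lowerUnipotentSL2 k ⊔ upperUnipotentSL2 k := fun s =>
    Subgroup.mem_sup_left (mem_lower_iff.2 ⟨s, rfl⟩)
  have hU : ∀ s : k, U s ∈ lowerUnipotentSL2 k ⊔ upperUnipotentSL2 k := fun s =>
    Subgroup.mem_sup_right (mem_upper_iff.2 ⟨s, rfl⟩)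
  have hdet : ∀ g : SpecialLinearGroup (Fin 2) k, (g : Matrix (Fin 2) (Fin 2) k) 0 0 * (g : Matrix (Fin 2) (Fin 2) k) 1 1 -
        (g : Matrix (Fin 2) (Fin 2) k) 0 1 * (g : Matrix (Fin 2) (Fin 2) k) 1 0 = 1 := by
    intro g
    have := g.2
    rw [Matrix.det_fin_two] at this
    exact this
  -- the case with non-zero lower left entry
  have key : ∀ g : SpecialLinearGroup (Fin 2) k, (g : Matrix (Fin 2) (Fin 2) k) 1 0 ≠ 0 →
      g ∈ lowerUnipotentSL2 k ⊔ upperUnipotentSL2 k := by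
    intro g hc
    have e : g = U (((g : Matrix (Fin 2) (Fin 2) k) 0 0 - 1) / (g : Matrix (Fin 2) (Fin 2) k) 1 0) *
        L ((g : Matrix (Fin 2) (Fin 2) k) 1 0) *
        U (((g : Matrix (Fin 2) (Fin 2) k) 1 1 - 1) / (g : Matrix (Fin 2) (Fin 2) k) 1 0) := by
      have hd := hdet g
      apply sl_ext
      rw [mat_ULU]
      generalize (g : Matrix (Fin 2) (Fin 2) k) = m at *
      ext i j
      fin_cases i <;> fin_cases j
      · simp; field_simp; ring
      · simp; field_simp; linear_combination -hd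
      · simp
      · simp; field_simp; ring
    rw [e]
    exact Subgroup.mul_mem _ (Subgroup.mul_mem _ (hU _) (hL _)) (hU _)
  by_cases hc : (g : Matrix (Fin 2) (Fin 2) k) 1 0 = 0
  · have ha : (g : Matrix (Fin 2) (Fin 2) k) 0 0 ≠ 0 := by
      intro h0
      have := hdet g
      rw [h0, hc] at this
      simp at this
    have h1 : L 1 * g ∈ lowerUnipotentSL2 k ⊔ upperUnipotentSL2 k := by
      apply key
      show ((!![1, 0; 1, 1] : Matrix (Fin 2) (Fin 2) k) * (g : Matrix (Fin 2) (Fin 2) k)) 1 0 ≠ 0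
      rw [Matrix.mul_apply, Fin.sum_univ_two]
      simpa [hc] using ha
    have e : g = (L 1)⁻¹ * (L 1 * g) := by group
    rw [e]
    exact Subgroup.mul_mem _ (Subgroup.inv_mem _ (hL 1)) h1
  · exact key g hc

/-- conjugation formula -/
theorem conj_L_U (s : k) (hs : s ≠ 0) (x : k) :
    (U (s⁻¹))⁻¹ * L x * U (s⁻¹) = (L s)⁻¹ * U (- x / s ^ 2) * L s := by
  rw [U_neg, L_neg]
  apply sl_ext
  rw [mat_ULU, mat_LUL]
  ext i j
  fin_cases i <;> fin_cases j <;> simp <;> field_simp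

theorem conj_eq (s : k) (hs : s ≠ 0) :
    conjBy (lowerUnipotentSL2 k) (U s⁻¹)⁻¹ = conjBy (upperUnipotentSL2 k) (L s)⁻¹ := by
  apply le_antisymm
  · rw [conjBy_le_iff]
    intro g hg
    obtain ⟨x, rfl⟩ := mem_lower_iff.1 hg
    rw [inv_inv, conj_L_U s hs x]
    have := conj_mem_conjBy (g := (L s)⁻¹) (mem_upper_iff.2 ⟨- x / s ^ 2, rfl⟩)
    rwa [inv_inv] at this
  · rw [conjBy_le_iff]
    intro g hg
    obtain ⟨y, rfl⟩ := mem_upper_iff.1 hg
    have e : (L s)⁻¹ * U y * (L s)⁻¹⁻¹ = (U s⁻¹)⁻¹ * L (- y * s ^ 2) * U s⁻¹ := by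
      rw [conj_L_U s hs, inv_inv]
      congr 2
      congr 1
      field_simp
    rw [e]
    have := conj_mem_conjBy (g := (U s⁻¹)⁻¹) (mem_lower_iff.2 ⟨- y * s ^ 2, rfl⟩)
    rwa [inv_inv] at this

theorem lower_ne_upper : lowerUnipotentSL2 k ≠ upperUnipotentSL2 k := by
  intro e
  have h1 : L (1 : k) ∈ upperUnipotentSL2 k := by
    rw [← e]; exact mem_lower_iff.2 ⟨1, rfl⟩
  obtain ⟨t, ht⟩ := mem_upper_iff.1 h1
  have := congrArg (fun g : SpecialLinearGroup (Fin 2) k => (g : Matrix (Fin 2) (Fin 2) k) 1 0) ht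
  have h2 : (!![1, 0; 1, 1] : Matrix (Fin 2) (Fin 2) k) 1 0 = (!![1, t; 0, 1] : Matrix (Fin 2) (Fin 2) k) 1 0 := this
  simp at h2

theorem isRankOnePair : IsRankOnePair (lowerUnipotentSL2 k) (upperUnipotentSL2 k) := by
  refine ⟨lower_ne_upper, ?_, ?_, ?_, ?_⟩
  · have := comm_lower (k := k)
    let _ : CommGroup (lowerUnipotentSL2 k) := { (inferInstance : Group (lowerUnipotentSL2 k)) with mul_comm := mul_comm' }
    infer_instance
  · have := comm_upper (k := k)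
    let _ : CommGroup (upperUnipotentSL2 k) := { (inferInstance : Group (upperUnipotentSL2 k)) with mul_comm := mul_comm' }
    infer_instance
  · intro a ha ha1
    obtain ⟨s, rfl⟩ := mem_lower_iff.1 ha
    have hs : s ≠ 0 := by
      rintro rfl
      exact ha1 L_zero
    refine ⟨U s⁻¹, mem_upper_iff.2 ⟨_, rfl⟩, ?_, conj_eq s hs⟩
    intro h
    rw [← U_zero] at h
    exact inv_ne_zero hs (U_inj h)
  · intro b hb hb1
    obtain ⟨t, rfl⟩ := mem_upper_iff.1 hb
    have ht : t ≠ 0 := by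
      rintro rfl
      exact hb1 U_zero
    refine ⟨L t⁻¹, mem_lower_iff.2 ⟨_, rfl⟩, ?_, ?_⟩
    · intro h
      rw [← L_zero] at h
      exact inv_ne_zero ht (L_inj h)
    · have := conj_eq t⁻¹ (inv_ne_zero ht)
      rw [inv_inv] at this
      exact this.symm

/-- For any field k, the special linear group SL₂(k) is a special rank one group with abelian unipotent subgroups, the unipotent subgroups being the group of lower unitriangular matrices and the group of upper unitriangular matrices. -/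
theorem result (k : Type*) [Field k] :
    Cfsg.IsRankOneGroup (Matrix.SpecialLinearGroup (Fin 2) k) (Cfsg.lowerUnipotentSL2 k) (Cfsg.upperUnipotentSL2 k) ∧
    Cfsg.IsSpecialRankOnePair (Cfsg.lowerUnipotentSL2 k) (Cfsg.upperUnipotentSL2 k) ∧
    Cfsg.HasAbelianUnipotents (Cfsg.lowerUnipotentSL2 k) (Cfsg.upperUnipotentSL2 k) := by
  refine ⟨⟨sup_eq_top, isRankOnePair⟩, ⟨isRankOnePair, ?_⟩, comm_lower, comm_upper⟩
  intro a ha ha1 b hb hb1 e
  obtain ⟨s, rfl⟩ := mem_lower_iff.1 ha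
  have hs : s ≠ 0 := by
    rintro rfl
    exact ha1 L_zero
  have hb0 : b = U s⁻¹ :=
    unique_partner_right isRankOnePair hb (mem_upper_iff.2 ⟨_, rfl⟩) e (conj_eq s hs)
  subst hb0
  rw [conj_L_U s hs s, U_neg]
  congr 3
  field_simp

end Cfsg.Agent.S5016
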