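import Cfsg.Statements.S5035
import Mathlib

set_option autoImplicit false
open Cfsg

namespace Cfsg.Agent.S5035


open Cfsg

section
variable {G H : Type*} [Group G] [Group H]

theorem map_conj (f : G →* H) (A : Subgroup G) (g : G) :
    (conjBy A g).map f = conjBy (A.map f) (f g) := by
  ext x
  constructor
  · rintro ⟨_, ⟨a, ha, rfl⟩, rfl⟩
    refine ⟨f a, ⟨a, ha, rfl⟩, ?_⟩
    simp [MulAut.conj_apply]
  · rintro ⟨_, ⟨a, ha, rfl⟩, rfl⟩
    refine ⟨g * a * g⁻¹, ⟨a, ha, rfl⟩, ?_⟩
    simp [MulAut.conj_apply]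

theorem comm_map (f : G →* H) (A : Subgroup G) (hA : IsMulCommutative A) : IsMulCommutative (A.map f) := by
  refine ⟨⟨?_⟩⟩
  rintro ⟨_, a, ha, rfl⟩ ⟨_, b, hb, rfl⟩
  apply Subtype.ext
  show f a * f b = f b * f a
  rw [← map_mul, ← map_mul]
  congr 1
  exact congrArg Subtype.val (hA.is_comm.comm ⟨a, ha⟩ ⟨b, hb⟩)

theorem nilp_of_comm (A : Subgroup H) (hA : IsMulCommutative A) : Group.IsNilpotent A := by
  letI : CommGroup A := { (inferInstance : Group A) with mul_comm := hA.is_comm.comm }
  exact CommGroup.isNilpotent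

theorem conj_self (A : Subgroup H) (hA : IsMulCommutative A) {a : H} (ha : a ∈ A) : conjBy A a = A := by
  ext x
  constructor
  · rintro ⟨y, hy, rfl⟩
    have h1 : y * a = a * y := congrArg Subtype.val (hA.is_comm.comm ⟨y, hy⟩ ⟨a, ha⟩)
    have h2 : (MulAut.conj a).toMonoidHom y = y := by
      show a * y * a⁻¹ = y
      rw [← h1]
      group
    rw [h2]
    exact hy
  · intro hx
    refine ⟨x, hx, ?_⟩
    have h1 : x * a = a * x := congrArg Subtype.val (hA.is_comm.comm ⟨x, hx⟩ ⟨a, ha⟩)
    show a * x * a⁻¹ = x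
    rw [← h1]
    group

theorem conj_inj' {A B : Subgroup H} {g : H} (h : conjBy A g = conjBy B g) : A = B :=
  Subgroup.map_injective (MulAut.conj g).injective h

theorem conj_conj (A : Subgroup H) (g k : H) : conjBy (conjBy A g) k = conjBy A (k * g) := by
  simp only [conjBy]
  rw [Subgroup.map_map]
  congr 1
  ext x
  simp [MulAut.conj_apply, mul_assoc]

theorem rank_map (f : G →* H) {A B : Subgroup G} (hA : IsMulCommutative A) (hB : IsMulCommutative B)
    (h : IsRankOnePair A B) (hne : A.map f ≠ B.map f) : IsRankOnePair (A.map f) (B.map f) := by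
  have hA' := comm_map f A hA
  have hB' := comm_map f B hB
  have key : ∀ {A B : Subgroup G}, IsMulCommutative (A.map f) → IsMulCommutative (B.map f) →
      A.map f ≠ B.map f → RankOneCondition A B → RankOneCondition (A.map f) (B.map f) := by
    intro A B hA' hB' hne hc
    rintro _ ⟨a, ha, rfl⟩ hfa
    have ha1 : a ≠ 1 := fun h => hfa (by rw [h, map_one])
    obtain ⟨b, hb, hb1, he⟩ := hc a ha ha1
    refine ⟨f b, ⟨b, hb, rfl⟩, ?_, ?_⟩
    · intro hfb
      have h1 := congrArg (Subgroup.map f) he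
      rw [map_conj, map_conj, map_inv, map_inv, hfb, inv_one] at h1
      apply hne
      have h2 : conjBy (A.map f) 1 = A.map f := by
        ext x
        simp
      rw [h2] at h1
      have h3 : conjBy (A.map f) (f a) = conjBy (conjBy (B.map f) (f a)⁻¹) (f a) := by rw [h1]
      rw [conj_conj, mul_inv_cancel, conj_self _ hA' ⟨a, ha, rfl⟩] at h3
      rw [h3]
      ext x
      simp
    · have h1 := congrArg (Subgroup.map f) he
      rw [map_conj, map_conj, map_inv, map_inv] at h1
      exact h1
  exact ⟨hne, nilp_of_comm _ hA', nilp_of_comm _ hB', key hA' hB' hne h.cond_left, key hB' hA' hne.symm h.cond_right⟩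

theorem comm_case_map (f : G →* H) {S : Set (Subgroup G)} {A B : Subgroup G}
    (h : RootCommutatorCase S A B) (hbot : ∀ A' ∈ S, True) :
    RootCommutatorCase ((fun A : Subgroup G => A.map f) '' S) (A.map f) (B.map f) := by
  obtain ⟨h1, h2, h3, h4⟩ := h
  refine ⟨?_, ?_, ?_, ?_⟩
  · rw [← Subgroup.map_commutator]
    exact ⟨_, h1, rfl⟩
  · rw [← Subgroup.map_commutator, ← Subgroup.map_sup]
    rintro _ ⟨c, hc, rfl⟩ _ ⟨x, hx, rfl⟩
    rw [← map_mul, ← map_mul, h2 c hc x hx]
  · rintro _ ⟨a, ha, rfl⟩ ha1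
    have ha0 : a ≠ 1 := fun h => ha1 (by rw [h, map_one])
    rw [← Subgroup.map_commutator, ← h3 a ha ha0, MonoidHom.map_closure]
    congr 1
    ext y
    constructor
    · rintro ⟨_, ⟨b, hb, rfl⟩, rfl⟩
      exact ⟨_, ⟨b, hb, rfl⟩, by simp⟩
    · rintro ⟨_, ⟨b, hb, rfl⟩, rfl⟩
      exact ⟨f b, ⟨b, hb, rfl⟩, by simp⟩
  · rintro _ ⟨b, hb, rfl⟩ hb1
    have hb0 : b ≠ 1 := fun h => hb1 (by rw [h, map_one])
    rw [← Subgroup.map_commutator, ← h4 b hb hb0, MonoidHom.map_closure]
    congr 1
    ext y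
    constructor
    · rintro ⟨_, ⟨a, ha, rfl⟩, rfl⟩
      exact ⟨_, ⟨a, ha, rfl⟩, by simp⟩
    · rintro ⟨_, ⟨a, ha, rfl⟩, rfl⟩
      exact ⟨f a, ⟨a, ha, rfl⟩, by simp⟩

end

/-- Let S be a set of abstract root subgroups of G whose graph of rank one pairs is connected, and f a homomorphism from G onto a group H. Then either the images of the members of S form a set of abstract root subgroups of H whose graph of rank one pairs is again connected, or H equals the image of a member of S. -/
theorem result {G H : Type*} [Group G] [Group H] {S : Set (Subgroup G)} (hS : Cfsg.IsRootSubgroupSet S)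
    (hc : Cfsg.IsConnectedFamily (Cfsg.FAdj S) S) (f : G →* H) (hf : Function.Surjective f) :
    (Cfsg.IsRootSubgroupSet ((fun A : Subgroup G => A.map f) '' S) ∧
      Cfsg.IsConnectedFamily (Cfsg.FAdj ((fun A : Subgroup G => A.map f) '' S)) ((fun A : Subgroup G => A.map f) '' S)) ∨
    ∃ A ∈ S, A.map f = ⊤ := by
  classical
  by_cases h0 : ∃ A ∈ S, A.map f = ⊥
  · right
    obtain ⟨A, hA, hA0⟩ := h0
    refine ⟨A, hA, ?_⟩
    have hall : ∀ B ∈ S, B.map f = ⊥ := by
      intro B hB
      have hpath := hc A hA B hB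
      induction hpath with
      | refl => exact hA0
      | @tail C D _ hstep ih =>
        obtain ⟨hCS, hDS, hr⟩ := hstep
        obtain ⟨a, ha, ha1⟩ := (Subgroup.ne_bot_iff_exists_ne_one.1 (hS.ne_bot C hCS)) |> fun ⟨⟨a, ha⟩, h⟩ => (⟨a, ha, fun e => h (Subtype.ext e)⟩ : ∃ a, a ∈ C ∧ a ≠ 1)
        obtain ⟨b, hb, hb1, he⟩ := hr.cond_left a ha ha1
        have h1 := congrArg (Subgroup.map f) he
        rw [map_conj, map_conj, ih hCS] at h1
        have h2 : conjBy (⊥ : Subgroup H) (f b⁻¹) = ⊥ := by simp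
        rw [h2] at h1
        exact (Subgroup.map_eq_bot_iff_of_injective _ (MulAut.conj (f a⁻¹)).injective).1 h1.symm
    have hrange : ∀ y : H, y = 1 := by
      intro y
      obtain ⟨x, rfl⟩ := hf y
      have hx : x ∈ (⨆ A ∈ S, A) := by rw [hS.generates]; trivial
      have h1 : (⨆ A ∈ S, A) ≤ f.ker := by
        refine iSup₂_le (fun B hB => ?_)
        intro z hz
        rw [MonoidHom.mem_ker]
        have h3 : f z ∈ B.map f := ⟨z, hz, rfl⟩
        rw [hall B hB, Subgroup.mem_bot] at h3
        exact h3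
      exact h1 hx
    rw [Subgroup.eq_top_iff']
    intro y
    rw [hrange y]
    exact Subgroup.one_mem _
  · left
    push Not at h0
    refine ⟨?_, ?_⟩
    · refine ⟨?_, ?_, ?_, ?_, ?_⟩
      · rintro _ ⟨A, hA, rfl⟩
        exact comm_map f A (hS.commutative A hA)
      · rintro _ ⟨A, hA, rfl⟩
        exact h0 A hA
      · rw [iSup_image]
        have h1 : (⨆ A ∈ S, A.map f) = (⨆ A ∈ S, A).map f := by
          simp only [Subgroup.map_iSup]
        rw [h1, hS.generates, ← MonoidHom.range_eq_map]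
        exact MonoidHom.range_eq_top.2 hf
      · rintro _ ⟨A, hA, rfl⟩ g
        obtain ⟨g₀, rfl⟩ := hf g
        exact ⟨conjBy A g₀, hS.conj_mem A hA g₀, map_conj f A g₀⟩
      · rintro _ ⟨A, hA, rfl⟩ _ ⟨B, hB, rfl⟩
        show ⁅A.map f, B.map f⁆ = ⊥ ∨ IsRankOnePair (A.map f) (B.map f) ∨ RootCommutatorCase _ (A.map f) (B.map f)
        by_cases hne : A.map f = B.map f
        · left
          rw [← hne, Subgroup.commutator_eq_bot_iff_le_centralizer]
          intro x hx
          rw [Subgroup.mem_centralizer_iff]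
          intro y hy
          exact congrArg Subtype.val ((comm_map f A (hS.commutative A hA)).is_comm.comm ⟨y, hy⟩ ⟨x, hx⟩)
        rcases hS.pair A hA B hB with h | h | h
        · left
          rw [← Subgroup.map_commutator, h, Subgroup.map_bot]
        · right; left
          exact rank_map f (hS.commutative A hA) (hS.commutative B hB) h hne
        · right; right
          exact comm_case_map f h (fun _ _ => trivial)
    · rintro _ ⟨A, hA, rfl⟩ _ ⟨B, hB, rfl⟩
      have hpath := hc A hA B hB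
      induction hpath with
      | refl => exact Relation.ReflTransGen.refl
      | @tail C D _ hstep ih =>
        obtain ⟨hCS, hDS, hr⟩ := hstep
        have ih' := ih hCS
        by_cases hne : C.map f = D.map f
        · show Relation.ReflTransGen _ _ (D.map f)
          rw [← hne]
          exact ih'
        · exact ih'.tail ⟨⟨C, hCS, rfl⟩, ⟨D, hDS, rfl⟩,
            rank_map f (hS.commutative C hCS) (hS.commutative D hDS) hr hne⟩


end Cfsg.Agent.S5035
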