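import Cfsg.Statements.S5049
import Cfsg.Agent.Lib.H1Core

set_option autoImplicit false
open Cfsg
open scoped commutatorElement

namespace Cfsg.Agent.S5049

variable {G : Type*} [Group G]

theorem inv_eq_of_order_two {x : G} (h : orderOf x = 2) : x⁻¹ = x := by
  have := pow_orderOf_eq_one x
  rw [h, pow_two] at this
  exact inv_eq_of_mul_eq_one_left this

theorem commute_of_two_power {D : Set G} (hD : IsOddTranspositionSet D) {x y : G} (hx : x ∈ D)
    (hy : y ∈ D) {k : ℕ} (h : (x * y) ^ (2 ^ k) = 1) : x * y = y * x := by
  rcases hD.1.pair x hx y hy with h0 | h1 | h2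
  · exact h0
  · have h3 : orderOf (x * y) ∣ 2 ^ k := orderOf_dvd_of_pow_eq_one h
    have h4 : Nat.Coprime (orderOf (x * y)) (2 ^ k) := Nat.Coprime.pow_right k h1.coprime_two_right
    have h5 : orderOf (x * y) = 1 := Nat.Coprime.eq_one_of_dvd h4 h3
    rw [orderOf_eq_one_iff] at h5
    have hxinv := inv_eq_of_order_two (hD.1.orderOf_eq x hx)
    have h6 : y = x⁻¹ := eq_inv_of_mul_eq_one_right h5
    rw [h6, hxinv]
  · exact absurd h2.1 (hD.2 x hx y hy)

theorem exists_two_power {q : G} [Finite G] (hq : q ∈ pCore 2 G) : ∃ k : ℕ, q ^ (2 ^ k) = 1 := by
  have : IsPGroup 2 (pCore 2 G) := Cfsg.Agent.Lib.H1Core.pCore_isPGroup 2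
  obtain ⟨k, hk⟩ := this ⟨q, hq⟩
  exact ⟨k, by simpa [Subtype.ext_iff] using hk⟩

theorem commute_of_mul_mem_core [Finite G] {D : Set G} (hD : IsOddTranspositionSet D) {x y : G} (hx : x ∈ D)
    (hy : y ∈ D) (h : x * y ∈ pCore 2 G) : x * y = y * x := by
  obtain ⟨k, hk⟩ := exists_two_power h
  exact commute_of_two_power hD hx hy hk

/-- Let G be a finite group generated by a set D of odd transpositions (root involutions with no product of order 4), Q = O₂(G), and for a ∈ D let Q_a be the commutator subgroup of Q with a. Then every member of D commuting with a centralizes Q_a; and for b ∈ D with ab of odd order greater than 1, the centralizer of ab in Q is the intersection of the centralizers of a and b in Q. -/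
theorem result {G : Type*} [Group G] [Finite G] {D : Set G} (hD : Cfsg.IsOddTranspositionSet D) {a : G} (ha : a ∈ D) :
    (∀ e ∈ Cfsg.commutingMembers D a, ∀ q ∈ ⁅Cfsg.pCore 2 G, Subgroup.zpowers a⁆, e * q = q * e) ∧
    (∀ b ∈ Cfsg.oddPartners D a,
      Cfsg.pCore 2 G ⊓ Subgroup.centralizer {a * b} = Cfsg.pCore 2 G ⊓ Subgroup.centralizer {a} ⊓ Subgroup.centralizer {b}) := by
  have hQn : (pCore 2 G).Normal := Cfsg.Agent.Lib.H1Core.pCore_normal 2 G
  have hinv : ∀ x ∈ D, x⁻¹ = x := fun x hx => inv_eq_of_order_two (hD.1.orderOf_eq x hx)
  have hmem : ∀ x ∈ D, ∀ q ∈ pCore 2 G, (q * x * q⁻¹) * x ∈ pCore 2 G := by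
    intro x hx q hq
    have h1 : x * q⁻¹ * x⁻¹ ∈ pCore 2 G := hQn.conj_mem _ (Subgroup.inv_mem _ hq) x
    have h2 := Subgroup.mul_mem _ hq h1
    rw [hinv x hx] at h2
    convert h2 using 1
    group
  refine ⟨?_, ?_⟩
  · rintro e ⟨he, hea⟩ q hq
    have hle : ⁅pCore 2 G, Subgroup.zpowers a⁆ ≤ Subgroup.centralizer ({e} : Set G) := by
      rw [Subgroup.commutator_le]
      intro q hq g hg
      rw [Subgroup.mem_centralizer_iff]
      intro y hy
      rw [Set.mem_singleton_iff] at hy
      rw [hy]
      obtain ⟨k, rfl⟩ := Subgroup.mem_zpowers_iff.1 hg
      have ha2 : a ^ (2 : ℤ) = 1 := by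
        have := pow_orderOf_eq_one a
        rw [hD.1.orderOf_eq a ha] at this
        exact_mod_cast this
      rcases Int.even_or_odd' k with ⟨m, rfl | rfl⟩
      · rw [zpow_mul, ha2, one_zpow]
        simp
      · rw [zpow_add, zpow_mul, ha2, one_zpow, one_mul, zpow_one, commutatorElement_def]
        -- main computation
        set d := q * a * q⁻¹ with hd
        have hdD : d ∈ D := hD.1.conj_mem a ha q
        have hda : d * a = a * d := commute_of_mul_mem_core hD hdD ha (hmem a ha q hq)
        have hu : d * a ∈ pCore 2 G := hmem a ha q hq
        have hy : (d * a) * e * (d * a)⁻¹ ∈ D := hD.1.conj_mem e he _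
        have hey : e * ((d * a) * e * (d * a)⁻¹) ∈ pCore 2 G := by
          have h1 : e * (d * a) * e⁻¹ ∈ pCore 2 G := hQn.conj_mem _ hu e
          have h2 := Subgroup.mul_mem _ h1 (Subgroup.inv_mem _ hu)
          rw [hinv e he] at h2
          convert h2 using 1
          group
        have hcomm := commute_of_mul_mem_core hD he hy hey
        have hyeq : (d * a) * e * (d * a)⁻¹ = d * e * d := by
          have : (d * a)⁻¹ = a * d := by
            rw [mul_inv_rev, hinv a ha, hinv d hdD]
          rw [this]
          calc d * a * e * (a * d) = d * (a * e) * (a * d) := by group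
            _ = d * (e * a) * (a * d) := by rw [hea]
            _ = d * e * (a * a) * d := by group
            _ = d * e * d := by
              have : a * a = 1 := by
                have := hinv a ha
                rw [inv_eq_iff_mul_eq_one] at this
                exact this
              rw [this]; group
        rw [hyeq] at hcomm
        have hed4 : (e * d) ^ (2 ^ 2) = 1 := by
          have hee : e * e = 1 := by
            have := hinv e he
            rwa [inv_eq_iff_mul_eq_one] at this
          have hdd : d * d = 1 := by
            have := hinv d hdD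
            rwa [inv_eq_iff_mul_eq_one] at this
          have h3 : (e * d) ^ (2 ^ 2) = (e * (d * e * d)) * (e * (d * e * d)) := by
            have : (2 ^ 2 : ℕ) = 4 := by norm_num
            rw [this]
            simp only [pow_succ, pow_zero, one_mul, mul_assoc]
          rw [h3]
          have h5 : (e * (d * e * d)) * (e * (d * e * d)) =
              ((d * e * d) * e) * (e * (d * e * d)) := congrArg (· * (e * (d * e * d))) hcomm
          rw [h5]
          have h6 : ((d * e * d) * e) * (e * (d * e * d)) = (d * e) * (d * (e * e) * d) * (e * d) := by
            simp only [mul_assoc]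
          rw [h6, hee, mul_one, hdd, mul_one]
          have h7 : d * e * (e * d) = d * (e * e) * d := by simp only [mul_assoc]
          rw [h7, hee, mul_one, hdd]
        have hed := commute_of_two_power hD he hdD hed4
        rw [hinv a ha]
        calc e * (d * a) = (e * d) * a := by group
          _ = (d * e) * a := by rw [hed]
          _ = d * (e * a) := by group
          _ = d * (a * e) := by rw [hea]
          _ = d * a * e := by group
    have := hle hq
    rw [Subgroup.mem_centralizer_iff] at this
    exact this e (Set.mem_singleton e)
  · rintro b ⟨hb, hba, hodd⟩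
    apply le_antisymm
    · intro q hq0
      obtain ⟨hq, hqw⟩ := Subgroup.mem_inf.1 hq0
      have hw : q * (a * b) = (a * b) * q := by
        rw [Subgroup.mem_centralizer_iff] at hqw
        exact (hqw _ rfl).symm
      have hqa : q * a = a * q := by
        set d := q * a * q⁻¹ with hd
        set f := q * b * q⁻¹ with hf
        have hdD : d ∈ D := hD.1.conj_mem a ha q
        have hfD : f ∈ D := hD.1.conj_mem b hb q
        have hda : d * a = a * d := commute_of_mul_mem_core hD hdD ha (hmem a ha q hq)
        have hfb : f * b = b * f := commute_of_mul_mem_core hD hfD hb (hmem b hb q hq)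
        have haa : a * a = 1 := by
          have := hinv a ha
          rwa [inv_eq_iff_mul_eq_one] at this
        have hbb : b * b = 1 := by
          have := hinv b hb
          rwa [inv_eq_iff_mul_eq_one] at this
        have hdd : d * d = 1 := by
          have := hinv d hdD
          rwa [inv_eq_iff_mul_eq_one] at this
        have hff : f * f = 1 := by
          have := hinv f hfD
          rwa [inv_eq_iff_mul_eq_one] at this
        have hdf : d * f = a * b := by
          calc d * f = q * (a * b) * q⁻¹ := by rw [hd, hf]; group
            _ = (a * b) * q * q⁻¹ := by rw [hw]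
            _ = a * b := by group
        have huf : a * d = b * f := by
          calc a * d = a * d * (f * f) := by rw [hff]; group
            _ = a * (d * f) * f := by group
            _ = a * (a * b) * f := by rw [hdf]
            _ = (a * a) * b * f := by group
            _ = b * f := by rw [haa]; group
        obtain ⟨u, hu⟩ : ∃ u, u = a * d := ⟨_, rfl⟩
        have huf' : u = b * f := hu.trans huf
        have hua : u * a = a * u := by
          rw [hu, mul_assoc, hda]
        have hub : u * b = b * u := by
          rw [huf', mul_assoc, hfb]
        have huu : u * u = 1 := by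
          calc u * u = a * d * (a * d) := by rw [hu]
            _ = a * (d * a) * d := by group
            _ = a * (a * d) * d := by rw [hda]
            _ = (a * a) * (d * d) := by group
            _ = 1 := by rw [haa, hdd, one_mul]
        have hdeq : d = a * u := by
          rw [hu, ← mul_assoc, haa, one_mul]
        have hwu : (a * b) * u = u * (a * b) := by
          calc (a * b) * u = a * (b * u) := by group
            _ = a * (u * b) := by rw [hub]
            _ = (a * u) * b := by group
            _ = (u * a) * b := by rw [hua]
            _ = u * (a * b) := by group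
        have hdb : d * b = (a * b) * u := by
          rw [hdeq]
          calc a * u * b = a * (u * b) := by group
            _ = a * (b * u) := by rw [hub]
            _ = a * b * u := by group
        have hu1 : u = 1 := by
          rcases hD.1.pair d hdD b hb with h0 | h1 | h2
          · exfalso
            have h3 : (a * b) * (a * b) = 1 := by
              have h4 : (d * b) * (d * b) = 1 := by
                calc (d * b) * (d * b) = (d * b) * (b * d) := by rw [h0]
                  _ = d * (b * b) * d := by group
                  _ = 1 := by rw [hbb, mul_one]; exact hdd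
              rw [hdb] at h4
              calc (a * b) * (a * b) = (a * b) * (a * b) * (u * u) := by rw [huu]; group
                _ = (a * b) * ((a * b) * u) * u := by group
                _ = (a * b) * (u * (a * b)) * u := by rw [hwu]
                _ = (a * b * u) * (a * b * u) := by group
                _ = 1 := h4
            have h5 : orderOf (a * b) ∣ 2 := orderOf_dvd_of_pow_eq_one (by rw [pow_two]; exact h3)
            have h6 : orderOf (a * b) = 1 :=
              Nat.Coprime.eq_one_of_dvd hodd.coprime_two_right h5
            rw [orderOf_eq_one_iff] at h6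
            apply hba
            have h7 : b = a⁻¹ := eq_inv_of_mul_eq_one_right h6
            rw [h7, hinv a ha]
          · rw [hdb] at h1
            obtain ⟨n, hn⟩ := h1
            obtain ⟨m, hm⟩ := hodd
            have h8 : ((a * b) * u) ^ (2 * n + 1) = 1 := by
              rw [← hn]; exact pow_orderOf_eq_one _
            have h9 : (a * b) ^ (2 * m + 1) = 1 := by
              rw [← hm]; exact pow_orderOf_eq_one _
            have hcomm : Commute (a * b) u := hwu
            have hupow : ∀ k : ℕ, u ^ (2 * k + 1) = u := by
              intro k
              rw [pow_succ, pow_mul, pow_two, huu, one_pow, one_mul]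
            have h10 : ((a * b) * u) ^ (2 * m + 1) = u := by
              rw [hcomm.mul_pow, h9, one_mul, hupow]
            have h11 : u ^ (2 * n + 1) = 1 := by
              rw [← h10, ← pow_mul, mul_comm, pow_mul, h8, one_pow]
            rwa [hupow] at h11
          · exact absurd h2.1 (hD.2 d hdD b hb)
        have h12 : q * a * q⁻¹ = a := by
          have h13 : d = a⁻¹ := eq_inv_of_mul_eq_one_right (hu.symm.trans hu1)
          rw [hinv a ha] at h13
          exact h13
        calc q * a = q * a * q⁻¹ * q := by group
          _ = a * q := by rw [h12]
      have hqb : q * b = b * q := by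
        have h14 : a * (q * b) = a * (b * q) := by
          calc a * (q * b) = (a * q) * b := by group
            _ = (q * a) * b := by rw [hqa]
            _ = q * (a * b) := by group
            _ = (a * b) * q := hw
            _ = a * (b * q) := by group
        exact mul_left_cancel h14
      refine Subgroup.mem_inf.2 ⟨Subgroup.mem_inf.2 ⟨hq, ?_⟩, ?_⟩
      · rw [Subgroup.mem_centralizer_iff]
        intro y hy
        rw [Set.mem_singleton_iff] at hy
        rw [hy, hqa]
      · rw [Subgroup.mem_centralizer_iff]
        intro y hy
        rw [Set.mem_singleton_iff] at hy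
        rw [hy, hqb]
    · intro q hq0
      obtain ⟨hq1, h2⟩ := Subgroup.mem_inf.1 hq0
      obtain ⟨hq, h1⟩ := Subgroup.mem_inf.1 hq1
      refine Subgroup.mem_inf.2 ⟨hq, ?_⟩
      rw [Subgroup.mem_centralizer_iff] at h1 h2 ⊢
      rintro _ rfl
      have e1 := h1 a rfl
      have e2 := h2 b rfl
      rw [mul_assoc, e2, ← mul_assoc, e1, mul_assoc]

end Cfsg.Agent.S5049
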