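import Cfsg.Statements.S5057

set_option autoImplicit false
open Cfsg

namespace Cfsg.Agent.S5057

open Equiv Equiv.Perm

abbrev P6 := Perm (Fin 6)

def d0 : P6 := swap 0 1 * swap 2 3

set_option maxRecDepth 100000 in
theorem class_decide : ∀ a : P6, a * a = 1 → a ≠ 1 → sign a = 1 → ∃ g : P6, sign g = 1 ∧ a = g * d0 * g⁻¹ := by
  decide +kernel

set_option maxRecDepth 100000 in
theorem pair_decide : ∀ b : P6, b * b = 1 → b ≠ 1 → sign b = 1 →
    d0 * b = b * d0 ∨ (d0 * b) ^ 3 = 1 ∨ (d0 * b) ^ 5 = 1 ∨
      ((d0 * b) ^ 4 = 1 ∧ (d0 * b) ^ 2 ≠ 1) := by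
  decide +kernel

set_option maxRecDepth 100000 in
theorem order_decide : ∀ x : P6, sign x = 1 → x = 1 ∨ x ^ 2 = 1 ∨ x ^ 3 = 1 ∨ x ^ 4 = 1 ∨ x ^ 5 = 1 := by
  decide +kernel

abbrev A6 := ↥(alternatingGroup (Fin 6))

theorem mem_iff {g : A6} : orderOf g = 2 ↔ g * g = 1 ∧ g ≠ 1 := by
  constructor
  · intro h
    constructor
    · have := pow_orderOf_eq_one g
      rwa [h, pow_two] at this
    · rintro rfl
      simp at h
  · rintro ⟨h1, h2⟩
    have : Fact (Nat.Prime 2) := ⟨Nat.prime_two⟩
    exact orderOf_eq_prime (by rw [pow_two]; exact h1) h2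

theorem val_ne_one {g : A6} : g ≠ 1 ↔ (g : P6) ≠ 1 := by
  exact ⟨fun h h' => h (Subtype.ext h'), fun h h' => h (congrArg Subtype.val h')⟩

theorem sign_val (g : A6) : sign (g : P6) = 1 := g.2

theorem mk_mem {x : P6} (hx : sign x = 1) : x ∈ alternatingGroup (Fin 6) := hx

theorem sign_d0 : sign d0 = 1 := by decide +kernel

/-- `d0` in the alternating group -/
def e0 : A6 := ⟨d0, sign_d0⟩

theorem e0_mem : orderOf e0 = 2 := by
  rw [mem_iff]
  constructor
  · apply Subtype.ext
    show d0 * d0 = 1
    decide +kernel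
  · rw [val_ne_one]
    show d0 ≠ 1
    decide +kernel

theorem exists_conj {a : A6} (ha : orderOf a = 2) : ∃ g : A6, a = g * e0 * g⁻¹ := by
  obtain ⟨h1, h2⟩ := mem_iff.1 ha
  obtain ⟨g, hg, e⟩ := class_decide (a : P6) (by exact_mod_cast congrArg Subtype.val h1)
    (val_ne_one.1 h2) (sign_val a)
  exact ⟨⟨g, hg⟩, Subtype.ext e⟩

theorem pair_e0 {b : A6} (hb : orderOf b = 2) :
    e0 * b = b * e0 ∨ Odd (orderOf (e0 * b)) ∨ (orderOf (e0 * b) = 4 ∧ orderOf ((e0 * b) ^ 2) = 2) := by
  obtain ⟨h1, h2⟩ := mem_iff.1 hb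
  have key := pair_decide (b : P6) (by exact_mod_cast congrArg Subtype.val h1)
    (val_ne_one.1 h2) (sign_val b)
  have hprime : ∀ (n : ℕ), (n = 3 ∨ n = 5) → ((e0 * b) ^ n = 1) → Odd (orderOf (e0 * b)) := by
    intro n hn h3
    have h4 : orderOf (e0 * b) ∣ n := orderOf_dvd_of_pow_eq_one h3
    have h5 : Odd n := by rcases hn with rfl | rfl <;> decide
    exact Odd.of_dvd_nat h5 h4
  rcases key with h | h | h | ⟨h, h'⟩
  · left
    exact Subtype.ext h
  · right; left
    exact hprime 3 (Or.inl rfl) (Subtype.ext h)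
  · right; left
    exact hprime 5 (Or.inr rfl) (Subtype.ext h)
  · right; right
    have h3 : (e0 * b) ^ 4 = 1 := Subtype.ext h
    have h3' : (e0 * b) ^ 2 ≠ 1 := fun hh => h' (congrArg Subtype.val hh)
    constructor
    · have : orderOf (e0 * b) = 2 ^ (1 + 1) := by
        apply orderOf_eq_prime_pow
        · simpa using h3'
        · simpa using h3
      simpa using this
    · have : Fact (Nat.Prime 2) := ⟨Nat.prime_two⟩
      apply orderOf_eq_prime
      · rw [← pow_mul]; simpa using h3
      · exact h3'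

theorem order_conj (g x : A6) : orderOf (g * x * g⁻¹) = orderOf x := by
  exact MulEquiv.orderOf_eq (MulAut.conj g) x

/-- The involutions of the alternating group of degree 6 form a class of root involutions (a single conjugacy class of involutions generating the group, any two of which commute, have product of odd order, or have product of order 4 whose square is again an involution of the class), and the product of any two of them has order at most 5. -/
theorem result :
    Cfsg.IsRootInvolutionClass {g : ↥(alternatingGroup (Fin 6)) | orderOf g = 2} ∧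
    ∀ d ∈ {g : ↥(alternatingGroup (Fin 6)) | orderOf g = 2}, ∀ e ∈ {g : ↥(alternatingGroup (Fin 6)) | orderOf g = 2},
      orderOf (d * e) ≤ 5 := by
  refine ⟨⟨⟨fun d hd => hd, ?_, ?_, ?_⟩, ⟨e0, e0_mem⟩, ?_⟩, ?_⟩
  · -- generation
    have hsimple : IsSimpleGroup A6 := alternatingGroup.isSimpleGroup (by simp)
    have htop : Subgroup.normalClosure ({e0} : Set A6) = ⊤ := by
      rcases hsimple.eq_bot_or_eq_top_of_normal _ Subgroup.normalClosure_normal with h | h
      · exfalso
        have : e0 ∈ Subgroup.normalClosure ({e0} : Set A6) := Subgroup.subset_normalClosure rfl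
        rw [h, Subgroup.mem_bot] at this
        have h2 := e0_mem
        rw [this] at h2
        simp at h2
      · exact h
    rw [eq_top_iff, ← htop, Subgroup.normalClosure]
    apply Subgroup.closure_mono
    intro z hz
    rw [Group.mem_conjugatesOfSet_iff] at hz
    obtain ⟨e, he, hconj⟩ := hz
    rw [isConj_iff] at hconj
    obtain ⟨g, rfl⟩ := hconj
    rw [Set.mem_singleton_iff] at he
    subst he
    show orderOf _ = 2
    rw [order_conj]
    exact e0_mem
  · intro d hd g
    show orderOf (g * d * g⁻¹) = 2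
    rw [order_conj]
    exact hd
  · intro a ha b hb
    have ha' : orderOf a = 2 := ha
    have hb' : orderOf b = 2 := hb
    obtain ⟨g, rfl⟩ := exists_conj ha'
    have hb'' : orderOf (g⁻¹ * b * g) = 2 := by
      have := order_conj g⁻¹ b
      rw [inv_inv] at this
      rw [this]; exact hb'
    have e : g * e0 * g⁻¹ * b = g * (e0 * (g⁻¹ * b * g)) * g⁻¹ := by group
    have e' : b * (g * e0 * g⁻¹) = g * ((g⁻¹ * b * g) * e0) * g⁻¹ := by group
    rcases pair_e0 hb'' with h | h | ⟨h, h'⟩
    · left
      rw [e, e', h]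
    · right; left
      rw [e, order_conj]
      exact h
    · right; right
      rw [e, order_conj]
      refine ⟨h, ?_⟩
      show orderOf _ = 2
      rw [conj_pow, order_conj]
      exact h'
  · intro a ha b hb
    obtain ⟨g₁, rfl⟩ := exists_conj ha
    obtain ⟨g₂, rfl⟩ := exists_conj hb
    exact ⟨g₂ * g₁⁻¹, by group⟩
  · intro d _ e _
    have key := order_decide ((d * e : A6) : P6) (sign_val _)
    have h0 : ∀ n : ℕ, 0 < n → n ≤ 5 → (d * e) ^ n = 1 → orderOf (d * e) ≤ 5 := by
      intro n h1 h2 h3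
      exact le_trans (orderOf_le_of_pow_eq_one h1 h3) h2
    rcases key with h | h | h | h | h
    · exact h0 1 (by norm_num) (by norm_num) (by rw [pow_one]; exact Subtype.ext h)
    · exact h0 2 (by norm_num) (by norm_num) (Subtype.ext h)
    · exact h0 3 (by norm_num) (by norm_num) (Subtype.ext h)
    · exact h0 4 (by norm_num) (by norm_num) (Subtype.ext h)
    · exact h0 5 (by norm_num) (by norm_num) (Subtype.ext h)

end Cfsg.Agent.S5057
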