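import Cfsg.Statements.S5059

set_option autoImplicit false
open Cfsg

namespace Cfsg.Agent.S5059

universe u

variable {k : Type u} [Field k] {M : Type u} [AddCommGroup M] [Module k M] [FiniteDimensional k M]
  {G : Subgroup (LinearMap.GeneralLinearGroup k M)}
  {σ : LinearMap.GeneralLinearGroup k M}

local notation "GLM" => LinearMap.GeneralLinearGroup k M

/-- the nilpotent part -/
abbrev nil (τ : LinearMap.GeneralLinearGroup k M) : Module.End k M := (τ : M →ₗ[k] M) - 1

omit [FiniteDimensional k M] in
theorem val_eq (τ : GLM) : (τ : M →ₗ[k] M) = 1 + nil τ := by simp [nil]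

omit [FiniteDimensional k M] in
theorem nil_mul_nil_of_mem {τ τ' : GLM} (hσ : IsQuadraticOn σ)
    (h1 : LinearMap.ker (nil τ) = LinearMap.ker (nil σ))
    (h2 : LinearMap.range (nil τ') = LinearMap.range (nil σ)) : nil τ * nil τ' = 0 := by
  ext v
  have hv : nil τ' v ∈ LinearMap.range (nil σ) := by
    rw [← h2]; exact LinearMap.mem_range_self _ v
  obtain ⟨w, hw⟩ := hv
  have hk : nil τ' v ∈ LinearMap.ker (nil τ) := by
    rw [h1, ← hw, LinearMap.mem_ker]
    have := congrArg (fun f : Module.End k M => f w) hσ.1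
    simpa using this
  simpa using hk

/-- the unit `1 + t` for square-zero `t` -/
def unitOf (t : Module.End k M) (ht : t * t = 0) : LinearMap.GeneralLinearGroup k M where
  val := 1 + t
  inv := 1 - t
  val_inv := by
    have : (1 + t) * (1 - t) = 1 - t * t := by noncomm_ring
    rw [this, ht, sub_zero]
  inv_val := by
    have : (1 - t) * (1 + t) = 1 - t * t := by noncomm_ring
    rw [this, ht, sub_zero]

omit [FiniteDimensional k M] in
theorem unitOf_val (t : Module.End k M) (ht : t * t = 0) : ((unitOf t ht : GLM) : M →ₗ[k] M) = 1 + t := rfl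

omit [FiniteDimensional k M] in
theorem smul_sq (c : k) {t : Module.End k M} (ht : t * t = 0) : (c • t) * (c • t) = 0 := by
  rw [smul_mul_smul_comm, ht, smul_zero]

omit [FiniteDimensional k M] in
theorem mem_of_scalar {τ : GLM} (hτ : τ ∈ quadraticElements G) (c : k) :
    unitOf (c • nil τ) (smul_sq c hτ.2.1.1) ∈ G := by
  apply hτ.2.2
  exact ⟨c, rfl⟩

theorem finrank_range_le_of_min {τ : GLM} (hσ : σ ∈ minimalQuadraticElements G)
    (hτ : τ ∈ quadraticElements G) (hle : LinearMap.range (nil τ) ≤ LinearMap.range (nil σ)) :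
    LinearMap.range (nil τ) = LinearMap.range (nil σ) := by
  apply Submodule.eq_of_le_of_finrank_le hle
  exact hσ.2 τ hτ

theorem ker_eq_of_range_eq {τ : GLM} (hr : LinearMap.range (nil τ) = LinearMap.range (nil σ))
    (hk : LinearMap.ker (nil σ) ≤ LinearMap.ker (nil τ)) : LinearMap.ker (nil τ) = LinearMap.ker (nil σ) := by
  symm
  apply Submodule.eq_of_le_of_finrank_eq hk
  have h1 := LinearMap.finrank_range_add_finrank_ker (nil τ)
  have h2 := LinearMap.finrank_range_add_finrank_ker (nil σ)
  rw [hr] at h1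
  omega

omit [FiniteDimensional k M] in
theorem nil_mul (τ τ' : GLM) : nil (τ * τ') = nil τ + nil τ' + nil τ * nil τ' := by
  have : ((τ * τ' : GLM) : M →ₗ[k] M) = (τ : M →ₗ[k] M) * (τ' : M →ₗ[k] M) := rfl
  simp only [nil]
  rw [this]
  noncomm_ring

/-- Products of two members are trivial or members. -/
theorem mul_mem_class {τ τ' : GLM} (hσ : σ ∈ minimalQuadraticElements G)
    (hτ : τ ∈ sameActionClass G σ) (hτ' : τ' ∈ sameActionClass G σ) :
    τ * τ' = 1 ∨ τ * τ' ∈ sameActionClass G σ := by
  obtain ⟨hτq, hτk, hτr⟩ := hτ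
  obtain ⟨hτ'q, hτ'k, hτ'r⟩ := hτ'
  have hσq := hσ.1.2.1
  have h12 : nil τ * nil τ' = 0 := nil_mul_nil_of_mem hσq hτk hτ'r
  have h21 : nil τ' * nil τ = 0 := nil_mul_nil_of_mem hσq hτ'k hτr
  have h11 : nil τ * nil τ = 0 := hτq.1.2.1.1
  have h22 : nil τ' * nil τ' = 0 := hτ'q.1.2.1.1
  have hs : nil (τ * τ') = nil τ + nil τ' := by
    rw [nil_mul, h12, add_zero]
  by_cases hs0 : nil (τ * τ') = 0
  · left
    apply Units.ext
    have : ((τ * τ' : GLM) : M →ₗ[k] M) - 1 = 0 := hs0
    exact sub_eq_zero.1 this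
  · right
    have hsq : nil (τ * τ') * nil (τ * τ') = 0 := by
      rw [hs]
      simp only [mul_add, add_mul, h11, h12, h21, h22, add_zero]
    have hmemq : τ * τ' ∈ quadraticElements G := by
      refine ⟨G.mul_mem hτq.1.1 hτ'q.1.1, ⟨hsq, hs0⟩, ?_⟩
      rintro ρ ⟨c, hc⟩
      have e : ρ = unitOf (c • nil τ) (smul_sq c h11) * unitOf (c • nil τ') (smul_sq c h22) := by
        apply Units.ext
        rw [hc]
        show 1 + c • nil (τ * τ') = (1 + c • nil τ) * (1 + c • nil τ')
        rw [hs, smul_add, mul_add, add_mul, add_mul, one_mul, one_mul, mul_one, smul_mul_smul_comm, h12, smul_zero, add_zero, add_assoc]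
      rw [e]
      exact G.mul_mem (mem_of_scalar hτq.1 c) (mem_of_scalar hτ'q.1 c)
    have hrange_le : LinearMap.range (nil (τ * τ')) ≤ LinearMap.range (nil σ) := by
      rw [hs]
      rintro _ ⟨v, rfl⟩
      rw [LinearMap.add_apply]
      apply Submodule.add_mem
      · rw [← hτr]; exact LinearMap.mem_range_self _ v
      · rw [← hτ'r]; exact LinearMap.mem_range_self _ v
    have hr := finrank_range_le_of_min hσ hmemq hrange_le
    have hk : LinearMap.ker (nil (τ * τ')) = LinearMap.ker (nil σ) := by
      apply ker_eq_of_range_eq hr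
      intro v hv
      rw [hs, LinearMap.mem_ker, LinearMap.add_apply]
      have h1 : nil τ v = 0 := by rw [← LinearMap.mem_ker, hτk]; exact hv
      have h2 : nil τ' v = 0 := by rw [← LinearMap.mem_ker, hτ'k]; exact hv
      rw [h1, h2, add_zero]
    refine ⟨⟨hmemq, ?_⟩, hk, hr⟩
    intro ω hω
    have h3 : LinearMap.range (nil (τ * τ')) = LinearMap.range (nil σ) := hr
    show Module.finrank k (LinearMap.range (nil (τ * τ'))) ≤ Module.finrank k (LinearMap.range (nil ω))
    rw [h3]
    exact hσ.2 ω hω

omit [FiniteDimensional k M] in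
theorem nil_inv {τ : GLM} (h : nil τ * nil τ = 0) : nil τ⁻¹ = - nil τ := by
  have e : τ⁻¹ = unitOf (- nil τ) (by rw [neg_mul_neg]; exact h) := by
    rw [inv_eq_iff_mul_eq_one]
    apply Units.ext
    show (τ : M →ₗ[k] M) * (1 + - nil τ) = 1
    have hv : (τ : M →ₗ[k] M) = 1 + nil τ := by simp [nil]
    generalize nil τ = t at *
    rw [hv]
    have : (1 + t) * (1 + - t) = 1 - t * t := by noncomm_ring
    rw [this, h, sub_zero]
  rw [e]
  show (1 + - nil τ) - 1 = - nil τ
  abel

omit [FiniteDimensional k M] in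
theorem inv_mem_class {τ : GLM} (hσ : σ ∈ minimalQuadraticElements G)
    (hτ : τ ∈ sameActionClass G σ) : τ⁻¹ ∈ sameActionClass G σ := by
  obtain ⟨hτq, hτk, hτr⟩ := hτ
  have h11 : nil τ * nil τ = 0 := hτq.1.2.1.1
  have hs : nil τ⁻¹ = - nil τ := nil_inv h11
  have hker : LinearMap.ker (nil τ⁻¹) = LinearMap.ker (nil τ) := by
    rw [hs]; exact LinearMap.ker_neg _
  have hrange : LinearMap.range (nil τ⁻¹) = LinearMap.range (nil τ) := by
    rw [hs]; exact LinearMap.range_neg _
  refine ⟨⟨⟨G.inv_mem hτq.1.1, ⟨?_, ?_⟩, ?_⟩, ?_⟩, hker.trans hτk, hrange.trans hτr⟩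
  · show nil τ⁻¹ * nil τ⁻¹ = 0
    rw [hs, neg_mul_neg]; exact h11
  · show nil τ⁻¹ ≠ 0
    rw [hs]
    exact neg_ne_zero.2 hτq.1.2.1.2
  · rintro ρ ⟨c, hc⟩
    apply hτq.1.2.2
    refine ⟨-c, ?_⟩
    rw [hc]
    show 1 + c • nil τ⁻¹ = 1 + (-c) • nil τ
    rw [hs, smul_neg, neg_smul]
  · intro ω hω
    show Module.finrank k (LinearMap.range (nil τ⁻¹)) ≤ Module.finrank k (LinearMap.range (nil ω))
    rw [hrange, hτr]
    exact hσ.2 ω hω

theorem mem_closure_iff {x : GLM} (hσ : σ ∈ minimalQuadraticElements G) :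
    x ∈ sameActionSubgroup G σ ↔ x ∈ sameActionClass G σ ∨ x = 1 := by
  constructor
  · intro hx
    induction hx using Subgroup.closure_induction with
    | mem y hy => exact Or.inl hy
    | one => exact Or.inr rfl
    | mul y z _ _ hy hz =>
      rcases hy with hy | rfl
      · rcases hz with hz | rfl
        · exact (mul_mem_class hσ hy hz).symm
        · left; simpa using hy
      · simpa using hz
    | inv y _ hy =>
      rcases hy with hy | rfl
      · exact Or.inl (inv_mem_class hσ hy)
      · right; simp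
  · rintro (hx | rfl)
    · exact Subgroup.subset_closure hx
    · exact Subgroup.one_mem _

omit [FiniteDimensional k M] in
theorem one_add_pow {t : Module.End k M} (ht : t * t = 0) (n : ℕ) : (1 + t) ^ n = 1 + (n : k) • t := by
  induction n with
  | zero => simp
  | succ n ih =>
    rw [pow_succ, ih]
    have : (1 + (n : k) • t) * (1 + t) = 1 + (n : k) • t + t + (n : k) • (t * t) := by
      rw [mul_add, add_mul, add_mul, one_mul, one_mul, mul_one, smul_mul_assoc]
      abel
    rw [this, ht, smul_zero, add_zero, Nat.cast_succ, add_smul, one_smul, add_assoc]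

/-- Let k be a field of characteristic not 2 with k not of order 3, M a finite-dimensional k-vector space and G ≤ GL(M) such that (G, M) is a quadratic pair (M irreducible for G, and G generated by its quadratically acting elements σ whose scalar family 1 + c(σ − 1), c ∈ k, lies in G). Write 𝒬_d for the quadratic elements of G of minimal commutator rank, E(σ) for the subgroup generated by the members of 𝒬_d with the same fixed space and commutator space as σ, and Σ for the set of these subgroups. Then for σ ∈ 𝒬_d the subgroup E(σ) consists exactly of those members together with the identity, it is abelian, and if k has prime characteristic p every element of E(σ) has order dividing p. -/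
theorem result {k : Type u} [Field k] (hk2 : ringChar k ≠ 2) (hk3 : Nat.card k ≠ 3)
    {M : Type u} [AddCommGroup M] [Module k M] [FiniteDimensional k M]
    {G : Subgroup (LinearMap.GeneralLinearGroup k M)} (hG : Cfsg.IsQuadraticPair G)
    {σ : LinearMap.GeneralLinearGroup k M} (hσ : σ ∈ Cfsg.minimalQuadraticElements G) :
    (Cfsg.sameActionSubgroup G σ : Set (LinearMap.GeneralLinearGroup k M)) = Cfsg.sameActionClass G σ ∪ {1} ∧
    IsMulCommutative ↥(Cfsg.sameActionSubgroup G σ) ∧
    (∀ p : ℕ, p.Prime → ringChar k = p → ∀ x ∈ Cfsg.sameActionSubgroup G σ, x ^ p = 1) := by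
  refine ⟨?_, ?_, ?_⟩
  · ext x
    rw [SetLike.mem_coe, mem_closure_iff hσ]
    simp [or_comm]
  · refine ⟨⟨?_⟩⟩
    rintro ⟨x, hx⟩ ⟨y, hy⟩
    apply Subtype.ext
    show x * y = y * x
    rcases (mem_closure_iff hσ).1 hx with hx | rfl
    · rcases (mem_closure_iff hσ).1 hy with hy | rfl
      · obtain ⟨hxq, hxk, hxr⟩ := hx
        obtain ⟨hyq, hyk, hyr⟩ := hy
        have h12 : nil x * nil y = 0 := nil_mul_nil_of_mem hσ.1.2.1 hxk hyr
        have h21 : nil y * nil x = 0 := nil_mul_nil_of_mem hσ.1.2.1 hyk hxr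
        apply Units.ext
        show (x : M →ₗ[k] M) * (y : M →ₗ[k] M) = (y : M →ₗ[k] M) * (x : M →ₗ[k] M)
        have e1 := nil_mul x y
        have e2 := nil_mul y x
        rw [h12] at e1
        rw [h21] at e2
        have e3 : nil (x * y) = nil (y * x) := by rw [e1, e2]; abel
        have e4 : ((x * y : LinearMap.GeneralLinearGroup k M) : M →ₗ[k] M) - 1 =
          ((y * x : LinearMap.GeneralLinearGroup k M) : M →ₗ[k] M) - 1 := e3
        exact sub_left_injective e4
      · simp
    · simp
  · intro p hp hpc x hx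
    rcases (mem_closure_iff hσ).1 hx with hx | rfl
    · have h11 : nil x * nil x = 0 := hx.1.1.2.1.1
      apply Units.ext
      have : ((x ^ p : LinearMap.GeneralLinearGroup k M) : M →ₗ[k] M) = (x : M →ₗ[k] M) ^ p := rfl
      rw [this, val_eq x, one_add_pow h11]
      have h0 : (p : k) = 0 := by
        rw [← hpc]; exact ringChar.Nat.cast_ringChar
      rw [h0, zero_smul, add_zero]
      rfl
    · simp

end Cfsg.Agent.S5059
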