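import Cfsg.Statements.S5067

set_option autoImplicit false
open Cfsg
open scoped commutatorElement

namespace Cfsg.Agent.S5067

universe u

theorem comm_of_isMulCommutative {P : Type*} [Group P] {E : Subgroup P} (hE : IsMulCommutative E)
    {x y : P} (hx : x ∈ E) (hy : y ∈ E) : x * y = y * x := by
  have := hE.is_comm.comm ⟨x, hx⟩ ⟨y, hy⟩
  simpa using congrArg Subtype.val this

theorem isMulCommutative_map {P Q : Type*} [Group P] [Group Q] (f : P →* Q) {E : Subgroup P}
    (hE : IsMulCommutative E) : IsMulCommutative (E.map f) := by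
  refine ⟨⟨?_⟩⟩
  rintro ⟨_, x, hx, rfl⟩ ⟨_, y, hy, rfl⟩
  ext
  show f x * f y = f y * f x
  rw [← map_mul, ← map_mul, comm_of_isMulCommutative hE hx hy]

theorem main (n : ℕ) : ∀ (P : Type u) [Group P] [Group.IsNilpotent P] (E F : Subgroup P),
    IsMulCommutative E → IsMulCommutative F → E ⊔ F = ⊤ → Group.nilpotencyClass P ≤ n + 2 →
    Group.nilpotencyClass (Subgroup.normalClosure (E : Set P)) ≤ n + 1 := by
  induction n with
  | zero =>
    intro P _ _ E F hE hF hgen hcl
    have h2 : Subgroup.upperCentralSeries P 2 = ⊤ :=
      Subgroup.upperCentralSeries_eq_top_iff_nilpotencyClass_le.2 hcl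
    -- K = E Z(P) is abelian and contains the normal closure
    have hcent : ∀ x y : P, ⁅x, y⁆ ∈ Subgroup.center P := by
      intro x y
      have hx : x ∈ Subgroup.upperCentralSeries P 2 := by rw [h2]; exact Subgroup.mem_top x
      have := Subgroup.mem_upperCentralSeries_succ_iff.1 hx y
      rwa [Subgroup.upperCentralSeries_one] at this
    have hle : Subgroup.normalClosure (E : Set P) ≤ E ⊔ Subgroup.center P := by
      rw [Subgroup.normalClosure, Subgroup.closure_le]
      intro z hz
      rw [Group.mem_conjugatesOfSet_iff] at hz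
      obtain ⟨e, he, hconj⟩ := hz
      rw [isConj_iff] at hconj
      obtain ⟨g, rfl⟩ := hconj
      have e1 : g * e * g⁻¹ = ⁅g, e⁆ * e := by
        rw [commutatorElement_def]; group
      rw [e1]
      exact Subgroup.mul_mem _ (Subgroup.mem_sup_right (hcent g e)) (Subgroup.mem_sup_left he)
    have hKcomm : ∀ x ∈ E ⊔ Subgroup.center P, ∀ y ∈ E ⊔ Subgroup.center P, x * y = y * x := by
      have hK1 : E ⊔ Subgroup.center P ≤ Subgroup.centralizer (E : Set P) := by
        apply sup_le
        · intro x hx
          rw [Subgroup.mem_centralizer_iff]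
          intro y hy
          exact comm_of_isMulCommutative hE hy hx
        · intro x hx
          rw [Subgroup.mem_centralizer_iff]
          intro y _
          exact (Subgroup.mem_center_iff.1 hx) y
      have hK2 : E ⊔ Subgroup.center P ≤ Subgroup.centralizer ((E ⊔ Subgroup.center P : Subgroup P) : Set P) := by
        apply sup_le
        · rw [Subgroup.le_centralizer_iff]
          exact hK1
        · intro x hx
          rw [Subgroup.mem_centralizer_iff]
          intro y _
          exact (Subgroup.mem_center_iff.1 hx) y
      intro x hx y hy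
      exact ((Subgroup.mem_centralizer_iff.1 (hK2 hx)) y hy).symm
    rw [← Subgroup.upperCentralSeries_eq_top_iff_nilpotencyClass_le, Subgroup.upperCentralSeries_one,
      eq_top_iff]
    rintro ⟨x, hx⟩ -
    rw [Subgroup.mem_center_iff]
    rintro ⟨y, hy⟩
    ext
    exact hKcomm y (hle hy) x (hle hx)
  | succ n ih =>
    intro P _ _ E F hE hF hgen hcl
    let Z := Subgroup.center P
    let mk := QuotientGroup.mk' Z
    have hmk : Function.Surjective mk := QuotientGroup.mk'_surjective Z
    have hclq : Group.nilpotencyClass (P ⧸ Z) ≤ n + 2 := by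
      have := Group.nilpotencyClass_quotient_center (G := P)
      have h3 : Group.nilpotencyClass (P ⧸ Z) = Group.nilpotencyClass P - 1 := this
      omega
    have hgenq : E.map mk ⊔ F.map mk = ⊤ := by
      rw [← Subgroup.map_sup, hgen, ← MonoidHom.range_eq_map]
      exact MonoidHom.range_eq_top_of_surjective _ hmk
    have hih := ih (P ⧸ Z) (E.map mk) (F.map mk) (isMulCommutative_map mk hE) (isMulCommutative_map mk hF)
      hgenq hclq
    have hmap : ∀ x ∈ Subgroup.normalClosure (E : Set P), mk x ∈ Subgroup.normalClosure ((E.map mk : Subgroup (P ⧸ Z)) : Set (P ⧸ Z)) := by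
      intro x hx
      have : (Subgroup.normalClosure (E : Set P)).map mk = Subgroup.normalClosure (mk '' (E : Set P)) :=
        Subgroup.map_normalClosure _ mk hmk
      have h2 : mk x ∈ (Subgroup.normalClosure (E : Set P)).map mk := ⟨x, hx, rfl⟩
      rw [this] at h2
      exact h2
    let f : Subgroup.normalClosure (E : Set P) →* Subgroup.normalClosure ((E.map mk : Subgroup (P ⧸ Z)) : Set (P ⧸ Z)) :=
      (mk.comp (Subgroup.subtype _)).codRestrict _ (fun x => hmap x.1 x.2)
    have hker : f.ker ≤ Subgroup.center (Subgroup.normalClosure (E : Set P)) := by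
      rintro ⟨x, hx⟩ hxk
      have h1 : mk x = 1 := by
        exact congrArg Subtype.val (MonoidHom.mem_ker.1 hxk)
      have hxZ : x ∈ Z := by
        rw [← QuotientGroup.ker_mk' Z]
        exact h1
      rw [Subgroup.mem_center_iff]
      rintro ⟨y, hy⟩
      ext
      exact (Subgroup.mem_center_iff.1 hxZ) y
    have := Group.nilpotencyClass_le_of_ker_le_center f hker
    omega

/-- Let P be a non-abelian nilpotent p-group (every element of p-power order; P possibly infinite) generated by two abelian subgroups E and F. Then the normal closure of E in P, and likewise that of F, has nilpotency class strictly smaller than that of P. -/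
theorem result {P : Type*} [Group P] {p : ℕ} [Fact p.Prime] (hP : IsPGroup p P) [Group.IsNilpotent P]
    (hna : ¬ IsMulCommutative P) {E F : Subgroup P} (hE : IsMulCommutative ↥E) (hF : IsMulCommutative ↥F) (hgen : E ⊔ F = ⊤) :
    Group.nilpotencyClass ↥(Subgroup.normalClosure (E : Set P)) < Group.nilpotencyClass P ∧
    Group.nilpotencyClass ↥(Subgroup.normalClosure (F : Set P)) < Group.nilpotencyClass P := by
  have h2 : 2 ≤ Group.nilpotencyClass P := by
    by_contra hlt
    apply hna
    have h1 : Group.nilpotencyClass P ≤ 1 := by omega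
    rw [← Subgroup.upperCentralSeries_eq_top_iff_nilpotencyClass_le, Subgroup.upperCentralSeries_one] at h1
    refine ⟨⟨fun x y => ?_⟩⟩
    have : x ∈ Subgroup.center P := by rw [h1]; exact Subgroup.mem_top x
    exact ((Subgroup.mem_center_iff.1 this) y).symm
  obtain ⟨n, hn⟩ : ∃ n, Group.nilpotencyClass P = n + 2 := ⟨Group.nilpotencyClass P - 2, by omega⟩
  have h3 := main n P E F hE hF hgen (le_of_eq hn)
  have h4 := main n P F E hF hE (by rw [sup_comm]; exact hgen) (le_of_eq hn)
  omega

end Cfsg.Agent.S5067
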