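import Cfsg.Statements.S5080
import Mathlib
import Cfsg.Agent.Lib.FusFactor
import Cfsg.Agent.Lib.FusAut

set_option autoImplicit false
open Cfsg

namespace Cfsg.Agent.S5080

open Cfsg.Agent.Lib.FusBasic Cfsg.Agent.Lib.FusFactor Cfsg.Agent.Lib.FusAut Cfsg.FusionSystem

/-- In a saturated fusion system over a finite p-group, every essential subgroup is radical (it is centric and fully normalized by definition, so it is centric-radical and fully normalized). -/
theorem result {Ω : Type*} [Group Ω] {S : Subgroup Ω} [Finite S] (p : ℕ) [Fact p.Prime] (hS : IsPGroup p S) (F : Cfsg.FusionSystem S) (hF : F.IsSaturated p) (P : Subgroup Ω) (hP : F.IsEssential p P) : F.IsRadical p P := by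
  exact essential_radical hS F hP

end Cfsg.Agent.S5080
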