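import Cfsg.Statements.S5083
import Mathlib
import Cfsg.Agent.Lib.FusAlp

set_option autoImplicit false
open Cfsg

namespace Cfsg.Agent.S5083

open Cfsg.Agent.Lib.FusBasic Cfsg.Agent.Lib.FusAut Cfsg.Agent.Lib.FusSat Cfsg.Agent.Lib.FusAlp Cfsg.FusionSystem

/-- If F is a saturated fusion system over a finite p-group S in which Aut_F(P) is a p-group for every P ≤ S, then F is the inner fusion system of S (all its maps are conjugations by elements of S). -/
theorem result {Ω : Type*} [Group Ω] {S : Subgroup Ω} [Finite S] (p : ℕ) [Fact p.Prime] (hS : IsPGroup p S) (F : Cfsg.FusionSystem S) (hF : F.IsSaturated p) (h : ∀ P : Subgroup Ω, P ≤ S → IsPGroup p (F.autGroup P)) : F = Cfsg.innerFusionSystem S := by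
  apply eq_of_le
  · apply le_of_autGroup_le hS F hF
    intro R hR α hα
    have hFA := fullyAutomized_of_fullyNormalized hS F hF hR
    obtain ⟨β, hβ, hconj⟩ := exists_conj_aut hS F hFA (B := F.autGroup R) le_rfl (h R hR.1)
    have h1 : β⁻¹ * α * β ∈ F.autGroup R := Subgroup.mul_mem _ (Subgroup.mul_mem _ (Subgroup.inv_mem _ hβ) hα) hβ
    have h2 := hconj _ h1
    have h3 : β * (β⁻¹ * α * β) * β⁻¹ = α := by group
    rw [h3] at h2
    exact autInduced_le_autGroup _ hR.1 h2
  · intro P φ hφ
    obtain ⟨hP, g, hg, he⟩ := hφ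
    exact hom_congr F (F.conj_mem hP hg) he


end Cfsg.Agent.S5083
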