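import Cfsg.Statements.S5089
import Mathlib
import Cfsg.Agent.Lib.FusNorm
import Cfsg.Agent.S5145

set_option autoImplicit false
open Cfsg

namespace Cfsg.Agent.S5089

open Cfsg.Agent.Lib.FusBasic Cfsg.Agent.Lib.FusAut Cfsg.Agent.Lib.FusSat Cfsg.Agent.Lib.FusAlp Cfsg.Agent.Lib.FusNorm Cfsg.FusionSystem
open scoped commutatorElement

/-- A saturated fusion system over a finite p-group has a nontrivial subgroup that is normal in the system (O_p(F) ≠ 1) if and only if some nontrivial abelian subgroup is strongly closed in the system. -/
theorem result {Ω : Type*} [Group Ω] {S : Subgroup Ω} [Finite S] (p : ℕ) [Fact p.Prime] (hS : IsPGroup p S) (F : Cfsg.FusionSystem S) (hF : F.IsSaturated p) : F.core ≠ ⊥ ↔ ∃ Q : Subgroup Ω, Q ≠ ⊥ ∧ IsMulCommutative Q ∧ F.StronglyClosed Q := by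
  constructor
  · intro hne
    have hR := Cfsg.Agent.S5145.result F
    set R := F.core with hRdef
    have hRS := hR.1
    haveI : Finite R := finite_of_le hRS
    have hRp : IsPGroup p R := hS.to_le hRS
    haveI : Nontrivial R := by
      rw [Subgroup.nontrivial_iff_ne_bot]
      exact hne
    have hz := hRp.center_nontrivial
    let Z : Subgroup Ω := R ⊓ Subgroup.centralizer (R : Set Ω)
    have hZch : Z.subgroupOf R = Subgroup.center R := by
      ext x
      simp only [Subgroup.mem_subgroupOf, Subgroup.mem_center_iff, Z, Subgroup.mem_inf, Subgroup.mem_centralizer_iff]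
      constructor
      · rintro ⟨-, h⟩ y
        exact Subtype.ext (h y y.2)
      · intro h
        refine ⟨x.2, fun y hy => ?_⟩
        exact congrArg Subtype.val (h ⟨y, hy⟩)
    have hZn : F.IsNormal Z := by
      apply Cfsg.Agent.S5085.result F R Z hR inf_le_left
      rw [hZch]
      infer_instance
    refine ⟨Z, ?_, ⟨⟨fun a b => ?_⟩⟩, stronglyClosed_of_normal F hZn⟩
    · intro hb
      rw [Subgroup.nontrivial_iff_ne_bot] at hz
      apply hz
      rw [← hZch, hb]
      simp
    · apply Subtype.ext
      have := (Subgroup.mem_centralizer_iff.1 b.2.2) a a.2.1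
      exact this
  · rintro ⟨Q, hne, hc, hsc⟩
    let D : ℕ → Subgroup Ω := fun i => if i = 0 then ⊥ else Q
    have hQn : F.IsNormal Q := by
      refine chain_normal hS F hF 1 D (by simp [D]) (by simp [D]) ?_ ?_ ?_
      · intro i hi
        have : i = 0 := by omega
        subst this
        simp [D]
      · intro i hi
        have : i = 0 := by omega
        subst this
        simpa [D] using hsc
      · intro i hi
        have : i = 0 := by omega
        subst this
        simp only [D, zero_add, one_ne_zero, if_false, if_true]
        rw [Subgroup.commutator_le]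
        intro a ha b hb
        have : (⟨a, ha⟩ : Q) * ⟨b, hb⟩ = ⟨b, hb⟩ * ⟨a, ha⟩ := hc.is_comm.comm _ _
        have e : a * b = b * a := congrArg Subtype.val this
        rw [commutatorElement_def, e]
        simp
    intro hb
    apply hne
    rw [eq_bot_iff, ← hb]
    exact le_sSup hQn


end Cfsg.Agent.S5089
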