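import Cfsg.Statements.S5102
import Mathlib
import Cfsg.Agent.Lib.FusBasic
import Cfsg.Agent.Lib.H1Core

set_option autoImplicit false
open Cfsg

namespace Cfsg.Agent.S5102

open Cfsg.Agent.Lib.FusBasic Cfsg.FusionSystem

/-- A normal p-subgroup of a finite group G is normal in the fusion system of G on a Sylow p-subgroup. -/
theorem result {G : Type*} [Group G] [Finite G] (p : ℕ) [Fact p.Prime] (S : Sylow p G) (R : Subgroup G) [R.Normal] (hR : IsPGroup p R) : (Cfsg.groupFusionSystem (S : Subgroup G)).IsNormal R := by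
  have hRS : R ≤ (S : Subgroup G) := (Cfsg.Agent.Lib.H1Core.le_pCore inferInstance hR).trans (Cfsg.Agent.Lib.H1Core.pCore_le_sylow p S)
  refine ⟨hRS, fun P φ hφ => ?_⟩
  obtain ⟨hP, hv, g, hg⟩ := hφ
  have mP : P ≤ P ⊔ R := le_sup_left
  have mR : R ≤ P ⊔ R := le_sup_right
  refine ⟨conjHom (P ⊔ R) g, ⟨sup_le hP hRS, ?_, g, fun x => rfl⟩, fun x => (hg x).symm, ?_⟩
  · intro x
    exact map_sup_le (A := P ⊔ R) (conjHom (P ⊔ R) g) le_rfl
      (fun y hy => by
        have := hv ⟨y, hy⟩
        rw [hg] at this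
        exact this)
      (fun y hy => hRS ((inferInstance : R.Normal).conj_mem _ hy g)) x x.2
  · apply le_antisymm
    · rintro _ ⟨x, hx, rfl⟩
      exact (inferInstance : R.Normal).conj_mem _ hx g
    · intro r hr
      have h1 : g⁻¹ * r * g ∈ R := by
        have := (inferInstance : R.Normal).conj_mem _ hr g⁻¹
        simpa using this
      refine ⟨⟨g⁻¹ * r * g, mR h1⟩, h1, ?_⟩
      show g * (g⁻¹ * r * g) * g⁻¹ = r
      group

end Cfsg.Agent.S5102
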