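import Cfsg.Statements.S5105
import Mathlib
import Cfsg.Agent.Lib.H1Core

set_option autoImplicit false
open Cfsg

namespace Cfsg.Agent.S5105


open Cfsg.FusionSystem

/-- an automorphism fixing a Sylow subgroup and trivial modulo an abelian normal `p`-subgroup is conjugation -/
theorem exists_conj_of_fix {G : Type*} [Group G] [Finite G] {p : ℕ} [Fact p.Prime] (T : Sylow p G) (Z : Subgroup G) (hZn : Z.Normal)
    (hZc : ∀ a ∈ Z, ∀ b ∈ Z, a * b = b * a) (hZp : IsPGroup p Z) (ψ : G ≃* G) (hT : ∀ t ∈ (T : Subgroup G), ψ t = t)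
    (hd : ∀ g, ψ g * g⁻¹ ∈ Z) : ∃ u ∈ Z, ∀ g, ψ g = u * g * u⁻¹ := by
  classical
  haveI : Fintype (G ⧸ (T : Subgroup G)) := Fintype.ofFinite _
  letI : CommGroup Z := { (inferInstance : Group Z) with mul_comm := fun a b => Subtype.ext (hZc a a.2 b b.2) }
  let d : G → Z := fun g => ⟨ψ g * g⁻¹, hd g⟩
  have hdv : ∀ g, ((d g : Z) : G) = ψ g * g⁻¹ := fun g => rfl
  have hdT : ∀ g, ∀ t ∈ (T : Subgroup G), d (g * t) = d g := by
    intro g t ht
    apply Subtype.ext
    rw [hdv, hdv, map_mul, hT t ht]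
    group
  let D : G ⧸ (T : Subgroup G) → Z := fun q => d q.out
  have hD : ∀ g : G, D (g : G ⧸ (T : Subgroup G)) = d g := by
    intro g
    obtain ⟨t, ht⟩ := QuotientGroup.mk_out_eq_mul (T : Subgroup G) g
    show d _ = d g
    rw [ht]
    exact hdT g t t.2
  -- conjugation on `Z`
  let c : G → (Z →* Z) := fun h =>
    { toFun := fun z => ⟨h * z * h⁻¹, hZn.conj_mem z z.2 h⟩
      map_one' := Subtype.ext (by simp)
      map_mul' := fun a b => Subtype.ext (by simp [mul_assoc]) }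
  have hcv : ∀ h (z : Z), ((c h z : Z) : G) = h * z * h⁻¹ := fun _ _ => rfl
  have hstep : ∀ h g, d (h * g) = d h * c h (d g) := by
    intro h g
    apply Subtype.ext
    show ψ (h * g) * (h * g)⁻¹ = (ψ h * h⁻¹) * (h * (ψ g * g⁻¹) * h⁻¹)
    rw [map_mul]
    group
  set w : Z := ∏ q, D q with hw
  set n := Nat.card (G ⧸ (T : Subgroup G)) with hn
  have hcard : Fintype.card (G ⧸ (T : Subgroup G)) = n := (Nat.card_eq_fintype_card).symm
  have hkey : ∀ h : G, w = d h ^ n * c h w := by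
    intro h
    have h1 : w = ∏ q, D (h • q) := by
      rw [hw]
      exact (Equiv.prod_comp (MulAction.toPerm h : Equiv.Perm (G ⧸ (T : Subgroup G))) D).symm
    have h2 : ∀ q : G ⧸ (T : Subgroup G), D (h • q) = d h * c h (D q) := by
      intro q
      have e : h • q = ((h * q.out : G) : G ⧸ (T : Subgroup G)) := by
        conv_lhs => rw [← QuotientGroup.out_eq' q]
        rfl
      rw [e, hD, hstep]
    have h3 : ∏ q, D (h • q) = d h ^ n * c h w := by
      rw [Finset.prod_congr rfl (fun q _ => h2 q), Finset.prod_mul_distrib, Finset.prod_const, Finset.card_univ, hcard, ← map_prod]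
    exact h1.trans h3
  -- `n` is prime to the order of `Z`
  have hco : Nat.Coprime (Nat.card Z) n := by
    obtain ⟨k, hk⟩ := IsPGroup.iff_card.1 hZp
    rw [hk]
    apply Nat.Coprime.pow_left
    have := Sylow.not_dvd_index T
    exact (Fact.out : p.Prime).coprime_iff_not_dvd.2 this
  -- the `n`-th root
  let r : Z ≃ Z := powCoprime hco
  have hr : ∀ z : Z, r z = z ^ n := fun z => rfl
  obtain ⟨u, hun⟩ : ∃ u : Z, u ^ n = w := ⟨r.symm w, by rw [← hr, Equiv.apply_symm_apply]⟩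
  refine ⟨u, u.2, fun g => ?_⟩
  have h1 := hkey g
  have h2 : d g ^ n = (u * (c g u)⁻¹) ^ n := by
    rw [mul_pow, inv_pow, ← (c g).map_pow, hun]
    rw [eq_mul_inv_iff_mul_eq]
    exact h1.symm
  have h3 : d g = u * (c g u)⁻¹ := r.injective h2
  have h4 : ψ g * g⁻¹ = u * (g * u * g⁻¹)⁻¹ := by
    have := congrArg Subtype.val h3
    exact this
  have h5 : ψ g = (ψ g * g⁻¹) * g := by group
  rw [h5, h4]
  group

/-- Model Theorem, rigidity: if G is a model of a constrained fusion system over a finite p-group S (through ι : S → G), then every automorphism of G fixing ι(S) elementwise is conjugation by ι(z) for some z in the centre of S. -/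
theorem result {Ω : Type*} [Group Ω] {S : Subgroup Ω} [Finite S] (p : ℕ) [Fact p.Prime] (hS : IsPGroup p S) (F : Cfsg.FusionSystem S) (hF : F.IsConstrained p) {G : Type*} [Group G] (ι : S →* G) (hG : F.IsModel p G ι) (ψ : G ≃* G) (hψ : ∀ x : S, ψ (ι x) = ι x) : ∃ z : S, z ∈ Subgroup.center S ∧ ∀ g : G, ψ g = ι z * g * (ι z)⁻¹ := by
  obtain ⟨hfin, ⟨hinj, -⟩, ⟨T, hT⟩, hC⟩ := hG
  haveI := hfin
  set Q := Cfsg.pCore p G with hQ
  haveI hQn : Q.Normal := Cfsg.Agent.Lib.H1Core.pCore_normal p G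
  have hQp : IsPGroup p Q := Cfsg.Agent.Lib.H1Core.pCore_isPGroup p
  have hQT : Q ≤ (T : Subgroup G) := Cfsg.Agent.Lib.H1Core.pCore_le_sylow p T
  have hfix : ∀ t ∈ (T : Subgroup G), ψ t = t := by
    intro t ht
    rw [hT] at ht
    obtain ⟨s, rfl⟩ := ht
    exact hψ s
  set Z := Subgroup.centralizer (Q : Set G) with hZ
  haveI hZn : Z.Normal := Subgroup.normal_centralizer
  have hZQ : Z ≤ Q := hC
  have hZc : ∀ a ∈ Z, ∀ b ∈ Z, a * b = b * a := by
    intro a ha b hb
    exact Subgroup.mem_centralizer_iff.1 hb a (hZQ ha)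
  have hd : ∀ g, ψ g * g⁻¹ ∈ Z := by
    intro g
    refine Subgroup.mem_centralizer_iff.2 (fun x hx => ?_)
    have h1 : g⁻¹ * x * g ∈ Q := by
      have := hQn.conj_mem x hx g⁻¹
      simpa using this
    have h2 := hfix _ (hQT h1)
    have h3 := hfix _ (hQT hx)
    rw [map_mul, map_mul, map_inv, h3] at h2
    have h4 : x * (ψ g * g⁻¹) = ψ g * (((ψ g)⁻¹ * x * ψ g) * g⁻¹) := by group
    rw [h4, h2]
    group
  obtain ⟨u, huZ, hu⟩ := exists_conj_of_fix T Z hZn hZc (hQp.to_le hZQ) ψ hfix hd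
  have huT : u ∈ ι.range := by
    rw [← hT]
    exact hQT (hZQ huZ)
  obtain ⟨z, rfl⟩ := huT
  refine ⟨z, ?_, hu⟩
  rw [Subgroup.mem_center_iff]
  intro s
  apply hinj
  have h1 := hu (ι s)
  rw [hψ] at h1
  rw [map_mul, map_mul]
  have h2 : ι s * ι z = ι z * ι s * (ι z)⁻¹ * ι z := by
    rw [← h1]
  rw [h2]
  group


end Cfsg.Agent.S5105
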