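import Cfsg.Statements.S5107
import Mathlib
import Cfsg.Agent.Lib.FusNorm
import Cfsg.Agent.S5076

set_option autoImplicit false
open Cfsg

namespace Cfsg.Agent.S5107

open Cfsg.Agent.Lib.FusBasic Cfsg.Agent.Lib.FusAut Cfsg.Agent.Lib.FusSat Cfsg.Agent.Lib.FusAlp Cfsg.Agent.Lib.FusNorm Cfsg.FusionSystem
open scoped commutatorElement

/-- If a Sylow p-subgroup S of a finite group G has nilpotency class at most two and its centre is strongly closed in S with respect to G, then every map of the fusion system of G on S is conjugation by an element of N_G(S), and S is the largest subgroup normal in that fusion system. -/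
theorem result {G : Type*} [Group G] [Finite G] (p : ℕ) [Fact p.Prime] (S : Sylow p G) (hcl : ⁅(S : Subgroup G), (S : Subgroup G)⁆ ≤ (S : Subgroup G) ⊓ Subgroup.centralizer ((S : Subgroup G) : Set G)) (hZ : Cfsg.IsStronglyClosed ((S : Subgroup G) ⊓ Subgroup.centralizer ((S : Subgroup G) : Set G)) (S : Subgroup G)) : (∀ (P : Subgroup G) (φ : P →* G), φ ∈ (Cfsg.groupFusionSystem (S : Subgroup G)).Hom P → ∃ g ∈ Subgroup.normalizer ((S : Subgroup G) : Set G), ∀ x : P, φ x = g * (x : G) * g⁻¹) ∧ (Cfsg.groupFusionSystem (S : Subgroup G)).core = S := by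
  have hsat := Cfsg.Agent.S5076.result p S
  let F := Cfsg.groupFusionSystem (S : Subgroup G)
  let Z : Subgroup G := (S : Subgroup G) ⊓ Subgroup.centralizer ((S : Subgroup G) : Set G)
  let D : ℕ → Subgroup G := fun i => if i = 0 then ⊥ else if i = 1 then Z else S
  have hSsc : F.StronglyClosed S := ⟨le_rfl, fun R hR φ hφ x => F.le_of_mem hφ |>.2 x⟩
  have hZsc : F.StronglyClosed Z := by
    refine ⟨inf_le_left, fun R hR φ hφ x => ?_⟩
    obtain ⟨h1, h2, g, hg⟩ := hφ
    have h3 : φ x ∈ (S : Subgroup G) := h2 x
    rw [hg] at h3 ⊢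
    exact hZ.2 _ (hR x.2) g h3
  have hn : F.IsNormal S := by
    refine chain_normal S.isPGroup' F hsat 2 D (by simp [D]) (by simp [D]) ?_ ?_ ?_
    · intro i hi
      have : i = 0 ∨ i = 1 := by omega
      rcases this with rfl | rfl
      · simp [D]
      · simp only [D]
        simp
        exact inf_le_left
    · intro i hi
      have : i = 0 ∨ i = 1 := by omega
      rcases this with rfl | rfl
      · simpa [D] using hZsc
      · simpa [D] using hSsc
    · intro i hi
      have : i = 0 ∨ i = 1 := by omega
      rcases this with rfl | rfl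
      · simp only [D, zero_add, one_ne_zero, if_false, if_true]
        rw [Subgroup.commutator_le]
        intro a ha b hb
        have h3 : a * b = b * a := ((Subgroup.mem_centralizer_iff.1 hb.2) a ha)
        rw [commutatorElement_def, h3]
        simp
      · have : D (1 + 1) = S := by simp [D]
        rw [this]
        have h2 : D 1 = Z := by simp [D]
        rw [h2]
        exact hcl
  constructor
  · intro P φ hφ
    obtain ⟨ψ, hψ, h1, h2⟩ := hn.2 P φ hφ
    obtain ⟨h3, h4, g, hg⟩ := hψ
    refine ⟨g, ?_, fun x => ?_⟩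
    · haveI : Finite (S : Subgroup G) := inferInstance
      apply mem_normalizer_of_conj_le'
      intro x hx
      have hm : g * x * g⁻¹ ∈ ((S : Subgroup G).subgroupOf (P ⊔ (S : Subgroup G))).map ψ := by
        refine ⟨⟨x, (le_sup_right : (S : Subgroup G) ≤ P ⊔ S) hx⟩, hx, hg _⟩
      rwa [h2] at hm
    · rw [← h1 x, hg]
      rfl
  · apply le_antisymm
    · exact sSup_le fun Q hQ => hQ.1
    · exact le_sSup hn


end Cfsg.Agent.S5107
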