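import Cfsg.Statements.S5112
import Mathlib
import Cfsg.Agent.Lib.FusSat

set_option autoImplicit false
open Cfsg

namespace Cfsg.Agent.S5112


open Cfsg.Agent.Lib.FusBasic Cfsg.Agent.Lib.FusAut Cfsg.Agent.Lib.FusSat Cfsg.FusionSystem

section core
variable {X : Type*} [Group X]

/-- a unit of `ZMod (2^k)` of odd order is trivial -/
theorem zmod_odd_pow {k : ℕ} {j m : ℕ} (hm : Odd m) (h : ((j : ZMod (2 ^ k))) ^ m = 1) : (j : ZMod (2 ^ k)) = 1 := by
  rcases Nat.eq_zero_or_pos k with rfl | hk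
  · haveI : Subsingleton (ZMod (2 ^ 0)) := by
      rw [pow_zero]
      infer_instance
    exact Subsingleton.elim _ _
  haveI : NeZero (2 ^ k) := ⟨by positivity⟩
  have hu : IsUnit (j : ZMod (2 ^ k)) := by
    have hmp : m ≠ 0 := by
      rintro rfl
      simp at hm
    exact (isUnit_pow_iff hmp).1 (h ▸ isUnit_one)
  obtain ⟨u, hu⟩ := hu
  have hum : u ^ m = 1 := by
    apply Units.ext
    rw [Units.val_pow_eq_pow_val, hu, h, Units.val_one]
  have h2 : u ^ (2 ^ (k - 1)) = 1 := by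
    have hc : Fintype.card (ZMod (2 ^ k))ˣ = 2 ^ (k - 1) := by
      rw [ZMod.card_units_eq_totient, Nat.totient_prime_pow Nat.prime_two hk]
      simp
    rw [← hc]
    exact pow_card_eq_one
  have h3 : u ^ (Nat.gcd m (2 ^ (k - 1))) = 1 := pow_gcd_eq_one.2 ⟨hum, h2⟩
  have h4 : Nat.gcd m (2 ^ (k - 1)) = 1 := Nat.Coprime.pow_right _ (Nat.coprime_two_right.2 hm)
  rw [h4, pow_one] at h3
  rw [← hu, h3, Units.val_one]

/-- automorphisms of odd order of a group with a big cyclic subgroup of index two -/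
theorem odd_aut_trivial [Finite X] (c : X) {k : ℕ} (hk : 3 ≤ k) (hc : orderOf c = 2 ^ k)
    (H1 : ∀ x : X, x ∈ Subgroup.zpowers c ∨ x ^ 4 = 1)
    (H3 : ∀ x y : X, x ∉ Subgroup.zpowers c → y ∉ Subgroup.zpowers c → x⁻¹ * y ∈ Subgroup.zpowers c)
    (α : MulAut X) {m : ℕ} (hm : Odd m) (hα : α ^ m = 1) : α = 1 := by
  have hord : orderOf (α c) = 2 ^ k := by
    rw [MulEquiv.orderOf_eq]
    exact hc
  -- `α c` is a power of `c`
  have h1 : α c ∈ Subgroup.zpowers c := by
    rcases H1 (α c) with h | h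
    · exact h
    · exfalso
      have h2 := orderOf_dvd_of_pow_eq_one h
      rw [hord] at h2
      have h3 : (2 : ℕ) ^ k ≤ 4 := Nat.le_of_dvd (by norm_num) h2
      have h4 : (2 : ℕ) ^ 3 ≤ 2 ^ k := Nat.pow_le_pow_right (by norm_num) hk
      omega
  rw [← mem_powers_iff_mem_zpowers] at h1
  obtain ⟨j, hj⟩ := h1
  have hj' : α c = c ^ j := hj.symm
  have hiter : ∀ i : ℕ, (α ^ i) c = c ^ (j ^ i) := by
    intro i
    induction i with
    | zero => simp
    | succ i ih =>
      rw [pow_succ', MulAut.mul_apply, ih, map_pow, hj', ← pow_mul, pow_succ', mul_comm]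
  have hfix : α c = c := by
    have h2 := hiter m
    rw [hα] at h2
    have h3 : c ^ (j ^ m) = c ^ 1 := by
      rw [← h2]
      simp
    have h4 : ((j ^ m : ℕ) : ZMod (orderOf c)) = ((1 : ℕ) : ZMod (orderOf c)) := by
      rw [ZMod.natCast_eq_natCast_iff]
      exact (pow_eq_pow_iff_modEq).1 h3
    rw [hc] at h4
    have h5 : ((j : ZMod (2 ^ k))) ^ m = 1 := by
      have := h4
      push_cast at this
      exact this
    have h6 := zmod_odd_pow hm h5
    have h7 : ((j : ℕ) : ZMod (orderOf c)) = ((1 : ℕ) : ZMod (orderOf c)) := by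
      rw [hc]
      push_cast
      exact h6
    rw [ZMod.natCast_eq_natCast_iff] at h7
    rw [hj', (pow_eq_pow_iff_modEq).2 h7, pow_one]
  have hfixC : ∀ y ∈ Subgroup.zpowers c, α y = y := by
    rintro y ⟨i, rfl⟩
    show α (c ^ i) = c ^ i
    rw [map_zpow, hfix]
  ext x
  show α x = x
  by_cases hx : x ∈ Subgroup.zpowers c
  · exact hfixC x hx
  have hαx : α x ∉ Subgroup.zpowers c := by
    intro h
    have := hfixC _ h
    exact hx (α.injective this ▸ h)
  set d := x⁻¹ * α x with hd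
  have hdC : d ∈ Subgroup.zpowers c := H3 _ _ hx hαx
  have hαd : α d = d := hfixC d hdC
  have hax : α x = x * d := by
    rw [hd]
    group
  have hit : ∀ i : ℕ, (α ^ i) x = x * d ^ i := by
    intro i
    induction i with
    | zero => simp
    | succ i ih =>
      rw [pow_succ', MulAut.mul_apply, ih, map_mul, map_pow, hαd, hax, pow_succ', mul_assoc]
  have h5 := hit m
  rw [hα] at h5
  have h6 : d ^ m = 1 := by
    have h7 : (1 : MulAut X) x = x := rfl
    rw [h7] at h5
    exact (mul_eq_left.1 h5.symm)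
  have h7 : d ^ (2 ^ k) = 1 := by
    obtain ⟨i, hi⟩ := hdC
    rw [← hi]
    show (c ^ i) ^ (2 ^ k) = 1
    rw [← zpow_natCast, ← zpow_mul, mul_comm, zpow_mul, zpow_natCast, ← hc, pow_orderOf_eq_one, one_zpow]
  have h8 : d ^ (Nat.gcd m (2 ^ k)) = 1 := pow_gcd_eq_one.2 ⟨h6, h7⟩
  have h9 : Nat.gcd m (2 ^ k) = 1 := Nat.Coprime.pow_right _ (Nat.coprime_two_right.2 hm)
  rw [h9, pow_one] at h8
  rw [hax, h8, mul_one]

/-- transport along an isomorphism -/
theorem hyps_transport {Y : Type*} [Group Y] (e : X ≃* Y) (c : Y)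
    (H1 : ∀ x : Y, x ∈ Subgroup.zpowers c ∨ x ^ 4 = 1)
    (H3 : ∀ x y : Y, x ∉ Subgroup.zpowers c → y ∉ Subgroup.zpowers c → x⁻¹ * y ∈ Subgroup.zpowers c) :
    (∀ x : X, x ∈ Subgroup.zpowers (e.symm c) ∨ x ^ 4 = 1) ∧
    (∀ x y : X, x ∉ Subgroup.zpowers (e.symm c) → y ∉ Subgroup.zpowers (e.symm c) → x⁻¹ * y ∈ Subgroup.zpowers (e.symm c)) := by
  have key : ∀ x : X, x ∈ Subgroup.zpowers (e.symm c) ↔ e x ∈ Subgroup.zpowers c := by
    intro x
    constructor
    · rintro ⟨i, rfl⟩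
      exact ⟨i, by simp⟩
    · rintro ⟨i, hi⟩
      refine ⟨i, ?_⟩
      apply e.injective
      simpa using hi
  constructor
  · intro x
    rcases H1 (e x) with h | h
    · exact Or.inl ((key x).2 h)
    · refine Or.inr (e.injective ?_)
      rw [map_pow, h, map_one]
  · intro x y hx hy
    rw [key] at hx hy ⊢
    rw [map_mul, map_inv]
    exact H3 _ _ hx hy

theorem dih_hyps (N : ℕ) :
    (∀ x : DihedralGroup N, x ∈ Subgroup.zpowers (DihedralGroup.r (1 : ZMod N)) ∨ x ^ 4 = 1) ∧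
    (∀ x y : DihedralGroup N, x ∉ Subgroup.zpowers (DihedralGroup.r (1 : ZMod N)) →
      y ∉ Subgroup.zpowers (DihedralGroup.r (1 : ZMod N)) → x⁻¹ * y ∈ Subgroup.zpowers (DihedralGroup.r (1 : ZMod N))) := by
  have hr : ∀ i : ZMod N, DihedralGroup.r i ∈ Subgroup.zpowers (DihedralGroup.r (1 : ZMod N)) := by
    intro i
    refine ⟨(ZMod.cast i : ℤ), ?_⟩
    show DihedralGroup.r (1 : ZMod N) ^ (ZMod.cast i : ℤ) = DihedralGroup.r i
    rw [DihedralGroup.r_one_zpow]
    simp
  constructor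
  · rintro (i | i)
    · exact Or.inl (hr i)
    · refine Or.inr ?_
      have h : (DihedralGroup.sr i) ^ 2 = 1 := DihedralGroup.sr_mul_self i ▸ pow_two _
      show (DihedralGroup.sr i) ^ 4 = 1
      rw [show 4 = 2 * 2 by norm_num, pow_mul, h, one_pow]
  · rintro (i | i) (j | j) hx hy
    · exact absurd (hr i) hx
    · exact absurd (hr i) hx
    · exact absurd (hr j) hy
    · have h : (DihedralGroup.sr i)⁻¹ * DihedralGroup.sr j = DihedralGroup.r (j - i) := by
        have h0 : (DihedralGroup.sr i)⁻¹ = DihedralGroup.sr i := by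
          rw [inv_eq_iff_mul_eq_one]
          exact DihedralGroup.sr_mul_self i
        rw [h0]
        exact DihedralGroup.sr_mul_sr i j
      rw [h]
      exact hr _

theorem quat_hyps (M : ℕ) [NeZero M] :
    (∀ x : QuaternionGroup M, x ∈ Subgroup.zpowers (QuaternionGroup.a (1 : ZMod (2 * M))) ∨ x ^ 4 = 1) ∧
    (∀ x y : QuaternionGroup M, x ∉ Subgroup.zpowers (QuaternionGroup.a (1 : ZMod (2 * M))) →
      y ∉ Subgroup.zpowers (QuaternionGroup.a (1 : ZMod (2 * M))) → x⁻¹ * y ∈ Subgroup.zpowers (QuaternionGroup.a (1 : ZMod (2 * M)))) := by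
  have hr : ∀ i : ZMod (2 * M), QuaternionGroup.a i ∈ Subgroup.zpowers (QuaternionGroup.a (1 : ZMod (2 * M))) := by
    intro i
    haveI : NeZero (2 * M) := ⟨by have := NeZero.ne M; omega⟩
    refine ⟨(ZMod.val i : ℤ), ?_⟩
    show QuaternionGroup.a (1 : ZMod (2 * M)) ^ (ZMod.val i : ℤ) = QuaternionGroup.a i
    rw [zpow_natCast, QuaternionGroup.a_one_pow, ZMod.natCast_zmod_val]
  constructor
  · rintro (i | i)
    · exact Or.inl (hr i)
    · exact Or.inr (QuaternionGroup.xa_pow_four i)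
  · rintro (i | i) (j | j) hx hy
    · exact absurd (hr i) hx
    · exact absurd (hr i) hx
    · exact absurd (hr j) hy
    · obtain ⟨t, ht⟩ : ∃ t, (QuaternionGroup.xa i : QuaternionGroup M)⁻¹ * QuaternionGroup.xa j = QuaternionGroup.a t := by
        have h0 : (QuaternionGroup.xa i : QuaternionGroup M)⁻¹ = QuaternionGroup.xa ((M : ZMod (2 * M)) + i) := rfl
        rw [h0, QuaternionGroup.xa_mul_xa]
        exact ⟨_, rfl⟩
      rw [ht]
      exact hr _

end core

/-- If S is a dihedral or generalized quaternion 2-group of order at least 16, then in every saturated fusion system over S (at the prime 2) the automorphism group Aut_F(S) consists of the inner automorphisms of S. -/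
theorem result {Ω : Type*} [Group Ω] {S : Subgroup Ω} [Finite S] (n : ℕ) (hn : 4 ≤ n) (hshape : Nonempty (S ≃* DihedralGroup (2 ^ (n - 1))) ∨ Nonempty (S ≃* QuaternionGroup (2 ^ (n - 2)))) (F : Cfsg.FusionSystem S) (hF : F.IsSaturated 2) : F.autGroup S = Cfsg.Inn S := by
  have hk : 3 ≤ n - 1 := by omega
  -- the key fact on automorphisms of odd order
  have hodd : ∀ (α : MulAut S) (m : ℕ), Odd m → α ^ m = 1 → α = 1 := by
    intro α m hm hα
    rcases hshape with ⟨⟨e⟩⟩ | ⟨⟨e⟩⟩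
    · haveI : NeZero (2 ^ (n - 1)) := ⟨by positivity⟩
      obtain ⟨h1, h3⟩ := dih_hyps (2 ^ (n - 1))
      obtain ⟨h1', h3'⟩ := hyps_transport e _ h1 h3
      refine odd_aut_trivial (e.symm (DihedralGroup.r (1 : ZMod (2 ^ (n - 1))))) hk ?_ h1' h3' α hm hα
      rw [MulEquiv.orderOf_eq]
      exact DihedralGroup.orderOf_r_one
    · haveI : NeZero (2 ^ (n - 2)) := ⟨by positivity⟩
      obtain ⟨h1, h3⟩ := quat_hyps (2 ^ (n - 2))
      obtain ⟨h1', h3'⟩ := hyps_transport e _ h1 h3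
      refine odd_aut_trivial (e.symm (QuaternionGroup.a (1 : ZMod (2 * 2 ^ (n - 2))))) hk ?_ h1' h3' α hm hα
      rw [MulEquiv.orderOf_eq, QuaternionGroup.orderOf_a_one]
      rw [show n - 1 = (n - 2) + 1 by omega, pow_succ]
      ring
  have hS : IsPGroup 2 S := by
    rcases hshape with ⟨⟨e⟩⟩ | ⟨⟨e⟩⟩
    · haveI : NeZero (2 ^ (n - 1)) := ⟨by positivity⟩
      apply IsPGroup.of_card (n := n)
      rw [Nat.card_congr e.toEquiv, Nat.card_eq_fintype_card, DihedralGroup.card]
      rw [show n = (n - 1) + 1 by omega, pow_succ]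
      simp [mul_comm]
    · haveI : NeZero (2 ^ (n - 2)) := ⟨by positivity⟩
      apply IsPGroup.of_card (n := n)
      rw [Nat.card_congr e.toEquiv, Nat.card_eq_fintype_card, QuaternionGroup.card]
      rw [show n = (n - 2) + 2 by omega, pow_add]
      simp [mul_comm]
  haveI : Fact (Nat.Prime 2) := ⟨Nat.prime_two⟩
  have hA : IsPGroup 2 (F.autGroup S) := by
    intro α
    have hne : orderOf (α : MulAut S) ≠ 0 := (orderOf_pos _).ne'
    obtain ⟨a, m, hm, hn⟩ := Nat.exists_eq_two_pow_mul_odd hne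
    refine ⟨a, ?_⟩
    apply Subtype.ext
    show (α : MulAut S) ^ 2 ^ a = 1
    apply hodd _ m hm
    rw [← pow_mul, ← hn, pow_orderOf_eq_one]
  obtain ⟨-, R, hR⟩ := fullyAutomized_of_fullyNormalized hS F hF (fullyNormalized_top hS F)
  have hRtop : (R : Subgroup (F.autGroup S)) = ⊤ := by
    exact (R.is_maximal' (hA.to_subgroup ⊤) le_top).symm
  apply le_antisymm
  · intro α hα
    have h1 : (⟨α, hα⟩ : F.autGroup S) ∈ (R : Subgroup (F.autGroup S)) := by
      rw [hRtop]
      trivial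
    rw [hR] at h1
    obtain ⟨g, hg, hgx⟩ := mem_autInducedBy'.1 (Subgroup.mem_subgroupOf.1 h1)
    refine ⟨⟨g, hg⟩, ?_⟩
    ext x
    rw [hgx x]
    rfl
  · exact inn_le_autGroup F le_rfl


end Cfsg.Agent.S5112
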