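import Cfsg.Statements.S5114
import Mathlib
import Cfsg.Agent.Lib.FusLift
import Cfsg.Agent.Lib.FusAlp
import Cfsg.Agent.Lib.FusFree

set_option autoImplicit false
open Cfsg

namespace Cfsg.Agent.S5114


open Cfsg.FusionSystem Cfsg.Agent.Lib.FusBasic Cfsg.Agent.Lib.FusAut Cfsg.Agent.Lib.FusSat Cfsg.Agent.Lib.FusAlp Cfsg.Agent.Lib.FusNorm Cfsg.Agent.Lib.FusHyp Cfsg.Agent.Lib.FusLift

section
variable {Ω : Type*} [Group Ω] {S : Subgroup Ω} [Finite S] {p : ℕ} [Fact p.Prime]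

/-- the map `φ` stays in `E` after transport by any element of `Aut_F(S)`. -/
def TrP (F E : Cfsg.FusionSystem S) (P : Subgroup Ω) (φ : P →* Ω) : Prop :=
  ∀ β ∈ F.autGroup S, ∃ χ ∈ E.Hom (img (S.subtype.comp β.toMonoidHom) P),
    ∀ (x : P) (hxS : (x : Ω) ∈ S) (hv : φ x ∈ S) (u : img (S.subtype.comp β.toMonoidHom) P),
      (u : Ω) = ((β ⟨x, hxS⟩ : S) : Ω) → χ u = ((β ⟨φ x, hv⟩ : S) : Ω)

/-- the largest `Aut_F(S)`-invariant subsystem of `E` -/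
def inv (F E : Cfsg.FusionSystem S) : Cfsg.FusionSystem S :=
  subsystem F (TrP F E)
    (by
      intro P g hP hg β hβ
      have hle : img (S.subtype.comp β.toMonoidHom) P ≤ S := by
        rintro _ ⟨x, -, rfl⟩
        exact Subtype.coe_prop _
      refine ⟨conjHom _ ((β ⟨g, hg⟩ : S) : Ω), E.conj_mem hle (Subtype.coe_prop _), fun x hxS hv u hu => ?_⟩
      show ((β ⟨g, hg⟩ : S) : Ω) * (u : Ω) * ((β ⟨g, hg⟩ : S) : Ω)⁻¹ = _
      rw [hu]
      have e : (⟨(conjHom P g) x, hv⟩ : S) = ⟨g, hg⟩ * ⟨x, hxS⟩ * ⟨g, hg⟩⁻¹ := rfl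
      rw [e, map_mul, map_mul, map_inv]
      rfl)
    (by
      rintro P Q φ ψ hφ hψ hφT hψT h β hβ
      obtain ⟨χ₁, hχ₁, e1⟩ := hφT β hβ
      obtain ⟨χ₂, hχ₂, e2⟩ := hψT β hβ
      have hPS := src_le F hφ
      have hQS := src_le F hψ
      have hpre : ∀ u : img (S.subtype.comp β.toMonoidHom) P, ∃ x : P, (u : Ω) = ((β ⟨x, hPS x.2⟩ : S) : Ω) := by
        rintro ⟨_, x, hx, rfl⟩
        exact ⟨⟨x, hx⟩, rfl⟩
      have hv : ∀ u : img (S.subtype.comp β.toMonoidHom) P, χ₁ u ∈ img (S.subtype.comp β.toMonoidHom) Q := by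
        intro u
        obtain ⟨x, hx⟩ := hpre u
        rw [e1 x (hPS x.2) (val_mem F hφ x) u hx]
        exact ⟨⟨φ x, val_mem F hφ x⟩, Subgroup.mem_subgroupOf.2 (h x), rfl⟩
      refine ⟨χ₂.comp (χ₁.codRestrict _ hv), E.comp_mem hχ₁ hχ₂ hv, fun x hxS hw u hu => ?_⟩
      have h3 := e1 x hxS (val_mem F hφ x) u hu
      have h4 := e2 ⟨φ x, h x⟩ (val_mem F hφ x) hw ⟨χ₁ u, hv u⟩ h3
      exact h4)
    (by
      rintro P φ ψ hφ hφT hψ hψx β hβ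
      obtain ⟨χ₁, hχ₁, e1⟩ := hφT β hβ
      obtain ⟨ω, hω, eω⟩ := E.inv_mem hχ₁
      have hPS := src_le F hφ
      have hle : img (S.subtype.comp β.toMonoidHom) φ.range ≤ χ₁.range := by
        rintro _ ⟨s, hs, rfl⟩
        obtain ⟨x, ex⟩ := Subgroup.mem_subgroupOf.1 hs
        refine ⟨⟨((β ⟨x, hPS x.2⟩ : S) : Ω), ⟨x, hPS x.2⟩, Subgroup.mem_subgroupOf.2 x.2, rfl⟩, ?_⟩
        rw [e1 x (hPS x.2) (val_mem F hφ x) _ rfl]
        have e2 : (⟨φ x, val_mem F hφ x⟩ : S) = s := Subtype.ext ex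
        rw [e2]
        rfl
      refine ⟨ω.comp (Subgroup.inclusion hle), res_mem E hle hω, fun x hxS hv u hu => ?_⟩
      obtain ⟨x₀, ex₀⟩ := x.2
      have hxu : (⟨((β ⟨x₀, hPS x₀.2⟩ : S) : Ω), ⟨x₀, hPS x₀.2⟩, Subgroup.mem_subgroupOf.2 x₀.2, rfl⟩ : img (S.subtype.comp β.toMonoidHom) P) = ⟨((β ⟨x₀, hPS x₀.2⟩ : S) : Ω), ⟨x₀, hPS x₀.2⟩, Subgroup.mem_subgroupOf.2 x₀.2, rfl⟩ := rfl
      set u₀ : img (S.subtype.comp β.toMonoidHom) P := ⟨((β ⟨x₀, hPS x₀.2⟩ : S) : Ω), ⟨x₀, hPS x₀.2⟩, Subgroup.mem_subgroupOf.2 x₀.2, rfl⟩ with hu₀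
      have h3 := e1 x₀ (hPS x₀.2) (val_mem F hφ x₀) u₀ rfl
      have h4 : Subgroup.inclusion hle u = ⟨χ₁ u₀, ⟨u₀, rfl⟩⟩ := by
        apply Subtype.ext
        show (u : Ω) = χ₁ u₀
        rw [hu, h3]
        congr 2
        exact Subtype.ext ex₀.symm
      show ω (Subgroup.inclusion hle u) = _
      rw [h4, eω u₀]
      have h5 : x = ⟨φ x₀, ⟨x₀, rfl⟩⟩ := Subtype.ext ex₀.symm
      have h6 : ψ x = x₀ := by
        rw [h5]
        exact hψx x₀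
      have h7 : (⟨ψ x, hv⟩ : S) = ⟨x₀, hPS x₀.2⟩ := Subtype.ext h6
      rw [h7])

theorem inv_le {F E : Cfsg.FusionSystem S} {P : Subgroup Ω} {φ : P →* Ω} (h : φ ∈ (inv F E).Hom P) : φ ∈ E.Hom P := by
  obtain ⟨h1, h2⟩ := h
  obtain ⟨χ, hχ, e⟩ := h2 1 (Subgroup.one_mem _)
  have hPS := src_le F h1
  have hle : P ≤ img (S.subtype.comp (1 : MulAut S).toMonoidHom) P := fun x hx => ⟨⟨x, hPS hx⟩, Subgroup.mem_subgroupOf.2 hx, rfl⟩
  refine res_mem' E hle hχ (fun x => ?_)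
  have h3 := e x (hPS x.2) (val_mem F h1 x) ⟨x, hle x.2⟩ rfl
  exact h3.symm

/-- the Frattini predicate -/
def Fr (F E : Cfsg.FusionSystem S) (P : Subgroup Ω) (φ : P →* Ω) : Prop :=
  ∃ α ∈ F.autGroup S, ∃ φ₀ ∈ E.Hom P, ∀ (x : P) (hx : φ₀ x ∈ S), φ x = ((α ⟨φ₀ x, hx⟩ : S) : Ω)

theorem transport {F E : Cfsg.FusionSystem S} {α : MulAut S} (hα : α ∈ F.autGroup S) {P : Subgroup Ω}
    {φ : P →* Ω} (hφ : φ ∈ (inv F E).Hom P) {U : Subgroup Ω}
    (hU : ∀ u ∈ U, ∃ x : P, ((α ⟨x, src_le F hφ.1 x.2⟩ : S) : Ω) = u) :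
    ∃ χ ∈ (inv F E).Hom U, ∀ (x : P) (u : U), (u : Ω) = ((α ⟨x, src_le F hφ.1 x.2⟩ : S) : Ω) → χ u = ((α ⟨φ x, val_mem F hφ.1 x⟩ : S) : Ω) := by
  obtain ⟨hφF, hφT⟩ := hφ
  have hPS := src_le F hφF
  have hαH : S.subtype.comp α.toMonoidHom ∈ F.Hom S := (mem_autGroup_iff F le_rfl).1 hα
  have hαi : S.subtype.comp (α⁻¹).toMonoidHom ∈ F.Hom S := (mem_autGroup_iff F le_rfl).1 (Subgroup.inv_mem _ hα)
  have hUS : U ≤ S := by
    intro u hu
    obtain ⟨x, rfl⟩ := hU u hu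
    exact Subtype.coe_prop _
  have hr1 : (S.subtype.comp (α⁻¹).toMonoidHom).comp (Subgroup.inclusion hUS) ∈ F.Hom U := res_mem F hUS hαi
  have hpre : ∀ u : U, ∃ x : P, (u : Ω) = ((α ⟨x, hPS x.2⟩ : S) : Ω) := fun u => by
    obtain ⟨x, ex⟩ := hU u u.2
    exact ⟨x, ex.symm⟩
  have hv1 : ∀ u : U, ((S.subtype.comp (α⁻¹).toMonoidHom).comp (Subgroup.inclusion hUS)) u ∈ P := by
    intro u
    obtain ⟨x, ex⟩ := hpre u
    have e1 : Subgroup.inclusion hUS u = α ⟨x, hPS x.2⟩ := Subtype.ext ex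
    show ((α⁻¹ (Subgroup.inclusion hUS u) : S) : Ω) ∈ P
    rw [e1]
    simpa using x.2
  have hr2 := F.comp_mem hr1 hφF hv1
  have hv2 : ∀ u : U, (φ.comp (((S.subtype.comp (α⁻¹).toMonoidHom).comp (Subgroup.inclusion hUS)).codRestrict P hv1)) u ∈ S := fun u => val_mem F hφF _
  have hr3 := F.comp_mem hr2 hαH hv2
  have key : ∀ (x : P) (u : U), (u : Ω) = ((α ⟨x, hPS x.2⟩ : S) : Ω) →
      ((S.subtype.comp α.toMonoidHom).comp ((φ.comp (((S.subtype.comp (α⁻¹).toMonoidHom).comp (Subgroup.inclusion hUS)).codRestrict P hv1)).codRestrict S hv2)) u = ((α ⟨φ x, val_mem F hφF x⟩ : S) : Ω) := by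
    intro x u hu
    have e1 : Subgroup.inclusion hUS u = α ⟨x, hPS x.2⟩ := Subtype.ext hu
    have e2 : (((S.subtype.comp (α⁻¹).toMonoidHom).comp (Subgroup.inclusion hUS)).codRestrict P hv1) u = x := by
      apply Subtype.ext
      show ((α⁻¹ (Subgroup.inclusion hUS u) : S) : Ω) = x
      rw [e1]
      simp
    show ((α ⟨φ ((((S.subtype.comp (α⁻¹).toMonoidHom).comp (Subgroup.inclusion hUS)).codRestrict P hv1) u), _⟩ : S) : Ω) = _
    simp only [e2]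
  refine ⟨_, ⟨hr3, ?_⟩, key⟩
  intro β hβ
  obtain ⟨χ', hχ', e'⟩ := hφT (β * α) (Subgroup.mul_mem _ hβ hα)
  have hle : img (S.subtype.comp β.toMonoidHom) U ≤ img (S.subtype.comp (β * α).toMonoidHom) P := by
    rintro _ ⟨s, hs, rfl⟩
    obtain ⟨x, ex⟩ := hpre ⟨s, hs⟩
    refine ⟨⟨x, hPS x.2⟩, Subgroup.mem_subgroupOf.2 x.2, ?_⟩
    have e1 : s = α ⟨x, hPS x.2⟩ := Subtype.ext ex
    rw [e1]
    rfl
  refine ⟨χ'.comp (Subgroup.inclusion hle), res_mem E hle hχ', fun u hxS hv y hy => ?_⟩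
  obtain ⟨x, ex⟩ := hpre u
  have e1 : (⟨u, hxS⟩ : S) = α ⟨x, hPS x.2⟩ := Subtype.ext ex
  have h3 := e' x (hPS x.2) (val_mem F hφF x) (Subgroup.inclusion hle y) (by
    show (y : Ω) = _
    rw [hy, e1]
    rfl)
  show χ' (Subgroup.inclusion hle y) = _
  rw [h3]
  have h4 := key x u ex
  have h5 : (⟨_, hv⟩ : S) = α ⟨φ x, val_mem F hφF x⟩ := Subtype.ext h4
  rw [h5]
  rfl

/-- the subsystem of maps of the form (element of `Aut_F(S)`) ∘ (map of `inv F E`). -/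
def sys (F E : Cfsg.FusionSystem S) : Cfsg.FusionSystem S :=
  subsystem F (Fr F (inv F E))
    (by
      intro P g hP hg
      have hc : (MulAut.conj (⟨g, hg⟩ : S) : MulAut S) ∈ F.autGroup S := inn_le_autGroup F le_rfl ⟨⟨g, hg⟩, rfl⟩
      refine ⟨_, hc, P.subtype, subtype_mem _ hP, fun x hx => ?_⟩
      rfl)
    (by
      rintro P Q φ ψ hφ hψ ⟨α, hα, φ₀, hφ₀, e1⟩ ⟨β, hβ, ψ₀, hψ₀, e2⟩ h
      have hainv : α⁻¹ ∈ F.autGroup S := Subgroup.inv_mem _ hα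
      have hU : ∀ u ∈ φ₀.range, ∃ w : Q, (((α⁻¹) ⟨w, src_le F hψ₀.1 w.2⟩ : S) : Ω) = u := by
        rintro _ ⟨x, rfl⟩
        refine ⟨⟨_, h x⟩, ?_⟩
        have := e1 x (val_mem _ hφ₀ x)
        have e3 : (⟨φ x, val_mem F hφ x⟩ : S) = α ⟨φ₀ x, val_mem _ hφ₀ x⟩ := Subtype.ext this
        show (((α⁻¹) ⟨φ x, val_mem F hφ x⟩ : S) : Ω) = _
        rw [e3]
        simp
      obtain ⟨ξ, hξ, eξ⟩ := transport hainv hψ₀ hU
      have hcomp : ξ.comp (φ₀.rangeRestrict) ∈ (inv F E).Hom P := by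
        refine comp_mem' _ hφ₀ hξ (fun x => ⟨x, rfl⟩) (fun x => rfl)
      refine ⟨β * α, Subgroup.mul_mem _ hβ hα, _, hcomp, fun x hx => ?_⟩
      set w : Q := ⟨_, h x⟩ with hw
      have h3 := e1 x (val_mem _ hφ₀ x)
      have e3 : (⟨φ x, val_mem F hφ x⟩ : S) = α ⟨φ₀ x, val_mem _ hφ₀ x⟩ := Subtype.ext h3
      have h4 := eξ w ⟨φ₀ x, ⟨x, rfl⟩⟩ (by
        show φ₀ x = (((α⁻¹) ⟨φ x, val_mem F hφ x⟩ : S) : Ω)
        rw [e3]
        simp)
      have h5 : (⟨(ξ.comp φ₀.rangeRestrict) x, hx⟩ : S) = (α⁻¹) ⟨ψ₀ w, val_mem _ hψ₀ w⟩ := Subtype.ext h4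
      have h6 : ((β * α) ⟨(ξ.comp φ₀.rangeRestrict) x, hx⟩ : S) = β ⟨ψ₀ w, val_mem _ hψ₀ w⟩ := by
        rw [h5]
        simp
      rw [h6]
      have h7 := e2 w (val_mem _ hψ₀ w)
      rw [← h7]
      rfl)
    (by
      rintro P φ ψ hφ ⟨α, hα, φ₀, hφ₀, e1⟩ hψ hψx
      obtain ⟨θ, hθ, eθ⟩ := (inv F E).inv_mem hφ₀
      have hPS := src_le F hφ
      have hU : ∀ v ∈ φ.range, ∃ u : φ₀.range, ((α ⟨u, src_le _ hθ u.2⟩ : S) : Ω) = v := by
        rintro _ ⟨x, rfl⟩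
        refine ⟨⟨φ₀ x, ⟨x, rfl⟩⟩, ?_⟩
        exact (e1 x (val_mem _ hφ₀ x)).symm
      obtain ⟨χ, hχ, eχ⟩ := transport hα hθ hU
      refine ⟨α⁻¹, Subgroup.inv_mem _ hα, χ, hχ, fun v hv => ?_⟩
      obtain ⟨x, ex⟩ := v.2
      have h1 := e1 x (val_mem _ hφ₀ x)
      have h2 := eχ ⟨φ₀ x, ⟨x, rfl⟩⟩ v (by
        rw [← ex]
        exact h1)
      have h3 : (⟨χ v, hv⟩ : S) = α ⟨θ ⟨φ₀ x, ⟨x, rfl⟩⟩, val_mem _ hθ _⟩ := Subtype.ext h2
      rw [h3]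
      have h4 : (⟨θ ⟨φ₀ x, ⟨x, rfl⟩⟩, val_mem _ hθ _⟩ : S) = ⟨x, hPS x.2⟩ := Subtype.ext (eθ x)
      rw [h4]
      have h5 : ((α⁻¹ (α ⟨x, hPS x.2⟩) : S) : Ω) = x := by simp
      rw [h5]
      have h6 : v = ⟨φ x, ⟨x, rfl⟩⟩ := Subtype.ext ex.symm
      rw [h6]
      exact hψx x)

theorem pel_mem (hS : IsPGroup p S) {F E : Cfsg.FusionSystem S}
    (h : ∀ P : Subgroup Ω, F.IsCentric P → (Subgroup.closure {α : ↥(F.autGroup P) | ∃ k : ℕ, orderOf α = p ^ k}).map (F.autGroup P).subtype ≤ E.autGroup P)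
    {R : Subgroup Ω} (hR : F.IsCentric R) (a : ↥(F.autGroup R)) (k : ℕ) (ha : orderOf a = p ^ k) :
    R.subtype.comp (a : MulAut R).toMonoidHom ∈ (inv F E).Hom R := by
  have hRS := hR.1
  haveI : Finite R := finite_of_le hRS
  refine ⟨(mem_autGroup_iff F hRS).1 a.2, fun β hβ => ?_⟩
  have hb : (S.subtype.comp β.toMonoidHom).comp (Subgroup.inclusion hRS) ∈ F.Hom R := res_mem F hRS ((mem_autGroup_iff F le_rfl).1 hβ)
  have hr : ((S.subtype.comp β.toMonoidHom).comp (Subgroup.inclusion hRS)).range = img (S.subtype.comp β.toMonoidHom) R := by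
    ext y
    constructor
    · rintro ⟨x, rfl⟩
      exact ⟨⟨x, hRS x.2⟩, Subgroup.mem_subgroupOf.2 x.2, rfl⟩
    · rintro ⟨x, hx, rfl⟩
      exact ⟨⟨x, Subgroup.mem_subgroupOf.1 hx⟩, rfl⟩
  have hcent : F.IsCentric (img (S.subtype.comp β.toMonoidHom) R) := Cfsg.Agent.Lib.FusFree.centric_conj hR ⟨_, hb, hr⟩
  set e := isoOf _ (inj F hb) hr with he
  have ha' : MulAut.congr e (a : MulAut R) ∈ F.autGroup (img (S.subtype.comp β.toMonoidHom) R) := congr_mem_autGroup F hb hr a.2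
  have hord : orderOf (⟨_, ha'⟩ : ↥(F.autGroup (img (S.subtype.comp β.toMonoidHom) R))) = p ^ k := by
    rw [Subgroup.orderOf_mk, MulEquiv.orderOf_eq, ← ha, ← Subgroup.orderOf_coe]
  have hmem := h _ hcent ⟨⟨_, ha'⟩, Subgroup.subset_closure ⟨k, hord⟩, rfl⟩
  have hS' : img (S.subtype.comp β.toMonoidHom) R ≤ S := hcent.1
  refine ⟨_, (mem_autGroup_iff E hS').1 hmem, fun x hxS hv u hu => ?_⟩
  have e1 : u = e x := Subtype.ext hu
  show ((MulAut.congr e (a : MulAut R) u : img (S.subtype.comp β.toMonoidHom) R) : Ω) = _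
  rw [e1]
  have e2 : MulAut.congr e (a : MulAut R) (e x) = e ((a : MulAut R) x) := by
    show e ((a : MulAut R) (e.symm (e x))) = _
    rw [e.symm_apply_apply]
  rw [e2]
  rfl

theorem le_sys (hS : IsPGroup p S) {F E : Cfsg.FusionSystem S} (hF : F.IsSaturated p)
    (h : ∀ P : Subgroup Ω, F.IsCentric P → (Subgroup.closure {α : ↥(F.autGroup P) | ∃ k : ℕ, orderOf α = p ^ k}).map (F.autGroup P).subtype ≤ E.autGroup P) :
    F ≤ sys F E := by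
  apply alperin_induction hS F hF
  intro R hR IH α hα
  have hRS : R ≤ S := hR.1
  haveI : Finite R := finite_of_le hRS
  have hm := (mem_autGroup_iff F hRS).1 hα
  by_cases hTR : R = S
  · subst hTR
    apply mem_autGroup_of
    exact ⟨hm, α, hα, R.subtype, subtype_mem _ le_rfl, fun x hx => rfl⟩
  have hlt : R < S := lt_of_le_of_ne hRS hTR
  have hextE : extGen F R ≤ (sys F E).autGroup R := by
    rw [extGen, Subgroup.closure_le]
    rintro b ⟨Q, hPQ, φ, hφ, hb⟩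
    have hQS : Q ≤ S := src_le F hφ
    apply mem_autGroup_of
    exact res_mem' (sys F E) hPQ.le (IH Q hPQ hQS hφ) (fun x => (hb x).symm)
  rcases extGen_dichotomy F hS hF hlt hR with ⟨-, h3⟩ | ⟨h3, -⟩
  · rw [← h3] at hα
    exact hextE hα
  have hcent : F.IsCentric R := h3.1
  obtain ⟨t, htN, htR⟩ := SetLike.exists_of_lt (normalizerIn_gt hS hlt)
  have htn : t ∈ Subgroup.normalizer (R : Set Ω) := htN.2
  have htS : t ∈ S := htN.1
  let Ks : Subgroup ↥(F.autGroup R) := Subgroup.closure {a | ∃ k : ℕ, orderOf a = p ^ k}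
  haveI hK₂ : Ks.Normal := by
    refine ⟨fun n hn g => ?_⟩
    refine Subgroup.closure_induction (p := fun n _ => g * n * g⁻¹ ∈ Ks) ?_ ?_ ?_ ?_ hn
    · rintro a ⟨k, hk⟩
      apply Subgroup.subset_closure
      refine ⟨k, ?_⟩
      rw [← hk]
      exact MulEquiv.orderOf_eq (MulAut.conj g) a
    · simp [Subgroup.one_mem]
    · intro a b _ _ ha hb
      have e : g * (a * b) * g⁻¹ = (g * a * g⁻¹) * (g * b * g⁻¹) := by group
      rw [e]
      exact Subgroup.mul_mem _ ha hb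
    · intro a _ ha
      have e : g * a⁻¹ * g⁻¹ = (g * a * g⁻¹)⁻¹ := by group
      rw [e]
      exact Subgroup.inv_mem _ ha
  have hFA := fullyAutomized_of_fullyNormalized hS F hF hR
  have hRec := receptive_of_fullyNormalized hS F hF hR
  obtain ⟨Sg₀, hSg₀⟩ := hFA.2
  obtain ⟨P, hP⟩ := sylow_inf_normal Sg₀ Ks
  have htop := Sylow.normalizer_sup_eq_top P
  have hmem : (⟨α, hα⟩ : F.autGroup R) ∈ Subgroup.normalizer (((P : Subgroup _).map Ks.subtype : Subgroup _) : Set (F.autGroup R)) ⊔ Ks := by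
    rw [htop]
    trivial
  obtain ⟨n, hn, k, hk, hnk⟩ := Subgroup.mem_sup_of_normal_right.1 hmem
  have hctS : cAut R ⟨t, htn⟩ ∈ autInducedBy S R := mem_autInducedBy'.2 ⟨t, htS, fun x => rfl⟩
  have hctA : cAut R ⟨t, htn⟩ ∈ F.autGroup R := autInduced_le_autGroup F hRS hctS
  have hctK : (⟨cAut R ⟨t, htn⟩, hctA⟩ : F.autGroup R) ∈ Ks := by
    apply Subgroup.subset_closure
    obtain ⟨m, hm⟩ := hS ⟨t, htS⟩
    have h1 : (⟨cAut R ⟨t, htn⟩, hctA⟩ : F.autGroup R) ^ (p ^ m) = 1 := by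
      apply Subtype.ext
      show (cAut R ⟨t, htn⟩) ^ (p ^ m) = 1
      rw [← map_pow]
      have h2 : (⟨t, htn⟩ : ↥(Subgroup.normalizer (R : Set Ω))) ^ (p ^ m) = 1 := by
        apply Subtype.ext
        have := congrArg Subtype.val hm
        exact this
      rw [h2, map_one]
    obtain ⟨j, -, hj⟩ := (Nat.dvd_prime_pow (Fact.out : p.Prime)).1 (orderOf_dvd_of_pow_eq_one h1)
    exact ⟨j, hj⟩
  have hctP : (⟨⟨cAut R ⟨t, htn⟩, hctA⟩, hctK⟩ : Ks) ∈ (P : Subgroup _) := by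
    rw [hP]
    show (⟨cAut R ⟨t, htn⟩, hctA⟩ : F.autGroup R) ∈ (Sg₀ : Subgroup _)
    rw [hSg₀]
    exact hctS
  have hconjn := (Subgroup.mem_normalizer_iff.1 hn ⟨cAut R ⟨t, htn⟩, hctA⟩).1 ⟨_, hctP, rfl⟩
  obtain ⟨q, hq, hqe⟩ := hconjn
  have hqS : ((n * ⟨cAut R ⟨t, htn⟩, hctA⟩ * n⁻¹ : F.autGroup R) : MulAut R) ∈ autInducedBy S R := by
    have h1 : ((q : Ks) : F.autGroup R) ∈ (Sg₀ : Subgroup _) := by
      rw [hP] at hq
      exact hq
    rw [hSg₀] at h1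
    have h2 : ((q : Ks) : F.autGroup R) = n * ⟨cAut R ⟨t, htn⟩, hctA⟩ * n⁻¹ := hqe
    rw [← h2]
    exact h1
  obtain ⟨h', hh, hhe⟩ := mem_autInducedBy'.1 hqS
  have htext : t ∈ extender S R (R.subtype.comp (n : MulAut R).toMonoidHom) :=
    mem_extender_of_aut (t := cAut R ⟨t, htn⟩) rfl htS hh (fun x => rfl) hhe
  have hltext : R < extender S R (R.subtype.comp (n : MulAut R).toMonoidHom) := by
    refine lt_of_le_of_ne (le_extender hRS _ (fun x => hRS ((n : MulAut R) x).2)) ?_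
    intro e4
    exact htR (e4.symm.le htext)
  have hnext : (n : MulAut R) ∈ extGen F R := mem_extGen_of_gt F hRec n.2 hltext
  have hkE : (k : MulAut R) ∈ (sys F E).autGroup R := by
    refine Subgroup.closure_induction (p := fun (k : ↥(F.autGroup R)) _ => ((k : ↥(F.autGroup R)) : MulAut R) ∈ (sys F E).autGroup R) ?_ ?_ ?_ ?_ hk
    · rintro a ⟨j, hj⟩
      apply mem_autGroup_of
      exact ⟨(mem_autGroup_iff F hRS).1 a.2, 1, Subgroup.one_mem _, _, pel_mem hS h hcent a j hj, fun x hx => rfl⟩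
    · exact Subgroup.one_mem _
    · intro a b _ _ ha hb
      exact Subgroup.mul_mem _ ha hb
    · intro a _ ha
      exact Subgroup.inv_mem _ ha
  have hαe : α = (n : MulAut R) * (k : MulAut R) := by
    have := congrArg Subtype.val hnk
    exact this.symm
  rw [hαe]
  exact Subgroup.mul_mem _ (hextE hnext) hkE

end

/-- Let F be a saturated fusion system over a finite p-group S and E a fusion system over S contained in F. If Aut_E(P) contains the subgroup of Aut_F(P) generated by its elements of p-power order for every subgroup P that is centric in F, then the same holds for every subgroup of S (E has index prime to p in F), every map of F with source a subgroup P of S is an element of Aut_F(S) composed with a map of E, and a subgroup is centric in E exactly when it is centric in F. -/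
theorem result {Ω : Type*} [Group Ω] {S : Subgroup Ω} [Finite S] (p : ℕ) [Fact p.Prime] (hS : IsPGroup p S) (F : Cfsg.FusionSystem S) (hF : F.IsSaturated p) (E : Cfsg.FusionSystem S) (hEF : E.IsSubsystemOf F) (h : ∀ P : Subgroup Ω, F.IsCentric P → (Subgroup.closure {α : ↥(F.autGroup P) | ∃ k : ℕ, orderOf α = p ^ k}).map (F.autGroup P).subtype ≤ E.autGroup P) : E.HasPrimeToPIndexIn F p ∧ (∀ (P : Subgroup Ω) (φ : P →* Ω), φ ∈ F.Hom P → ∃ α ∈ F.autGroup S, ∃ φ₀ ∈ E.Hom P, ∀ (x : P) (hx : φ₀ x ∈ S), φ x = ((α ⟨φ₀ x, hx⟩ : S) : Ω)) ∧ ∀ P : Subgroup Ω, E.IsCentric P ↔ F.IsCentric P := by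
  classical
  have hL := le_sys (E := E) hS hF h
  have hii : ∀ (P : Subgroup Ω) (φ : P →* Ω), φ ∈ F.Hom P → ∃ α ∈ F.autGroup S, ∃ φ₀ ∈ E.Hom P, ∀ (x : P) (hx : φ₀ x ∈ S), φ x = ((α ⟨φ₀ x, hx⟩ : S) : Ω) := by
    intro P φ hφ
    obtain ⟨α, hα, φ₀, hφ₀, e⟩ := (hL P hφ).2
    exact ⟨α, hα, φ₀, inv_le hφ₀, e⟩
  refine ⟨⟨hEF, ?_⟩, hii, ?_⟩
  · intro P hPS
    haveI : Finite P := finite_of_le hPS
    rw [Subgroup.map_le_iff_le_comap, Subgroup.closure_le]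
    rintro a ⟨k, hk⟩
    show (a : MulAut P) ∈ E.autGroup P
    obtain ⟨R, ⟨ψ, hψ, hr⟩, hR⟩ := exists_fullyNormalized_conj F hPS
    have hRS := hR.1
    haveI : Finite R := finite_of_le hRS
    have hFA := fullyAutomized_of_fullyNormalized hS F hF hR
    set e := isoOf ψ (inj F hψ) hr with he
    have ha' : MulAut.congr e (a : MulAut P) ∈ F.autGroup R := congr_mem_autGroup F hψ hr a.2
    have hBp : IsPGroup p (Subgroup.zpowers (MulAut.congr e (a : MulAut P))) := by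
      apply IsPGroup.of_card (n := k)
      rw [Nat.card_zpowers, MulEquiv.orderOf_eq, ← hk, ← Subgroup.orderOf_coe]
    have hBA : Subgroup.zpowers (MulAut.congr e (a : MulAut P)) ≤ F.autGroup R := (Subgroup.zpowers_le).2 ha'
    obtain ⟨b, hb, hbc⟩ := exists_conj_aut hS F hFA hBA hBp
    obtain ⟨g, hgS, hg⟩ := mem_autInducedBy'.1 (hbc _ (Subgroup.mem_zpowers _))
    have hbH := (mem_autGroup_iff F hRS).1 hb
    have hv : ∀ x : P, ψ x ∈ R := fun x => by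
      rw [← hr]
      exact ⟨x, rfl⟩
    have hθ := F.comp_mem hψ hbH hv
    set θ : P →* Ω := (R.subtype.comp b.toMonoidHom).comp (ψ.codRestrict R hv) with hθd
    have hθv : ∀ x : P, θ x = ((b (e x) : R) : Ω) := fun x => by
      have : ψ.codRestrict R hv x = e x := rfl
      show ((b (ψ.codRestrict R hv x) : R) : Ω) = _
      rw [this]
    have hθα : ∀ x : P, θ ((a : MulAut P) x) = g * θ x * g⁻¹ := by
      intro x
      rw [hθv, hθv]
      rw [← hg (b (e x))]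
      have e2 : ((b * MulAut.congr e (a : MulAut P) * b⁻¹) (b (e x))) = b (e ((a : MulAut P) x)) := by
        show b (e ((a : MulAut P) (e.symm (b⁻¹ (b (e x)))))) = _
        simp
      rw [e2]
    obtain ⟨γ, hγ, θ₀, hθ₀, eθ⟩ := hii P θ hθ
    have hθ₀v := fun x => val_mem E hθ₀ x
    let h' : ↥S := γ⁻¹ ⟨g, hgS⟩
    have hθ₀α : ∀ x : P, θ₀ ((a : MulAut P) x) = (h' : Ω) * θ₀ x * (h' : Ω)⁻¹ := by
      intro x
      have h1 := hθα x
      rw [eθ _ (hθ₀v _), eθ x (hθ₀v x)] at h1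
      have h2 : γ ⟨θ₀ ((a : MulAut P) x), hθ₀v _⟩ = ⟨g, hgS⟩ * γ ⟨θ₀ x, hθ₀v x⟩ * ⟨g, hgS⟩⁻¹ := Subtype.ext h1
      have h3 : (⟨θ₀ ((a : MulAut P) x), hθ₀v _⟩ : S) = h' * ⟨θ₀ x, hθ₀v x⟩ * h'⁻¹ := by
        apply γ.injective
        rw [h2, map_mul, map_mul, map_inv]
        simp [h']
      exact congrArg Subtype.val h3
    obtain ⟨ω, hω, eω⟩ := E.inv_mem hθ₀
    have hrS : θ₀.range ≤ S := src_le E hω
    have hcH : conjHom θ₀.range (h' : Ω) ∈ E.Hom θ₀.range := E.conj_mem hrS h'.2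
    have h1 : (conjHom θ₀.range (h' : Ω)).comp θ₀.rangeRestrict ∈ E.Hom P := E.comp_mem hθ₀ hcH (fun x => ⟨x, rfl⟩)
    have hv2 : ∀ x : P, ((conjHom θ₀.range (h' : Ω)).comp θ₀.rangeRestrict) x ∈ θ₀.range := by
      intro x
      refine ⟨(a : MulAut P) x, ?_⟩
      exact hθ₀α x
    have h2 := E.comp_mem h1 hω hv2
    apply mem_autGroup_of
    refine hom_congr E h2 (fun x => ?_)
    show (((a : MulAut P) x : P) : Ω) = ω ⟨((conjHom θ₀.range (h' : Ω)).comp θ₀.rangeRestrict) x, hv2 x⟩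
    have h3 : (⟨((conjHom θ₀.range (h' : Ω)).comp θ₀.rangeRestrict) x, hv2 x⟩ : θ₀.range) = ⟨θ₀ ((a : MulAut P) x), ⟨_, rfl⟩⟩ :=
      Subtype.ext (hθ₀α x).symm
    rw [h3, eω]
  · intro P
    constructor
    · intro hc
      refine ⟨hc.1, ?_⟩
      rintro Q ⟨φ, hφ, rfl⟩
      obtain ⟨α, hα, φ₀, hφ₀, e⟩ := hii P φ hφ
      have h1 := hc.2 φ₀.range ⟨φ₀, hφ₀, rfl⟩
      intro c hc'
      have hcS : c ∈ S := hc'.1
      have hcd : ((α⁻¹ ⟨c, hcS⟩ : S) : Ω) ∈ Cfsg.FusionSystem.centralizerIn S φ₀.range := by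
        refine ⟨Subtype.coe_prop _, Subgroup.mem_centralizer_iff.2 ?_⟩
        rintro _ ⟨x, rfl⟩
        have h2 := (Subgroup.mem_centralizer_iff.1 hc'.2) (φ x) ⟨x, rfl⟩
        have hv := val_mem E hφ₀ x
        rw [e x hv] at h2
        have h3 : α ⟨φ₀ x, hv⟩ * ⟨c, hcS⟩ = ⟨c, hcS⟩ * α ⟨φ₀ x, hv⟩ := Subtype.ext h2
        have h4 : (⟨φ₀ x, hv⟩ : S) * α⁻¹ ⟨c, hcS⟩ = α⁻¹ ⟨c, hcS⟩ * ⟨φ₀ x, hv⟩ := by
          apply α.injective
          rw [map_mul, map_mul]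
          have e5 : α (α⁻¹ ⟨c, hcS⟩) = ⟨c, hcS⟩ := by simp
          rw [e5]
          exact h3
        exact congrArg Subtype.val h4
      obtain ⟨x, ex⟩ := h1 hcd
      refine ⟨x, ?_⟩
      have hv := val_mem E hφ₀ x
      rw [e x hv]
      have e5 : (⟨φ₀ x, hv⟩ : S) = α⁻¹ ⟨c, hcS⟩ := Subtype.ext ex
      rw [e5]
      simp
    · intro hc
      refine ⟨hc.1, ?_⟩
      rintro Q ⟨φ, hφ, rfl⟩
      exact hc.2 _ ⟨φ, hEF P hφ, rfl⟩

end Cfsg.Agent.S5114
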