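import Cfsg.Statements.S5115
import Mathlib
import Cfsg.Agent.Lib.FusConstr2

set_option autoImplicit false
open Cfsg

namespace Cfsg.Agent.S5115


/-- If the 2-fusion system of a finite group G on a Sylow 2-subgroup S is constrained, then for every subnormal subgroup H of G the 2-fusion system of H on S ∩ H is constrained. -/
theorem result {G : Type*} [Group G] [Finite G] (S : Sylow 2 G) (hF : (Cfsg.groupFusionSystem (S : Subgroup G)).IsConstrained 2) (H : Subgroup G) (hH : H.IsSubnormal) : (Cfsg.groupFusionSystem ((S : Subgroup G).subgroupOf H)).IsConstrained 2 := by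
  classical
  have hSp := S.isPGroup'
  have h0 := Cfsg.Agent.Lib.FusConstr.constrained_top hF hSp
  have hA₀ : Cfsg.Agent.Lib.FusGroup.IsSylowSub 2 ((S : Subgroup G) ⊓ ⊤) ⊤ := by
    refine Cfsg.Agent.Lib.FusGroup.isSylowSub_of_card inf_le_right (hSp.to_le inf_le_left) (fun B _ hBp => ?_)
    obtain ⟨g, hg⟩ := Cfsg.Agent.Lib.SylowTools.exists_conj_le_sylow S hBp
    rw [← Cfsg.Agent.Lib.SylowTools.card_map_conj B g, inf_top_eq]
    exact Subgroup.card_le_of_le hg
  exact Cfsg.Agent.Lib.FusConstr.constrained_final hSp (Cfsg.Agent.Lib.FusConstr.constrained_subnormal S hSp hA₀ h0 hH).1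


end Cfsg.Agent.S5115
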