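import Cfsg.Statements.S5119
import Mathlib
import Cfsg.Agent.Lib.FusLift
import Cfsg.Agent.Lib.FusAlp

set_option autoImplicit false
open Cfsg

namespace Cfsg.Agent.S5119


open Cfsg.FusionSystem Cfsg.Agent.Lib.FusBasic Cfsg.Agent.Lib.FusAut Cfsg.Agent.Lib.FusSat Cfsg.Agent.Lib.FusAlp Cfsg.Agent.Lib.FusNorm Cfsg.Agent.Lib.FusHyp Cfsg.Agent.Lib.FusLift

section
variable {Ω : Type*} [Group Ω] {S : Subgroup Ω} [Finite S] {p : ℕ} [Fact p.Prime] {T : Subgroup Ω}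

/-- the Frattini predicate -/
def Fr (F : Cfsg.FusionSystem S) (E : Cfsg.FusionSystem T) (P : Subgroup Ω) (φ : P →* Ω) : Prop :=
  ∃ α ∈ F.autGroup T, ∃ φ₀ ∈ E.Hom P, ∀ (x : P) (hx : φ₀ x ∈ T), φ x = ((α ⟨φ₀ x, hx⟩ : T) : Ω)

/-- strong invariance -/
def SI (F : Cfsg.FusionSystem S) (E : Cfsg.FusionSystem T) : Prop :=
  ∀ (P Q : Subgroup Ω) (hPQ : P ≤ Q) (_ : Q ≤ T) (φ : P →* Ω) (_ : φ ∈ E.Hom P) (hφQ : ∀ x : P, φ x ∈ Q) (ψ : Q →* Ω) (_ : ψ ∈ F.Hom Q), ∃ χ ∈ E.Hom ((P.subgroupOf Q).map ψ), ∀ (x : P) (hx : ψ (Subgroup.inclusion hPQ x) ∈ (P.subgroupOf Q).map ψ), χ ⟨ψ (Subgroup.inclusion hPQ x), hx⟩ = ψ ⟨φ x, hφQ x⟩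

theorem aut_of {F : Cfsg.FusionSystem S} (hT : F.StronglyClosed T) {ψ : T →* Ω} (hψ : ψ ∈ F.Hom T) :
    ∃ α ∈ F.autGroup T, ∀ x : T, ((α x : T) : Ω) = ψ x := by
  haveI : Finite T := finite_of_le hT.1
  have hinj := inj F hψ
  have hr : ψ.range = T := by
    apply Subgroup.eq_of_le_of_card_ge
    · rintro _ ⟨x, rfl⟩
      exact hT.2 T le_rfl ψ hψ x
    · exact (Nat.card_congr (MonoidHom.ofInjective hinj).toEquiv).le
  refine ⟨isoOf ψ hinj hr, ?_, fun x => rfl⟩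
  apply mem_autGroup_of
  exact hom_congr F hψ (fun x => rfl)

theorem transport {F : Cfsg.FusionSystem S} {E : Cfsg.FusionSystem T} (hT : F.StronglyClosed T) (hSI : SI F E) {α : MulAut T} (hα : α ∈ F.autGroup T) {P : Subgroup Ω}
    {φ : P →* Ω} (hφ : φ ∈ E.Hom P) {U : Subgroup Ω}
    (hU : ∀ u ∈ U, ∃ x : P, ((α ⟨x, src_le E hφ x.2⟩ : T) : Ω) = u) :
    ∃ χ ∈ E.Hom U, ∀ (x : P) (u : U), (u : Ω) = ((α ⟨x, src_le E hφ x.2⟩ : T) : Ω) → χ u = ((α ⟨φ x, val_mem E hφ x⟩ : T) : Ω) := by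
  have hPT := src_le E hφ
  have hψ : T.subtype.comp α.toMonoidHom ∈ F.Hom T := (mem_autGroup_iff F hT.1).1 hα
  obtain ⟨χ, hχ, e⟩ := hSI P T hPT le_rfl φ hφ (fun x => val_mem E hφ x) _ hψ
  have hle : U ≤ (P.subgroupOf T).map (T.subtype.comp α.toMonoidHom) := by
    intro u hu
    obtain ⟨x, ex⟩ := hU u hu
    exact ⟨⟨x, hPT x.2⟩, Subgroup.mem_subgroupOf.2 x.2, ex⟩
  refine ⟨χ.comp (Subgroup.inclusion hle), res_mem E hle hχ, fun x u hu => ?_⟩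
  have h1 := e x ⟨⟨x, hPT x.2⟩, Subgroup.mem_subgroupOf.2 x.2, rfl⟩
  have h2 : Subgroup.inclusion hle u = ⟨(T.subtype.comp α.toMonoidHom) (Subgroup.inclusion hPT x), ⟨⟨x, hPT x.2⟩, Subgroup.mem_subgroupOf.2 x.2, rfl⟩⟩ := Subtype.ext hu
  show χ (Subgroup.inclusion hle u) = _
  rw [h2]
  exact h1

/-- the subsystem of maps satisfying the Frattini condition on the part in `T` -/
def sys (F : Cfsg.FusionSystem S) (E : Cfsg.FusionSystem T) (hT : F.StronglyClosed T) (hSI : SI F E) : Cfsg.FusionSystem S :=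
  subsystem F (fun P φ => Fr F E (P ⊓ T) (φ.comp (Subgroup.inclusion inf_le_left)))
    (by
      intro P g hP hg
      have hc : conjHom T g ∈ F.Hom T := F.conj_mem hT.1 hg
      obtain ⟨α, hα, eα⟩ := aut_of hT hc
      refine ⟨α, hα, (P ⊓ T).subtype, subtype_mem E inf_le_right, fun x hx => ?_⟩
      exact (eα ⟨x, x.2.2⟩).symm)
    (by
      rintro P Q φ ψ hφ hψ ⟨α, hα, φ₀, hφ₀, e1⟩ ⟨β, hβ, ψ₀, hψ₀, e2⟩ h
      have hPS := src_le F hφ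
      have hφT : ∀ x : ↥(P ⊓ T), φ (Subgroup.inclusion inf_le_left x) ∈ Q ⊓ T := by
        intro x
        refine ⟨h _, ?_⟩
        have := e1 x (val_mem E hφ₀ x)
        rw [show (φ.comp (Subgroup.inclusion inf_le_left)) x = φ (Subgroup.inclusion inf_le_left x) from rfl] at this
        rw [this]
        exact Subtype.coe_prop _
      have hainv : α⁻¹ ∈ F.autGroup T := Subgroup.inv_mem _ hα
      have hU : ∀ u ∈ φ₀.range, ∃ w : ↥(Q ⊓ T), (((α⁻¹) ⟨w, src_le E hψ₀ w.2⟩ : T) : Ω) = u := by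
        rintro _ ⟨x, rfl⟩
        refine ⟨⟨_, hφT x⟩, ?_⟩
        have := e1 x (val_mem E hφ₀ x)
        have e3 : (⟨φ (Subgroup.inclusion inf_le_left x), (hφT x).2⟩ : T) = α ⟨φ₀ x, val_mem E hφ₀ x⟩ := Subtype.ext this
        show (((α⁻¹) ⟨φ (Subgroup.inclusion inf_le_left x), (hφT x).2⟩ : T) : Ω) = _
        rw [e3]
        simp
      obtain ⟨ξ, hξ, eξ⟩ := transport hT hSI hainv hψ₀ hU
      have hcomp : ξ.comp (φ₀.rangeRestrict) ∈ E.Hom (P ⊓ T) := by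
        refine comp_mem' E hφ₀ hξ (fun x => ⟨x, rfl⟩) (fun x => rfl)
      refine ⟨β * α, Subgroup.mul_mem _ hβ hα, _, hcomp, fun x hx => ?_⟩
      set w : ↥(Q ⊓ T) := ⟨_, hφT x⟩ with hw
      have h3 := e1 x (val_mem E hφ₀ x)
      have e3 : (⟨φ (Subgroup.inclusion inf_le_left x), (hφT x).2⟩ : T) = α ⟨φ₀ x, val_mem E hφ₀ x⟩ := Subtype.ext h3
      have h4 := eξ w ⟨φ₀ x, ⟨x, rfl⟩⟩ (by
        show φ₀ x = (((α⁻¹) ⟨φ (Subgroup.inclusion inf_le_left x), (hφT x).2⟩ : T) : Ω)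
        rw [e3]
        simp)
      have h5 : (⟨(ξ.comp φ₀.rangeRestrict) x, hx⟩ : T) = (α⁻¹) ⟨ψ₀ w, val_mem E hψ₀ w⟩ := Subtype.ext h4
      have h6 : ((β * α) ⟨(ξ.comp φ₀.rangeRestrict) x, hx⟩ : T) = β ⟨ψ₀ w, val_mem E hψ₀ w⟩ := by
        rw [h5]
        simp
      rw [h6]
      have h7 := e2 w (val_mem E hψ₀ w)
      rw [← h7]
      rfl)
    (by
      rintro P φ ψ hφ ⟨α, hα, φ₀, hφ₀, e1⟩ hψ hψx
      obtain ⟨θ, hθ, eθ⟩ := E.inv_mem hφ₀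
      have hPS := src_le F hφ
      -- elements of the target
      have hpre : ∀ v ∈ φ.range ⊓ T, ∃ x : ↥(P ⊓ T), φ (Subgroup.inclusion inf_le_left x) = v := by
        rintro v ⟨⟨x₁, rfl⟩, hv⟩
        have h1 : ψ ⟨φ x₁, ⟨x₁, rfl⟩⟩ ∈ T :=
          hT.2 (φ.range ⊓ T) inf_le_right (ψ.comp (Subgroup.inclusion inf_le_left)) (res_mem F inf_le_left hψ) ⟨_, ⟨x₁, rfl⟩, hv⟩
        rw [hψx] at h1
        exact ⟨⟨x₁, x₁.2, h1⟩, rfl⟩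
      have hU : ∀ v ∈ φ.range ⊓ T, ∃ u : φ₀.range, ((α ⟨u, src_le E hθ u.2⟩ : T) : Ω) = v := by
        intro v hv
        obtain ⟨x, rfl⟩ := hpre v hv
        refine ⟨⟨φ₀ x, ⟨x, rfl⟩⟩, ?_⟩
        exact (e1 x (val_mem E hφ₀ x)).symm
      obtain ⟨χ, hχ, eχ⟩ := transport hT hSI hα hθ hU
      refine ⟨α⁻¹, Subgroup.inv_mem _ hα, χ, hχ, fun v hv => ?_⟩
      obtain ⟨x, ex⟩ := hpre v v.2
      have h1 := e1 x (val_mem E hφ₀ x)
      have h2 := eχ ⟨φ₀ x, ⟨x, rfl⟩⟩ v (by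
        rw [← ex]
        exact h1)
      have h3 : (⟨χ v, hv⟩ : T) = α ⟨θ ⟨φ₀ x, ⟨x, rfl⟩⟩, val_mem E hθ _⟩ := Subtype.ext h2
      rw [h3]
      have h4 : (⟨θ ⟨φ₀ x, ⟨x, rfl⟩⟩, val_mem E hθ _⟩ : T) = ⟨x, x.2.2⟩ := Subtype.ext (eθ x)
      rw [h4]
      have h5 : ((α⁻¹ (α ⟨x, x.2.2⟩) : T) : Ω) = x := by simp
      rw [h5]
      show ψ ⟨v, v.2.1⟩ = x
      have h6 : (⟨v, v.2.1⟩ : φ.range) = ⟨φ (Subgroup.inclusion inf_le_left x), ⟨_, rfl⟩⟩ := Subtype.ext ex.symm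
      rw [h6]
      exact hψx _)

theorem mem_sys {F : Cfsg.FusionSystem S} {E : Cfsg.FusionSystem T} {hT : F.StronglyClosed T} {hSI : SI F E} {P : Subgroup Ω} {φ : P →* Ω} :
    φ ∈ (sys F E hT hSI).Hom P ↔ φ ∈ F.Hom P ∧ Fr F E (P ⊓ T) (φ.comp (Subgroup.inclusion inf_le_left)) := Iff.rfl

/-- the subgroup of automorphisms of `R` acting on `R ⊓ T` as maps of `E` -/
def KK (E : Cfsg.FusionSystem T) (R : Subgroup Ω) [Finite R] (hRT : ∀ κ : MulAut R, ∀ x : ↥(R ⊓ T), (κ ⟨x, x.2.1⟩ : Ω) ∈ T → True) : Subgroup (MulAut R) where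
  carrier := {κ | ∃ e ∈ E.Hom (R ⊓ T), ∀ x : ↥(R ⊓ T), e x = ((κ ⟨x, x.2.1⟩ : R) : Ω)}
  one_mem' := ⟨(R ⊓ T).subtype, subtype_mem E inf_le_right, fun x => rfl⟩
  mul_mem' := by
    rintro a b ⟨e₁, he₁, h1⟩ ⟨e₂, he₂, h2⟩
    have hv : ∀ x : ↥(R ⊓ T), e₂ x ∈ R ⊓ T := by
      intro x
      refine ⟨?_, val_mem E he₂ x⟩
      rw [h2]
      exact Subtype.coe_prop _
    refine ⟨e₁.comp (e₂.codRestrict (R ⊓ T) hv), E.comp_mem he₂ he₁ hv, fun x => ?_⟩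
    show e₁ ⟨e₂ x, hv x⟩ = ((a (b ⟨x, x.2.1⟩) : R) : Ω)
    rw [h1]
    congr 2
    exact Subtype.ext (h2 x)
  inv_mem' := by
    rintro a ⟨e, he, h1⟩
    haveI : Finite ↥(R ⊓ T) := Finite.of_injective (Subgroup.inclusion (inf_le_left : R ⊓ T ≤ R)) (Subgroup.inclusion_injective _)
    have hv : ∀ x : ↥(R ⊓ T), e x ∈ R ⊓ T := by
      intro x
      refine ⟨?_, val_mem E he x⟩
      rw [h1]
      exact Subtype.coe_prop _
    have hr : e.range = R ⊓ T := by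
      apply Subgroup.eq_of_le_of_card_ge
      · rintro _ ⟨x, rfl⟩
        exact hv x
      · exact (Nat.card_congr (MonoidHom.ofInjective (inj E he)).toEquiv).le
    obtain ⟨ω, hω, -, eω⟩ := exists_inv E he hr
    refine ⟨ω, hω, fun y => ?_⟩
    have hy : (y : Ω) ∈ e.range := by
      rw [hr]
      exact y.2
    obtain ⟨x, ex⟩ := hy
    have e2 : y = ⟨e x, hv x⟩ := Subtype.ext ex.symm
    rw [e2, eω x (hv x)]
    have e3 : (⟨e x, (hv x).1⟩ : R) = a ⟨x, x.2.1⟩ := Subtype.ext (h1 x)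
    show (x : Ω) = ((a⁻¹ ⟨e x, (hv x).1⟩ : R) : Ω)
    rw [e3]
    simp

theorem mem_KK {E : Cfsg.FusionSystem T} {R : Subgroup Ω} [Finite R] {hRT : ∀ κ : MulAut R, ∀ x : ↥(R ⊓ T), (κ ⟨x, x.2.1⟩ : Ω) ∈ T → True} {κ : MulAut R} :
    κ ∈ KK E R hRT ↔ ∃ e ∈ E.Hom (R ⊓ T), ∀ x : ↥(R ⊓ T), e x = ((κ ⟨x, x.2.1⟩ : R) : Ω) := Iff.rfl

theorem le_sys (hS : IsPGroup p S) {F : Cfsg.FusionSystem S} (hF : F.IsSaturated p) {E : Cfsg.FusionSystem T} (hT : F.StronglyClosed T) (hSI : SI F E) :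
    F ≤ sys F E hT hSI := by
  apply alperin_induction hS F hF
  intro R hR IH α hα
  have hRS : R ≤ S := hR.1
  haveI : Finite R := finite_of_le hRS
  have hm := (mem_autGroup_iff F hRS).1 hα
  by_cases hTR : T ≤ R
  · apply mem_autGroup_of
    refine ⟨hm, ?_⟩
    obtain ⟨α', hα', e⟩ := aut_of hT (res_mem F hTR hm)
    refine ⟨α', hα', (R ⊓ T).subtype, subtype_mem E inf_le_right, fun x hx => ?_⟩
    exact (e ⟨x, x.2.2⟩).symm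
  have hlt : R < R ⊔ T := by
    refine lt_of_le_of_ne le_sup_left ?_
    intro e
    apply hTR
    rw [e]
    exact le_sup_right
  have hsupS : R ⊔ T ≤ S := sup_le hRS hT.1
  haveI : Finite (R ⊔ T : Subgroup Ω) := finite_of_le hsupS
  obtain ⟨g, hgN, hgR⟩ := SetLike.exists_of_lt (normalizerIn_gt (S := R ⊔ T) (hS.to_le hsupS) hlt)
  have hgn : g ∈ Subgroup.normalizer (R : Set Ω) := hgN.2
  obtain ⟨a, ha, t, ht, e⟩ := Cfsg.Agent.Lib.FusGroup.mem_sup_of_le_normalizer (hRS.trans (sc_normalizer F hT)) hgN.1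
  have htn : t ∈ Subgroup.normalizer (R : Set Ω) := by
    have : t = a⁻¹ * g := by rw [← e]; group
    rw [this]
    exact Subgroup.mul_mem _ (Subgroup.inv_mem _ (Subgroup.le_normalizer ha)) hgn
  have htR : t ∉ R := by
    intro h
    apply hgR
    rw [← e]
    exact R.mul_mem ha h
  have htS : t ∈ S := hT.1 ht
  let K : Subgroup (MulAut R) := KK E R (fun _ _ _ => trivial)
  have hKconj : ∀ γ ∈ F.autGroup R, ∀ κ ∈ K, γ * κ * γ⁻¹ ∈ K := by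
    rintro γ hγ κ ⟨e₀, he₀, h1⟩
    have hres : (R.subtype.comp γ.toMonoidHom).comp (Subgroup.inclusion (inf_le_left : R ⊓ T ≤ R)) ∈ F.Hom (R ⊓ T) :=
      res_mem F inf_le_left ((mem_autGroup_iff F hRS).1 hγ)
    have hv : ∀ x : ↥(R ⊓ T), e₀ x ∈ R ⊓ T := by
      intro x
      refine ⟨?_, val_mem E he₀ x⟩
      rw [h1]
      exact Subtype.coe_prop _
    have hle : ∀ x : ↥(R ⊓ T), ((γ⁻¹ ⟨x, x.2.1⟩ : R) : Ω) ∈ T :=
      fun x => sc_aut F hT hRS (Subgroup.inv_mem _ hγ) ⟨x, x.2.1⟩ x.2.2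
    obtain ⟨χ, hχ, eχ⟩ := hSI (R ⊓ T) (R ⊓ T) le_rfl inf_le_right e₀ he₀ hv _ hres
    have hD : R ⊓ T ≤ ((R ⊓ T).subgroupOf (R ⊓ T)).map ((R.subtype.comp γ.toMonoidHom).comp (Subgroup.inclusion (inf_le_left : R ⊓ T ≤ R))) := by
      intro y hy
      refine ⟨⟨((γ⁻¹ ⟨y, hy.1⟩ : R) : Ω), Subtype.coe_prop _, hle ⟨y, hy⟩⟩, Subgroup.mem_subgroupOf.2 ⟨Subtype.coe_prop _, hle ⟨y, hy⟩⟩, ?_⟩
      show ((γ (γ⁻¹ ⟨y, hy.1⟩) : R) : Ω) = y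
      simp
    refine ⟨χ.comp (Subgroup.inclusion hD), res_mem E hD hχ, fun y => ?_⟩
    set x : ↥(R ⊓ T) := ⟨((γ⁻¹ ⟨y, y.2.1⟩ : R) : Ω), Subtype.coe_prop _, hle y⟩ with hx
    have h2 := eχ x ⟨x, Subgroup.mem_subgroupOf.2 x.2, rfl⟩
    have h3 : Subgroup.inclusion hD y = ⟨((R.subtype.comp γ.toMonoidHom).comp (Subgroup.inclusion (inf_le_left : R ⊓ T ≤ R))) (Subgroup.inclusion (le_refl (R ⊓ T)) x), ⟨x, Subgroup.mem_subgroupOf.2 x.2, rfl⟩⟩ := by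
      apply Subtype.ext
      show (y : Ω) = ((γ (γ⁻¹ ⟨y, y.2.1⟩) : R) : Ω)
      simp
    show χ (Subgroup.inclusion hD y) = _
    rw [h3, h2]
    show ((γ ⟨e₀ x, (hv x).1⟩ : R) : Ω) = ((γ (κ (γ⁻¹ ⟨y, y.2.1⟩)) : R) : Ω)
    have h4 : (⟨e₀ x, (hv x).1⟩ : R) = κ (γ⁻¹ ⟨y, y.2.1⟩) := Subtype.ext (h1 x)
    rw [h4]
  haveI hK₂ : (K.subgroupOf (F.autGroup R)).Normal := ⟨fun n hn g => hKconj g g.2 n hn⟩
  have hFA := fullyAutomized_of_fullyNormalized hS F hF hR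
  have hRec := receptive_of_fullyNormalized hS F hF hR
  obtain ⟨Sg₀, hSg₀⟩ := hFA.2
  obtain ⟨P, hP⟩ := sylow_inf_normal Sg₀ (K.subgroupOf (F.autGroup R))
  have htop := Sylow.normalizer_sup_eq_top P
  have hmem : (⟨α, hα⟩ : F.autGroup R) ∈ Subgroup.normalizer (((P : Subgroup _).map (K.subgroupOf (F.autGroup R)).subtype : Subgroup _) : Set (F.autGroup R)) ⊔ K.subgroupOf (F.autGroup R) := by
    rw [htop]
    trivial
  obtain ⟨n, hn, k, hk, hnk⟩ := Subgroup.mem_sup_of_normal_right.1 hmem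
  have hctS : cAut R ⟨t, htn⟩ ∈ autInducedBy S R := mem_autInducedBy'.2 ⟨t, htS, fun x => rfl⟩
  have hctA : cAut R ⟨t, htn⟩ ∈ F.autGroup R := autInduced_le_autGroup F hRS hctS
  have hctK : (⟨cAut R ⟨t, htn⟩, hctA⟩ : F.autGroup R) ∈ K.subgroupOf (F.autGroup R) := by
    refine ⟨conjHom (R ⊓ T) t, E.conj_mem inf_le_right ht, fun x => rfl⟩
  have hctP : (⟨⟨cAut R ⟨t, htn⟩, hctA⟩, hctK⟩ : K.subgroupOf (F.autGroup R)) ∈ (P : Subgroup _) := by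
    rw [hP]
    show (⟨cAut R ⟨t, htn⟩, hctA⟩ : F.autGroup R) ∈ (Sg₀ : Subgroup _)
    rw [hSg₀]
    exact hctS
  have hconjn := (Subgroup.mem_normalizer_iff.1 hn ⟨cAut R ⟨t, htn⟩, hctA⟩).1 ⟨_, hctP, rfl⟩
  obtain ⟨q, hq, hqe⟩ := hconjn
  have hqS : ((n * ⟨cAut R ⟨t, htn⟩, hctA⟩ * n⁻¹ : F.autGroup R) : MulAut R) ∈ autInducedBy S R := by
    have h1 : ((q : K.subgroupOf (F.autGroup R)) : F.autGroup R) ∈ (Sg₀ : Subgroup _) := by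
      rw [hP] at hq
      exact hq
    rw [hSg₀] at h1
    have h2 : ((q : K.subgroupOf (F.autGroup R)) : F.autGroup R) = n * ⟨cAut R ⟨t, htn⟩, hctA⟩ * n⁻¹ := hqe
    rw [← h2]
    exact h1
  obtain ⟨h, hh, hhe⟩ := mem_autInducedBy'.1 hqS
  have htext : t ∈ extender S R (R.subtype.comp (n : MulAut R).toMonoidHom) :=
    mem_extender_of_aut (t := cAut R ⟨t, htn⟩) rfl htS hh (fun x => rfl) hhe
  have hltext : R < extender S R (R.subtype.comp (n : MulAut R).toMonoidHom) := by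
    refine lt_of_le_of_ne (le_extender hRS _ (fun x => hRS ((n : MulAut R) x).2)) ?_
    intro e4
    exact htR (e4.symm.le htext)
  have hnext : (n : MulAut R) ∈ extGen F R := mem_extGen_of_gt F hRec n.2 hltext
  have hextE : extGen F R ≤ (sys F E hT hSI).autGroup R := by
    rw [extGen, Subgroup.closure_le]
    rintro b ⟨Q, hPQ, φ, hφ, hb⟩
    have hQS : Q ≤ S := src_le F hφ
    apply mem_autGroup_of
    exact res_mem' (sys F E hT hSI) hPQ.le (IH Q hPQ hQS hφ) (fun x => (hb x).symm)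
  have hkE : (k : MulAut R) ∈ (sys F E hT hSI).autGroup R := by
    apply mem_autGroup_of
    obtain ⟨e₀, he₀, h1⟩ := hk
    refine ⟨(mem_autGroup_iff F hRS).1 k.2, 1, Subgroup.one_mem _, e₀, he₀, fun x hx => ?_⟩
    exact (h1 x).symm
  have hαe : α = (n : MulAut R) * (k : MulAut R) := by
    have := congrArg Subtype.val hnk
    exact this.symm
  rw [hαe]
  exact Subgroup.mul_mem _ (hextE hnext) hkE

end

/-- Let F be a saturated fusion system over a finite p-group S and E a subsystem of F over a subgroup T that is strongly closed in F. Then E is invariant in F (invariance under Aut_F(T) plus the Frattini condition) if and only if the strong invariance condition holds: for P ≤ Q ≤ T, every map φ of E from P into Q and every map ψ of F with source Q, the transported map ψ φ ψ⁻¹ on ψ(P) is a map of E. -/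
theorem result {Ω : Type*} [Group Ω] {S : Subgroup Ω} [Finite S] (p : ℕ) [Fact p.Prime] (hS : IsPGroup p S) (F : Cfsg.FusionSystem S) (hF : F.IsSaturated p) {T : Subgroup Ω} (E : Cfsg.FusionSystem T) (hE : E.IsSubsystemOf F) (hT : F.StronglyClosed T) : E.IsInvariantIn F ↔ ∀ (P Q : Subgroup Ω) (hPQ : P ≤ Q) (_ : Q ≤ T) (φ : P →* Ω) (_ : φ ∈ E.Hom P) (hφQ : ∀ x : P, φ x ∈ Q) (ψ : Q →* Ω) (_ : ψ ∈ F.Hom Q), ∃ χ ∈ E.Hom ((P.subgroupOf Q).map ψ), ∀ (x : P) (hx : ψ (Subgroup.inclusion hPQ x) ∈ (P.subgroupOf Q).map ψ), χ ⟨ψ (Subgroup.inclusion hPQ x), hx⟩ = ψ ⟨φ x, hφQ x⟩ := by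
  constructor
  · rintro ⟨hsub, hT', hI, hFr⟩ P Q hPQ hQT φ hφ hφQ ψ hψ
    obtain ⟨α, hα, ψ₀, hψ₀, e1⟩ := hFr Q hQT ψ hψ
    obtain ⟨θ, hθ, eθ⟩ := exists_inv_img E hψ₀ hPQ
    have hθv : ∀ u : ↥(img ψ₀ P), θ u ∈ P := by
      rintro ⟨u, hu⟩
      obtain ⟨x, hx, rfl⟩ := mem_img.1 hu
      rw [eθ x hx]
      exact hx
    have hφ₂ : φ.comp (θ.codRestrict P hθv) ∈ E.Hom (img ψ₀ P) := E.comp_mem hθ hφ hθv
    have hφ₃v : ∀ u : ↥(img ψ₀ P), (φ.comp (θ.codRestrict P hθv)) u ∈ Q := fun u => hφQ _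
    have hφ₁ := E.comp_mem hφ₂ hψ₀ hφ₃v
    have hUT : img ψ₀ P ≤ T := src_le E hθ
    obtain ⟨χ, hχ, eχ⟩ := hI _ hUT _ hφ₁ α hα
    have hle : (P.subgroupOf Q).map ψ ≤ ((img ψ₀ P).subgroupOf T).map (T.subtype.comp α.toMonoidHom) := by
      rintro _ ⟨x, hx, rfl⟩
      have hxT := val_mem E hψ₀ x
      refine ⟨⟨ψ₀ x, hxT⟩, Subgroup.mem_subgroupOf.2 (mem_img.2 ⟨x, hx, rfl⟩), ?_⟩
      exact (e1 x hxT).symm
    refine ⟨χ.comp (Subgroup.inclusion hle), res_mem E hle hχ, fun x hx => ?_⟩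
    have hxT := val_mem E hψ₀ (Subgroup.inclusion hPQ x)
    have hu : ψ₀ (Subgroup.inclusion hPQ x) ∈ img ψ₀ P := mem_img.2 ⟨_, x.2, rfl⟩
    have e2 := e1 (Subgroup.inclusion hPQ x) hxT
    have h3 : (⟨ψ₀ (Subgroup.inclusion hPQ x), hu⟩ : ↥(img ψ₀ P)) = ⟨ψ₀ (Subgroup.inclusion hPQ x), hu⟩ := rfl
    have hval : ((ψ₀.comp ((φ.comp (θ.codRestrict P hθv)).codRestrict Q hφ₃v)) ⟨ψ₀ (Subgroup.inclusion hPQ x), hu⟩) ∈ T := val_mem E hφ₁ _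
    have hαu : ((α ⟨(⟨ψ₀ (Subgroup.inclusion hPQ x), hu⟩ : ↥(img ψ₀ P)), hUT hu⟩ : T) : Ω) ∈ ((img ψ₀ P).subgroupOf T).map (T.subtype.comp α.toMonoidHom) :=
      ⟨⟨ψ₀ (Subgroup.inclusion hPQ x), hxT⟩, Subgroup.mem_subgroupOf.2 hu, rfl⟩
    have h4 := eχ ⟨ψ₀ (Subgroup.inclusion hPQ x), hu⟩ hval hαu
    have h5 : Subgroup.inclusion hle ⟨ψ (Subgroup.inclusion hPQ x), hx⟩ = ⟨((α ⟨(⟨ψ₀ (Subgroup.inclusion hPQ x), hu⟩ : ↥(img ψ₀ P)), hUT hu⟩ : T) : Ω), hαu⟩ := Subtype.ext e2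
    show χ (Subgroup.inclusion hle ⟨ψ (Subgroup.inclusion hPQ x), hx⟩) = _
    rw [h5, h4]
    have h6 : (⟨(ψ₀.comp ((φ.comp (θ.codRestrict P hθv)).codRestrict Q hφ₃v)) ⟨ψ₀ (Subgroup.inclusion hPQ x), hu⟩, hval⟩ : T) = ⟨ψ₀ ⟨φ x, hφQ x⟩, val_mem E hψ₀ _⟩ := by
      apply Subtype.ext
      show ψ₀ ⟨φ (⟨θ ⟨ψ₀ (Subgroup.inclusion hPQ x), hu⟩, hθv _⟩ : P), hφQ _⟩ = ψ₀ ⟨φ x, hφQ x⟩
      have h7 : (⟨θ ⟨ψ₀ (Subgroup.inclusion hPQ x), hu⟩, hθv _⟩ : P) = x := Subtype.ext (eθ _ x.2)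
      rw [h7]
    rw [h6]
    exact (e1 ⟨φ x, hφQ x⟩ (val_mem E hψ₀ _)).symm
  · intro hSI
    refine ⟨hE, hT, ?_, ?_⟩
    · intro P hPT φ hφ α hα
      have hψ : T.subtype.comp α.toMonoidHom ∈ F.Hom T := (mem_autGroup_iff F hT.1).1 hα
      obtain ⟨χ, hχ, e⟩ := hSI P T hPT le_rfl φ hφ (fun x => val_mem E hφ x) _ hψ
      refine ⟨χ, hχ, fun x hφx hαx => ?_⟩
      exact e x hαx
    · intro P hPT φ hφ
      have h1 := (le_sys hS hF hT hSI) P hφ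
      obtain ⟨α, hα, φ₀, hφ₀, e⟩ := h1.2
      have hle : P ≤ P ⊓ T := le_inf le_rfl hPT
      refine ⟨α, hα, φ₀.comp (Subgroup.inclusion hle), res_mem E hle hφ₀, fun x hx => ?_⟩
      exact e ⟨x, hle x.2⟩ hx

end Cfsg.Agent.S5119
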