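import Cfsg.Statements.S5120
import Mathlib
import Cfsg.Agent.Lib.FusFrat
import Cfsg.Agent.Lib.FusGT3

set_option autoImplicit false
open Cfsg

namespace Cfsg.Agent.S5120


open Cfsg.FusionSystem Cfsg.Agent.Lib.FusBasic Cfsg.Agent.Lib.FusAut Cfsg.Agent.Lib.FusSat Cfsg.Agent.Lib.FusAlp Cfsg.Agent.Lib.FusNorm Cfsg.Agent.Lib.FusHyp Cfsg.Agent.Lib.FusLift Cfsg.Agent.Lib.FusFrat

section
variable {Ω : Type*} [Group Ω] {S : Subgroup Ω} [Finite S] {p : ℕ} [Fact p.Prime] {T : Subgroup Ω}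

/-- the map `φ` stays in `E` after transport by any element of `Aut_F(S)`. -/
def TrP (A : Subgroup (MulAut T)) (E : Cfsg.FusionSystem T) (P : Subgroup Ω) (φ : P →* Ω) : Prop :=
  ∀ β ∈ A, ∃ χ ∈ E.Hom (img (T.subtype.comp β.toMonoidHom) P),
    ∀ (x : P) (hxS : (x : Ω) ∈ T) (hv : φ x ∈ T) (u : img (T.subtype.comp β.toMonoidHom) P),
      (u : Ω) = ((β ⟨x, hxS⟩ : T) : Ω) → χ u = ((β ⟨φ x, hv⟩ : T) : Ω)

/-- the largest `Aut_F(S)`-invariant subsystem of `E` -/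
def inv (A : Subgroup (MulAut T)) (E : Cfsg.FusionSystem T) : Cfsg.FusionSystem T :=
  subsystem E (TrP A E)
    (by
      intro P g hP hg β hβ
      have hle : img (T.subtype.comp β.toMonoidHom) P ≤ T := by
        rintro _ ⟨x, -, rfl⟩
        exact Subtype.coe_prop _
      refine ⟨conjHom _ ((β ⟨g, hg⟩ : T) : Ω), E.conj_mem hle (Subtype.coe_prop _), fun x hxS hv u hu => ?_⟩
      show ((β ⟨g, hg⟩ : T) : Ω) * (u : Ω) * ((β ⟨g, hg⟩ : T) : Ω)⁻¹ = _
      rw [hu]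
      have e : (⟨(conjHom P g) x, hv⟩ : T) = ⟨g, hg⟩ * ⟨x, hxS⟩ * ⟨g, hg⟩⁻¹ := rfl
      rw [e, map_mul, map_mul, map_inv]
      rfl)
    (by
      rintro P Q φ ψ hφ hψ hφT hψT h β hβ
      obtain ⟨χ₁, hχ₁, e1⟩ := hφT β hβ
      obtain ⟨χ₂, hχ₂, e2⟩ := hψT β hβ
      have hPS := src_le E hφ
      have hQS := src_le E hψ
      have hpre : ∀ u : img (T.subtype.comp β.toMonoidHom) P, ∃ x : P, (u : Ω) = ((β ⟨x, hPS x.2⟩ : T) : Ω) := by
        rintro ⟨_, x, hx, rfl⟩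
        exact ⟨⟨x, hx⟩, rfl⟩
      have hv : ∀ u : img (T.subtype.comp β.toMonoidHom) P, χ₁ u ∈ img (T.subtype.comp β.toMonoidHom) Q := by
        intro u
        obtain ⟨x, hx⟩ := hpre u
        rw [e1 x (hPS x.2) (val_mem E hφ x) u hx]
        exact ⟨⟨φ x, val_mem E hφ x⟩, Subgroup.mem_subgroupOf.2 (h x), rfl⟩
      refine ⟨χ₂.comp (χ₁.codRestrict _ hv), E.comp_mem hχ₁ hχ₂ hv, fun x hxS hw u hu => ?_⟩
      have h3 := e1 x hxS (val_mem E hφ x) u hu
      have h4 := e2 ⟨φ x, h x⟩ (val_mem E hφ x) hw ⟨χ₁ u, hv u⟩ h3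
      exact h4)
    (by
      rintro P φ ψ hφ hφT hψ hψx β hβ
      obtain ⟨χ₁, hχ₁, e1⟩ := hφT β hβ
      obtain ⟨ω, hω, eω⟩ := E.inv_mem hχ₁
      have hPS := src_le E hφ
      have hle : img (T.subtype.comp β.toMonoidHom) φ.range ≤ χ₁.range := by
        rintro _ ⟨s, hs, rfl⟩
        obtain ⟨x, ex⟩ := Subgroup.mem_subgroupOf.1 hs
        refine ⟨⟨((β ⟨x, hPS x.2⟩ : T) : Ω), ⟨x, hPS x.2⟩, Subgroup.mem_subgroupOf.2 x.2, rfl⟩, ?_⟩
        rw [e1 x (hPS x.2) (val_mem E hφ x) _ rfl]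
        have e2 : (⟨φ x, val_mem E hφ x⟩ : T) = s := Subtype.ext ex
        rw [e2]
        rfl
      refine ⟨ω.comp (Subgroup.inclusion hle), res_mem E hle hω, fun x hxS hv u hu => ?_⟩
      obtain ⟨x₀, ex₀⟩ := x.2
      have hxu : (⟨((β ⟨x₀, hPS x₀.2⟩ : T) : Ω), ⟨x₀, hPS x₀.2⟩, Subgroup.mem_subgroupOf.2 x₀.2, rfl⟩ : img (T.subtype.comp β.toMonoidHom) P) = ⟨((β ⟨x₀, hPS x₀.2⟩ : T) : Ω), ⟨x₀, hPS x₀.2⟩, Subgroup.mem_subgroupOf.2 x₀.2, rfl⟩ := rfl
      set u₀ : img (T.subtype.comp β.toMonoidHom) P := ⟨((β ⟨x₀, hPS x₀.2⟩ : T) : Ω), ⟨x₀, hPS x₀.2⟩, Subgroup.mem_subgroupOf.2 x₀.2, rfl⟩ with hu₀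
      have h3 := e1 x₀ (hPS x₀.2) (val_mem E hφ x₀) u₀ rfl
      have h4 : Subgroup.inclusion hle u = ⟨χ₁ u₀, ⟨u₀, rfl⟩⟩ := by
        apply Subtype.ext
        show (u : Ω) = χ₁ u₀
        rw [hu, h3]
        congr 2
        exact Subtype.ext ex₀.symm
      show ω (Subgroup.inclusion hle u) = _
      rw [h4, eω u₀]
      have h5 : x = ⟨φ x₀, ⟨x₀, rfl⟩⟩ := Subtype.ext ex₀.symm
      have h6 : ψ x = x₀ := by
        rw [h5]
        exact hψx x₀
      have h7 : (⟨ψ x, hv⟩ : T) = ⟨x₀, hPS x₀.2⟩ := Subtype.ext h6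
      rw [h7])


theorem sc_T (hS : IsPGroup p S) {F : Cfsg.FusionSystem S} (hF : F.IsSaturated p) (hTS : T ≤ S) (hN : S ≤ Subgroup.normalizer (T : Set Ω))
    (hT : F.hyperfocalSubgroup p ≤ T) : F.StronglyClosed T := by
  let E₁ : Cfsg.FusionSystem S := subsystem F (fun P φ => ∀ x : P, (x : Ω) ∈ T ↔ φ x ∈ T)
    (by
      intro P g hP hg x
      exact Subgroup.mem_normalizer_iff.1 (hN hg) x)
    (by
      intro P Q φ ψ _ _ h1 h2 h x
      exact (h1 x).trans (h2 ⟨φ x, h x⟩))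
    (by
      rintro P φ ψ _ h1 _ hx ⟨_, x, rfl⟩
      have e := hx x
      show φ x ∈ T ↔ ψ ⟨φ x, ⟨x, rfl⟩⟩ ∈ T
      rw [e]
      exact (h1 x).symm)
  have hle : F ≤ E₁ := by
    apply le_of_autGroup_le hS F hF E₁
    intro R hR a ha
    have hRS : R ≤ S := hR.1
    have hFA := fullyAutomized_of_fullyNormalized hS F hF hR
    obtain ⟨β, hβ, c, hc, e⟩ := frattini_aut F hFA ⟨a, ha⟩
    have h1 : ((β : F.autGroup R) : MulAut R) ∈ E₁.autGroup R := by
      apply mem_autGroup_of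
      refine ⟨(mem_autGroup_iff F hRS).1 β.2, fun x => ?_⟩
      have h2 := hT (mem_hyper F p hRS β hβ x)
      constructor
      · intro hx
        have e2 : (((β : MulAut R) x : R) : Ω) = (x : Ω) * ((x : Ω)⁻¹ * (((β : MulAut R) x : R) : Ω)) := by group
        show (((β : MulAut R) x : R) : Ω) ∈ T
        rw [e2]
        exact T.mul_mem hx h2
      · intro hx
        have hx' : (((β : MulAut R) x : R) : Ω) ∈ T := hx
        have e2 : (x : Ω) = ((β : MulAut R) x : R) * ((x : Ω)⁻¹ * (((β : MulAut R) x : R) : Ω))⁻¹ := by group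
        rw [e2]
        exact T.mul_mem hx' (T.inv_mem h2)
    have h2 : c ∈ E₁.autGroup R := autInduced_le_autGroup E₁ hRS hc
    have e' : a = ((β : F.autGroup R) : MulAut R) * c := e
    rw [e']
    exact Subgroup.mul_mem _ h1 h2
  refine ⟨hTS, fun R hR φ hφ x => ?_⟩
  exact ((hle R hφ).2 x).1 (hR x.2)

theorem res_coprime {F : Cfsg.FusionSystem S} {E : Cfsg.FusionSystem T} (hTS : T ≤ S) (hEi : E.HasPPowerIndexIn F p) {R : Subgroup Ω} (hRT : R ≤ T)
    {γ : MulAut R} (hγ : γ ∈ F.autGroup R) (hco : Nat.Coprime (orderOf γ) p) : γ ∈ E.autGroup R := by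
  have h3 : (⟨γ, hγ⟩ : ↥(F.autGroup R)) ∈ pResidual p (F.autGroup R) := by
    apply Subgroup.subset_closure
    show Nat.Coprime (orderOf (⟨γ, hγ⟩ : ↥(F.autGroup R))) p
    rw [Subgroup.orderOf_mk]
    exact hco
  exact hEi.2.2 R hRT ⟨_, h3, rfl⟩

theorem le_inv (hS : IsPGroup p S) {F : Cfsg.FusionSystem S} (hTS : T ≤ S) {E : Cfsg.FusionSystem T} (hEs : E.IsSaturated p) (hEi : E.HasPPowerIndexIn F p) :
    E ≤ inv (F.autGroup T) E := by
  haveI : Finite T := finite_of_le hTS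
  have hT' : IsPGroup p T := hS.to_le hTS
  apply le_of_autGroup_le hT' E hEs
  intro R hR a ha
  have hRT : R ≤ T := hR.1
  have hRS : R ≤ S := hRT.trans hTS
  haveI : Finite R := finite_of_le hRT
  have hFA := fullyAutomized_of_fullyNormalized hT' E hEs hR
  obtain ⟨β, hβ, c, hc, e⟩ := frattini_aut E hFA ⟨a, ha⟩
  have h1 : ((β : E.autGroup R) : MulAut R) ∈ (inv (F.autGroup T) E).autGroup R := by
    refine Subgroup.closure_induction (p := fun (β : ↥(E.autGroup R)) _ => ((β : ↥(E.autGroup R)) : MulAut R) ∈ (inv (F.autGroup T) E).autGroup R) ?_ ?_ ?_ ?_ hβ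
    · intro γ hγ
      apply mem_autGroup_of
      refine ⟨(mem_autGroup_iff E hRT).1 γ.2, fun α hα => ?_⟩
      have hb : (T.subtype.comp α.toMonoidHom).comp (Subgroup.inclusion hRT) ∈ F.Hom R := res_mem F hRT ((mem_autGroup_iff F hTS).1 hα)
      have hr : ((T.subtype.comp α.toMonoidHom).comp (Subgroup.inclusion hRT)).range = img (T.subtype.comp α.toMonoidHom) R := by
        ext y
        constructor
        · rintro ⟨x, rfl⟩
          exact ⟨⟨x, hRT x.2⟩, Subgroup.mem_subgroupOf.2 x.2, rfl⟩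
        · rintro ⟨x, hx, rfl⟩
          exact ⟨⟨x, Subgroup.mem_subgroupOf.1 hx⟩, rfl⟩
      have hR'T : img (T.subtype.comp α.toMonoidHom) R ≤ T := by
        rintro _ ⟨x, -, rfl⟩
        exact Subtype.coe_prop _
      set e := isoOf _ (inj F hb) hr with he
      have hγF : (γ : MulAut R) ∈ F.autGroup R := by
        apply mem_autGroup_of
        exact hEi.1 R ((mem_autGroup_iff E hRT).1 γ.2)
      have ha' : MulAut.congr e (γ : MulAut R) ∈ F.autGroup (img (T.subtype.comp α.toMonoidHom) R) := congr_mem_autGroup F hb hr hγF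
      have hco : Nat.Coprime (orderOf (MulAut.congr e (γ : MulAut R))) p := by
        rw [MulEquiv.orderOf_eq, Subgroup.orderOf_coe]
        exact hγ
      have hmem := res_coprime hTS hEi hR'T ha' hco
      refine ⟨_, (mem_autGroup_iff E hR'T).1 hmem, fun x hxS hv u hu => ?_⟩
      have e1 : u = e x := Subtype.ext hu
      show ((MulAut.congr e (γ : MulAut R) u : img (T.subtype.comp α.toMonoidHom) R) : Ω) = _
      rw [e1]
      have e2 : MulAut.congr e (γ : MulAut R) (e x) = e ((γ : MulAut R) x) := by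
        show e ((γ : MulAut R) (e.symm (e x))) = _
        rw [e.symm_apply_apply]
      rw [e2]
      rfl
    · exact Subgroup.one_mem _
    · intro x y _ _ hx hy
      exact Subgroup.mul_mem _ hx hy
    · intro x _ hx
      exact Subgroup.inv_mem _ hx
  have h2 : c ∈ (inv (F.autGroup T) E).autGroup R := autInduced_le_autGroup _ hRT hc
  have e' : a = ((β : E.autGroup R) : MulAut R) * c := e
  rw [e']
  exact Subgroup.mul_mem _ h1 h2

theorem tr_of {F : Cfsg.FusionSystem S} (hTS : T ≤ S) {E : Cfsg.FusionSystem T} (hle : E ≤ inv (F.autGroup T) E) : Tr F E := by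
  intro α hα P φ hφ U hU
  have hPT := src_le E hφ
  obtain ⟨χ, hχ, e⟩ := (hle P hφ).2 α hα
  have hle2 : U ≤ img (T.subtype.comp α.toMonoidHom) P := by
    intro u hu
    obtain ⟨x, ex⟩ := hU u hu
    exact ⟨⟨x, hPT x.2⟩, Subgroup.mem_subgroupOf.2 x.2, ex⟩
  refine ⟨χ.comp (Subgroup.inclusion hle2), res_mem E hle2 hχ, fun x u hu => ?_⟩
  exact e x (hPT x.2) (val_mem E hφ x) (Subgroup.inclusion hle2 u) hu

theorem le_sys' (hS : IsPGroup p S) {F : Cfsg.FusionSystem S} (hF : F.IsSaturated p) (hTS : T ≤ S) {E : Cfsg.FusionSystem T} (hEi : E.HasPPowerIndexIn F p)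
    (hTc : F.StronglyClosed T) (hTr : Tr F E) : F ≤ sys F E hTc hTr := by
  apply le_of_autGroup_le hS F hF
  intro R hR a ha
  have hRS : R ≤ S := hR.1
  haveI : Finite R := finite_of_le hRS
  haveI : Finite ↥(R ⊓ T) := finite_of_le (inf_le_left.trans hRS)
  have hFA := fullyAutomized_of_fullyNormalized hS F hF hR
  obtain ⟨β, hβ, c, hc, e⟩ := frattini_aut F hFA ⟨a, ha⟩
  have h1 : ((β : F.autGroup R) : MulAut R) ∈ (sys F E hTc hTr).autGroup R := by
    refine Subgroup.closure_induction (p := fun (β : ↥(F.autGroup R)) _ => ((β : ↥(F.autGroup R)) : MulAut R) ∈ (sys F E hTc hTr).autGroup R) ?_ ?_ ?_ ?_ hβ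
    · intro γ hγ
      apply mem_autGroup_of
      have hm := (mem_autGroup_iff F hRS).1 γ.2
      refine ⟨hm, ?_⟩
      have hψ : (R.subtype.comp (γ : MulAut R).toMonoidHom).comp (Subgroup.inclusion (inf_le_left : R ⊓ T ≤ R)) ∈ F.Hom (R ⊓ T) := res_mem F inf_le_left hm
      have hinj := inj F hψ
      have hr : ((R.subtype.comp (γ : MulAut R).toMonoidHom).comp (Subgroup.inclusion (inf_le_left : R ⊓ T ≤ R))).range = R ⊓ T := by
        apply Subgroup.eq_of_le_of_card_ge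
        · rintro _ ⟨x, rfl⟩
          exact ⟨Subtype.coe_prop _, hTc.2 (R ⊓ T) inf_le_right _ hψ x⟩
        · exact (Nat.card_congr (MonoidHom.ofInjective hinj).toEquiv).le
      set r : MulAut ↥(R ⊓ T) := isoOf _ hinj hr with hrd
      have hrv : ∀ x : ↥(R ⊓ T), ((r x : ↥(R ⊓ T)) : Ω) = (((γ : MulAut R) ⟨x, x.2.1⟩ : R) : Ω) := fun x => rfl
      have hrF : r ∈ F.autGroup (R ⊓ T) := by
        apply mem_autGroup_of
        exact hom_congr F hψ (fun x => rfl)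
      have hpow : ∀ (n : ℕ) (x : ↥(R ⊓ T)), (((r ^ n) x : ↥(R ⊓ T)) : Ω) = ((((γ : MulAut R) ^ n) ⟨x, x.2.1⟩ : R) : Ω) := by
        intro n
        induction n with
        | zero => intro x; rfl
        | succ n ih =>
          intro x
          rw [pow_succ, pow_succ, MulAut.mul_apply, MulAut.mul_apply, ih]
          have h9 : (⟨((r x : ↥(R ⊓ T)) : Ω), (r x).2.1⟩ : R) = (γ : MulAut R) ⟨x, x.2.1⟩ := Subtype.ext (hrv x)
          rw [h9]
      have hr1 : r ^ orderOf (γ : MulAut R) = 1 := by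
        apply MulEquiv.ext
        intro x
        apply Subtype.ext
        rw [hpow, pow_orderOf_eq_one]
        rfl
      have hco : Nat.Coprime (orderOf r) p := by
        refine Nat.Coprime.coprime_dvd_left (orderOf_dvd_of_pow_eq_one hr1) ?_
        rw [Subgroup.orderOf_coe]
        exact hγ
      have hrE := res_coprime hTS hEi (inf_le_right : R ⊓ T ≤ T) hrF hco
      refine ⟨1, Subgroup.one_mem _, _, (mem_autGroup_iff E inf_le_right).1 hrE, fun x hx => ?_⟩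
      rfl
    · exact Subgroup.one_mem _
    · intro x y _ _ hx hy
      exact Subgroup.mul_mem _ hx hy
    · intro x _ hx
      exact Subgroup.inv_mem _ hx
  have h2 : c ∈ (sys F E hTc hTr).autGroup R := autInduced_le_autGroup _ hRS hc
  have e' : a = ((β : F.autGroup R) : MulAut R) * c := e
  rw [e']
  exact Subgroup.mul_mem _ h1 h2

/-- the extension predicate -/
def Ext (F : Cfsg.FusionSystem S) (a : MulAut T) : Prop :=
  ∃ β ∈ F.autGroup (T ⊔ Cfsg.FusionSystem.centralizerIn S T),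
      (∀ x : T, ((β (Subgroup.inclusion le_sup_left x) : ↥(T ⊔ Cfsg.FusionSystem.centralizerIn S T)) : Ω) = ((a x : T) : Ω)) ∧
      ∀ c : ↥(T ⊔ Cfsg.FusionSystem.centralizerIn S T), (c : Ω) ∈ Cfsg.FusionSystem.centralizerIn S T →
        (c : Ω)⁻¹ * ((β c : ↥(T ⊔ Cfsg.FusionSystem.centralizerIn S T)) : Ω) ∈ T ⊓ Subgroup.centralizer (T : Set Ω)

theorem aut_center (a : MulAut T) {z : Ω} (hz : z ∈ T ⊓ Subgroup.centralizer (T : Set Ω)) :
    ((a ⟨z, hz.1⟩ : T) : Ω) ∈ T ⊓ Subgroup.centralizer (T : Set Ω) := by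
  refine ⟨Subtype.coe_prop _, Subgroup.mem_centralizer_iff.2 fun t ht => ?_⟩
  have h1 : (a⁻¹ ⟨t, ht⟩ : T) * ⟨z, hz.1⟩ = ⟨z, hz.1⟩ * (a⁻¹ ⟨t, ht⟩ : T) :=
    Subtype.ext ((Subgroup.mem_centralizer_iff.1 hz.2) _ (Subtype.coe_prop _))
  have h2 := congrArg a h1
  rw [map_mul, map_mul] at h2
  have e : a (a⁻¹ ⟨t, ht⟩) = ⟨t, ht⟩ := by simp
  rw [e] at h2
  exact congrArg Subtype.val h2

theorem ext_mul {F : Cfsg.FusionSystem S} {a b : MulAut T} (ha : Ext F a) (hb : Ext F b) : Ext F (a * b) := by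
  obtain ⟨β₁, hβ₁, e₁, c₁⟩ := ha
  obtain ⟨β₂, hβ₂, e₂, c₂⟩ := hb
  refine ⟨β₁ * β₂, Subgroup.mul_mem _ hβ₁ hβ₂, fun x => ?_, fun c hc => ?_⟩
  · have h1 : β₂ (Subgroup.inclusion le_sup_left x) = Subgroup.inclusion le_sup_left (b x) := Subtype.ext (e₂ x)
    show ((β₁ (β₂ (Subgroup.inclusion le_sup_left x)) : ↥(T ⊔ Cfsg.FusionSystem.centralizerIn S T)) : Ω) = ((a (b x) : T) : Ω)
    rw [h1]
    exact e₁ _
  · have hz := c₂ c hc
    set z : Ω := (c : Ω)⁻¹ * ((β₂ c : ↥(T ⊔ Cfsg.FusionSystem.centralizerIn S T)) : Ω) with hzd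
    have h1 : β₂ c = c * Subgroup.inclusion le_sup_left (⟨z, hz.1⟩ : T) := by
      apply Subtype.ext
      show ((β₂ c : ↥(T ⊔ Cfsg.FusionSystem.centralizerIn S T)) : Ω) = (c : Ω) * ((c : Ω)⁻¹ * ((β₂ c : ↥(T ⊔ Cfsg.FusionSystem.centralizerIn S T)) : Ω))
      group
    show (c : Ω)⁻¹ * ((β₁ (β₂ c) : ↥(T ⊔ Cfsg.FusionSystem.centralizerIn S T)) : Ω) ∈ _
    rw [h1, map_mul]
    have h2 : ((β₁ c * β₁ (Subgroup.inclusion le_sup_left (⟨z, hz.1⟩ : T)) : ↥(T ⊔ Cfsg.FusionSystem.centralizerIn S T)) : Ω) = ((β₁ c : ↥(T ⊔ Cfsg.FusionSystem.centralizerIn S T)) : Ω) * ((a ⟨z, hz.1⟩ : T) : Ω) := by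
      show ((β₁ c : ↥(T ⊔ Cfsg.FusionSystem.centralizerIn S T)) : Ω) * ((β₁ (Subgroup.inclusion le_sup_left (⟨z, hz.1⟩ : T)) : ↥(T ⊔ Cfsg.FusionSystem.centralizerIn S T)) : Ω) = _
      rw [e₁]
    rw [h2, ← mul_assoc]
    exact Subgroup.mul_mem _ (c₁ c hc) (aut_center a hz)

theorem ext_inv {F : Cfsg.FusionSystem S} (hTS : T ≤ S) {a : MulAut T} (ha : Ext F a) : Ext F a⁻¹ := by
  obtain ⟨β, hβ, e, c₁⟩ := ha
  refine ⟨β⁻¹, Subgroup.inv_mem _ hβ, fun x => ?_, fun c hc => ?_⟩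
  · have h1 : β (Subgroup.inclusion le_sup_left (a⁻¹ x)) = Subgroup.inclusion le_sup_left x := by
      apply Subtype.ext
      rw [e]
      show ((a (a⁻¹ x) : T) : Ω) = x
      simp
    have h2 : β⁻¹ (Subgroup.inclusion le_sup_left x) = Subgroup.inclusion le_sup_left (a⁻¹ x) := by
      rw [← h1]
      simp
    rw [h2]
    rfl
  · have hWS : T ⊔ Cfsg.FusionSystem.centralizerIn S T ≤ S := sup_le hTS inf_le_left
    set d := β⁻¹ c with hd
    have hβd : β d = c := by simp [hd]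
    have hdC : (d : Ω) ∈ Cfsg.FusionSystem.centralizerIn S T := by
      refine ⟨hWS d.2, Subgroup.mem_centralizer_iff.2 fun t ht => ?_⟩
      have h1 : β (Subgroup.inclusion le_sup_left (⟨t, ht⟩ : T)) * β d = β d * β (Subgroup.inclusion le_sup_left (⟨t, ht⟩ : T)) := by
        rw [hβd]
        apply Subtype.ext
        show ((β (Subgroup.inclusion le_sup_left (⟨t, ht⟩ : T)) : ↥(T ⊔ Cfsg.FusionSystem.centralizerIn S T)) : Ω) * (c : Ω) = (c : Ω) * ((β (Subgroup.inclusion le_sup_left (⟨t, ht⟩ : T)) : ↥(T ⊔ Cfsg.FusionSystem.centralizerIn S T)) : Ω)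
        rw [e]
        exact (Subgroup.mem_centralizer_iff.1 hc.2) _ (Subtype.coe_prop _)
      rw [← map_mul, ← map_mul] at h1
      exact congrArg Subtype.val (β.injective h1)
    have hz := c₁ d hdC
    rw [hβd] at hz
    have e2 : (c : Ω)⁻¹ * (d : Ω) = ((d : Ω)⁻¹ * (c : Ω))⁻¹ := by group
    show (c : Ω)⁻¹ * (d : Ω) ∈ _
    rw [e2]
    exact Subgroup.inv_mem _ hz

theorem ext_inner {F : Cfsg.FusionSystem S} (hTS : T ≤ S) {a : MulAut T} (ha : a ∈ autInducedBy T T) : Ext F a := by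
  obtain ⟨g, hg, e⟩ := mem_autInducedBy'.1 ha
  have hWS : T ⊔ Cfsg.FusionSystem.centralizerIn S T ≤ S := sup_le hTS inf_le_left
  have hgW : g ∈ T ⊔ Cfsg.FusionSystem.centralizerIn S T := (le_sup_left : T ≤ _) hg
  refine ⟨MulAut.conj (⟨g, hgW⟩ : ↥(T ⊔ Cfsg.FusionSystem.centralizerIn S T)), inn_le_autGroup F hWS ⟨_, rfl⟩, fun x => ?_, fun c hc => ?_⟩
  · rw [e]
    rfl
  · have h1 := (Subgroup.mem_centralizer_iff.1 hc.2) g hg
    have e2 : (c : Ω)⁻¹ * (((MulAut.conj (⟨g, hgW⟩ : ↥(T ⊔ Cfsg.FusionSystem.centralizerIn S T))) c : ↥(T ⊔ Cfsg.FusionSystem.centralizerIn S T)) : Ω) = 1 := by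
      show (c : Ω)⁻¹ * (g * (c : Ω) * g⁻¹) = 1
      rw [h1]
      group
    rw [e2]
    exact Subgroup.one_mem _

theorem ext_gen (hS : IsPGroup p S) {F : Cfsg.FusionSystem S} (hF : F.IsSaturated p) (hTS : T ≤ S) (hN : S ≤ Subgroup.normalizer (T : Set Ω))
    (hT : F.hyperfocalSubgroup p ≤ T) {γ : MulAut T} (hγ : γ ∈ F.autGroup T) (hco : Nat.Coprime (orderOf γ) p) : Ext F γ := by
  have hp : p.Prime := Fact.out
  haveI : Finite T := finite_of_le hTS
  have hWS : T ⊔ Cfsg.FusionSystem.centralizerIn S T ≤ S := sup_le hTS inf_le_left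
  haveI : Finite ↥(T ⊔ Cfsg.FusionSystem.centralizerIn S T) := finite_of_le hWS
  by_cases hm1 : orderOf γ = 1
  · rw [orderOf_eq_one_iff] at hm1
    rw [hm1]
    refine ⟨1, Subgroup.one_mem _, fun x => rfl, fun c hc => ?_⟩
    have e2 : (c : Ω)⁻¹ * (((1 : MulAut ↥(T ⊔ Cfsg.FusionSystem.centralizerIn S T)) c : ↥(T ⊔ Cfsg.FusionSystem.centralizerIn S T)) : Ω) = 1 := by
      show (c : Ω)⁻¹ * (c : Ω) = 1
      group
    rw [e2]
    exact Subgroup.one_mem _
  have hm2 : 1 < orderOf γ := by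
    have := orderOf_pos γ
    omega
  have hFN : F.IsFullyNormalized T := Cfsg.Agent.Lib.FusGT.fn_of_normalized hTS hN
  have hRec := receptive_of_fullyNormalized hS F hF hFN
  have hφ := (mem_autGroup_iff F hTS).1 hγ
  obtain ⟨ψ, hψ, eψ⟩ := hRec.2 T _ hφ (range_aut γ)
  have hTe : T ≤ extender S T (T.subtype.comp γ.toMonoidHom) := le_extender hTS _ (fun x => hTS (Subtype.coe_prop _))
  have hCe : Cfsg.FusionSystem.centralizerIn S T ≤ extender S T (T.subtype.comp γ.toMonoidHom) := centralizerIn_le_extender _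
  have hWe := sup_le hTe hCe
  have hψ₀ := res_mem F hWe hψ
  set ψ₀ : ↥(T ⊔ Cfsg.FusionSystem.centralizerIn S T) →* Ω := ψ.comp (Subgroup.inclusion hWe) with hψ₀d
  have hψT : ∀ x : T, ψ₀ (Subgroup.inclusion le_sup_left x) = ((γ x : T) : Ω) := fun x => eψ x x.2 (hTe x.2)
  have hcent : ∀ c : ↥(T ⊔ Cfsg.FusionSystem.centralizerIn S T), (c : Ω) ∈ Cfsg.FusionSystem.centralizerIn S T → ψ₀ c ∈ Cfsg.FusionSystem.centralizerIn S T := by
    intro c hc
    refine ⟨val_mem F hψ₀ c, Subgroup.mem_centralizer_iff.2 fun t ht => ?_⟩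
    have ht' : (⟨t, ht⟩ : T) = γ (γ⁻¹ ⟨t, ht⟩) := by simp
    have h1 : t = ψ₀ (Subgroup.inclusion le_sup_left (γ⁻¹ ⟨t, ht⟩)) := by
      rw [hψT]
      exact congrArg Subtype.val ht'
    rw [h1, ← map_mul, ← map_mul]
    congr 1
    apply Subtype.ext
    exact (Subgroup.mem_centralizer_iff.1 hc.2) _ (Subtype.coe_prop _)
  have hval : ∀ z : ↥(T ⊔ Cfsg.FusionSystem.centralizerIn S T), ψ₀ z ∈ T ⊔ Cfsg.FusionSystem.centralizerIn S T := by
    intro z
    refine map_sup_le (B := T ⊔ Cfsg.FusionSystem.centralizerIn S T) ψ₀ le_rfl (fun x hx => ?_) (fun x hx => ?_) z z.2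
    · have h1 := hψT ⟨x, hx⟩
      have h2 : Subgroup.inclusion le_sup_left (⟨x, hx⟩ : T) = x := Subtype.ext rfl
      rw [h2] at h1
      rw [h1]
      exact (le_sup_left : T ≤ _) (Subtype.coe_prop _)
    · exact (le_sup_right : Cfsg.FusionSystem.centralizerIn S T ≤ _) (hcent x hx)
  have hinj := inj F hψ₀
  have hr : ψ₀.range = T ⊔ Cfsg.FusionSystem.centralizerIn S T := by
    apply Subgroup.eq_of_le_of_card_ge
    · rintro _ ⟨x, rfl⟩
      exact hval x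
    · exact (Nat.card_congr (MonoidHom.ofInjective hinj).toEquiv).le
  set b : MulAut ↥(T ⊔ Cfsg.FusionSystem.centralizerIn S T) := isoOf ψ₀ hinj hr with hb
  have hbv : ∀ z, ((b z : ↥(T ⊔ Cfsg.FusionSystem.centralizerIn S T)) : Ω) = ψ₀ z := fun z => rfl
  have hbF : b ∈ F.autGroup (T ⊔ Cfsg.FusionSystem.centralizerIn S T) := by
    apply mem_autGroup_of
    exact hom_congr F hψ₀ (fun x => rfl)
  set B : ↥(F.autGroup (T ⊔ Cfsg.FusionSystem.centralizerIn S T)) := ⟨b, hbF⟩ with hBd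
  obtain ⟨k, n, hn, he⟩ := Nat.exists_eq_pow_mul_and_not_dvd (orderOf_pos B).ne' p hp.ne_one
  have hco2 : (p ^ k).Coprime (orderOf γ) := (Nat.Coprime.pow_right k hco).symm
  obtain ⟨t, -, ht⟩ := Nat.exists_mul_mod_eq_one_of_coprime hco2 hm2
  have hpow : ∀ (m : ℕ) (x : T), (((b ^ m) (Subgroup.inclusion le_sup_left x) : ↥(T ⊔ Cfsg.FusionSystem.centralizerIn S T)) : Ω) = (((γ ^ m) x : T) : Ω) := by
    intro m
    induction m with
    | zero => intro x; rfl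
    | succ m ih =>
      intro x
      rw [pow_succ, pow_succ, MulAut.mul_apply, MulAut.mul_apply]
      have h1 : b (Subgroup.inclusion le_sup_left x) = Subgroup.inclusion le_sup_left (γ x) := Subtype.ext (hψT x)
      rw [h1]
      exact ih _
  have hγr : γ ^ (p ^ k * t) = γ := by
    have h5 := pow_mod_orderOf γ (p ^ k * t)
    rw [ht, pow_one] at h5
    exact h5.symm
  have hB1 : B ^ (p ^ k * t) ∈ pResidual p (F.autGroup (T ⊔ Cfsg.FusionSystem.centralizerIn S T)) := by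
    apply Subgroup.subset_closure
    have h1 : (B ^ (p ^ k * t)) ^ n = 1 := by
      rw [← pow_mul]
      have : p ^ k * t * n = orderOf B * t := by
        rw [he]
        ring
      rw [this, pow_mul, pow_orderOf_eq_one, one_pow]
    have h2 := orderOf_dvd_of_pow_eq_one h1
    exact Nat.Coprime.coprime_dvd_left h2 ((Nat.Prime.coprime_iff_not_dvd hp).2 hn).symm
  have hgv : ∀ x : T, (((b ^ (p ^ k * t)) (Subgroup.inclusion le_sup_left x) : ↥(T ⊔ Cfsg.FusionSystem.centralizerIn S T)) : Ω) = ((γ x : T) : Ω) := by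
    intro x
    rw [hpow, hγr]
  have hbF' : b ^ (p ^ k * t) ∈ F.autGroup (T ⊔ Cfsg.FusionSystem.centralizerIn S T) := Subgroup.pow_mem _ hbF _
  refine ⟨b ^ (p ^ k * t), hbF', hgv, fun c hc => ?_⟩
  have h1 := hT (mem_hyper F p hWS (B ^ (p ^ k * t)) hB1 c)
  refine ⟨h1, Subgroup.mem_centralizer_iff.2 fun y hy => ?_⟩
  have hy' : (⟨y, hy⟩ : T) = γ (γ⁻¹ ⟨y, hy⟩) := by simp
  have hy2 : y = (((b ^ (p ^ k * t)) (Subgroup.inclusion le_sup_left (γ⁻¹ ⟨y, hy⟩)) : ↥(T ⊔ Cfsg.FusionSystem.centralizerIn S T)) : Ω) := by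
    rw [hgv]
    exact congrArg Subtype.val hy'
  have hcomm : (((b ^ (p ^ k * t)) c : ↥(T ⊔ Cfsg.FusionSystem.centralizerIn S T)) : Ω) * y = y * (((b ^ (p ^ k * t)) c : ↥(T ⊔ Cfsg.FusionSystem.centralizerIn S T)) : Ω) := by
    rw [hy2]
    have h3 : c * Subgroup.inclusion le_sup_left (γ⁻¹ ⟨y, hy⟩) = Subgroup.inclusion le_sup_left (γ⁻¹ ⟨y, hy⟩) * c := by
      apply Subtype.ext
      exact ((Subgroup.mem_centralizer_iff.1 hc.2) _ (Subtype.coe_prop _)).symm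
    have h4 := congrArg (b ^ (p ^ k * t)) h3
    rw [map_mul, map_mul] at h4
    exact congrArg Subtype.val h4
  have hcy : (c : Ω) * y = y * (c : Ω) := ((Subgroup.mem_centralizer_iff.1 hc.2) y hy).symm
  show y * ((c : Ω)⁻¹ * (((B ^ (p ^ k * t) : ↥(F.autGroup (T ⊔ Cfsg.FusionSystem.centralizerIn S T))) : MulAut _) c : ↥(T ⊔ Cfsg.FusionSystem.centralizerIn S T))) = ((c : Ω)⁻¹ * (((B ^ (p ^ k * t) : ↥(F.autGroup (T ⊔ Cfsg.FusionSystem.centralizerIn S T))) : MulAut _) c : ↥(T ⊔ Cfsg.FusionSystem.centralizerIn S T))) * y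
  have e9 : (((B ^ (p ^ k * t) : ↥(F.autGroup (T ⊔ Cfsg.FusionSystem.centralizerIn S T))) : MulAut _) c : ↥(T ⊔ Cfsg.FusionSystem.centralizerIn S T)) = (b ^ (p ^ k * t)) c := rfl
  rw [e9, mul_assoc, hcomm, ← mul_assoc, ← mul_assoc]
  congr 1
  have : (c : Ω)⁻¹ * y = y * (c : Ω)⁻¹ := by
    have := hcy
    calc (c : Ω)⁻¹ * y = (c : Ω)⁻¹ * (y * (c : Ω)) * (c : Ω)⁻¹ := by group
      _ = (c : Ω)⁻¹ * ((c : Ω) * y) * (c : Ω)⁻¹ := by rw [hcy]
      _ = _ := by group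
  exact this.symm

theorem ext_all (hS : IsPGroup p S) {F : Cfsg.FusionSystem S} (hF : F.IsSaturated p) (hTS : T ≤ S) (hN : S ≤ Subgroup.normalizer (T : Set Ω))
    (hT : F.hyperfocalSubgroup p ≤ T) {E : Cfsg.FusionSystem T} (hEs : E.IsSaturated p) (hEi : E.HasPPowerIndexIn F p) {α : MulAut T} (hα : α ∈ E.autGroup T) : Ext F α := by
  haveI : Finite T := finite_of_le hTS
  have hT' : IsPGroup p T := hS.to_le hTS
  have hFN := fullyNormalized_top hT' E
  have hFA := fullyAutomized_of_fullyNormalized hT' E hEs hFN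
  obtain ⟨β, hβ, c, hc, e⟩ := frattini_aut E hFA ⟨α, hα⟩
  have h1 : Ext F ((β : E.autGroup T) : MulAut T) := by
    refine Subgroup.closure_induction (p := fun (β : ↥(E.autGroup T)) _ => Ext F ((β : ↥(E.autGroup T)) : MulAut T)) ?_ ?_ ?_ ?_ hβ
    · intro γ hγ
      refine ext_gen hS hF hTS hN hT ?_ ?_
      · apply mem_autGroup_of
        exact hEi.1 T ((mem_autGroup_iff E le_rfl).1 γ.2)
      · rw [Subgroup.orderOf_coe]
        exact hγ
    · exact ext_inner hTS (Subgroup.one_mem _)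
    · intro x y _ _ hx hy
      exact ext_mul hx hy
    · intro x _ hx
      exact ext_inv hTS hx
  have e' : α = ((β : E.autGroup T) : MulAut T) * c := e
  rw [e']
  exact ext_mul h1 (ext_inner hTS hc)

end

/-- Let F be a saturated fusion system over a finite p-group S and T a subgroup of S containing the hyperfocal subgroup of F and normal in S. Then every saturated subsystem of F over T of p-power index is a normal subsystem of F. -/
theorem result {Ω : Type*} [Group Ω] {S : Subgroup Ω} [Finite S] (p : ℕ) [Fact p.Prime] (hS : IsPGroup p S) (F : Cfsg.FusionSystem S) (hF : F.IsSaturated p) (T : Subgroup Ω) (hTS : T ≤ S) (hTn : (T.subgroupOf S).Normal) (hT : F.hyperfocalSubgroup p ≤ T) (E : Cfsg.FusionSystem T) (hEs : E.IsSaturated p) (hEi : E.HasPPowerIndexIn F p) : E.IsNormalIn F p := by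
  have hN : S ≤ Subgroup.normalizer (T : Set Ω) := (Subgroup.normal_subgroupOf_iff_le_normalizer hTS).1 hTn
  have hTc := sc_T hS hF hTS hN hT
  have hle := le_inv hS hTS hEs hEi
  have hTr : Tr F E := fun {α} hα {P} {φ} hφ {U} hU => tr_of hTS hle hα hφ hU
  have hL := le_sys' hS hF hTS hEi hTc hTr
  refine ⟨⟨hEs, hF, hEi.1, hTc, ?_, ?_⟩, fun α hα => ext_all hS hF hTS hN hT hEs hEi hα⟩
  · intro P hPT φ hφ α hα
    obtain ⟨χ, hχ, e⟩ := (hle P hφ).2 α hα
    exact ⟨χ, hχ, fun x hφx hαx => e x (hPT x.2) hφx ⟨_, hαx⟩ rfl⟩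
  · intro P hPT φ hφ
    obtain ⟨α, hα, φ₀, hφ₀, e⟩ := (hL P hφ).2
    have hle2 : P ≤ P ⊓ T := le_inf le_rfl hPT
    refine ⟨α, hα, φ₀.comp (Subgroup.inclusion hle2), res_mem E hle2 hφ₀, fun x hx => ?_⟩
    exact e ⟨x, hle2 x.2⟩ hx

end Cfsg.Agent.S5120
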