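import Cfsg.Statements.S5130
import Mathlib
import Cfsg.Agent.Lib.FusFrat
import Cfsg.Agent.Lib.FusLift
import Cfsg.Agent.Lib.FusGroup
import Cfsg.Agent.Lib.FusGT3
import Cfsg.Agent.Lib.FusKNorm
import Cfsg.Agent.S5097

set_option autoImplicit false
open Cfsg

namespace Cfsg.Agent.S5130


open Cfsg.FusionSystem Cfsg.Agent.Lib.FusBasic Cfsg.Agent.Lib.FusAut Cfsg.Agent.Lib.FusSat Cfsg.Agent.Lib.FusAlp Cfsg.Agent.Lib.FusNorm Cfsg.Agent.Lib.FusLift Cfsg.Agent.Lib.FusFrat Cfsg.Agent.Lib.FusGroup Cfsg.Agent.Lib.FusKNorm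

section
variable {Ω : Type*} [Group Ω] {S : Subgroup Ω} [Finite S] {p : ℕ} [Fact p.Prime]

theorem sylow_congr {G : Type*} [Group G] {A B : Subgroup G} (h : A = B) {X : Subgroup G}
    (hs : ∃ R : Sylow p A, (R : Subgroup A) = X.subgroupOf A) : ∃ R : Sylow p B, (R : Subgroup B) = X.subgroupOf B := by
  subst h
  exact hs

theorem decomp {S₁ S₂ : Subgroup Ω} (hc : ∀ a ∈ S₁, ∀ b ∈ S₂, a * b = b * a) (hsup : S₁ ⊔ S₂ = S) {g : Ω} (hg : g ∈ S) :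
    ∃ a ∈ S₁, ∃ b ∈ S₂, a * b = g := by
  rw [← hsup] at hg
  apply mem_sup_of_le_normalizer _ hg
  intro a ha
  rw [Subgroup.mem_normalizer_iff]
  intro b
  constructor
  · intro hb
    have h1 := hc a ha b hb
    have h2 : a * b * a⁻¹ = b := by
      rw [h1]
      group
    rw [h2]
    exact hb
  · intro hb
    have h1 := hc a⁻¹ (S₁.inv_mem ha) _ hb
    have h2 : b = a⁻¹ * (a * b * a⁻¹) * a := by group
    rw [h2, h1]
    have h3 : a * b * a⁻¹ * a⁻¹ * a = a * b * a⁻¹ := by group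
    rw [h3]
    exact hb

theorem autInduced_eq {S₁ S₂ Q : Subgroup Ω} (hS1 : S₁ ≤ S) (hc : ∀ a ∈ S₁, ∀ b ∈ S₂, a * b = b * a) (hsup : S₁ ⊔ S₂ = S) (hQ : Q ≤ S₁) :
    autInducedBy S₁ Q = autInducedBy S Q := by
  ext α
  rw [mem_autInducedBy', mem_autInducedBy']
  constructor
  · rintro ⟨g, hg, e⟩
    exact ⟨g, hS1 hg, e⟩
  · rintro ⟨g, hg, e⟩
    obtain ⟨a, ha, b, hb, rfl⟩ := decomp hc hsup hg
    refine ⟨a, ha, fun x => ?_⟩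
    rw [e x]
    have h1 := hc x (hQ x.2) b hb
    have h2 : a * b * (x : Ω) * (a * b)⁻¹ = a * (b * x) * b⁻¹ * a⁻¹ := by group
    rw [h2, ← h1]
    group

theorem restrict_saturated (hS : IsPGroup p S) {F : Cfsg.FusionSystem S} (hF : F.IsSaturated p) {S₁ S₂ : Subgroup Ω}
    (hc : ∀ a ∈ S₁, ∀ b ∈ S₂, a * b = b * a) (hsup : S₁ ⊔ S₂ = S) (h₁ : F.StronglyClosed S₁) (R : Cfsg.FusionSystem S₁)
    (hR : ∀ P : Subgroup Ω, P ≤ S₁ → R.Hom P = F.Hom P) : R.IsSaturated p := by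
  have hS1 : S₁ ≤ S := h₁.1
  intro P hP
  obtain ⟨Q, ⟨φ, hφ, hr⟩, hQ⟩ := exists_fullyNormalized_conj F (hP.trans hS1)
  have hQ1 : Q ≤ S₁ := by
    rw [← hr]
    rintro _ ⟨x, rfl⟩
    exact h₁.2 P hP φ hφ x
  have hconj : R.IsConj P Q := ⟨φ, (hR P hP).symm ▸ hφ, hr⟩
  have haut : R.autGroup Q = F.autGroup Q := by
    unfold Cfsg.FusionSystem.autGroup
    rw [hR Q hQ1]
  refine ⟨Q, hconj, ⟨hQ1, ?_⟩, hQ1, ?_⟩
  · obtain ⟨-, h⟩ := fullyAutomized_of_fullyNormalized hS F hF hQ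
    rw [autInduced_eq hS1 hc hsup hQ1]
    exact sylow_congr haut.symm h
  · intro P' φ' hφ' hr'
    have hP' : P' ≤ S₁ := src_le R hφ'
    have hφ'F : φ' ∈ F.Hom P' := (hR P' hP') ▸ hφ'
    obtain ⟨-, h⟩ := receptive_of_fullyNormalized hS F hF hQ
    obtain ⟨ψ, hψ, e⟩ := h P' φ' hφ'F hr'
    have hle : extender S₁ P' φ' ≤ extender S P' φ' := by
      apply Subgroup.closure_mono
      rintro g ⟨h1, h2, h, hh, e⟩
      exact ⟨hS1 h1, h2, h, hS1 hh, e⟩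
    have hle1 : extender S₁ P' φ' ≤ S₁ := by
      apply (Subgroup.closure_le _).2
      rintro g ⟨h1, -⟩
      exact h1
    refine ⟨ψ.comp (Subgroup.inclusion hle), ?_, ?_⟩
    · rw [hR _ hle1]
      exact res_mem F hle hψ
    · intro x hP hN
      exact e x hP (hle hN)

theorem sc_top (F : Cfsg.FusionSystem S) : F.StronglyClosed S :=
  ⟨le_rfl, fun _ _ _ hφ x => val_mem F hφ x⟩

theorem ext_top (hS : IsPGroup p S) {F : Cfsg.FusionSystem S} (hF : F.IsSaturated p) {X Y : Subgroup Ω}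
    (hc : ∀ a ∈ X, ∀ b ∈ Y, a * b = b * a) (hsup : X ⊔ Y = S) (hX : F.StronglyClosed X) {α : MulAut X} (hα : α ∈ F.autGroup X) :
    ∃ A ∈ F.autGroup S, ∀ x : X, ((A ⟨x, hX.1 x.2⟩ : S) : Ω) = ((α x : X) : Ω) := by
  have hXS : X ≤ S := hX.1
  have hα' : X.subtype.comp α.toMonoidHom ∈ F.Hom X := (mem_autGroup_iff F hXS).1 hα
  have hSN : S ≤ Subgroup.normalizer (X : Set Ω) := by
    intro g hg
    obtain ⟨a, ha, b, hb, rfl⟩ := decomp hc hsup hg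
    rw [Subgroup.mem_normalizer_iff]
    intro x
    have key : ∀ x' ∈ X, a * b * x' * (a * b)⁻¹ = a * x' * a⁻¹ := by
      intro x' hx'
      have h1 := hc x' hx' b hb
      have h2 : a * b * x' * (a * b)⁻¹ = a * (b * x') * b⁻¹ * a⁻¹ := by group
      rw [h2, ← h1]
      group
    constructor
    · intro hx
      rw [key x hx]
      exact X.mul_mem (X.mul_mem ha hx) (X.inv_mem ha)
    · intro hx
      have h0 := hc _ (X.mul_mem (X.mul_mem (X.inv_mem ha) hx) ha) b hb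
      have h2 : x = b⁻¹ * ((a⁻¹ * (a * b * x * (a * b)⁻¹) * a) * b) := by group
      rw [h2, h0]
      have h3 : b⁻¹ * (b * (a⁻¹ * (a * b * x * (a * b)⁻¹) * a)) = a⁻¹ * (a * b * x * (a * b)⁻¹) * a := by group
      rw [h3]
      exact X.mul_mem (X.mul_mem (X.inv_mem ha) hx) ha
  have hFN : F.IsFullyNormalized X := Cfsg.Agent.Lib.FusGT.fn_of_normalized hXS hSN
  obtain ⟨-, h⟩ := receptive_of_fullyNormalized hS F hF hFN
  have hr : (X.subtype.comp α.toMonoidHom).range = X := by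
    ext y
    constructor
    · rintro ⟨x, rfl⟩
      exact Subtype.coe_prop _
    · intro hy
      refine ⟨α⁻¹ ⟨y, hy⟩, ?_⟩
      simp
  obtain ⟨ψ, hψ, e⟩ := h X _ hα' hr
  have hle : S ≤ extender S X (X.subtype.comp α.toMonoidHom) := by
    intro g hg
    apply Subgroup.subset_closure
    refine ⟨hg, hSN hg, ?_⟩
    obtain ⟨a, ha, b, hb, rfl⟩ := decomp hc hsup hg
    refine ⟨((α ⟨a, ha⟩ : X) : Ω), hXS (Subtype.coe_prop _), fun x hx => ?_⟩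
    have h1 := hc x x.2 b hb
    have h2 : a * b * (x : Ω) * (a * b)⁻¹ = a * (b * x) * b⁻¹ * a⁻¹ := by group
    have h3 : a * b * (x : Ω) * (a * b)⁻¹ = a * x * a⁻¹ := by
      rw [h2, ← h1]
      group
    have h4 : (⟨a * b * (x : Ω) * (a * b)⁻¹, hx⟩ : X) = ⟨a, ha⟩ * x * (⟨a, ha⟩ : X)⁻¹ := Subtype.ext h3
    rw [h4]
    show ((α (⟨a, ha⟩ * x * (⟨a, ha⟩ : X)⁻¹) : X) : Ω) = _
    rw [map_mul, map_mul, map_inv]
    rfl
  obtain ⟨A, hA, eA⟩ := aut_of (sc_top F) (res_mem F hle hψ)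
  refine ⟨A, hA, fun x => ?_⟩
  rw [eA]
  exact e x x.2 (hle (hXS x.2))

theorem transF {F : Cfsg.FusionSystem S} {α : MulAut S} (hα : α ∈ F.autGroup S) {P : Subgroup Ω}
    {φ : P →* Ω} (hφF : φ ∈ F.Hom P) {U : Subgroup Ω}
    (hU : ∀ u ∈ U, ∃ x : P, ((α ⟨x, src_le F hφF x.2⟩ : S) : Ω) = u) :
    ∃ χ ∈ F.Hom U, ∀ (x : P) (u : U), (u : Ω) = ((α ⟨x, src_le F hφF x.2⟩ : S) : Ω) → χ u = ((α ⟨φ x, val_mem F hφF x⟩ : S) : Ω) := by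
  have hPS := src_le F hφF
  have hαH : S.subtype.comp α.toMonoidHom ∈ F.Hom S := (mem_autGroup_iff F le_rfl).1 hα
  have hαi : S.subtype.comp (α⁻¹).toMonoidHom ∈ F.Hom S := (mem_autGroup_iff F le_rfl).1 (Subgroup.inv_mem _ hα)
  have hUS : U ≤ S := by
    intro u hu
    obtain ⟨x, rfl⟩ := hU u hu
    exact Subtype.coe_prop _
  have hr1 : (S.subtype.comp (α⁻¹).toMonoidHom).comp (Subgroup.inclusion hUS) ∈ F.Hom U := res_mem F hUS hαi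
  have hpre : ∀ u : U, ∃ x : P, (u : Ω) = ((α ⟨x, hPS x.2⟩ : S) : Ω) := fun u => by
    obtain ⟨x, ex⟩ := hU u u.2
    exact ⟨x, ex.symm⟩
  have hv1 : ∀ u : U, ((S.subtype.comp (α⁻¹).toMonoidHom).comp (Subgroup.inclusion hUS)) u ∈ P := by
    intro u
    obtain ⟨x, ex⟩ := hpre u
    have e1 : Subgroup.inclusion hUS u = α ⟨x, hPS x.2⟩ := Subtype.ext ex
    show ((α⁻¹ (Subgroup.inclusion hUS u) : S) : Ω) ∈ P
    rw [e1]
    simpa using x.2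
  have hr2 := F.comp_mem hr1 hφF hv1
  have hv2 : ∀ u : U, (φ.comp (((S.subtype.comp (α⁻¹).toMonoidHom).comp (Subgroup.inclusion hUS)).codRestrict P hv1)) u ∈ S := fun u => val_mem F hφF _
  have hr3 := F.comp_mem hr2 hαH hv2
  refine ⟨_, hr3, ?_⟩
  intro x u hu
  have e1 : Subgroup.inclusion hUS u = α ⟨x, hPS x.2⟩ := Subtype.ext hu
  have e2 : (((S.subtype.comp (α⁻¹).toMonoidHom).comp (Subgroup.inclusion hUS)).codRestrict P hv1) u = x := by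
    apply Subtype.ext
    show ((α⁻¹ (Subgroup.inclusion hUS u) : S) : Ω) = x
    rw [e1]
    simp
  show ((α ⟨φ ((((S.subtype.comp (α⁻¹).toMonoidHom).comp (Subgroup.inclusion hUS)).codRestrict P hv1) u), _⟩ : S) : Ω) = _
  simp only [e2]

theorem frat (hS : IsPGroup p S) {F : Cfsg.FusionSystem S} (hF : F.IsSaturated p) {S₁ S₂ : Subgroup Ω}
    (hc : ∀ a ∈ S₁, ∀ b ∈ S₂, a * b = b * a) (hsup : S₁ ⊔ S₂ = S) (hinf : S₁ ⊓ S₂ = ⊥) (h₁ : F.StronglyClosed S₁) (h₂ : F.StronglyClosed S₂)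
    {P : Subgroup Ω} (hP : P ≤ S₁) {φ : P →* Ω} (hφ : φ ∈ F.Hom P) :
    ∃ a ∈ F.autGroup S₁, ∃ φ₀ ∈ F.centralizerHom S₂ P, ∀ (x : P) (hx : φ₀ x ∈ S₁), φ x = ((a ⟨φ₀ x, hx⟩ : S₁) : Ω) := by
  have hS1 := h₁.1
  have hS2 := h₂.1
  obtain ⟨ψ, hψ, e⟩ := exists_lift hS F hF h₂ hφ
  have e' : ∀ x : P, ψ (Subgroup.inclusion le_sup_left x) = φ x := by
    intro x
    have h1 : ψ (Subgroup.inclusion le_sup_left x) ∈ S₁ := h₁.2 P hP _ (res_mem F (le_sup_left : P ≤ P ⊔ S₂) hψ) x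
    have h2 : φ x ∈ S₁ := h₁.2 P hP φ hφ x
    have h3 : (φ x)⁻¹ * ψ (Subgroup.inclusion le_sup_left x) ∈ S₁ ⊓ S₂ := ⟨S₁.mul_mem (S₁.inv_mem h2) h1, e x⟩
    rw [hinf, Subgroup.mem_bot] at h3
    rw [inv_mul_eq_one] at h3
    exact h3.symm
  obtain ⟨δ, hδ, eδ⟩ := aut_of h₂ (res_mem F (le_sup_right : S₂ ≤ P ⊔ S₂) hψ)
  have hc' : ∀ a ∈ S₂, ∀ b ∈ S₁, a * b = b * a := fun a ha b hb => (hc b hb a ha).symm
  obtain ⟨A, hA, eA⟩ := ext_top hS hF hc' (by rw [sup_comm]; exact hsup) h₂ hδ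
  have hAH : S.subtype.comp A.toMonoidHom ∈ F.Hom S := (mem_autGroup_iff F le_rfl).1 hA
  have hAi : S.subtype.comp (A⁻¹).toMonoidHom ∈ F.Hom S := (mem_autGroup_iff F le_rfl).1 (Subgroup.inv_mem _ hA)
  obtain ⟨a, ha, ea⟩ := aut_of h₁ (res_mem F hS1 hAH)
  have hv : ∀ x : ↥(P ⊔ S₂), ψ x ∈ S := fun x => val_mem F hψ x
  have hχ := F.comp_mem hψ hAi hv
  set χ : ↥(P ⊔ S₂) →* Ω := (S.subtype.comp (A⁻¹).toMonoidHom).comp (ψ.codRestrict S hv) with hχd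
  have hAχ : ∀ x : ↥(P ⊔ S₂), (⟨ψ x, hv x⟩ : S) = A ⟨χ x, val_mem F hχ x⟩ := by
    intro x
    have : (⟨χ x, val_mem F hχ x⟩ : S) = A⁻¹ ⟨ψ x, hv x⟩ := rfl
    rw [this]
    simp
  refine ⟨a, ha, χ.comp (Subgroup.inclusion le_sup_left), ⟨res_mem F le_sup_left hχ, ?_, ?_, χ, hχ, fun x => rfl, ?_⟩, ?_⟩
  · exact fun x hx => ⟨hS1 (hP hx), Subgroup.mem_centralizer_iff.2 fun y hy => (hc x (hP hx) y hy).symm⟩
  · intro x
    have h1 : (χ.comp (Subgroup.inclusion le_sup_left)) x ∈ S₁ := h₁.2 P hP _ (res_mem F (le_sup_left : P ≤ P ⊔ S₂) hχ) x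
    exact ⟨hS1 h1, Subgroup.mem_centralizer_iff.2 fun y hy => (hc _ h1 y hy).symm⟩
  · intro y
    have h1 : ψ (Subgroup.inclusion le_sup_right y) = ((δ y : S₂) : Ω) := (eδ y).symm
    have h2 : (⟨χ (Subgroup.inclusion le_sup_right y), val_mem F hχ _⟩ : S) = ⟨y, hS2 y.2⟩ := by
      have h3 : ((A ⟨y, hS2 y.2⟩ : S) : Ω) = ((δ y : S₂) : Ω) := eA y
      have h4 : (⟨ψ (Subgroup.inclusion le_sup_right y), hv _⟩ : S) = A ⟨y, hS2 y.2⟩ := Subtype.ext (h1.trans h3.symm)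
      have h5 := hAχ (Subgroup.inclusion le_sup_right y)
      rw [h4] at h5
      exact (A.injective h5).symm
    exact congrArg Subtype.val h2
  · intro x hx
    have h1 : ((a ⟨(χ.comp (Subgroup.inclusion le_sup_left)) x, hx⟩ : S₁) : Ω) = ((A ⟨χ (Subgroup.inclusion le_sup_left x), hS1 hx⟩ : S) : Ω) := ea _
    rw [h1]
    have h2 := hAχ (Subgroup.inclusion le_sup_left x)
    have h3 := congrArg Subtype.val h2
    have h4 : φ x = ψ (Subgroup.inclusion le_sup_left x) := (e' x).symm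
    rw [h4]
    exact h3

theorem transp (hS : IsPGroup p S) {F : Cfsg.FusionSystem S} (hF : F.IsSaturated p) {S₁ S₂ : Subgroup Ω}
    (hc : ∀ a ∈ S₁, ∀ b ∈ S₂, a * b = b * a) (hsup : S₁ ⊔ S₂ = S) (h₁ : F.StronglyClosed S₁) (h₂ : F.StronglyClosed S₂)
    {P : Subgroup Ω} (hP : P ≤ S₁) {φ : P →* Ω} (hφ : φ ∈ F.centralizerHom S₂ P) {α : MulAut S₁} (hα : α ∈ F.autGroup S₁) :
    ∃ χ ∈ F.centralizerHom S₂ ((P.subgroupOf S₁).map (S₁.subtype.comp α.toMonoidHom)),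
      ∀ (x : P) (hφx : φ x ∈ S₁) (hαx : ((α ⟨x, hP x.2⟩ : S₁) : Ω) ∈ (P.subgroupOf S₁).map (S₁.subtype.comp α.toMonoidHom)),
        χ ⟨(α ⟨x, hP x.2⟩ : S₁), hαx⟩ = ((α ⟨φ x, hφx⟩ : S₁) : Ω) := by
  have hS1 := h₁.1
  have hS2 := h₂.1
  obtain ⟨hφF, -, -, ψ, hψ, e1, e2⟩ := hφ
  obtain ⟨A, hA, eA⟩ := ext_top hS hF hc hsup h₁ hα
  set I := (P.subgroupOf S₁).map (S₁.subtype.comp α.toMonoidHom) with hI
  have hIS1 : I ≤ S₁ := by
    rintro _ ⟨x, -, rfl⟩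
    exact Subtype.coe_prop _
  have hPS2 : P ⊔ S₂ ≤ S := src_le F hψ
  have hAiH : S.subtype.comp (A⁻¹).toMonoidHom ∈ F.Hom S := (mem_autGroup_iff F le_rfl).1 (Subgroup.inv_mem _ hA)
  have hU : ∀ u ∈ I ⊔ S₂, ∃ x : ↥(P ⊔ S₂), ((A ⟨x, src_le F hψ x.2⟩ : S) : Ω) = u := by
    have hle : I ⊔ S₂ ≤ ((P ⊔ S₂).subgroupOf S).map (S.subtype.comp A.toMonoidHom) := by
      apply sup_le
      · rintro _ ⟨x, hx, rfl⟩
        refine ⟨⟨x, hS1 x.2⟩, Subgroup.mem_subgroupOf.2 ((le_sup_left : P ≤ P ⊔ S₂) (Subgroup.mem_subgroupOf.1 hx)), ?_⟩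
        exact eA x
      · intro y hy
        have h3 : ((A⁻¹ ⟨y, hS2 hy⟩ : S) : Ω) ∈ S₂ := h₂.2 S₂ le_rfl _ (res_mem F hS2 hAiH) ⟨y, hy⟩
        refine ⟨A⁻¹ ⟨y, hS2 hy⟩, Subgroup.mem_subgroupOf.2 ((le_sup_right : S₂ ≤ P ⊔ S₂) h3), ?_⟩
        simp
    intro u hu
    obtain ⟨x, hx, rfl⟩ := hle hu
    exact ⟨⟨x, Subgroup.mem_subgroupOf.1 hx⟩, rfl⟩
  obtain ⟨χ, hχ, eχ⟩ := transF hA hψ hU
  have hfix : ∀ y : S₂, χ (Subgroup.inclusion le_sup_right y) = y := by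
    intro y
    have h3 : ((A⁻¹ ⟨y, hS2 y.2⟩ : S) : Ω) ∈ S₂ := h₂.2 S₂ le_rfl _ (res_mem F hS2 hAiH) y
    have h4 := eχ (Subgroup.inclusion le_sup_right (⟨_, h3⟩ : S₂)) (Subgroup.inclusion le_sup_right y) (by
      show (y : Ω) = ((A ⟨((A⁻¹ ⟨y, hS2 y.2⟩ : S) : Ω), _⟩ : S) : Ω)
      simp)
    rw [h4]
    have h5 := e2 (⟨_, h3⟩ : S₂)
    have h6 : (⟨ψ (Subgroup.inclusion le_sup_right (⟨_, h3⟩ : S₂)), val_mem F hψ _⟩ : S) = A⁻¹ ⟨y, hS2 y.2⟩ := Subtype.ext h5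
    rw [h6]
    simp
  have hval : ∀ u : I, (χ.comp (Subgroup.inclusion le_sup_left)) u ∈ S₁ := h₁.2 I hIS1 _ (res_mem F (le_sup_left : I ≤ I ⊔ S₂) hχ)
  refine ⟨χ.comp (Subgroup.inclusion le_sup_left), ⟨res_mem F le_sup_left hχ, ?_, ?_, χ, hχ, fun x => rfl, hfix⟩, ?_⟩
  · exact fun x hx => ⟨hS1 (hIS1 hx), Subgroup.mem_centralizer_iff.2 fun y hy => (hc x (hIS1 hx) y hy).symm⟩
  · intro x
    exact ⟨hS1 (hval x), Subgroup.mem_centralizer_iff.2 fun y hy => (hc _ (hval x) y hy).symm⟩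
  · intro x hφx hαx
    have h4 := eχ (Subgroup.inclusion le_sup_left x) (Subgroup.inclusion le_sup_left ⟨_, hαx⟩) (eA ⟨x, hP x.2⟩).symm
    have h5 : (χ.comp (Subgroup.inclusion le_sup_left)) ⟨_, hαx⟩ = χ (Subgroup.inclusion le_sup_left ⟨_, hαx⟩) := rfl
    rw [h5, h4]
    have h6 : (⟨ψ (Subgroup.inclusion le_sup_left x), val_mem F hψ _⟩ : S) = ⟨φ x, hS1 hφx⟩ := Subtype.ext (e1 x)
    rw [h6]
    exact eA ⟨φ x, hφx⟩

theorem transR (hS : IsPGroup p S) {F : Cfsg.FusionSystem S} (hF : F.IsSaturated p) {S₁ S₂ : Subgroup Ω}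
    (hc : ∀ a ∈ S₁, ∀ b ∈ S₂, a * b = b * a) (hsup : S₁ ⊔ S₂ = S) (h₁ : F.StronglyClosed S₁)
    {P : Subgroup Ω} (hP : P ≤ S₁) {φ : P →* Ω} (hφ : φ ∈ F.Hom P) {α : MulAut S₁} (hα : α ∈ F.autGroup S₁) :
    ∃ χ ∈ F.Hom ((P.subgroupOf S₁).map (S₁.subtype.comp α.toMonoidHom)),
      ∀ (x : P) (hφx : φ x ∈ S₁) (hαx : ((α ⟨x, hP x.2⟩ : S₁) : Ω) ∈ (P.subgroupOf S₁).map (S₁.subtype.comp α.toMonoidHom)),
        χ ⟨(α ⟨x, hP x.2⟩ : S₁), hαx⟩ = ((α ⟨φ x, hφx⟩ : S₁) : Ω) := by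
  have hS1 := h₁.1
  obtain ⟨A, hA, eA⟩ := ext_top hS hF hc hsup h₁ hα
  have hU : ∀ u ∈ (P.subgroupOf S₁).map (S₁.subtype.comp α.toMonoidHom), ∃ x : P, ((A ⟨x, src_le F hφ x.2⟩ : S) : Ω) = u := by
    rintro _ ⟨x, hx, rfl⟩
    exact ⟨⟨x, Subgroup.mem_subgroupOf.1 hx⟩, eA x⟩
  obtain ⟨χ, hχ, eχ⟩ := transF hA hφ hU
  refine ⟨χ, hχ, fun x hφx hαx => ?_⟩
  rw [eχ x ⟨_, hαx⟩ (eA ⟨x, hP x.2⟩).symm]
  exact eA ⟨φ x, hφx⟩

theorem center_mem {X : Subgroup Ω} (α : MulAut X) {c : Ω} (hc : c ∈ X ⊓ Subgroup.centralizer (X : Set Ω)) :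
    ((α ⟨c, hc.1⟩ : X) : Ω) ∈ X ⊓ Subgroup.centralizer (X : Set Ω) := by
  refine ⟨Subtype.coe_prop _, Subgroup.mem_centralizer_iff.2 fun y hy => ?_⟩
  have h1 : (⟨y, hy⟩ : X) = α (α⁻¹ ⟨y, hy⟩) := by simp
  have h2 : (α⁻¹ ⟨y, hy⟩ : X) * ⟨c, hc.1⟩ = ⟨c, hc.1⟩ * (α⁻¹ ⟨y, hy⟩ : X) :=
    Subtype.ext (Subgroup.mem_centralizer_iff.1 hc.2 _ (Subtype.coe_prop _))
  have h3 := congrArg (fun z => ((α z : X) : Ω)) h2
  simp only [map_mul, Subgroup.coe_mul] at h3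
  have h4 : ((α (α⁻¹ ⟨y, hy⟩) : X) : Ω) = y := by simp
  rw [h4] at h3
  exact h3

theorem cen_inf_mem {X : Subgroup Ω} (α : MulAut X) {c : Ω} (hc : c ∈ X ⊓ Subgroup.centralizer (X : Set Ω)) :
    c⁻¹ * ((α ⟨c, hc.1⟩ : X) : Ω) ∈ X ⊓ Subgroup.centralizer (X : Set Ω) :=
  Subgroup.mul_mem _ (Subgroup.inv_mem _ hc) (center_mem α hc)

theorem ext_F {F : Cfsg.FusionSystem S} {S₁ S₂ : Subgroup Ω} (hc : ∀ a ∈ S₁, ∀ b ∈ S₂, a * b = b * a) (hsup : S₁ ⊔ S₂ = S)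
    (h₁ : F.StronglyClosed S₁) {α : MulAut S₁} (hα : S₁.subtype.comp α.toMonoidHom ∈ F.centralizerHom S₂ S₁) :
    ∃ β ∈ F.autGroup (S₁ ⊔ centralizerIn S S₁), (∀ x : S₁, ((β (Subgroup.inclusion le_sup_left x) : ↥(S₁ ⊔ centralizerIn S S₁)) : Ω) = ((α x : S₁) : Ω)) ∧
      ∀ c : ↥(S₁ ⊔ centralizerIn S S₁), (c : Ω) ∈ centralizerIn S S₁ → (c : Ω)⁻¹ * ((β c : ↥(S₁ ⊔ centralizerIn S S₁)) : Ω) ∈ S₁ ⊓ Subgroup.centralizer (S₁ : Set Ω) := by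
  obtain ⟨-, -, -, ψ, hψ, e1, e2⟩ := hα
  have hTS : S₁ ⊔ centralizerIn S S₁ ≤ S₁ ⊔ S₂ := by
    rw [hsup]
    exact sup_le h₁.1 inf_le_left
  have hST : S ≤ S₁ ⊔ centralizerIn S S₁ := by
    intro g hg
    rw [← hsup] at hg
    exact (sup_le_sup_left (fun b hb => ⟨hsup.le ((le_sup_right : S₂ ≤ S₁ ⊔ S₂) hb), Subgroup.mem_centralizer_iff.2 fun y hy => hc y hy b hb⟩) S₁) hg
  have hTsc : F.StronglyClosed (S₁ ⊔ centralizerIn S S₁) := ⟨hTS.trans hsup.le, fun _ _ _ hφ x => hST (val_mem F hφ x)⟩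
  obtain ⟨β, hβ, eβ⟩ := aut_of hTsc (res_mem F hTS hψ)
  refine ⟨β, hβ, fun x => ?_, fun c hc' => ?_⟩
  · rw [eβ]
    exact e1 x
  · rw [eβ]
    obtain ⟨a, ha, b, hb, ec⟩ := decomp hc hsup (hTS.trans hsup.le c.2)
    have hac : a ∈ S₁ ⊓ Subgroup.centralizer (S₁ : Set Ω) := by
      refine ⟨ha, Subgroup.mem_centralizer_iff.2 fun y hy => ?_⟩
      have h1 := Subgroup.mem_centralizer_iff.1 hc'.2 y hy
      rw [← ec] at h1
      have h2 := hc y hy b hb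
      have h3 : y * a = y * (a * b) * b⁻¹ := by group
      rw [h3, h1]
      have h4 : a * b * y * b⁻¹ = a * (b * y) * b⁻¹ := by group
      rw [h4, ← h2]
      group
    have h1 : (ψ.comp (Subgroup.inclusion hTS)) c = ((α ⟨a, ha⟩ : S₁) : Ω) * b := by
      have h2 : Subgroup.inclusion hTS c = Subgroup.inclusion le_sup_left (⟨a, ha⟩ : S₁) * Subgroup.inclusion le_sup_right (⟨b, hb⟩ : S₂) :=
        Subtype.ext ec.symm
      show ψ (Subgroup.inclusion hTS c) = _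
      rw [h2, map_mul, e1, e2]
      rfl
    rw [h1, ← ec]
    have h3 := cen_inf_mem α hac
    have h4 : (a * b)⁻¹ * (((α ⟨a, ha⟩ : S₁) : Ω) * b) = b⁻¹ * ((a⁻¹ * ((α ⟨a, ha⟩ : S₁) : Ω)) * b) := by group
    rw [h4, hc _ h3.1 b hb]
    have h5 : b⁻¹ * (b * (a⁻¹ * ((α ⟨a, ha⟩ : S₁) : Ω))) = a⁻¹ * ((α ⟨a, ha⟩ : S₁) : Ω) := by group
    rw [h5]
    exact h3

theorem ext_R {R : Cfsg.FusionSystem S} {α : MulAut S} (hα : S.subtype.comp α.toMonoidHom ∈ R.Hom S) :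
    ∃ β ∈ R.autGroup (S ⊔ centralizerIn S S), (∀ x : S, ((β (Subgroup.inclusion le_sup_left x) : ↥(S ⊔ centralizerIn S S)) : Ω) = ((α x : S) : Ω)) ∧
      ∀ c : ↥(S ⊔ centralizerIn S S), (c : Ω) ∈ centralizerIn S S → (c : Ω)⁻¹ * ((β c : ↥(S ⊔ centralizerIn S S)) : Ω) ∈ S ⊓ Subgroup.centralizer (S : Set Ω) := by
  have hT : S ⊔ centralizerIn S S ≤ S := sup_le le_rfl inf_le_left
  have hTsc : R.StronglyClosed (S ⊔ centralizerIn S S) := ⟨hT, fun _ _ _ hφ x => (le_sup_left : S ≤ S ⊔ centralizerIn S S) (val_mem R hφ x)⟩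
  obtain ⟨β, hβ, eβ⟩ := aut_of hTsc (res_mem R hT hα)
  refine ⟨β, hβ, fun x => ?_, fun c hc' => ?_⟩
  · rw [eβ]
    rfl
  · rw [eβ]
    exact cen_inf_mem α hc'

end

/-- Let F be a saturated fusion system over a finite p-group S that is the direct product of two subgroups S₁ and S₂, each strongly closed in F. Let R be the full subsystem of F over S₁ (all maps of F between subgroups of S₁) and R′ the subsystem over S₁ of those maps that extend to the subgroup generated with S₂ fixing S₂ elementwise. Then R and R′ are saturated, R′ is normal in F and in R, and R is weakly normal in F. -/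
theorem result {Ω : Type*} [Group Ω] {S : Subgroup Ω} [Finite S] (p : ℕ) [Fact p.Prime] (hS : IsPGroup p S) (F : Cfsg.FusionSystem S) (hF : F.IsSaturated p) (S₁ S₂ : Subgroup Ω) (hprod : Cfsg.IsInternalDirectProduct S₁ S₂ S) (h₁ : F.StronglyClosed S₁) (h₂ : F.StronglyClosed S₂) (R R' : Cfsg.FusionSystem S₁) (hR : ∀ P : Subgroup Ω, P ≤ S₁ → R.Hom P = F.Hom P) (hR' : ∀ P : Subgroup Ω, P ≤ S₁ → R'.Hom P = F.centralizerHom S₂ P) : R.IsSaturated p ∧ R'.IsSaturated p ∧ R'.IsNormalIn F p ∧ R'.IsNormalIn R p ∧ R.IsWeaklyNormalIn F p := by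
  obtain ⟨hS1, hS2, hc, hinf, hsup⟩ := hprod
  have hRsat : R.IsSaturated p := restrict_saturated hS hF hc hsup h₁ R hR
  obtain ⟨C, hC⟩ := Cfsg.Agent.S5097.result F S₂ hS2
  haveI : Finite (centralizerIn S S₂) := finite_of_le inf_le_left
  haveI : Finite ↥(S ⊓ Subgroup.centralizer (S₂ : Set Ω)) := finite_of_le inf_le_left
  have hSN₂ : S ≤ Subgroup.normalizer (S₂ : Set Ω) := by
    intro g hg
    obtain ⟨a, ha, b, hb, rfl⟩ := decomp hc hsup hg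
    refine Subgroup.mul_mem _ ?_ (Subgroup.le_normalizer hb)
    rw [Subgroup.mem_normalizer_iff]
    intro y
    constructor
    · intro hy
      have h1 := hc a ha y hy
      have h2 : a * y * a⁻¹ = y := by
        rw [h1]
        group
      rw [h2]
      exact hy
    · intro hy
      have h1 := hc a⁻¹ (S₁.inv_mem ha) _ hy
      have h2 : y = a⁻¹ * (a * y * a⁻¹) * a := by group
      rw [h2, h1]
      have h3 : a * y * a⁻¹ * a⁻¹ * a = a * y * a⁻¹ := by group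
      rw [h3]
      exact hy
  have hFC : F.IsFullyCentralized S₂ := fullyCentralized_of_fullyNormalized hS F hF (Cfsg.Agent.Lib.FusGT.fn_of_normalized hS2 hSN₂)
  have hCsat : C.IsSaturated p := saturated_centralizer hS hF hFC hC
  have hS1C : S₁ ≤ centralizerIn S S₂ := fun x hx => ⟨hS1 hx, Subgroup.mem_centralizer_iff.2 fun y hy => (hc x hx y hy).symm⟩
  have hC1 : C.StronglyClosed S₁ := ⟨hS1C, fun Q hQ φ hφ x => by
    rw [hC Q] at hφ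
    exact h₁.2 Q hQ φ hφ.1 x⟩
  have hsup' : S₁ ⊔ (S₂ ⊓ Subgroup.centralizer (S₂ : Set Ω)) = centralizerIn S S₂ := by
    apply le_antisymm
    · exact sup_le hS1C (fun x hx => ⟨hS2 hx.1, hx.2⟩)
    · intro x hx
      obtain ⟨a, ha, b, hb, rfl⟩ := decomp hc hsup hx.1
      refine Subgroup.mul_mem _ ((le_sup_left : S₁ ≤ _) ha) ((le_sup_right : _ ≤ S₁ ⊔ (S₂ ⊓ Subgroup.centralizer (S₂ : Set Ω))) ⟨hb, ?_⟩)
      have h1 : b = a⁻¹ * (a * b) := by group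
      rw [h1]
      exact Subgroup.mul_mem _ (Subgroup.inv_mem _ (hS1C ha).2) hx.2
  have hR'sat : R'.IsSaturated p := restrict_saturated (hS.to_le inf_le_left) hCsat (S₂ := S₂ ⊓ Subgroup.centralizer (S₂ : Set Ω))
    (fun a ha b hb => hc a ha b hb.1) hsup' hC1 R' (fun P hP => by rw [hR' P hP, hC P])
  have hAut : R.autGroup S₁ = F.autGroup S₁ := by
    unfold Cfsg.FusionSystem.autGroup
    rw [hR S₁ le_rfl]
  haveI : Finite S₁ := finite_of_le hS1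
  have hsub : R'.IsSubsystemOf F := fun P φ hφ => by
    have hP := src_le R' hφ
    rw [hR' P hP] at hφ
    exact hφ.1
  have hsub' : R'.IsSubsystemOf R := fun P φ hφ => by
    have hP := src_le R' hφ
    rw [hR P hP]
    exact hsub P hφ
  have himg : ∀ (P : Subgroup Ω) (α : MulAut S₁), (P.subgroupOf S₁).map (S₁.subtype.comp α.toMonoidHom) ≤ S₁ := by
    rintro P α _ ⟨x, -, rfl⟩
    exact Subtype.coe_prop _
  have htr : ∀ (P : Subgroup Ω) (hPT : P ≤ S₁) (φ : P →* Ω), φ ∈ R'.Hom P → ∀ α ∈ F.autGroup S₁,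
      ∃ χ ∈ R'.Hom ((P.subgroupOf S₁).map (S₁.subtype.comp α.toMonoidHom)),
        ∀ (x : P) (hφx : φ x ∈ S₁)
          (hαx : ((α ⟨x, hPT x.2⟩ : S₁) : Ω) ∈ (P.subgroupOf S₁).map (S₁.subtype.comp α.toMonoidHom)),
          χ ⟨(α ⟨x, hPT x.2⟩ : S₁), hαx⟩ = ((α ⟨φ x, hφx⟩ : S₁) : Ω) := by
    intro P hP φ hφ α hα
    rw [hR' P hP] at hφ
    obtain ⟨χ, hχ, e⟩ := transp hS hF hc hsup h₁ h₂ hP hφ hα
    exact ⟨χ, by rw [hR' _ (himg P α)]; exact hχ, e⟩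
  have hfr : ∀ (P : Subgroup Ω), P ≤ S₁ → ∀ (φ : P →* Ω), φ ∈ F.Hom P →
      ∃ α ∈ F.autGroup S₁, ∃ φ₀ ∈ R'.Hom P, ∀ (x : P) (hx : φ₀ x ∈ S₁), φ x = ((α ⟨φ₀ x, hx⟩ : S₁) : Ω) := by
    intro P hP φ hφ
    obtain ⟨a, ha, φ₀, hφ₀, e⟩ := frat hS hF hc hsup hinf h₁ h₂ hP hφ
    exact ⟨a, ha, φ₀, by rw [hR' P hP]; exact hφ₀, e⟩
  refine ⟨hRsat, hR'sat, ⟨⟨hR'sat, hF, hsub, h₁, htr, hfr⟩, ?_⟩, ⟨⟨hR'sat, hRsat, hsub', ⟨le_rfl, fun _ _ _ hφ x => val_mem R hφ x⟩, ?_, ?_⟩, ?_⟩, hRsat, hF, ?_, h₁, ?_, ?_⟩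
  · intro α hα
    have h1 := (mem_autGroup_iff R' le_rfl).1 hα
    rw [hR' S₁ le_rfl] at h1
    exact ext_F hc hsup h₁ h1
  · intro P hP φ hφ α hα
    exact htr P hP φ hφ α (hAut ▸ hα)
  · intro P hP φ hφ
    rw [hR P hP] at hφ
    obtain ⟨a, ha, φ₀, hφ₀, e⟩ := hfr P hP φ hφ
    exact ⟨a, hAut.symm ▸ ha, φ₀, hφ₀, e⟩
  · intro α hα
    have h1 := (mem_autGroup_iff R' le_rfl).1 hα
    exact ext_R (hsub' _ h1)
  · intro P φ hφ
    have hP := src_le R hφ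
    rw [hR P hP] at hφ
    exact hφ
  · intro P hP φ hφ α hα
    rw [hR P hP] at hφ
    obtain ⟨χ, hχ, e⟩ := transR hS hF hc hsup h₁ hP hφ hα
    exact ⟨χ, by rw [hR _ (himg P α)]; exact hχ, e⟩
  · intro P hP φ hφ
    have h1 : (1 : MulAut S₁) ∈ F.autGroup S₁ := Subgroup.one_mem _
    refine ⟨1, h1, φ, by rw [hR P hP]; exact hφ, fun x hx => rfl⟩


end Cfsg.Agent.S5130
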