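import Cfsg.Statements.S5139
import Mathlib
import Cfsg.Agent.Lib.FusFrat
import Cfsg.Agent.S5118

set_option autoImplicit false
open Cfsg

namespace Cfsg.Agent.S5139


open Cfsg.FusionSystem Cfsg.Agent.Lib.FusBasic Cfsg.Agent.Lib.FusAut Cfsg.Agent.Lib.FusSat Cfsg.Agent.Lib.FusAlp Cfsg.Agent.Lib.FusHyp Cfsg.Agent.Lib.FusFrat

theorem key {G : Type*} [Group G] [Finite G] {p : ℕ} [Fact p.Prime] (S : Sylow p G) {P : Subgroup G} (hP : P ≤ (S : Subgroup G))
    {α : ↥((groupFusionSystem (S : Subgroup G)).autGroup P)} (hα : α ∈ pResidual p ((groupFusionSystem (S : Subgroup G)).autGroup P)) :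
    ∃ g ∈ pResidual p G, ∀ y : P, (((α : MulAut P) y : P) : G) = g * y * g⁻¹ := by
  have hp : p.Prime := Fact.out
  have hα' : α ∈ Subgroup.closure {g : (groupFusionSystem (S : Subgroup G)).autGroup P | Nat.Coprime (orderOf g) p} := hα
  refine Subgroup.closure_induction (p := fun (a : (groupFusionSystem (S : Subgroup G)).autGroup P) _ =>
    ∃ g ∈ pResidual p G, ∀ y : P, (((a : MulAut P) y : P) : G) = g * y * g⁻¹) ?_ ?_ ?_ ?_ hα'
  · intro a ha
    have ha' : Nat.Coprime (orderOf a) p := ha
    have hm : ((a : MulAut P)) ∈ autInducedBy ⊤ P := by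
      rw [← Cfsg.Agent.Lib.FusGroup.autGroup_eq hP]
      exact a.2
    obtain ⟨g, -, hg⟩ := mem_autInducedBy'.1 hm
    have hpow : ∀ (n : ℕ) (y : P), ((((a : MulAut P) ^ n) y : P) : G) = g ^ n * y * (g ^ n)⁻¹ := by
      intro n
      induction n with
      | zero => intro y; simp
      | succ n ih =>
        intro y
        rw [pow_succ, MulAut.mul_apply, ih, hg, pow_succ]
        group
    by_cases hm1 : orderOf a = 1
    · rw [orderOf_eq_one_iff] at hm1
      exact ⟨1, Subgroup.one_mem _, fun y => by rw [hm1]; simp⟩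
    have hm2 : 1 < orderOf a := by
      have := orderOf_pos a
      omega
    obtain ⟨k, b, hb, he⟩ := Nat.exists_eq_pow_mul_and_not_dvd (orderOf_pos g).ne' p hp.ne_one
    have hco : (p ^ k).Coprime (orderOf a) := (Nat.Coprime.pow_right k ha').symm
    obtain ⟨t, -, ht⟩ := Nat.exists_mul_mod_eq_one_of_coprime hco hm2
    refine ⟨g ^ (p ^ k * t), Subgroup.subset_closure ?_, fun y => ?_⟩
    · have h1 : (g ^ (p ^ k * t)) ^ b = 1 := by
        rw [← pow_mul]
        have : p ^ k * t * b = orderOf g * t := by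
          rw [he]
          ring
        rw [this, pow_mul, pow_orderOf_eq_one, one_pow]
      have h2 := orderOf_dvd_of_pow_eq_one h1
      exact Nat.Coprime.coprime_dvd_left h2 ((Nat.Prime.coprime_iff_not_dvd hp).2 hb).symm
    · have h3 := hpow (p ^ k * t) y
      have h4 : ((a : MulAut P) ^ (p ^ k * t)) = (a : MulAut P) := by
        have h5 := pow_mod_orderOf a (p ^ k * t)
        rw [ht, pow_one] at h5
        have h6 := congrArg Subtype.val h5
        simpa using h6.symm
      rw [h4] at h3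
      exact h3
  · exact ⟨1, Subgroup.one_mem _, fun y => by simp⟩
  · rintro a b - - ⟨g₁, h₁, e₁⟩ ⟨g₂, h₂, e₂⟩
    refine ⟨g₁ * g₂, Subgroup.mul_mem _ h₁ h₂, fun y => ?_⟩
    show (((a : MulAut P) ((b : MulAut P) y) : P) : G) = _
    rw [e₁, e₂]
    group
  · rintro a - ⟨g, h, e⟩
    refine ⟨g⁻¹, Subgroup.inv_mem _ h, fun y => ?_⟩
    have h3 : (a : MulAut P) (((a⁻¹ : (groupFusionSystem (S : Subgroup G)).autGroup P) : MulAut P) y) = y := by
      show (a : MulAut P) ((a : MulAut P)⁻¹ y) = y
      simp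
    have h4 := e (((a⁻¹ : (groupFusionSystem (S : Subgroup G)).autGroup P) : MulAut P) y)
    rw [h3] at h4
    rw [h4]
    group

/-- Let G be a finite group with Sylow p-subgroup S and O^p(G) the subgroup generated by the elements of order prime to p. Then the p-residual subsystem of the fusion system of G on S — the saturated subsystem of p-power index over the hyperfocal subgroup — is the fusion system of O^p(G) on S ∩ O^p(G): its maps are exactly the conjugation maps by elements of O^p(G) between subgroups of S ∩ O^p(G). -/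
theorem result {G : Type*} [Group G] [Finite G] (p : ℕ) [Fact p.Prime] (S : Sylow p G) (E : Cfsg.FusionSystem ((Cfsg.groupFusionSystem (S : Subgroup G)).hyperfocalSubgroup p)) (hE : (Cfsg.groupFusionSystem (S : Subgroup G)).IsPResidual p E) : ∃ h : (S : Subgroup G) ⊓ Cfsg.pResidual p G ≤ Cfsg.pResidual p G, ∀ P : Subgroup G, E.Hom P = (Cfsg.fusionSystemOfSubgroup (Cfsg.pResidual p G) ((S : Subgroup G) ⊓ Cfsg.pResidual p G) h).Hom P := by
  haveI hHn : (Cfsg.pResidual p G).Normal := Cfsg.Agent.Lib.PNilp.pResidual_normal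
  have hSp : IsPGroup p (S : Subgroup G) := S.isPGroup'
  have hD := Cfsg.Agent.S5118.result p S (Cfsg.pResidual p G)
  have hT := hyper_group S
  have hDsat := hD.1.1
  have hDsub := hD.1.2.2.1
  have hle1 : E.IsSubsystemOf (Cfsg.fusionSystemOfSubgroup (Cfsg.pResidual p G) ((S : Subgroup G) ⊓ Cfsg.pResidual p G) inf_le_right) := by
    refine le_of_ppower hSp hE.1 hE.2.1 (hyper_le _ p) hT.le ⟨hDsub, hT.le, fun P hP => ?_⟩
    rintro _ ⟨α, hα, rfl⟩
    obtain ⟨g, hg, e⟩ := key S (hP.trans inf_le_left) hα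
    apply mem_autGroup_of
    refine ⟨hP, fun x => hP (Subtype.coe_prop _), g, hg, fun x => e x⟩
  have hle2 := le_of_ppower hSp hDsat hDsub inf_le_left hT.ge hE.2
  exact ⟨inf_le_right, fun P => le_antisymm (hle1 P) (hle2 P)⟩

end Cfsg.Agent.S5139
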