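import Cfsg.Statements.S5147
import Mathlib
import Cfsg.Agent.Lib.FusConstr3

set_option autoImplicit false
open Cfsg

namespace Cfsg.Agent.S5147


/-- Let G be a finite group with Sylow 2-subgroup S whose 2-fusion system on S is constrained, and L a component of G (a subnormal quasisimple subgroup). Then the 2-fusion system of L/Z(L) on the image of S ∩ L is constrained. -/
theorem result {G : Type*} [Group G] [Finite G] (S : Sylow 2 G) (hF : (Cfsg.groupFusionSystem (S : Subgroup G)).IsConstrained 2) (L : Subgroup G) (hL : Cfsg.IsComponent L) : (Cfsg.groupFusionSystem (((S : Subgroup G).subgroupOf L).map (QuotientGroup.mk' (Subgroup.center L)))).IsConstrained 2 := by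
  classical
  have hSp := S.isPGroup'
  have h0 := Cfsg.Agent.Lib.FusConstr.constrained_top hF hSp
  have hA₀ : Cfsg.Agent.Lib.FusGroup.IsSylowSub 2 ((S : Subgroup G) ⊓ ⊤) ⊤ := by
    refine Cfsg.Agent.Lib.FusGroup.isSylowSub_of_card inf_le_right (hSp.to_le inf_le_left) (fun B _ hBp => ?_)
    obtain ⟨g, hg⟩ := Cfsg.Agent.Lib.SylowTools.exists_conj_le_sylow S hBp
    rw [← Cfsg.Agent.Lib.SylowTools.card_map_conj B g, inf_top_eq]
    exact Subgroup.card_le_of_le hg
  obtain ⟨h1, R, hR⟩ := Cfsg.Agent.Lib.FusConstr.constrained_subnormal S hSp hA₀ h0 hL.1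
  have h2 := Cfsg.Agent.Lib.FusConstr.constrained_final hSp h1
  have hR' : (R : Subgroup L) = (S : Subgroup G).subgroupOf L := by
    rw [hR]
    ext x
    exact ⟨fun h => h.1, fun h => ⟨h, x.2⟩⟩
  rw [← hR'] at h2 ⊢
  exact Cfsg.Agent.Lib.FusConstr.constrained_center_quot R h2


end Cfsg.Agent.S5147
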