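import Cfsg.Statements.S5160
import Mathlib
import Cfsg.Agent.Lib.FusSimple

set_option autoImplicit false
open Cfsg

namespace Cfsg.Agent.S5160

open Cfsg.Agent.Lib.FusSimple Cfsg.Agent.Lib.FusBasic Cfsg.Agent.Lib.FusAut Cfsg.Agent.Lib.FusSat Cfsg.Agent.Lib.FusAlp

/-- Let G be a finite group with nontrivial Sylow p-subgroup S and F its fusion system on S. Suppose (a) no nontrivial proper subgroup of S is strongly closed in F, and (b) the automorphisms of S induced by G are generated by those induced, for R running over the fully normalized radical centric subgroups of F, by the subgroup of N_G(R) generated by its elements of p-power order. Then F is simple. -/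
theorem result {G : Type*} [Group G] [Finite G] (p : ℕ) [Fact p.Prime] (S : Sylow p G) (hS1 : (S : Subgroup G) ≠ ⊥) (ha : ∀ T : Subgroup G, (Cfsg.groupFusionSystem (S : Subgroup G)).StronglyClosed T → T = ⊥ ∨ T = (S : Subgroup G)) (hb : Cfsg.autInducedBy ⊤ (S : Subgroup G) = ⨆ (R : Subgroup G) (_ : (Cfsg.groupFusionSystem (S : Subgroup G)).IsFullyNormalized R ∧ (Cfsg.groupFusionSystem (S : Subgroup G)).IsRadical p R ∧ (Cfsg.groupFusionSystem (S : Subgroup G)).IsCentric R), Cfsg.autInducedBy (Subgroup.closure {g : G | g ∈ Subgroup.normalizer (R : Set G) ∧ ∃ k : ℕ, orderOf g = p ^ k}) (S : Subgroup G)) : (Cfsg.groupFusionSystem (S : Subgroup G)).IsSimple p := by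
  have hF := Cfsg.Agent.Lib.FusGroup.saturated S
  have hSp : IsPGroup p (S : Subgroup G) := S.isPGroup'
  refine isSimple_of_aut_le _ hF hS1 ha (fun E hE => ?_)
  have hinv := hE.1.2.2
  have hEs := hE.1.1
  rw [Cfsg.Agent.Lib.FusGroup.autGroup_eq le_rfl, hb]
  refine iSup₂_le (fun R hR => ?_)
  intro α hα
  obtain ⟨g, hgK, hαg⟩ := mem_autInducedBy'.1 hα
  obtain ⟨hFN, hRad, hcent⟩ := hR
  have hRS := hcent.1
  haveI : Finite R := Cfsg.Agent.Lib.FusBasic.finite_of_le hRS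
  have key : ∃ h : g ∈ Subgroup.normalizer (R : Set G), cAut R ⟨g, h⟩ ∈ E.autGroup R := by
    refine Subgroup.closure_induction (p := fun g _ => ∃ h : g ∈ Subgroup.normalizer (R : Set G), cAut R ⟨g, h⟩ ∈ E.autGroup R) ?_ ?_ ?_ ?_ hgK
    · rintro a ⟨han, k, hk⟩
      refine ⟨han, ?_⟩
      have hFm : cAut R ⟨a, han⟩ ∈ (Cfsg.groupFusionSystem (S : Subgroup G)).autGroup R := by
        rw [Cfsg.Agent.Lib.FusGroup.autGroup_eq hRS]
        exact mem_autInducedBy'.2 ⟨a, trivial, fun x => rfl⟩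
      have hpow : (⟨a, han⟩ : Subgroup.normalizer (R : Set G)) ^ p ^ k = 1 := by
        apply Subtype.ext
        show a ^ p ^ k = 1
        rw [← hk]
        exact pow_orderOf_eq_one a
      have hk' : (cAut R ⟨a, han⟩) ^ p ^ k = 1 := by
        rw [← map_pow, hpow, map_one]
      exact pElement_mem hSp _ E hF hinv hRS hFm hk'
    · refine ⟨Subgroup.one_mem _, ?_⟩
      have : cAut R ⟨1, Subgroup.one_mem _⟩ = 1 := map_one (cAut R)
      rw [this]
      exact Subgroup.one_mem _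
    · rintro a b _ _ ⟨ha', hac⟩ ⟨hb', hbc⟩
      refine ⟨Subgroup.mul_mem _ ha' hb', ?_⟩
      have : cAut R ⟨a * b, Subgroup.mul_mem _ ha' hb'⟩ = cAut R ⟨a, ha'⟩ * cAut R ⟨b, hb'⟩ :=
        map_mul (cAut R) ⟨a, ha'⟩ ⟨b, hb'⟩
      rw [this]
      exact Subgroup.mul_mem _ hac hbc
    · rintro a _ ⟨ha', hac⟩
      refine ⟨Subgroup.inv_mem _ ha', ?_⟩
      have : cAut R ⟨a⁻¹, Subgroup.inv_mem _ ha'⟩ = (cAut R ⟨a, ha'⟩)⁻¹ := map_inv (cAut R) ⟨a, ha'⟩
      rw [this]
      exact Subgroup.inv_mem _ hac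
  obtain ⟨hn, hc⟩ := key
  have hδ : α ∈ (Cfsg.groupFusionSystem (S : Subgroup G)).autGroup (S : Subgroup G) := by
    rw [Cfsg.Agent.Lib.FusGroup.autGroup_eq le_rfl]
    exact mem_autInducedBy'.2 ⟨g, trivial, hαg⟩
  refine mem_autGroup_of_restrict hSp _ E hF hinv hEs hδ _ R rfl hcent (R.subtype.comp (cAut R ⟨g, hn⟩).toMonoidHom)
    ((mem_autGroup_iff E hRS).1 hc) (fun x hx hxS => ?_)
  exact (hαg ⟨x, hxS⟩).symm


end Cfsg.Agent.S5160
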