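import Cfsg.Statements.S5164
import Mathlib
import Cfsg.Agent.Lib.FusSat
import Cfsg.Agent.Lib.PNilp

set_option autoImplicit false
open Cfsg

namespace Cfsg.Agent.S5164


open Equiv.Perm in
/-- a `p`-group of permutations of fewer than `p²` points is abelian -/
theorem comm_of_small {α : Type*} [Fintype α] {p : ℕ} [Fact p.Prime] (K : Subgroup (Equiv.Perm α)) (hK : IsPGroup p K) (hn : Fintype.card α < p ^ 2) (x y : K) : x * y = y * x := by
  classical
  have hP : p.Prime := Fact.out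
  apply Subtype.ext
  ext i
  obtain ⟨a, ha⟩ := hK.card_orbit i
  have hle : Nat.card (MulAction.orbit K i) ≤ Fintype.card α := by
    rw [← Nat.card_eq_fintype_card]
    exact Finite.card_subtype_le _
  have ha1 : a ≤ 1 := by
    by_contra hlt
    have h2 : p ^ 2 ≤ p ^ a := Nat.pow_le_pow_right hP.pos (by omega)
    rw [ha] at hle
    omega
  let ρ : K →* Equiv.Perm (MulAction.orbit K i) := MulAction.toPermHom K (MulAction.orbit K i)
  have hρp : IsPGroup p ρ.range := hK.of_surjective ρ.rangeRestrict ρ.rangeRestrict_surjective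
  obtain ⟨b, hb⟩ := IsPGroup.iff_card.1 hρp
  have hdvd : Nat.card ρ.range ∣ (p ^ a).factorial := by
    rw [← ha, ← Nat.card_perm]
    exact Subgroup.card_subgroup_dvd_card _
  have hcard : Nat.card ρ.range ∣ p := by
    rw [hb] at hdvd ⊢
    have hb1 : b ≤ 1 := by
      by_contra hlt
      have h3 : p ^ 2 ∣ (p ^ a).factorial := (pow_dvd_pow p (by omega)).trans hdvd
      have h4 : (p ^ a).factorial ∣ p.factorial := by
        apply Nat.factorial_dvd_factorial
        calc p ^ a ≤ p ^ 1 := Nat.pow_le_pow_right hP.pos ha1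
          _ = p := pow_one p
      have h5 := h3.trans h4
      have h6 : p.factorial = p * (p - 1).factorial := (Nat.mul_factorial_pred hP.ne_zero).symm
      rw [h6, pow_two] at h5
      have h7 := Nat.dvd_of_mul_dvd_mul_left hP.pos h5
      have h8 := (hP.dvd_factorial).1 h7
      have := hP.pos
      omega
    exact (pow_dvd_pow p hb1).trans (by rw [pow_one])
  haveI : IsCyclic ρ.range := isCyclic_of_card_dvd_prime hcard
  obtain ⟨g, hg⟩ := IsCyclic.exists_generator (α := ρ.range)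
  have hcomm : ∀ u v : ρ.range, u * v = v * u := by
    intro u v
    obtain ⟨k, rfl⟩ := Subgroup.mem_zpowers_iff.1 (hg u)
    obtain ⟨l, rfl⟩ := Subgroup.mem_zpowers_iff.1 (hg v)
    exact ((Commute.refl g).zpow_zpow k l).eq
  have h1 : ρ x * ρ y = ρ y * ρ x := congrArg Subtype.val (hcomm ⟨ρ x, x, rfl⟩ ⟨ρ y, y, rfl⟩)
  have h2 := congrArg (fun f : Equiv.Perm (MulAction.orbit K i) => ((f ⟨i, MulAction.mem_orbit_self i⟩ : MulAction.orbit K i) : α)) h1
  exact h2

variable {n : ℕ}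

/-- a non-abelian `p`-subgroup prevents the Sylow subgroup from being abelian -/
theorem not_comm_of {p : ℕ} [Fact p.Prime] (S : Sylow p (alternatingGroup (Fin n))) (H : Subgroup (Equiv.Perm (Fin n))) (hHp : IsPGroup p H) (hHA : H ≤ alternatingGroup (Fin n))
    {X Y : Equiv.Perm (Fin n)} (hX : X ∈ H) (hY : Y ∈ H) (hXY : X * Y ≠ Y * X) : ¬ IsMulCommutative S := by
  classical
  intro hc
  have h1 : IsPGroup p (H.subgroupOf (alternatingGroup (Fin n))) := hHp.comap_of_injective _ (Subgroup.subtype_injective _ |>.comp (fun _ _ h => h))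
  obtain ⟨P, hP⟩ := h1.exists_le_sylow
  obtain ⟨g, hg⟩ := MulAction.exists_smul_eq (alternatingGroup (Fin n)) P S
  set G : Equiv.Perm (Fin n) := g.1 with hG
  have hmem : ∀ u ∈ H, ∃ v : S, ((v : alternatingGroup (Fin n)) : Equiv.Perm (Fin n)) = G * u * G⁻¹ := by
    intro u hu
    have h2 : (⟨u, hHA hu⟩ : alternatingGroup (Fin n)) ∈ (P : Subgroup _) := hP (Subgroup.mem_subgroupOf.2 hu)
    have h3 : g * ⟨u, hHA hu⟩ * g⁻¹ ∈ (g • P : Sylow p _) := by
      refine Cfsg.Agent.Lib.PNilp.mem_smul_sylow.2 ?_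
      have e : g⁻¹ * (g * ⟨u, hHA hu⟩ * g⁻¹) * g = ⟨u, hHA hu⟩ := by group
      rw [e]
      exact h2
    rw [hg] at h3
    exact ⟨⟨_, h3⟩, rfl⟩
  obtain ⟨v₁, e₁⟩ := hmem X hX
  obtain ⟨v₂, e₂⟩ := hmem Y hY
  have h4 : v₁ * v₂ = v₂ * v₁ := hc.is_comm.comm v₁ v₂
  have h5 : ((v₁ * v₂ : S) : alternatingGroup (Fin n)) = ((v₂ * v₁ : S) : alternatingGroup (Fin n)) := congrArg Subtype.val h4
  have h6 : ((v₁ : alternatingGroup (Fin n)) : Equiv.Perm (Fin n)) * (v₂ : alternatingGroup (Fin n)) = ((v₂ : alternatingGroup (Fin n)) : Equiv.Perm (Fin n)) * (v₁ : alternatingGroup (Fin n)) := congrArg Subtype.val h5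
  rw [e₁, e₂] at h6
  apply hXY
  have h7 : G⁻¹ * ((G * X * G⁻¹) * (G * Y * G⁻¹)) * G = G⁻¹ * ((G * Y * G⁻¹) * (G * X * G⁻¹)) * G := by rw [h6]
  have e8 : G⁻¹ * ((G * X * G⁻¹) * (G * Y * G⁻¹)) * G = X * Y := by group
  have e9 : G⁻¹ * ((G * Y * G⁻¹) * (G * X * G⁻¹)) * G = Y * X := by group
  rwa [e8, e9] at h7

theorem pz {G : Type*} [Group G] {p : ℕ} {x : G} (k : ℕ) (h : x ^ p ^ k = 1) : IsPGroup p (Subgroup.zpowers x) := by
  rintro ⟨_, i, rfl⟩
  refine ⟨k, Subtype.ext ?_⟩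
  show (x ^ i) ^ p ^ k = 1
  rw [← zpow_natCast, ← zpow_mul, mul_comm, zpow_mul, zpow_natCast, h, one_zpow]

section two

/-- two explicit elements of `A₆` -/
def x0 : Equiv.Perm (Fin 6) := Equiv.swap 0 1 * Equiv.swap 1 2 * Equiv.swap 2 3 * Equiv.swap 4 5
def y0 : Equiv.Perm (Fin 6) := Equiv.swap 0 2 * Equiv.swap 4 5

theorem x0_sign : Equiv.Perm.sign x0 = 1 := by
  simp only [x0, map_mul]
  rw [Equiv.Perm.sign_swap (by decide), Equiv.Perm.sign_swap (by decide), Equiv.Perm.sign_swap (by decide), Equiv.Perm.sign_swap (by decide)]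
  decide

theorem y0_sign : Equiv.Perm.sign y0 = 1 := by
  simp only [y0, map_mul]
  rw [Equiv.Perm.sign_swap (by decide), Equiv.Perm.sign_swap (by decide)]
  decide

theorem x0_four : x0 ^ (2 ^ 2) = 1 := by decide
theorem y0_two : y0 ^ (2 ^ 1) = 1 := by decide
theorem y0_conj : y0 * x0 * y0⁻¹ = x0⁻¹ := by decide
theorem x0y0_ne : x0 * y0 ≠ y0 * x0 := by decide

theorem two_case (hn : 6 ≤ n) : ∃ H : Subgroup (Equiv.Perm (Fin n)), IsPGroup 2 H ∧ H ≤ alternatingGroup (Fin n) ∧ ∃ X ∈ H, ∃ Y ∈ H, X * Y ≠ Y * X := by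
  classical
  let ψ : Equiv.Perm (Fin 6) →* Equiv.Perm (Fin n) := Equiv.Perm.viaEmbeddingHom (Fin.castLEEmb hn)
  have hψ : Function.Injective ψ := Equiv.Perm.viaEmbeddingHom_injective _
  have h1 : IsPGroup 2 (Subgroup.zpowers x0) := by
    exact pz 2 x0_four
  have h2 : IsPGroup 2 (Subgroup.zpowers y0) := by
    exact pz 1 y0_two
  have hN : y0 ∈ Subgroup.normalizer ((Subgroup.zpowers x0 : Subgroup _) : Set (Equiv.Perm (Fin 6))) := by
    apply Cfsg.Agent.Lib.FusSat.mem_normalizer_of_conj_le'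
    rintro _ ⟨k, rfl⟩
    show y0 * x0 ^ k * y0⁻¹ ∈ _
    rw [← conj_zpow, y0_conj]
    exact Subgroup.zpow_mem _ (Subgroup.inv_mem _ (Subgroup.mem_zpowers _)) k
  have h3 := IsPGroup.to_sup_of_normal_left' h1 h2 (Subgroup.zpowers_le.2 hN)
  refine ⟨(Subgroup.zpowers x0 ⊔ Subgroup.zpowers y0).map ψ, h3.map ψ, ?_, ψ x0, ⟨x0, Subgroup.mem_sup_left (Subgroup.mem_zpowers _), rfl⟩,
    ψ y0, ⟨y0, Subgroup.mem_sup_right (Subgroup.mem_zpowers _), rfl⟩, ?_⟩
  · rintro _ ⟨g, hg, rfl⟩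
    apply Equiv.Perm.mem_alternatingGroup.2
    have h4 : g ∈ alternatingGroup (Fin 6) := by
      have h5 : Subgroup.zpowers x0 ⊔ Subgroup.zpowers y0 ≤ alternatingGroup (Fin 6) :=
        sup_le (Subgroup.zpowers_le.2 (Equiv.Perm.mem_alternatingGroup.2 x0_sign)) (Subgroup.zpowers_le.2 (Equiv.Perm.mem_alternatingGroup.2 y0_sign))
      exact h5 hg
    have h6 : Equiv.Perm.sign (ψ g) = Equiv.Perm.sign g := by
      simp only [ψ, Equiv.Perm.viaEmbeddingHom_apply, Equiv.Perm.viaEmbedding]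
      convert Equiv.Perm.sign_extendDomain g _
    rw [h6]
    exact Equiv.Perm.mem_alternatingGroup.1 h4
  · intro e
    apply x0y0_ne
    apply hψ
    rw [map_mul, map_mul]
    exact e

end two

section odd

variable {p : ℕ} [hp : Fact p.Prime]

/-- the shift by `f` in the second coordinate -/
def shiftP (f : ZMod p → ZMod p) : Equiv.Perm (ZMod p × ZMod p) where
  toFun x := (x.1, x.2 + f x.1)
  invFun x := (x.1, x.2 - f x.1)
  left_inv x := by simp
  right_inv x := by simp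

def rowP : Equiv.Perm (ZMod p × ZMod p) where
  toFun x := (x.1 + 1, x.2)
  invFun x := (x.1 - 1, x.2)
  left_inv x := by simp
  right_inv x := by simp

theorem shift_pow (f : ZMod p → ZMod p) (k : ℕ) (x : ZMod p × ZMod p) : ((shiftP f) ^ k) x = (x.1, x.2 + k * f x.1) := by
  induction k with
  | zero => simp
  | succ k ih =>
    rw [pow_succ']
    show shiftP f ((shiftP f ^ k) x) = _
    rw [ih]
    show (x.1, x.2 + k * f x.1 + f x.1) = _
    push_cast
    congr 1
    ring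

theorem row_pow (k : ℕ) (x : ZMod p × ZMod p) : ((rowP (p := p)) ^ k) x = (x.1 + k, x.2) := by
  induction k with
  | zero => simp
  | succ k ih =>
    rw [pow_succ']
    show rowP ((rowP ^ k) x) = _
    rw [ih]
    show (x.1 + k + 1, x.2) = _
    push_cast
    congr 1
    ring

theorem odd_case (hp2 : p ≠ 2) (hn : p ^ 2 ≤ n) : ∃ H : Subgroup (Equiv.Perm (Fin n)), IsPGroup p H ∧ H ≤ alternatingGroup (Fin n) ∧ ∃ X ∈ H, ∃ Y ∈ H, X * Y ≠ Y * X := by
  classical
  have hP : p.Prime := Fact.out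
  haveI : NeZero p := ⟨hP.ne_zero⟩
  have hcard : Fintype.card (ZMod p × ZMod p) ≤ Fintype.card (Fin n) := by
    rw [Fintype.card_prod, ZMod.card, Fintype.card_fin]
    rw [← pow_two]
    exact hn
  obtain ⟨ι⟩ := Function.Embedding.nonempty_of_card_le hcard
  let ψ : Equiv.Perm (ZMod p × ZMod p) →* Equiv.Perm (Fin n) := Equiv.Perm.viaEmbeddingHom ι
  have hψ : Function.Injective ψ := Equiv.Perm.viaEmbeddingHom_injective _
  let B : Subgroup (Equiv.Perm (ZMod p × ZMod p)) :=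
    { carrier := {σ | ∃ f, σ = shiftP f}
      one_mem' := ⟨0, by ext x <;> simp [shiftP]⟩
      mul_mem' := by
        rintro _ _ ⟨f, rfl⟩ ⟨g, rfl⟩
        refine ⟨f + g, ?_⟩
        ext x
        · rfl
        · show x.2 + g x.1 + f x.1 = x.2 + (f + g) x.1
          simp only [Pi.add_apply]
          ring
      inv_mem' := by
        rintro _ ⟨f, rfl⟩
        refine ⟨-f, ?_⟩
        ext x
        · rfl
        · show x.2 - f x.1 = x.2 + (-f) x.1
          simp only [Pi.neg_apply]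
          ring }
  have hB : IsPGroup p B := by
    rintro ⟨_, f, rfl⟩
    refine ⟨1, ?_⟩
    apply Subtype.ext
    ext x
    · show (((shiftP f) ^ (p ^ 1)) x).1 = x.1
      rw [shift_pow]
    · show (((shiftP f) ^ (p ^ 1)) x).2 = x.2
      rw [shift_pow, pow_one]
      simp
  have hY : IsPGroup p (Subgroup.zpowers (rowP (p := p))) := by
    apply pz 1
    ext x
    · show (((rowP (p := p)) ^ (p ^ 1)) x).1 = x.1
      rw [row_pow, pow_one]
      simp
    · show (((rowP (p := p)) ^ (p ^ 1)) x).2 = x.2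
      rw [row_pow]
  have hN : rowP ∈ Subgroup.normalizer ((B : Subgroup _) : Set (Equiv.Perm (ZMod p × ZMod p))) := by
    apply Cfsg.Agent.Lib.FusSat.mem_normalizer_of_conj_le'
    rintro _ ⟨f, rfl⟩
    refine ⟨fun i => f (i - 1), ?_⟩
    ext x
    · show (x.1 - 1 + 1) = x.1
      ring
    · rfl
  have h3 := IsPGroup.to_sup_of_normal_left' hB hY (Subgroup.zpowers_le.2 hN)
  let δ : ZMod p → ZMod p := fun i => if i = 0 then 1 else 0
  have hm1 : (-1 : ZMod p) ≠ 0 := by
    intro e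
    haveI : Fact (1 < p) := ⟨hP.one_lt⟩
    exact one_ne_zero (neg_eq_zero.1 e)
  refine ⟨(B ⊔ Subgroup.zpowers rowP).map ψ, h3.map ψ, ?_, ψ (shiftP δ), ⟨shiftP δ, Subgroup.mem_sup_left ⟨δ, rfl⟩, rfl⟩,
    ψ rowP, ⟨rowP, Subgroup.mem_sup_right (Subgroup.mem_zpowers _), rfl⟩, ?_⟩
  · intro g hg
    have hgp : IsPGroup p ((B ⊔ Subgroup.zpowers rowP).map ψ) := h3.map ψ
    obtain ⟨k, hk⟩ := hgp ⟨g, hg⟩
    have hk' : g ^ p ^ k = 1 := congrArg Subtype.val hk
    apply Equiv.Perm.mem_alternatingGroup.2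
    have h5 : Equiv.Perm.sign g ^ p ^ k = 1 := by
      rw [← map_pow, hk', map_one]
    have hodd : Odd (p ^ k) := (hP.odd_of_ne_two hp2).pow
    rcases Int.units_eq_one_or (Equiv.Perm.sign g) with h6 | h6
    · exact h6
    · rw [h6, hodd.neg_one_pow] at h5
      exact absurd h5 (by decide)
  · intro e
    have e1 : shiftP δ * rowP = rowP * shiftP δ := hψ (by rw [map_mul, map_mul]; exact e)
    have e2 := congrArg (fun f : Equiv.Perm (ZMod p × ZMod p) => (f (-1, 0)).2) e1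
    have e3 : (shiftP δ * rowP : Equiv.Perm (ZMod p × ZMod p)) (-1, 0) = (0, 1) := by
      show (-1 + 1 , 0 + δ (-1 + 1)) = ((0 : ZMod p), (1 : ZMod p))
      simp [δ]
    have e4 : (rowP * shiftP δ : Equiv.Perm (ZMod p × ZMod p)) (-1, 0) = (0, 0) := by
      show (-1 + 1, 0 + δ (-1)) = ((0 : ZMod p), (0 : ZMod p))
      simp [δ, hm1]
    simp only [e3, e4] at e2
    haveI : Fact (1 < p) := ⟨hP.one_lt⟩
    exact one_ne_zero e2

end odd

/-- For n ≥ 6 and a prime p, a nontrivial Sylow p-subgroup of the alternating group of degree n is abelian if and only if n < p². -/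
theorem result (n p : ℕ) (hn : 6 ≤ n) [Fact p.Prime] (S : Sylow p (alternatingGroup (Fin n))) (hS : (S : Subgroup (alternatingGroup (Fin n))) ≠ ⊥) : IsMulCommutative S ↔ n < p ^ 2 := by
  classical
  have hP : p.Prime := Fact.out
  constructor
  · intro hc
    by_contra hlt
    have hle : p ^ 2 ≤ n := not_lt.1 hlt
    by_cases hp2 : p = 2
    · subst hp2
      obtain ⟨H, hHp, hHA, X, hX, Y, hY, hXY⟩ := two_case hn
      exact not_comm_of S H hHp hHA hX hY hXY hc
    · obtain ⟨H, hHp, hHA, X, hX, Y, hY, hXY⟩ := odd_case hp2 hle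
      exact not_comm_of S H hHp hHA hX hY hXY hc
  · intro hlt
    have hK : IsPGroup p ((S : Subgroup (alternatingGroup (Fin n))).map (alternatingGroup (Fin n)).subtype) := S.2.map _
    refine ⟨⟨fun a b => Subtype.ext (Subtype.ext ?_)⟩⟩
    have h1 := comm_of_small _ hK (by rw [Fintype.card_fin]; exact hlt) ⟨(a : alternatingGroup (Fin n)), ⟨a, a.2, rfl⟩⟩ ⟨(b : alternatingGroup (Fin n)), ⟨b, b.2, rfl⟩⟩
    have h2 := congrArg Subtype.val h1
    exact h2

end Cfsg.Agent.S5164
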