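import Cfsg.Statements.S5166
import Mathlib
import Cfsg.Agent.Lib.MathFus11

set_option autoImplicit false
open Cfsg

namespace Cfsg.Agent.S5166

open Cfsg.Agent.Lib.GolayBasic Cfsg.Agent.Lib.GolayCode Cfsg.Agent.Lib.GolayPerm Cfsg.Agent.Lib.MathFus Cfsg.Agent.Lib.MathFus.Cert Cfsg.Agent.Lib.GolayM12 Cfsg.Agent.Lib.GolayOut

open Cfsg.Agent.Lib.MathFus11

/-- membership test -/
def inH (pp : ℕ) : Bool := and (inH12 pp) (Nat.beq (ap pp 0) 0)

/-- steps -/
def steps : List (List ℕ × ℕ × ℕ) := [([], 16, 16), ([], 8, 8), ([8], 9, 9), ([], 1, 1)]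

theorem check : C11.allOK inH D0 [0] steps = true := by decide +kernel

theorem hmem {g : Equiv.Perm GolayPt} (hg : g ∈ Cfsg.Spor.M11) : g ∈ H12 ∧ g (ptOf 0) = ptOf 0 := by
  rw [M11_eq] at hg
  exact mem_F1.1 hg


/-- The 2-fusion system of the Mathieu group M₁₁ (as the explicit permutation group carved out of the automorphism group of the binary Golay code) on a Sylow 2-subgroup is simple: saturated, over a nontrivial 2-group, with no normal subsystem other than the trivial one and itself. -/
theorem result (S : Sylow 2 Cfsg.Spor.M11) : (Cfsg.groupFusionSystem (S : Subgroup Cfsg.Spor.M11)).IsSimple 2 := by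
  refine simple_of_cert C11 Cfsg.Spor.M11 inH D0 [0] steps (d := 495) ?_ ?_ ?_ ?_ ?_ ?_ ?_ ?_ check S
  · intro g pp hr hc
    simp only [inH, Bool.and_eq_true] at hc
    rw [M11_eq, mem_F1]
    refine ⟨mem_H12_of_check g pp hr hc.1, ?_⟩
    rw [hr.apply_ptOf (by norm_num), Nat.eq_of_beq_eq_true hc.2]
  · rw [M11_eq, card_F1]; rfl
  · decide
  · decide
  · intro g hg p hp
    have := H12_mem_D0 (hmem hg).1 ((mem_setOf).2 hp)
    exact (mem_setOf).1 this
  · intro g hg k hk
    rw [List.mem_singleton] at hk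
    rw [hk]
    exact (hmem hg).2
  · intro k hk
    rw [List.mem_singleton] at hk
    rw [hk]; norm_num
  · intro g hg hfix
    apply eq_one_of_fix5 (hmem hg).1 (fun i => [1, 9, 8, 16, 0].getD i 0)
    · decide
    · decide +kernel
    · decide
    · intro i hi
      apply hfix
      have hval : ∀ i < 5, [1, 9, 8, 16, 0].getD i 0 ∈ finalK [0] steps := by decide
      exact hval i hi


end Cfsg.Agent.S5166
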