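import Cfsg.Statements.S5167
import Mathlib
import Cfsg.Agent.Lib.MathFus12

set_option autoImplicit false
open Cfsg

namespace Cfsg.Agent.S5167

open Cfsg.Agent.Lib.GolayBasic Cfsg.Agent.Lib.GolayCode Cfsg.Agent.Lib.GolayPerm Cfsg.Agent.Lib.MathFus Cfsg.Agent.Lib.MathFus.Cert Cfsg.Agent.Lib.GolayM12 Cfsg.Agent.Lib.GolayOut

open Cfsg.Agent.Lib.MathFus12

/-- steps -/
def steps : List (List ℕ × ℕ × ℕ) := [([], 4, 4), ([4], 6, 6), ([4], 13, 13), ([13], 18, 18), ([], 0, 0)]

theorem check : C12.allOK inH12 D0 [] steps = true := by decide +kernel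


/-- The 2-fusion system of the Mathieu group M₁₂ (as the explicit permutation group carved out of the automorphism group of the binary Golay code) on a Sylow 2-subgroup is simple: saturated, over a nontrivial 2-group, with no normal subsystem other than the trivial one and itself. -/
theorem result (S : Sylow 2 Cfsg.Spor.M12) : (Cfsg.groupFusionSystem (S : Subgroup Cfsg.Spor.M12)).IsSimple 2 := by
  have hmem : ∀ {g : Equiv.Perm GolayPt}, g ∈ Cfsg.Spor.M12 → g ∈ H12 := fun {g} hg => by
    rwa [M12_eq] at hg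
  refine simple_of_cert C12 Cfsg.Spor.M12 inH12 D0 [] steps (d := 1485) ?_ ?_ ?_ ?_ ?_ ?_ ?_ ?_ check S
  · intro g pp hr hc
    rw [M12_eq]
    exact mem_H12_of_check g pp hr hc
  · rw [M12_eq, card_H12]; rfl
  · decide
  · decide
  · intro g hg p hp
    have := H12_mem_D0 (hmem hg) ((mem_setOf).2 hp)
    exact (mem_setOf).1 this
  · intro g hg k hk
    simp at hk
  · intro k hk
    simp at hk
  · intro g hg hfix
    apply eq_one_of_fix5 (hmem hg) (fun i => [0, 18, 13, 6, 4].getD i 0)
    · decide
    · decide +kernel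
    · decide
    · intro i hi
      apply hfix
      have hval : ∀ i < 5, [0, 18, 13, 6, 4].getD i 0 ∈ finalK [] steps := by decide
      exact hval i hi


end Cfsg.Agent.S5167
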