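import Cfsg.Statements.S5169
import Mathlib
import Cfsg.Agent.Lib.MathFus22

set_option autoImplicit false
open Cfsg

namespace Cfsg.Agent.S5169

open Cfsg.Agent.Lib.GolayBasic Cfsg.Agent.Lib.GolayCode Cfsg.Agent.Lib.GolayPerm Cfsg.Agent.Lib.MathFus Cfsg.Agent.Lib.MathFus.Cert Cfsg.Agent.Lib.GolayM12 Cfsg.Agent.Lib.GolayOut

open Cfsg.Agent.Lib.MathFus22

/-- membership test -/
def inH (pp : ℕ) : Bool := and (inM24B pp) (Nat.beq (ap pp 23) 23)

/-- steps -/
def steps : List (List ℕ × ℕ × ℕ) := [([], 0, 0), ([], 17, 17), ([17], 22, 22), ([], 1, 1), ([1], 10, 10), ([17, 1], 7, 11), ([7], 11, 11), ([], 2, 2)]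

theorem check : C22.allOK inH allMask [23] steps = true := by decide +kernel

theorem pt23 : ptOf 23 = (none : GolayPt) := by decide

theorem hmem {g : Equiv.Perm GolayPt} (hg : g ∈ Cfsg.Spor.M23) : g ∈ Cfsg.M24 ∧ g (ptOf 23) = ptOf 23 := by
  rw [pt23]
  exact ⟨hg.1, hg.2⟩

theorem card_M23 : Nat.card Cfsg.Spor.M23 = 10200960 := by
  obtain ⟨e⟩ := M23_equiv
  rw [Nat.card_congr e.toEquiv, Cfsg.Agent.Lib.GolayOrder.card_Fix1]


/-- The 2-fusion system of the Mathieu group M₂₃ (as the explicit permutation group carved out of the automorphism group of the binary Golay code) on a Sylow 2-subgroup is simple: saturated, over a nontrivial 2-group, with no normal subsystem other than the trivial one and itself. -/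
theorem result (S : Sylow 2 Cfsg.Spor.M23) : (Cfsg.groupFusionSystem (S : Subgroup Cfsg.Spor.M23)).IsSimple 2 := by
  have hall : ∀ y < 24, allMask.testBit y = true := by decide +kernel
  refine simple_of_cert C22 Cfsg.Spor.M23 inH allMask [23] steps (d := 79695) ?_ ?_ ?_ ?_ ?_ ?_ ?_ ?_ check S
  · intro g pp hr hc
    simp only [inH, Bool.and_eq_true] at hc
    obtain ⟨h1, h2⟩ := hc
    have hM := mem_M24_of_check hr h1
    have e1 : g (ptOf 23) = ptOf 23 := by
      rw [hr.apply_ptOf (by norm_num), Nat.eq_of_beq_eq_true h2]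
    rw [pt23] at e1
    exact ⟨hM, e1⟩
  · rw [card_M23]; rfl
  · decide
  · decide
  · intro g hg p hp
    exact hall _ (idx_lt _)
  · intro g hg k hk
    rw [List.mem_singleton] at hk
    rw [hk]
    exact (hmem hg).2
  · intro k hk
    rw [List.mem_singleton] at hk
    rw [hk]; norm_num
  · intro g hg hfix
    apply eq_one_of_fixStep (hmem hg).1 _ (F := 12717191 + 0) (by decide +kernel) (by decide) hfix
    decide +kernel


end Cfsg.Agent.S5169
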