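import Cfsg.Statements.S5170
import Mathlib
import Cfsg.Agent.Lib.MathFus24

set_option autoImplicit false
open Cfsg

namespace Cfsg.Agent.S5170

open Cfsg.Agent.Lib.GolayBasic Cfsg.Agent.Lib.GolayCode Cfsg.Agent.Lib.GolayPerm Cfsg.Agent.Lib.MathFus Cfsg.Agent.Lib.MathFus.Cert Cfsg.Agent.Lib.GolayM12 Cfsg.Agent.Lib.GolayOut

open Cfsg.Agent.Lib.MathFus24

/-- steps -/
def steps : List (List ℕ × ℕ × ℕ) := [([], 2, 2), ([2], 12, 12), ([2], 21, 21), ([21], 23, 23), ([2], 3, 3), ([3], 18, 18), ([2, 21, 3], 7, 14), ([7], 14, 14), ([], 0, 0)]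

theorem check : C24.allOK inM24B allMask [] steps = true := by decide +kernel


/-- The 2-fusion system of the Mathieu group M₂₄ (as the explicit permutation group of the 24 points preserving the binary Golay code) on a Sylow 2-subgroup is simple: saturated, over a nontrivial 2-group, with no normal subsystem other than the trivial one and itself. -/
theorem result (S : Sylow 2 Cfsg.M24) : (Cfsg.groupFusionSystem (S : Subgroup Cfsg.M24)).IsSimple 2 := by
  have hall : ∀ y < 24, allMask.testBit y = true := by decide +kernel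
  refine simple_of_cert C24 Cfsg.M24 inM24B allMask [] steps (d := 239085) ?_ ?_ ?_ ?_ ?_ ?_ ?_ ?_ check S
  · intro g pp hr hc
    exact mem_M24_of_check hr hc
  · rw [Cfsg.Agent.Lib.GolayOrder.card_M24]; rfl
  · decide
  · decide
  · intro g hg p hp
    exact hall _ (idx_lt _)
  · intro g hg k hk
    simp at hk
  · intro k hk
    simp at hk
  · intro g hg hfix
    apply eq_one_of_fixStep hg _ (F := 10768525 + 0) (by decide +kernel) (by decide) hfix
    decide +kernel


end Cfsg.Agent.S5170
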