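import Cfsg.Statements.S5344
import Mathlib

set_option autoImplicit false
open Cfsg

namespace Cfsg.Agent.S5344


/-- the generators -/
def gn {G : Type*} (a b c : G) : Fin 3 → G
  | 0 => a
  | 1 => b
  | 2 => c

/-- evaluate a word -/
def evW {G : Type*} [Monoid G] (a b c : G) : List (Fin 3) → G
  | [] => 1
  | i :: l => gn a b c i * evW a b c l

/-- permutation of a generator -/
def sw : Fin 3 → Equiv.Perm (Fin 4)
  | 0 => Equiv.swap 0 1
  | 1 => Equiv.swap 1 2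
  | 2 => Equiv.swap 2 3

/-- permutation of a word -/
def evP : List (Fin 3) → Equiv.Perm (Fin 4)
  | [] => 1
  | i :: l => sw i * evP l

/-- the normal form words -/
def words : List (List (Fin 3)) :=
  (([[], [0]] : List (List (Fin 3))).flatMap fun u =>
    ([[], [1], [1, 0]] : List (List (Fin 3))).flatMap fun v =>
      ([[], [2], [2, 1], [2, 1, 0]] : List (List (Fin 3))).map fun w => u ++ v ++ w)

/-- normal form of a permutation -/
def nf (σ : Equiv.Perm (Fin 4)) : List (Fin 3) :=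
  (words.find? fun w => decide (evP w = σ)).getD []

theorem nf_spec : ∀ σ : Equiv.Perm (Fin 4), evP (nf σ) = σ := by decide +kernel

theorem nf_mem : ∀ σ : Equiv.Perm (Fin 4), nf σ ∈ words := by decide +kernel

/-- the table of left multiplications -/
def tb : List (Fin 3 × List (Fin 3) × List (Fin 3)) := [
  (0, [], [0]),
  (0, [2], [0, 2]),
  (0, [2, 1], [0, 2, 1]),
  (0, [2, 1, 0], [0, 2, 1, 0]),
  (0, [1], [0, 1]),
  (0, [1, 2], [0, 1, 2]),
  (0, [1, 2, 1], [0, 1, 2, 1]),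
  (0, [1, 2, 1, 0], [0, 1, 2, 1, 0]),
  (0, [1, 0], [0, 1, 0]),
  (0, [1, 0, 2], [0, 1, 0, 2]),
  (0, [1, 0, 2, 1], [0, 1, 0, 2, 1]),
  (0, [1, 0, 2, 1, 0], [0, 1, 0, 2, 1, 0]),
  (0, [0], []),
  (0, [0, 2], [2]),
  (0, [0, 2, 1], [2, 1]),
  (0, [0, 2, 1, 0], [2, 1, 0]),
  (0, [0, 1], [1]),
  (0, [0, 1, 2], [1, 2]),
  (0, [0, 1, 2, 1], [1, 2, 1]),
  (0, [0, 1, 2, 1, 0], [1, 2, 1, 0]),
  (0, [0, 1, 0], [1, 0]),
  (0, [0, 1, 0, 2], [1, 0, 2]),
  (0, [0, 1, 0, 2, 1], [1, 0, 2, 1]),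
  (0, [0, 1, 0, 2, 1, 0], [1, 0, 2, 1, 0]),
  (1, [], [1]),
  (1, [2], [1, 2]),
  (1, [2, 1], [1, 2, 1]),
  (1, [2, 1, 0], [1, 2, 1, 0]),
  (1, [1], []),
  (1, [1, 2], [2]),
  (1, [1, 2, 1], [2, 1]),
  (1, [1, 2, 1, 0], [2, 1, 0]),
  (1, [1, 0], [0]),
  (1, [1, 0, 2], [0, 2]),
  (1, [1, 0, 2, 1], [0, 2, 1]),
  (1, [1, 0, 2, 1, 0], [0, 2, 1, 0]),
  (1, [0], [1, 0]),
  (1, [0, 2], [1, 0, 2]),
  (1, [0, 2, 1], [1, 0, 2, 1]),
  (1, [0, 2, 1, 0], [1, 0, 2, 1, 0]),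
  (1, [0, 1], [0, 1, 0]),
  (1, [0, 1, 2], [0, 1, 0, 2]),
  (1, [0, 1, 2, 1], [0, 1, 0, 2, 1]),
  (1, [0, 1, 2, 1, 0], [0, 1, 0, 2, 1, 0]),
  (1, [0, 1, 0], [0, 1]),
  (1, [0, 1, 0, 2], [0, 1, 2]),
  (1, [0, 1, 0, 2, 1], [0, 1, 2, 1]),
  (1, [0, 1, 0, 2, 1, 0], [0, 1, 2, 1, 0]),
  (2, [], [2]),
  (2, [2], []),
  (2, [2, 1], [1]),
  (2, [2, 1, 0], [1, 0]),
  (2, [1], [2, 1]),
  (2, [1, 2], [1, 2, 1]),
  (2, [1, 2, 1], [1, 2]),
  (2, [1, 2, 1, 0], [1, 0, 2]),
  (2, [1, 0], [2, 1, 0]),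
  (2, [1, 0, 2], [1, 2, 1, 0]),
  (2, [1, 0, 2, 1], [1, 0, 2, 1, 0]),
  (2, [1, 0, 2, 1, 0], [1, 0, 2, 1]),
  (2, [0], [0, 2]),
  (2, [0, 2], [0]),
  (2, [0, 2, 1], [0, 1]),
  (2, [0, 2, 1, 0], [0, 1, 0]),
  (2, [0, 1], [0, 2, 1]),
  (2, [0, 1, 2], [0, 1, 2, 1]),
  (2, [0, 1, 2, 1], [0, 1, 2]),
  (2, [0, 1, 2, 1, 0], [0, 1, 0, 2]),
  (2, [0, 1, 0], [0, 2, 1, 0]),
  (2, [0, 1, 0, 2], [0, 1, 2, 1, 0]),
  (2, [0, 1, 0, 2, 1], [0, 1, 0, 2, 1, 0]),
  (2, [0, 1, 0, 2, 1, 0], [0, 1, 0, 2, 1])]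

theorem nf_s0 : nf (Equiv.swap 0 1) = [0] := by decide +kernel
theorem nf_s1 : nf (Equiv.swap 1 2) = [1] := by decide +kernel
theorem nf_s2 : nf (Equiv.swap 2 3) = [2] := by decide +kernel

theorem comm_key : ∀ σ : Equiv.Perm (Fin 4), σ ≠ 1 → ∃ τ₁ τ₂ : Equiv.Perm (Fin 4),
    τ₁ * (σ * τ₂ * σ⁻¹ * τ₂⁻¹) * τ₁⁻¹ = Equiv.swap 0 1 * Equiv.swap 2 3 := by decide +kernel

theorem tb_spec : ∀ i : Fin 3, ∀ w ∈ words, (i, w, nf (sw i * evP w)) ∈ tb := by decide +kernel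

section
variable {G : Type*} [Group G] {x y z : G}

theorem tb_ok (h1 : ∀ r : G, x * (x * r) = r) (h2 : ∀ r : G, y * (y * r) = r) (h3 : ∀ r : G, z * (z * r) = r)
    (h4 : ∀ r : G, z * (x * r) = x * (z * r)) (h5 : ∀ r : G, y * (x * (y * r)) = x * (y * (x * r)))
    (h6 : ∀ r : G, z * (y * (z * r)) = y * (z * (y * r)))
    (h7 : ∀ r : G, z * (y * (x * (z * r))) = y * (z * (y * (x * r)))) :
    ∀ t ∈ tb, evW x y z t.2.2 = gn x y z t.1 * evW x y z t.2.1 := by
  have e0 : gn x y z 0 = x := rfl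
  have e1 : gn x y z 1 = y := rfl
  have e2 : gn x y z 2 = z := rfl
  simp only [tb, List.forall_mem_cons, List.not_mem_nil, evW, e0, e1, e2, h1, h2, h3, h4, h5, h6, h7, IsEmpty.forall_iff, implies_true, and_true, true_and]

end

/-- In a set of 3-transpositions, let a, b, c be members with a and c different and commuting, while neither a nor c commutes with b (a 3-string). Then there is an injective homomorphism from the symmetric group of degree 4 into the ambient group sending the transpositions (0 1), (1 2), (2 3) to a, b, c; so a, b, c generate a copy of the symmetric group of degree 4 in which they are transpositions. -/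
theorem result {G : Type*} [Group G] {D : Set G} (hD : Cfsg.IsThreeTranspositionSet D) {a b c : G} (ha : a ∈ D) (hb : b ∈ D) (hc : c ∈ D) (hac : a ≠ c) (hac' : Commute a c) (hab : ¬ Commute a b) (hbc : ¬ Commute b c) : ∃ φ : Equiv.Perm (Fin 4) →* G, Function.Injective φ ∧ φ (Equiv.swap 0 1) = a ∧ φ (Equiv.swap 1 2) = b ∧ φ (Equiv.swap 2 3) = c := by
  have sq : ∀ u ∈ D, ∀ r : G, u * (u * r) = r := by
    intro u hu r
    have h := hD.1 u hu
    have h2 : u ^ 2 = 1 := by rw [← h]; exact pow_orderOf_eq_one u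
    rw [← mul_assoc, ← pow_two, h2, one_mul]
  have br : ∀ u ∈ D, ∀ v ∈ D, ¬ Commute u v → ∀ r : G, v * (u * (v * r)) = u * (v * (u * r)) := by
    intro u hu v hv hn r
    have hu2 := sq u hu 1
    have hv2 := sq v hv 1
    rw [mul_one] at hu2 hv2
    rcases hD.2 u hu v hv with h | h
    · exfalso
      apply hn
      show u * v = v * u
      have h3 : (u * v) * (u * v) = 1 := by rw [← pow_two]; exact h
      have : u * v = (u * v)⁻¹ := eq_inv_of_mul_eq_one_left h3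
      rw [this, mul_inv_rev, inv_eq_of_mul_eq_one_left hv2, inv_eq_of_mul_eq_one_left hu2]
    · have h3 : u * v * (u * v) * (u * v) = 1 := by rw [← h]; simp [pow_succ]
      have hui : u⁻¹ = u := inv_eq_of_mul_eq_one_left hu2
      have hvi : v⁻¹ = v := inv_eq_of_mul_eq_one_left hv2
      have h5 : (u * (v * u)) * (v * (u * v)) = 1 := by
        rw [← h3]
        simp only [mul_assoc]
      have h4 : v * (u * v) = u * (v * u) := by
        rw [eq_inv_of_mul_eq_one_right h5]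
        simp only [mul_inv_rev, hui, hvi, mul_assoc]
      calc v * (u * (v * r)) = (v * (u * v)) * r := by simp only [mul_assoc]
        _ = (u * (v * u)) * r := by rw [h4]
        _ = u * (v * (u * r)) := by simp only [mul_assoc]
  have hx := sq a ha
  have hy := sq b hb
  have hz := sq c hc
  have hxz : ∀ r : G, c * (a * r) = a * (c * r) := by
    intro r
    rw [← mul_assoc, ← mul_assoc, hac'.eq]
  have hxy := br a ha b hb hab
  have hyz := br b hb c hc hbc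
  have hzyxz : ∀ r : G, c * (b * (a * (c * r))) = b * (c * (b * (a * r))) := by
    intro r
    rw [← hxz r, hyz]
  have hok := tb_ok hx hy hz hxz hxy hyz hzyxz
  -- the homomorphism
  let f : Equiv.Perm (Fin 4) → G := fun σ => evW a b c (nf σ)
  have fstep : ∀ (i : Fin 3) (σ : Equiv.Perm (Fin 4)), f (sw i * σ) = gn a b c i * f σ := by
    intro i σ
    have h1 := hok _ (tb_spec i (nf σ) (nf_mem σ))
    simp only [nf_spec] at h1
    exact h1
  have fword : ∀ (l : List (Fin 3)) (τ : Equiv.Perm (Fin 4)), f (evP l * τ) = evW a b c l * f τ := by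
    intro l τ
    induction l with
    | nil =>
      show f (1 * τ) = 1 * f τ
      rw [one_mul, one_mul]
    | cons i l ih =>
      show f ((sw i * evP l) * τ) = (gn a b c i * evW a b c l) * f τ
      rw [mul_assoc, fstep, ih, mul_assoc]
  have fmul : ∀ σ τ : Equiv.Perm (Fin 4), f (σ * τ) = f σ * f τ := by
    intro σ τ
    have h := fword (nf σ) τ
    rwa [nf_spec] at h
  let φ : Equiv.Perm (Fin 4) →* G := MonoidHom.mk' f fmul
  have φa : φ (Equiv.swap 0 1) = a := by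
    show evW a b c (nf (Equiv.swap 0 1)) = a
    rw [nf_s0]
    show a * 1 = a
    exact mul_one a
  have φb : φ (Equiv.swap 1 2) = b := by
    show evW a b c (nf (Equiv.swap 1 2)) = b
    rw [nf_s1]
    show b * 1 = b
    exact mul_one b
  have φc : φ (Equiv.swap 2 3) = c := by
    show evW a b c (nf (Equiv.swap 2 3)) = c
    rw [nf_s2]
    show c * 1 = c
    exact mul_one c
  refine ⟨φ, ?_, φa, φb, φc⟩
  rw [injective_iff_map_eq_one]
  intro σ hσ
  by_contra hne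
  obtain ⟨τ₁, τ₂, h⟩ := comm_key σ hne
  have h2 := congrArg φ h
  simp only [map_mul, map_inv, hσ, φa, φc] at h2
  simp only [mul_one, one_mul, mul_inv_cancel, inv_one] at h2
  apply hac
  have h3 : a * c = 1 := h2.symm
  have h4 := hz 1
  rw [mul_one] at h4
  calc a = a * (c * c) := by rw [h4, mul_one]
    _ = c := by rw [← mul_assoc, h3, one_mul]


end Cfsg.Agent.S5344
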