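import Cfsg.Statements.S5345
import Mathlib
import Cfsg.Agent.Lib.Dih

set_option autoImplicit false
open Cfsg

namespace Cfsg.Agent.S5345

open Cfsg.Agent.Lib.Dih

/-- Let D be a conjugation-invariant generating set of 3-transpositions of a finite group G and T a Sylow 2-subgroup of G. Then the members of D lying in T generate an abelian subgroup, and their number is the width of D (the largest number of pairwise commuting members of D). -/
theorem result {G : Type*} [Group G] [Finite G] {D : Set G} (hD : Cfsg.IsThreeTranspositionGroup D) (T : Sylow 2 G) : IsMulCommutative (Subgroup.closure {d : G | d ∈ D ∧ d ∈ T}) ∧ {d : G | d ∈ D ∧ d ∈ T}.ncard = Cfsg.commutingWidth D := by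
  haveI : Fact (Nat.Prime 2) := ⟨Nat.prime_two⟩
  have hsq : ∀ d ∈ D, d * d = 1 := fun d hd => sq_of_order (hD.1.1 d hd)
  set Ω : Set G := {d : G | d ∈ D ∧ d ∈ T} with hΩ
  have hcomm : ∀ a ∈ Ω, ∀ b ∈ Ω, a * b = b * a := by
    rintro a ⟨ha, haT⟩ b ⟨hb, hbT⟩
    have hab : a * b ∈ (T : Subgroup G) := Subgroup.mul_mem _ haT hbT
    obtain ⟨k, hk⟩ := T.isPGroup' ⟨a * b, hab⟩
    have hk' : (a * b) ^ 2 ^ k = 1 := congrArg Subtype.val hk
    rcases hD.1.2 a ha b hb with h | h
    · exact commute_of_sq (hsq a ha) (hsq b hb) h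
    · have hco : Nat.Coprime (2 ^ k) 3 := Nat.Coprime.pow_left _ (by norm_num)
      have := pow_gcd_eq_one.2 ⟨hk', h⟩
      rw [hco.gcd_eq_one, pow_one] at this
      apply commute_of_sq (hsq a ha) (hsq b hb)
      rw [this, one_pow]
  refine ⟨⟨⟨fun x y => ?_⟩⟩, ?_⟩
  · exact (Subgroup.closureCommGroupOfComm hcomm).mul_comm x y
  · unfold Cfsg.commutingWidth
    have hG : IsGreatest {n : ℕ | ∃ E : Set G, E ⊆ D ∧ E.Finite ∧ (∀ a ∈ E, ∀ b ∈ E, Commute a b) ∧ E.ncard = n} Ω.ncard := by
      constructor
      · exact ⟨Ω, fun x hx => hx.1, Set.toFinite _, fun a ha b hb => hcomm a ha b hb, rfl⟩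
      · rintro _ ⟨E, hED, -, hEc, rfl⟩
        -- `E` generates an elementary abelian 2-group
        have hEc' : ∀ a ∈ E, ∀ b ∈ E, a * b = b * a := fun a ha b hb => hEc a ha b hb
        let A : Subgroup G := Subgroup.closure E
        have hAc : ∀ x ∈ A, ∀ y ∈ A, x * y = y * x := by
          intro x hx y hy
          have := (Subgroup.closureCommGroupOfComm hEc').mul_comm ⟨x, hx⟩ ⟨y, hy⟩
          exact congrArg Subtype.val this
        have hA2 : ∀ x ∈ A, x * x = 1 := by
          intro x hx
          induction hx using Subgroup.closure_induction with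
          | mem x hx => exact hsq x (hED hx)
          | one => simp
          | mul x y hx hy ihx ihy =>
            calc x * y * (x * y) = x * (y * x) * y := by simp only [mul_assoc]
              _ = x * (x * y) * y := by rw [hAc y hy x hx]
              _ = (x * x) * (y * y) := by simp only [mul_assoc]
              _ = 1 := by rw [ihx, ihy, one_mul]
          | inv x hx ihx =>
            rw [← mul_inv_rev, ihx, inv_one]
        have hAp : IsPGroup 2 A := by
          rintro ⟨x, hx⟩
          refine ⟨1, Subtype.ext ?_⟩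
          show x ^ 2 ^ 1 = 1
          rw [pow_one, pow_two]
          exact hA2 x hx
        obtain ⟨T₁, hT₁⟩ := hAp.exists_le_sylow
        obtain ⟨h, hh⟩ := exists_conj_sylow T T₁
        apply Set.ncard_le_ncard_of_injOn (fun x => h⁻¹ * x * h) _ _ (Set.toFinite _)
        · intro x hx
          refine ⟨?_, (hh x).1 (hT₁ (Subgroup.subset_closure hx))⟩
          have := hD.2.1 h⁻¹ x (hED hx)
          rwa [inv_inv] at this
        · intro x _ y _ hxy
          exact mul_left_cancel (mul_right_cancel hxy)
    exact hG.csSup_eq.symm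


end Cfsg.Agent.S5345
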