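import Cfsg.Statements.S5347
import Mathlib
import Cfsg.Agent.Lib.Dih

set_option autoImplicit false
open Cfsg

namespace Cfsg.Agent.S5347

open Cfsg.Agent.Lib.Dih

/-- Let D be a conjugation-invariant generating set of 3-transpositions of a finite group G, p a prime bigger than 3, and P a p-subgroup of G. If a member d of D normalizes P then d centralizes P. -/
theorem result {G : Type*} [Group G] [Finite G] {D : Set G} (hD : Cfsg.IsThreeTranspositionGroup D) {p : ℕ} (hp : p.Prime) (hp3 : 3 < p) (P : Subgroup G) (hP : IsPGroup p P) {d : G} (hd : d ∈ D) (hnorm : d ∈ Subgroup.normalizer (P : Set G)) : ∀ x ∈ P, Commute d x := by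
  intro x hx
  have hd2 : d * d = 1 := sq_of_order (hD.1.1 d hd)
  have hconj : x⁻¹ * d * x ∈ D := by
    have := hD.2.1 x⁻¹ d hd
    rwa [inv_inv] at this
  have hy : d * (x⁻¹ * d * x) ∈ P := by
    have h1 : d * x⁻¹ * d⁻¹ ∈ P := by
      rw [Subgroup.mem_normalizer_iff] at hnorm
      exact (hnorm _).1 (P.inv_mem hx)
    have e : d * (x⁻¹ * d * x) = d * x⁻¹ * d⁻¹ * x := by rw [inv_of_sq hd2]; group
    rw [e]
    exact P.mul_mem h1 hx
  obtain ⟨k, hk⟩ := hP ⟨_, hy⟩
  have hk' : (d * (x⁻¹ * d * x)) ^ p ^ k = 1 := congrArg Subtype.val hk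
  have hone : d * (x⁻¹ * d * x) = 1 := by
    have hco2 : Nat.Coprime (p ^ k) 2 := Nat.Coprime.pow_left _ ((Nat.coprime_primes hp Nat.prime_two).2 (by omega))
    have hco3 : Nat.Coprime (p ^ k) 3 := Nat.Coprime.pow_left _ ((Nat.coprime_primes hp Nat.prime_three).2 (by omega))
    rcases hD.1.2 d hd _ hconj with h | h
    · have := pow_gcd_eq_one.2 ⟨hk', h⟩
      rwa [hco2.gcd_eq_one, pow_one] at this
    · have := pow_gcd_eq_one.2 ⟨hk', h⟩
      rwa [hco3.gcd_eq_one, pow_one] at this
  show d * x = x * d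
  have h1 : x⁻¹ * d * x = d := by
    have := eq_inv_of_mul_eq_one_right hone
    rwa [inv_of_sq hd2] at this
  calc d * x = x * (x⁻¹ * d * x) := by group
    _ = x * d := by rw [h1]


end Cfsg.Agent.S5347
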