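import Cfsg.Statements.S5349
import Mathlib
import Cfsg.Agent.Lib.BaerSuzuki
import Cfsg.Agent.Lib.H1Core
import Cfsg.Agent.Lib.Herstein

set_option autoImplicit false
open Cfsg

namespace Cfsg.Agent.S5349


open Subgroup

section
variable {G : Type*} [Group G] {D : Set G}

/-- the basic facts about a class of 3-transpositions. -/
structure Ctx (D : Set G) : Prop where
  inv : ∀ x ∈ D, x * x = 1
  conj : ∀ g : G, ∀ x ∈ D, g * x * g⁻¹ ∈ D
  tri : ∀ x ∈ D, ∀ y ∈ D, ¬ Commute x y → x * y * x = y * x * y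

theorem ctx_of (hD : Cfsg.IsThreeTranspositionClass D) : Ctx D := by
  obtain ⟨⟨hord, h23⟩, ⟨d₀, _, hDeq⟩, _⟩ := hD
  have hinv : ∀ x ∈ D, x * x = 1 := by
    intro x hx
    have := pow_orderOf_eq_one x
    rw [hord x hx, pow_two] at this
    exact this
  refine ⟨hinv, ?_, ?_⟩
  · intro g x hx
    rw [hDeq] at hx ⊢
    exact (show IsConj d₀ x from hx).trans (isConj_iff.2 ⟨g, rfl⟩)
  · intro x hx y hy hc
    have hxi : x⁻¹ = x := inv_eq_of_mul_eq_one_left (hinv x hx)
    have hyi : y⁻¹ = y := inv_eq_of_mul_eq_one_left (hinv y hy)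
    rcases h23 x hx y hy with h | h
    · exfalso
      apply hc
      show x * y = y * x
      rw [pow_two] at h
      have h1 := eq_inv_of_mul_eq_one_left h
      rw [mul_inv_rev, hxi, hyi] at h1
      exact h1
    · have h1 : (x * y * x) * (y * x * y) = 1 := by
        have : (x * y * x) * (y * x * y) = (x * y) ^ 3 := by
          rw [pow_succ, pow_two]
          group
        rw [this, h]
      have h2 := eq_inv_of_mul_eq_one_left h1
      rw [h2]
      simp [mul_assoc, hxi, hyi]

/-- same commuting members. -/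
def Sim (D : Set G) (v d : G) : Prop := ∀ e ∈ D, Commute v e ↔ Commute d e

theorem Sim.symm {v d : G} (h : Sim D v d) : Sim D d v := fun e he => (h e he).symm

theorem Sim.trans {a b c : G} (h : Sim D a b) (h' : Sim D b c) : Sim D a c :=
  fun e he => (h e he).trans (h' e he)

theorem comm_conj (g a b : G) : Commute (g * a * g⁻¹) b ↔ Commute a (g⁻¹ * b * g) := by
  constructor
  · intro h
    show a * (g⁻¹ * b * g) = g⁻¹ * b * g * a
    have h1 : (g * a * g⁻¹) * b = b * (g * a * g⁻¹) := h
    calc a * (g⁻¹ * b * g) = g⁻¹ * ((g * a * g⁻¹) * b) * g := by group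
      _ = g⁻¹ * (b * (g * a * g⁻¹)) * g := by rw [h1]
      _ = _ := by group
  · intro h
    show (g * a * g⁻¹) * b = b * (g * a * g⁻¹)
    have h1 : a * (g⁻¹ * b * g) = g⁻¹ * b * g * a := h
    calc (g * a * g⁻¹) * b = g * (a * (g⁻¹ * b * g)) * g⁻¹ := by group
      _ = g * (g⁻¹ * b * g * a) * g⁻¹ := by rw [h1]
      _ = _ := by group

theorem Sim.conj (C : Ctx D) {v d : G} (h : Sim D v d) (g : G) :
    Sim D (g * v * g⁻¹) (g * d * g⁻¹) := by
  intro e he
  rw [comm_conj, comm_conj]
  have h2 := C.conj g⁻¹ e he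
  rw [inv_inv] at h2
  exact h _ h2

theorem Sim.comm {v d : G} (h : Sim D v d) (hv : v ∈ D) : Commute d v := (h v hv).1 (Commute.refl v)

theorem Sim.cj (C : Ctx D) {v d : G} (h : Sim D v d) {a : G} (ha : a ∈ D) :
    Sim D (a * v * a) (a * d * a) := by
  have h1 := h.conj C a
  rwa [inv_eq_of_mul_eq_one_left (C.inv a ha)] at h1

theorem mem' (C : Ctx D) {a x : G} (ha : a ∈ D) (hx : x ∈ D) : a * x * a ∈ D := by
  have h1 := C.conj a x hx
  rwa [inv_eq_of_mul_eq_one_left (C.inv a ha)] at h1

/-- conjugation by a product of two similar members preserves similarity classes. -/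
theorem sim_u (C : Ctx D) {f w a : G} (hf : f ∈ D) (hw : w ∈ D) (ha : a ∈ D) (h : Sim D w f)
    (hc : ¬ Commute f a) : Sim D ((f * w) * a * (f * w)⁻¹) a := by
  have hcw : ¬ Commute w a := fun h1 => hc ((h a ha).1 h1)
  have h1 : Sim D (a * w * a) (a * f * a) := h.cj C ha
  have h2 : Sim D (f * (a * w * a) * f) (f * (a * f * a) * f) := h1.cj C hf
  have hff := C.inv f hf
  have hww := C.inv w hw
  have e1 : f * (a * f * a) * f = a := by
    rw [C.tri a ha f hf (fun h3 => hc h3.symm)]
    calc f * (f * a * f) * f = (f * f) * a * (f * f) := by group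
      _ = a := by rw [hff]; group
  have e2 : f * (a * w * a) * f = (f * w) * a * (f * w)⁻¹ := by
    rw [C.tri a ha w hw (fun h3 => hcw h3.symm), mul_inv_rev,
      inv_eq_of_mul_eq_one_left hff, inv_eq_of_mul_eq_one_left hww]
    group
  rw [e1, e2] at h2
  exact h2

theorem four_of (C : Ctx D) {d v f w : G} (hd : d ∈ D) (hv : v ∈ D) (hf : f ∈ D) (hw : w ∈ D)
    (h1 : Sim D v d) (h2 : Sim D w f) : ((d * v) * (f * w)) ^ 4 = 1 := by
  have hdd := C.inv d hd
  have hvv := C.inv v hv
  have hff := C.inv f hf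
  have hww := C.inv w hw
  have hdv : Commute d v := h1.comm hv
  have hfw : Commute f w := h2.comm hw
  have ht : (d * v) * (d * v) = 1 := by
    calc (d * v) * (d * v) = d * (v * d) * v := by group
      _ = d * (d * v) * v := by rw [hdv.eq]
      _ = (d * d) * (v * v) := by group
      _ = 1 := by rw [hdd, hvv, one_mul]
  have hu : (f * w) * (f * w) = 1 := by
    calc (f * w) * (f * w) = f * (w * f) * w := by group
      _ = f * (f * w) * w := by rw [hfw.eq]
      _ = (f * f) * (w * w) := by group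
      _ = 1 := by rw [hff, hww, one_mul]
  set t := d * v with htdef
  set u := f * w with hudef
  by_cases hdf : Commute d f
  · have h3 : Commute v f := (h1 f hf).2 hdf
    have h4 : Commute d w := ((h2 d hd).2 hdf.symm).symm
    have h5 : Commute v w := ((h2 v hv).2 h3.symm).symm
    have htu : Commute t u := ((hdf.mul_right h4).mul_left (h3.mul_right h5))
    have ht2 : t ^ 2 = 1 := by rw [pow_two]; exact ht
    have hu2 : u ^ 2 = 1 := by rw [pow_two]; exact hu
    rw [htu.mul_pow, show (4 : ℕ) = 2 * 2 by norm_num, pow_mul, pow_mul, ht2, hu2]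
    simp
  · have hfd : ¬ Commute f d := fun h => hdf h.symm
    have hfv : ¬ Commute f v := fun h => hdf ((h1 f hf).1 h.symm)
    have s1 : Sim D (u * d * u⁻¹) d := sim_u C hf hw hd h2 hfd
    have s2 : Sim D (u * v * u⁻¹) v := sim_u C hf hw hv h2 hfv
    have hd1 : u * d * u⁻¹ ∈ D := C.conj _ _ hd
    have hv1 : u * v * u⁻¹ ∈ D := C.conj _ _ hv
    have c1 : Commute (u * d * u⁻¹) d := ((s1 _ hd1).1 (Commute.refl _)).symm
    have c2 : Commute (u * d * u⁻¹) v := (s1 v hv).2 hdv
    have c3 : Commute (u * v * u⁻¹) v := ((s2 _ hv1).1 (Commute.refl _)).symm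
    have c4 : Commute (u * v * u⁻¹) d := (s2 d hd).2 hdv.symm
    have c5 : Commute ((u * d * u⁻¹) * (u * v * u⁻¹)) t :=
      (c1.mul_right c2).mul_left (c4.mul_right c3)
    have e1 : (u * d * u⁻¹) * (u * v * u⁻¹) = u * t * u⁻¹ := by
      rw [htdef]; group
    rw [e1] at c5
    have hui : u⁻¹ = u := inv_eq_of_mul_eq_one_left hu
    rw [hui] at c5
    have c6 : u * t * u * t = t * (u * t * u) := c5
    have e2 : (t * u) ^ 4 = (t * u * t * u) * (t * u * t * u) := by
      rw [show (4 : ℕ) = 2 + 2 by norm_num, pow_add, pow_two]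
      group
    have e3 : t * u * t * u = u * t * u * t := by
      rw [c6]
      group
    rw [e2]
    nth_rewrite 2 [e3]
    calc t * u * t * u * (u * t * u * t) = t * u * t * (u * u) * t * u * t := by group
      _ = t * u * (t * t) * u * t := by rw [hu, mul_one]; group
      _ = t * (u * u) * t := by rw [ht, mul_one]; group
      _ = t * t := by rw [hu, mul_one]
      _ = 1 := ht

end

theorem zpow_cj {G : Type*} [Group G] {t w : G} (h : t * w * t⁻¹ = w⁻¹) (n : ℤ) :
    t * w ^ n * t⁻¹ = (w ^ n)⁻¹ := by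
  have h1 := conj_zpow (a := t) (b := w) (i := n)
  rw [h] at h1
  rw [← h1, inv_zpow]

theorem mem_core {G : Type*} [Group G] [Finite G] (t : G) (ht : t * t = 1)
    (h : ∀ g : G, (t * (g * t * g⁻¹)) ^ 4 = 1) : t ∈ Cfsg.pCore 2 G := by
  classical
  haveI : Fact (Nat.Prime 2) := ⟨Nat.prime_two⟩
  have hX : IsPGroup 2 (zpowers t) := by
    have h1 : orderOf t ∣ 2 ^ 1 := orderOf_dvd_of_pow_eq_one (by rw [pow_one, pow_two, ht])
    obtain ⟨k, -, hk⟩ := (Nat.dvd_prime_pow Nat.prime_two).mp h1
    exact IsPGroup.iff_card.mpr ⟨k, by rw [Nat.card_zpowers, hk]⟩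
  have htinv : t⁻¹ = t := inv_eq_of_mul_eq_one_left ht
  have key : ∀ g : G, IsPGroup 2 ↥(zpowers t ⊔ (zpowers t).map (MulAut.conj g).toMonoidHom) := by
    intro g
    set s := g * t * g⁻¹ with hs
    have hss : s * s = 1 := by
      calc s * s = g * (t * t) * g⁻¹ := by rw [hs]; group
        _ = 1 := by rw [ht]; group
    have hsinv : s⁻¹ = s := inv_eq_of_mul_eq_one_left hss
    set w := t * s with hw
    have hconj : t * w * t⁻¹ = w⁻¹ := by
      rw [htinv, hw, mul_inv_rev, htinv, hsinv]
      calc t * (t * s) * t = (t * t) * s * t := by group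
        _ = s * t := by rw [ht, one_mul]
    have hK : IsPGroup 2 (zpowers w) := by
      have h1 : orderOf w ∣ 2 ^ 2 := orderOf_dvd_of_pow_eq_one (by simpa using h g)
      obtain ⟨k, -, hk⟩ := (Nat.dvd_prime_pow Nat.prime_two).mp h1
      exact IsPGroup.iff_card.mpr ⟨k, by rw [Nat.card_zpowers, hk]⟩
    have hnorm : zpowers t ≤ normalizer ((zpowers w : Subgroup G) : Set G) := by
      rw [zpowers_le]
      apply Cfsg.Agent.Lib.Herstein.mem_normalizer_of_conj_le
      intro v hv
      obtain ⟨n, rfl⟩ := mem_zpowers_iff.mp hv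
      rw [zpow_cj hconj n]
      exact (zpowers w).inv_mem (zpow_mem_zpowers w n)
    have hsup := IsPGroup.to_sup_of_normal_right' hX hK hnorm
    apply hsup.to_le
    apply sup_le le_sup_left
    rw [MonoidHom.map_zpowers, zpowers_le]
    have h1 : (MulAut.conj g).toMonoidHom t = t * w := by
      show g * t * g⁻¹ = t * (t * s)
      rw [← mul_assoc, ht, one_mul]
    rw [h1]
    exact mul_mem (le_sup_left (a := zpowers t) (mem_zpowers t)) (le_sup_right (a := zpowers t) (mem_zpowers w))
  obtain ⟨N, hN, hNp, hle⟩ := Cfsg.Agent.Lib.BaerSuzuki.baer_suzuki (zpowers t) hX key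
  exact Cfsg.Agent.Lib.H1Core.le_pCore hN hNp (hle (mem_zpowers t))

section
variable {G : Type*} [Group G] [Finite G] {D : Set G}

/-- similar members differ by an element of `O₂`. -/
theorem core_of_sim (C : Ctx D) {d v : G} (hd : d ∈ D) (hv : v ∈ D) (h : Sim D v d) :
    d * v ∈ Cfsg.pCore 2 G := by
  have hdd := C.inv d hd
  have hvv := C.inv v hv
  have hdv : Commute d v := h.comm hv
  apply mem_core
  · calc (d * v) * (d * v) = d * (v * d) * v := by group
      _ = d * (d * v) * v := by rw [hdv.eq]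
      _ = (d * d) * (v * v) := by group
      _ = 1 := by rw [hdd, hvv, one_mul]
  · intro g
    have e1 : g * (d * v) * g⁻¹ = (g * d * g⁻¹) * (g * v * g⁻¹) := by group
    rw [e1]
    exact four_of C hd hv (C.conj g d hd) (C.conj g v hv) h (h.conj C g)

theorem eq_one_of_two_three {G : Type*} [Group G] [Finite G] {x : G} (hx : x ∈ Cfsg.pCore 2 G) (h3 : x ^ 3 = 1) :
    x = 1 := by
  haveI : Fact (Nat.Prime 2) := ⟨Nat.prime_two⟩
  obtain ⟨k, hk⟩ := Cfsg.Agent.Lib.H1Core.pCore_isPGroup (G := G) 2 ⟨x, hx⟩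
  have hk' : x ^ 2 ^ k = 1 := congrArg Subtype.val hk
  have h1 : orderOf x ∣ 2 ^ k := orderOf_dvd_of_pow_eq_one hk'
  have h2 : orderOf x ∣ 3 := orderOf_dvd_of_pow_eq_one h3
  have h4 : Nat.Coprime (2 ^ k) 3 := Nat.Coprime.pow_left k (by decide)
  exact orderOf_eq_one_iff.1 (Nat.Coprime.eq_one_of_dvd (Nat.Coprime.coprime_dvd_left h1 h4) h2)

/-- the reverse inclusion, one half. -/
theorem comm_of_core (C : Ctx D) {x y e : G} (hx : x ∈ D) (hy : y ∈ D) (he : e ∈ D)
    (h : x * y ∈ Cfsg.pCore 2 G) (hc : Commute y e) : Commute x e := by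
  have hxx := C.inv x hx
  have hyy := C.inv y hy
  have hee := C.inv e he
  have hxi : x⁻¹ = x := inv_eq_of_mul_eq_one_left hxx
  have hyi : y⁻¹ = y := inv_eq_of_mul_eq_one_left hyy
  have hei : e⁻¹ = e := inv_eq_of_mul_eq_one_left hee
  have hO : (Cfsg.pCore 2 G).Normal := Cfsg.Agent.Lib.H1Core.pCore_normal 2 G
  have hxy : Commute x y := by
    by_contra hn
    have h3 := C.tri x hx y hy hn
    have h4 : (x * y) ^ 3 = 1 := by
      have : (x * y) ^ 3 = (x * y * x) * (y * x * y) := by
        rw [pow_succ, pow_two]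
        group
      rw [this, ← h3]
      calc x * y * x * (x * y * x) = x * y * (x * x) * y * x := by group
        _ = x * (y * y) * x := by rw [hxx, mul_one]; group
        _ = x * x := by rw [hyy, mul_one]
        _ = 1 := hxx
    have h5 := eq_one_of_two_three h h4
    apply hn
    have h6 : x = y⁻¹ := eq_inv_of_mul_eq_one_left h5
    rw [h6, hyi]
  by_contra hn
  have h3 := C.tri x hx e he hn
  have h4 : (x * e) ^ 3 = 1 := by
    have : (x * e) ^ 3 = (x * e * x) * (e * x * e) := by
      rw [pow_succ, pow_two]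
      group
    rw [this, ← h3]
    calc x * e * x * (x * e * x) = x * e * (x * x) * e * x := by group
      _ = x * (e * e) * x := by rw [hxx, mul_one]; group
      _ = x * x := by rw [hee, mul_one]
      _ = 1 := hxx
  -- `(x e) ^ 2` lies in the core
  have h5 : (x * e) ^ 2 ∈ Cfsg.pCore 2 G := by
    have h6 : (x * y) * (e * (x * y) * e⁻¹) ∈ Cfsg.pCore 2 G :=
      Subgroup.mul_mem _ h (hO.conj_mem _ h e)
    have h7 : (x * y) * (e * (x * y) * e⁻¹) = (x * e) ^ 2 := by
      have hy1 : e * (x * y) * e⁻¹ = (e * x * e) * y := by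
        rw [hei]
        calc e * (x * y) * e = e * x * (y * e) := by group
          _ = e * x * (e * y) := by rw [hc.eq]
          _ = _ := by group
      rw [hy1, pow_two]
      have hy2 : Commute y (e * x * e) := ((hc.mul_right hxy.symm).mul_right hc)
      calc x * y * (e * x * e * y) = x * (y * (e * x * e)) * y := by group
        _ = x * ((e * x * e) * y) * y := by rw [hy2.eq]
        _ = x * (e * x * e) * (y * y) := by group
        _ = x * e * (x * e) := by rw [hyy]; group
    rwa [h7] at h6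
  have h8 : ((x * e) ^ 2) ^ 3 = 1 := by
    rw [← pow_mul, mul_comm, pow_mul, h4, one_pow]
  have h9 := eq_one_of_two_three h5 h8
  have h10 : x * e = 1 := by
    have : x * e = (x * e) ^ 3 * ((x * e) ^ 2)⁻¹ := by group
    rw [this, h4, h9]
    simp
  apply hn
  have h6 : x = e⁻¹ := eq_inv_of_mul_eq_one_left h10
  rw [h6, hei]

theorem sim_of_core (C : Ctx D) {d v : G} (hd : d ∈ D) (hv : v ∈ D) (h : d⁻¹ * v ∈ Cfsg.pCore 2 G) :
    Sim D v d := by
  have hdi : d⁻¹ = d := inv_eq_of_mul_eq_one_left (C.inv d hd)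
  have hvi : v⁻¹ = v := inv_eq_of_mul_eq_one_left (C.inv v hv)
  rw [hdi] at h
  have h' : v * d ∈ Cfsg.pCore 2 G := by
    have := Subgroup.inv_mem _ h
    rwa [mul_inv_rev, hdi, hvi] at this
  intro e he
  exact ⟨fun hc => comm_of_core C hd hv he h hc, fun hc => comm_of_core C hv hd he h' hc⟩

end

/-- Let D be a conjugacy class of 3-transpositions generating the finite group G, with at least two members, and d a member of D. Then the set of members of D commuting with exactly the same members of D as d coincides with the set of members of D lying in the coset of d modulo the largest normal 2-subgroup of G, and also with the orbit of d under conjugation by that normal 2-subgroup. -/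
theorem result {G : Type*} [Group G] [Finite G] {D : Set G} (hD : Cfsg.IsThreeTranspositionClass D) (hD2 : ∃ a ∈ D, ∃ b ∈ D, a ≠ b) {d : G} (hd : d ∈ D) : {v : G | v ∈ D ∧ ∀ e ∈ D, Commute v e ↔ Commute d e} = {v : G | v ∈ D ∧ d⁻¹ * v ∈ Cfsg.pCore 2 G} ∧ {v : G | v ∈ D ∧ ∀ e ∈ D, Commute v e ↔ Commute d e} = {v : G | ∃ g ∈ Cfsg.pCore 2 G, v = g * d * g⁻¹} := by
  classical
  have C := ctx_of hD
  have hfwd : ∀ v, v ∈ D → (∀ e ∈ D, Commute v e ↔ Commute d e) → ∃ g ∈ Cfsg.pCore 2 G, v = g * d * g⁻¹ := by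
    intro v hv hs
    have hs' : Sim D v d := hs
    by_cases hvd : v = d
    · exact ⟨1, Subgroup.one_mem _, by rw [hvd]; group⟩
    -- a member not commuting with `d`
    obtain ⟨f, hf, hfd⟩ : ∃ f ∈ D, ¬ Commute d f := by
      by_contra hcon
      push Not at hcon
      obtain ⟨a, ha, b, hb, hab⟩ := hD2
      have hcen : d ∈ Subgroup.center G := by
        have h1 : Subgroup.closure D ≤ Subgroup.centralizer ({d} : Set G) := by
          rw [Subgroup.closure_le]
          intro x hx
          rw [SetLike.mem_coe, Subgroup.mem_centralizer_singleton_iff]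
          exact (hcon x hx).symm
        rw [hD.2.2] at h1
        rw [Subgroup.mem_center_iff]
        intro g
        have := h1 (Subgroup.mem_top g)
        rwa [Subgroup.mem_centralizer_singleton_iff] at this
      have hall : ∀ x ∈ D, x = d := by
        intro x hx
        obtain ⟨d₀, hd₀, hDeq⟩ := hD.1 |> fun _ => hD.2.1
        rw [hDeq] at hx hd
        obtain ⟨g, hg⟩ := isConj_iff.1 ((show IsConj d₀ d from hd).symm.trans (show IsConj d₀ x from hx))
        rw [← hg, Subgroup.mem_center_iff.1 hcen g]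
        group
      exact hab ((hall a ha).trans (hall b hb).symm)
    have hdd := C.inv d hd
    have hff := C.inv f hf
    have hvv := C.inv v hv
    -- the partner of `v`
    let w := d * (f * v * f) * d
    have hw : w ∈ D := mem' C hd (mem' C hf hv)
    have hwf : Sim D w f := by
      have h1 : Sim D (f * v * f) (f * d * f) := hs'.cj C hf
      have h2 : Sim D (d * (f * v * f) * d) (d * (f * d * f) * d) := h1.cj C hd
      have h3 : d * (f * d * f) * d = f := by
        have h4 := C.tri f hf d hd (fun h => hfd h.symm)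
        rw [h4]
        calc d * (d * f * d) * d = (d * d) * f * (d * d) := by group
          _ = f := by rw [hdd]; group
      rwa [h3] at h2
    have hg : f * w ∈ Cfsg.pCore 2 G := core_of_sim C hf hw hwf
    refine ⟨f * w, hg, ?_⟩
    have hwd : ¬ Commute w d := fun h => hfd ((hwf d hd).1 h).symm
    have hww := C.inv w hw
    have e1 : w * d * w = d * w * d := C.tri w hw d hd hwd
    have e2 : d * w * d = f * v * f := by
      show d * (d * (f * v * f) * d) * d = _
      calc d * (d * (f * v * f) * d) * d = (d * d) * (f * v * f) * (d * d) := by group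
        _ = f * v * f := by rw [hdd]; group
    have hfi : f⁻¹ = f := inv_eq_of_mul_eq_one_left hff
    have hwi : w⁻¹ = w := inv_eq_of_mul_eq_one_left hww
    calc v = (f * f) * v * (f * f) := by rw [hff]; group
      _ = f * (f * v * f) * f := by group
      _ = f * (w * d * w) * f := by rw [e1, e2]
      _ = (f * w) * d * (f * w)⁻¹ := by
        rw [mul_inv_rev, hfi, hwi]
        group
  have hcore : ∀ v, v ∈ D → (d⁻¹ * v ∈ Cfsg.pCore 2 G ↔ ∀ e ∈ D, Commute v e ↔ Commute d e) := by
    intro v hv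
    refine ⟨fun h => sim_of_core C hd hv h, fun h => ?_⟩
    have hdi : d⁻¹ = d := inv_eq_of_mul_eq_one_left (C.inv d hd)
    rw [hdi]
    exact core_of_sim C hd hv h
  constructor
  · ext v
    constructor
    · rintro ⟨hv, hs⟩
      exact ⟨hv, (hcore v hv).2 hs⟩
    · rintro ⟨hv, hs⟩
      exact ⟨hv, (hcore v hv).1 hs⟩
  · ext v
    constructor
    · rintro ⟨hv, hs⟩
      exact hfwd v hv hs
    · rintro ⟨g, hg, rfl⟩
      have hv := C.conj g d hd
      refine ⟨hv, (hcore _ hv).1 ?_⟩
      have hO : (Cfsg.pCore 2 G).Normal := Cfsg.Agent.Lib.H1Core.pCore_normal 2 G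
      have e1 : d⁻¹ * (g * d * g⁻¹) = (d⁻¹ * g * d) * g⁻¹ := by group
      rw [e1]
      refine Subgroup.mul_mem _ ?_ (Subgroup.inv_mem _ hg)
      have := hO.conj_mem g hg d⁻¹
      rwa [inv_inv] at this


end Cfsg.Agent.S5349
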