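import Cfsg.Statements.S5358
import Mathlib

set_option autoImplicit false
open scoped MatrixGroups
open Cfsg

namespace Cfsg.Agent.S5358


/-- Let Q be a non-degenerate quadratic form on the n-dimensional coordinate space over the field with three elements and u, v vectors of the same non-zero norm Q(u) = Q(v) spanning different lines (v ≠ u and v ≠ −u). Then the reflection matrices of u and v commute if and only if u and v are orthogonal for the polar form of Q. -/
theorem result (n : ℕ) (Q : QuadraticForm (ZMod 3) (Fin n → ZMod 3)) (hQ : (QuadraticMap.polarBilin Q).Nondegenerate) (u v : Fin n → ZMod 3) (hu : Q u ≠ 0) (huv : Q u = Q v) (h1 : v ≠ u) (h2 : v ≠ -u) : Commute (Cfsg.reflectionMatrix (⇑Q) u) (Cfsg.reflectionMatrix (⇑Q) v) ↔ QuadraticMap.polar (⇑Q) u v = 0 := by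
  classical
  set P : (Fin n → ZMod 3) → (Fin n → ZMod 3) := Cfsg.polarVec (⇑Q) with hP
  have hdot : ∀ u x : Fin n → ZMod 3, P u ⬝ᵥ x = QuadraticMap.polar (⇑Q) u x := by
    intro u x
    have h := LinearMap.pi_apply_eq_sum_univ (QuadraticMap.polarBilin Q u) x
    have h1 : QuadraticMap.polarBilin Q u x = QuadraticMap.polar (⇑Q) u x := rfl
    rw [← h1, h]
    simp only [dotProduct, hP, Cfsg.polarVec]
    apply Finset.sum_congr rfl
    intro i _
    have h2 : (fun j => if i = j then (1 : ZMod 3) else 0) = Pi.single i 1 := by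
      funext j
      simp [Pi.single_apply, eq_comm]
    rw [h2, smul_eq_mul, mul_comm]
    rfl
  have hsym : ∀ u v : Fin n → ZMod 3, QuadraticMap.polar (⇑Q) u v = QuadraticMap.polar (⇑Q) v u :=
    fun u v => QuadraticMap.polar_comm _ _ _
  set B := QuadraticMap.polar (⇑Q) u v with hB
  set a := (Q u)⁻¹ with ha
  have hav : (Q v)⁻¹ = a := by rw [← huv]
  have hvv : ∀ (x : ZMod 3) (y z : Fin n → ZMod 3), Matrix.vecMulVec y (x • z) = x • Matrix.vecMulVec y z := by
    intro x y z
    ext i j
    simp [Matrix.vecMulVec_apply, mul_left_comm]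
  have hU : Cfsg.reflectionMatrix (⇑Q) u = 1 - a • Matrix.vecMulVec u (P u) := rfl
  have hV : Cfsg.reflectionMatrix (⇑Q) v = 1 - a • Matrix.vecMulVec v (P v) := by
    rw [← hav]; rfl
  have hp1 : Matrix.vecMulVec u (P u) * Matrix.vecMulVec v (P v) = B • Matrix.vecMulVec u (P v) := by
    rw [Matrix.vecMulVec_mul_vecMulVec, hdot, ← hB, hvv]
  have hp2 : Matrix.vecMulVec v (P v) * Matrix.vecMulVec u (P u) = B • Matrix.vecMulVec v (P u) := by
    rw [Matrix.vecMulVec_mul_vecMulVec, hdot, hsym, ← hB, hvv]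
  have hmul1 : Cfsg.reflectionMatrix (⇑Q) u * Cfsg.reflectionMatrix (⇑Q) v =
      1 - a • Matrix.vecMulVec u (P u) - a • Matrix.vecMulVec v (P v) + (a * a * B) • Matrix.vecMulVec u (P v) := by
    rw [hU, hV, sub_mul, mul_sub, mul_sub, one_mul, mul_one, one_mul, Matrix.smul_mul, Matrix.mul_smul, hp1,
      smul_smul, smul_smul, sub_sub_eq_add_sub]
    abel
  have hmul2 : Cfsg.reflectionMatrix (⇑Q) v * Cfsg.reflectionMatrix (⇑Q) u =
      1 - a • Matrix.vecMulVec u (P u) - a • Matrix.vecMulVec v (P v) + (a * a * B) • Matrix.vecMulVec v (P u) := by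
    rw [hU, hV, sub_mul, mul_sub, mul_sub, one_mul, mul_one, one_mul, Matrix.smul_mul, Matrix.mul_smul, hp2,
      smul_smul, smul_smul, sub_sub_eq_add_sub]
    abel
  have ha0 : a ≠ 0 := inv_ne_zero hu
  have hpolaruu : QuadraticMap.polar (⇑Q) u u = 2 * Q u := by
    have := QuadraticMap.polar_self Q u
    rw [this]
    ring
  constructor
  · intro hcomm
    by_contra hB0
    have hc : Cfsg.reflectionMatrix (⇑Q) u * Cfsg.reflectionMatrix (⇑Q) v = Cfsg.reflectionMatrix (⇑Q) v * Cfsg.reflectionMatrix (⇑Q) u := hcomm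
    rw [hmul1, hmul2] at hc
    have hc2 : (a * a * B) • Matrix.vecMulVec u (P v) = (a * a * B) • Matrix.vecMulVec v (P u) := add_left_cancel hc
    have hne : a * a * B ≠ 0 := mul_ne_zero (mul_ne_zero ha0 ha0) hB0
    have hc3 : Matrix.vecMulVec u (P v) = Matrix.vecMulVec v (P u) := smul_right_injective _ hne hc2
    have hc4 := congrArg (fun M => Matrix.mulVec M u) hc3
    simp only [Matrix.vecMulVec_mulVec] at hc4
    have hd1 : P v ⬝ᵥ u = B := by rw [hdot, hsym]
    have hd2 : P u ⬝ᵥ u = 2 * Q u := by rw [hdot, hpolaruu]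
    rw [hd1, hd2] at hc4
    have hc5 : ∀ i, B * u i = 2 * Q u * v i := by
      intro i
      have := congrFun hc4 i
      simpa [mul_comm] using this
    have h2Q : 2 * Q u ≠ 0 := mul_ne_zero (by decide) hu
    set c := (2 * Q u)⁻¹ * B with hc'
    have hv : v = c • u := by
      funext i
      have := hc5 i
      show v i = ((2 * Q u)⁻¹ * B) * u i
      rw [mul_assoc, this, ← mul_assoc, inv_mul_cancel₀ h2Q, one_mul]
    have hc0 : c ≠ 0 := mul_ne_zero (inv_ne_zero h2Q) hB0
    have hcases : ∀ x : ZMod 3, x ≠ 0 → x = 1 ∨ x = -1 := by decide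
    rcases hcases c hc0 with h | h
    · apply h1
      rw [hv, h, one_smul]
    · apply h2
      rw [hv, h, neg_smul, one_smul]
  · intro hB0
    show Cfsg.reflectionMatrix (⇑Q) u * Cfsg.reflectionMatrix (⇑Q) v = Cfsg.reflectionMatrix (⇑Q) v * Cfsg.reflectionMatrix (⇑Q) u
    rw [hmul1, hmul2, hB0, mul_zero, zero_smul, zero_smul]


end Cfsg.Agent.S5358
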