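import Cfsg.Statements.S5363
import Mathlib
import Cfsg.Agent.Lib.Dih

set_option autoImplicit false
open Cfsg

namespace Cfsg.Agent.S5363

open Cfsg.Agent.Lib.Dih

/-- Let D be a conjugation-invariant set of involutions of a finite group G. Then every product of two members of D has odd order or order 2 if and only if, for every a in D and every b in D different from a and commuting with a, the members of D commuting with a b are exactly those commuting with both a and b. -/
theorem result {G : Type*} [Group G] [Finite G] {D : Set G} (hinv : ∀ d ∈ D, orderOf d = 2) (hconj : ∀ g : G, ∀ d ∈ D, g * d * g⁻¹ ∈ D) : (∀ a ∈ D, ∀ b ∈ D, Odd (orderOf (a * b)) ∨ orderOf (a * b) = 2) ↔ ∀ a ∈ D, ∀ b ∈ D, b ≠ a → Commute a b → {y : G | y ∈ D ∧ Commute (a * b) y} = {y : G | y ∈ D ∧ Commute a y} ∩ {y : G | y ∈ D ∧ Commute b y} := by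
  have hsq : ∀ d ∈ D, d * d = 1 := fun d hd => sq_of_order (hinv d hd)
  constructor
  · intro h a ha b hb hne hab
    have ha2 := hsq a ha
    have hb2 := hsq b hb
    ext y
    constructor
    · rintro ⟨hy, hcy⟩
      have hy2 := hsq y hy
      by_contra hcon
      have hnc : ¬ Commute a y := by
        intro hay
        apply hcon
        refine ⟨⟨hy, hay⟩, hy, ?_⟩
        -- y commutes with a and a b, hence with b
        have h1 : b = a * (a * b) := by rw [← mul_assoc, ha2, one_mul]
        rw [h1]
        exact hay.mul_left hcy
      -- the order of `a y` is odd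
      have hodd : Odd (orderOf (a * y)) := by
        rcases h a ha y hy with h' | h'
        · exact h'
        · exfalso
          apply hnc
          apply commute_of_sq ha2 hy2
          rw [← h', pow_orderOf_eq_one]
      set t := (a * y) ^ 2 with ht
      set b' := y * b * y⁻¹ with hb'
      have hb'D : b' ∈ D := hconj y b hb
      have hy1 : y⁻¹ = y := inv_of_sq hy2
      have hab' : a * b' = t * (a * b) := by
        have h1 : y * (a * b) = (a * b) * y := hcy.symm.eq
        have h2 : t = a * y * a * y := by rw [ht, pow_two]; simp only [mul_assoc]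
        rw [h2, hb', hy1]
        calc a * (y * b * y) = a * y * (a * a) * b * y := by rw [ha2]; simp only [mul_assoc, mul_one]
          _ = a * y * a * ((a * b) * y) := by simp only [mul_assoc]
          _ = a * y * a * (y * (a * b)) := by rw [h1]
          _ = a * y * a * y * (a * b) := by simp only [mul_assoc]
      have hcabt : Commute t (a * b) := by
        have h1 : Commute a (a * b) := (Commute.refl a).mul_right hab
        have h2 : Commute y (a * b) := hcy.symm
        exact (h1.mul_left h2).pow_left 2
      obtain ⟨k, hk⟩ := hodd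
      have htm : t ^ (2 * k + 1) = 1 := by
        rw [ht, ← pow_mul, Nat.mul_comm, pow_mul, ← hk, pow_orderOf_eq_one, one_pow]
      have hs2 : (a * b) ^ 2 = 1 := sq_of_commute ha2 hb2 hab
      have hco : Nat.Coprime 2 (2 * k + 1) := by
        rw [Nat.coprime_two_left]
        exact ⟨k, rfl⟩
      rcases h a ha b' hb'D with ho | ho
      · -- odd order
        obtain ⟨r, hr⟩ := ho
        have hu : (a * b') ^ (2 * r + 1) = 1 := by rw [← hr, pow_orderOf_eq_one]
        rw [hab', hcabt.mul_pow] at hu
        have hsr : (a * b) ^ (2 * r + 1) = a * b := by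
          rw [pow_succ, pow_mul, hs2, one_pow, one_mul]
        rw [hsr] at hu
        have hs : a * b = (t ^ (2 * r + 1))⁻¹ := eq_inv_of_mul_eq_one_right hu
        have hsm : (a * b) ^ (2 * k + 1) = 1 := by
          rw [hs, inv_pow, ← pow_mul, Nat.mul_comm, pow_mul, htm, one_pow, inv_one]
        have hs1 : a * b = 1 := by
          have := pow_gcd_eq_one.2 ⟨hs2, hsm⟩
          rwa [hco.gcd_eq_one, pow_one] at this
        apply hne
        have := eq_inv_of_mul_eq_one_left hs1
        rw [inv_of_sq hb2] at this
        exact this.symm
      · have hu : (a * b') ^ 2 = 1 := by rw [← ho, pow_orderOf_eq_one]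
        rw [hab', hcabt.mul_pow, hs2, mul_one] at hu
        have ht1 : t = 1 := by
          have := pow_gcd_eq_one.2 ⟨hu, htm⟩
          rwa [hco.gcd_eq_one, pow_one] at this
        exact hnc (commute_of_sq ha2 hy2 ht1)
    · rintro ⟨⟨hy, h1⟩, -, h2⟩
      exact ⟨hy, h1.mul_left h2⟩
  · intro h a ha b hb
    have ha2 := hsq a ha
    have hb2 := hsq b hb
    by_cases hodd : Odd (orderOf (a * b))
    · exact Or.inl hodd
    right
    obtain ⟨m, hm⟩ := Nat.not_odd_iff_even.1 hodd
    have hpos : 0 < orderOf (a * b) := orderOf_pos _
    by_contra hne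
    have hm0 : 0 < m := by omega
    have hm1 : m ≠ 1 := by
      rintro rfl
      exact hne hm
    set z := (a * b) ^ m with hz
    have hz2 : z * z = 1 := by
      rw [hz, ← pow_add, ← hm, pow_orderOf_eq_one]
    have hz1 : z ≠ 1 := by
      intro hz1
      have := orderOf_le_of_pow_eq_one hm0 hz1
      omega
    have haz : a * z * a = z := by
      rw [hz, dinv ha2 hb2, ← hz, inv_of_sq hz2]
    have hbz : b * z * b = z := by
      rw [hz, dinv' ha2 hb2, ← hz, inv_of_sq hz2]
    have hcaz : Commute a z := by
      show a * z = z * a
      calc a * z = a * z * a * a := by rw [mul_assoc _ a a, ha2, mul_one]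
        _ = z * a := by rw [haz]
    have hcbz : Commute b z := by
      show b * z = z * b
      calc b * z = b * z * b * b := by rw [mul_assoc _ b b, hb2, mul_one]
        _ = z * b := by rw [hbz]
    have hD' : a * z ∈ D := dih_mem hconj ha hb ha2 hb2 m
    have hne' : a * z ≠ a := by
      intro he
      exact hz1 (mul_eq_left.1 he)
    have hcomm : Commute a (a * z) := (Commute.refl a).mul_right hcaz
    have key := h a ha _ hD' hne' hcomm
    have hzz : a * (a * z) = z := by rw [← mul_assoc, ha2, one_mul]
    rw [hzz] at key
    have hb' : b ∈ {y : G | y ∈ D ∧ Commute z y} := ⟨hb, hcbz.symm⟩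
    rw [key] at hb'
    have hab : Commute a b := hb'.1.2
    have := sq_of_commute ha2 hb2 hab
    have hdvd := orderOf_dvd_of_pow_eq_one this
    have hle := Nat.le_of_dvd (by norm_num) hdvd
    have : orderOf (a * b) = 2 := by omega
    exact hne this


end Cfsg.Agent.S5363
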