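import Cfsg.Statements.S5364
import Mathlib
import Cfsg.Agent.Lib.Dih

set_option autoImplicit false
open Cfsg

namespace Cfsg.Agent.S5364

open Cfsg.Agent.Lib.Dih

/-- Let D be a conjugation-invariant set of involutions of a finite group G and t an involution in the centre of G such that d t does not lie in D for any d in D. If the images of the members of D in G modulo the subgroup generated by t satisfy the 3-transposition order conditions (each has order 2 and any two have product of order at most 3), then so do the members of D. -/
theorem result {G : Type*} [Group G] [Finite G] {D : Set G} (hinv : ∀ d ∈ D, orderOf d = 2) (hconj : ∀ g : G, ∀ d ∈ D, g * d * g⁻¹ ∈ D) (t : G) (ht : orderOf t = 2) (htZ : t ∈ Subgroup.center G) (hDt : ∀ d ∈ D, d * t ∉ D) [(Subgroup.zpowers t).Normal] (himg : Cfsg.IsThreeTranspositionSet ((QuotientGroup.mk : G → G ⧸ Subgroup.zpowers t) '' D)) : Cfsg.IsThreeTranspositionSet D := by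
  refine ⟨hinv, ?_⟩
  intro a ha b hb
  have ha2 : a * a = 1 := sq_of_order (hinv a ha)
  have hb2 : b * b = 1 := sq_of_order (hinv b hb)
  have ht2 : t * t = 1 := sq_of_order ht
  have htc : ∀ x, x * t = t * x := fun x => (Subgroup.mem_center_iff.1 htZ x)
  have hz : ∀ x, x ∈ Subgroup.zpowers t → x = 1 ∨ x = t := by
    intro x hx
    obtain ⟨k, rfl⟩ := hx
    rcases Int.even_or_odd' k with ⟨l, rfl | rfl⟩
    · left
      show t ^ (2 * l) = 1
      rw [zpow_mul, zpow_two, ht2, one_zpow]
    · right
      show t ^ (2 * l + 1) = t
      rw [zpow_add, zpow_mul, zpow_two, ht2, one_zpow, one_mul, zpow_one]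
  have himg' := himg.2 _ ⟨a, ha, rfl⟩ _ ⟨b, hb, rfl⟩
  have hquot : ∀ n : ℕ, ((QuotientGroup.mk a : G ⧸ Subgroup.zpowers t) * QuotientGroup.mk b) ^ n = 1 → (a * b) ^ n = 1 ∨ (a * b) ^ n = t := by
    intro n hn
    apply hz
    rw [← QuotientGroup.eq_one_iff]
    rw [QuotientGroup.mk_pow, QuotientGroup.mk_mul]
    exact hn
  rcases himg' with h | h
  · rcases hquot 2 h with h' | h'
    · exact Or.inl h'
    · exfalso
      -- `b a b = a t`
      apply hDt a ha
      have h1 : b * a * b = a * t := by
        have : a * b * (a * b) = t := by rw [← pow_two]; exact h'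
        calc b * a * b = (a * a) * (b * a * b) := by rw [ha2, one_mul]
          _ = a * (a * b * (a * b)) := by group
          _ = a * t := by rw [this]
      rw [← h1]
      have := hconj b a ha
      rwa [inv_of_sq hb2] at this
  · rcases hquot 3 h with h' | h'
    · exact Or.inr h'
    · exfalso
      -- `b a b = (a b a) t`
      apply hDt (a * b * a)
      · have := hconj a b hb
        rwa [inv_of_sq ha2] at this
      · have h1 : a * b * a * t = b * a * b := by
          have e : a * b * (a * b) * (a * b) = t := by rw [← h']; rw [pow_succ, pow_two]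
          calc a * b * a * t = a * b * a * (a * b * (a * b) * (a * b)) := by rw [e]
            _ = a * b * (a * a) * b * (a * b) * (a * b) := by group
            _ = a * (b * b) * a * b * (a * b) := by rw [ha2]; group
            _ = (a * a) * b * (a * b) := by rw [hb2]; group
            _ = b * a * b := by rw [ha2]; group
        rw [h1]
        have := hconj b a ha
        rwa [inv_of_sq hb2] at this


end Cfsg.Agent.S5364
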