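import Cfsg.Statements.S5393
import Mathlib
import Cfsg.Agent.S0367
import Cfsg.Agent.S0368
import Cfsg.Agent.Lib.LeechCount
import Cfsg.Agent.Lib.GolayCode

set_option autoImplicit false
open Cfsg

namespace Cfsg.Agent.S5393


open Cfsg.Agent.Lib.GolayBasic Cfsg.Agent.Lib.GolayCode
open scoped Pointwise

theorem supp_inj (u v : GolayPt → ZMod 2) (h : support₂ u = support₂ v) : u = v := by
  funext p
  have h1 := Finset.ext_iff.1 h p
  simp only [support₂, Finset.mem_filter, Finset.mem_univ, true_and] at h1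
  have key : ∀ a b : ZMod 2, (a ≠ 0 ↔ b ≠ 0) → a = b := by decide
  exact key _ _ h1

theorem supp_add (u v : GolayPt → ZMod 2) : support₂ (u + v) = symmDiff (support₂ u) (support₂ v) := by
  ext p
  have key : ∀ a b : ZMod 2, a + b ≠ 0 ↔ (a ≠ 0 ∧ ¬ b ≠ 0) ∨ (b ≠ 0 ∧ ¬ a ≠ 0) := by decide
  simp only [support₂, Finset.mem_filter, Finset.mem_univ, true_and, Finset.mem_symmDiff,
    Pi.add_apply]
  exact key _ _

theorem supp_perm (u : GolayPt → ZMod 2) (σ : Equiv.Perm GolayPt) :
    support₂ (fun p => u (σ.symm p)) = σ • support₂ u := by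
  ext p
  rw [Finset.mem_smul_finset]
  simp only [support₂, Finset.mem_filter, Finset.mem_univ, true_and]
  constructor
  · intro h
    exact ⟨σ.symm p, h, by simp⟩
  · rintro ⟨q, hq, rfl⟩
    simpa using hq

theorem oct_of {m : ℕ} (hm : InCode m) (h8 : pc m = 8) : setOf m ∈ octads := by
  refine ⟨(mem_supports_iff).2 ⟨m, hm, rfl⟩, ?_⟩
  rw [card_setOf, h8]

theorem dod_of {m : ℕ} (hm : InCode m) (h8 : pc m = 12) : setOf m ∈ dodecads := by
  refine ⟨(mem_supports_iff).2 ⟨m, hm, rfl⟩, ?_⟩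
  rw [card_setOf, h8]

theorem facts : InCode 3277413 ∧ InCode 6053905 ∧ InCode 7234164 ∧ InCode 6554826 ∧
    InCode (6554826 ^^^ 7234164) ∧ pc 3277413 = 8 ∧ pc 6053905 = 8 ∧ pc 7234164 = 12 ∧ pc 6554826 = 8 ∧
    pc (6554826 ^^^ 7234164) = 12 ∧ 3277413 ^^^ 6053905 = 7234164 := by
  decide +kernel

/-- The length-24 code built from the squares modulo 23 contains the all-ones word, and the code modulo the all-ones word is an irreducible module over the field with two elements for the code's automorphism group: a subspace of the code that contains the all-ones word and is invariant under every coordinate permutation preserving the code is either the span of the all-ones word or the whole code. -/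
theorem result : (fun _ : Cfsg.GolayPt => (1 : ZMod 2)) ∈ Cfsg.golayCode ∧ ∀ W : Submodule (ZMod 2) (Cfsg.GolayPt → ZMod 2), (fun _ => (1 : ZMod 2)) ∈ W → W ≤ Cfsg.golayCode → (∀ σ ∈ Cfsg.M24, ∀ w ∈ W, (fun p => w (σ.symm p)) ∈ W) → W = Submodule.span (ZMod 2) {fun _ => (1 : ZMod 2)} ∨ W = Cfsg.golayCode := by
  classical
  have hone : (fun _ : GolayPt => (1 : ZMod 2)) ∈ golayCode :=
    Submodule.subset_span (Set.mem_union_right _ rfl)
  refine ⟨hone, ?_⟩
  intro W h1 hWC hinv
  obtain ⟨f1, f2, f3, f4, f5, f6, f7, f8, f9, f10, f11⟩ := facts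
  -- invariance of the set of supports
  have hmove : ∀ u ∈ W, ∀ g : M24, ∃ v ∈ W, support₂ v = g • support₂ u := by
    intro u hu g
    exact ⟨_, hinv g g.2 u hu, supp_perm u g⟩
  have hOct : (∃ u ∈ W, support₂ u ∈ octads) → ∀ o ∈ octads, ∃ u ∈ W, support₂ u = o := by
    rintro ⟨u, hu, huo⟩ o ho
    obtain ⟨g, hg⟩ := Cfsg.Agent.S0367.result _ o huo ho
    obtain ⟨v, hv, hsv⟩ := hmove u hu g
    exact ⟨v, hv, hsv.trans hg⟩
  have hDod : (∃ u ∈ W, support₂ u ∈ dodecads) → ∀ o ∈ dodecads, ∃ u ∈ W, support₂ u = o := by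
    rintro ⟨u, hu, huo⟩ o ho
    obtain ⟨g, hg⟩ := Cfsg.Agent.S0368.result _ o huo ho
    obtain ⟨v, hv, hsv⟩ := hmove u hu g
    exact ⟨v, hv, hsv.trans hg⟩
  by_cases hall : ∀ w ∈ W, w = 0 ∨ w = (fun _ => (1 : ZMod 2))
  · left
    apply le_antisymm
    · intro w hw
      rcases hall w hw with rfl | rfl
      · exact Submodule.zero_mem _
      · exact Submodule.mem_span_singleton_self _
    · rw [Submodule.span_singleton_le_iff_mem]
      exact h1
  right
  push_neg at hall
  obtain ⟨w, hw, hw0, hw1⟩ := hall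
  have hsuppOne : support₂ (fun _ : GolayPt => (1 : ZMod 2)) = Finset.univ := by
    ext p
    simp [support₂]
  have hcases : (∃ u ∈ W, support₂ u ∈ octads) ∨ (∃ u ∈ W, support₂ u ∈ dodecads) := by
    have hcd : support₂ w ∈ supports (golayCode : Set (GolayPt → ZMod 2)) := ⟨w, hWC hw, rfl⟩
    rcases Cfsg.Agent.Lib.LeechCount.cd_weight hcd with h | h | h | h | h
    · exfalso
      apply hw0
      apply supp_inj
      rw [Finset.card_eq_zero.1 h]
      ext p
      simp [support₂]
    · exact Or.inl ⟨w, hw, hcd, h⟩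
    · exact Or.inr ⟨w, hw, hcd, h⟩
    · left
      refine ⟨w + (fun _ => 1), W.add_mem hw h1, ?_⟩
      have h2 : support₂ (w + (fun _ => (1 : ZMod 2))) = (support₂ w)ᶜ := by
        rw [supp_add, hsuppOne]
        ext p
        simp [Finset.mem_symmDiff]
      rw [h2]
      refine ⟨Cfsg.Agent.LeechBasic.cd_compl hcd, ?_⟩
      rw [Finset.card_compl, h]
      rfl
    · exfalso
      apply hw1
      apply supp_inj
      rw [hsuppOne]
      apply Finset.eq_univ_of_card
      rw [h]
      rfl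
  have hO₁ := oct_of f1 f6
  have hO₂ := oct_of f2 f7
  have hD₀ := dod_of f3 f8
  have hO := oct_of f4 f9
  have hD' := dod_of f5 f10
  -- both families are in `W`
  have hboth : (∀ o ∈ octads, ∃ u ∈ W, support₂ u = o) := by
    rcases hcases with hc | hc
    · exact hOct hc
    · apply hOct
      have hd := hDod hc
      obtain ⟨u₁, hu₁, e₁⟩ := hd _ hD'
      obtain ⟨u₂, hu₂, e₂⟩ := hd _ hD₀
      refine ⟨u₁ + u₂, W.add_mem hu₁ hu₂, ?_⟩
      rw [supp_add, e₁, e₂, ← setOf_xor]
      have : (6554826 ^^^ 7234164) ^^^ 7234164 = 6554826 := by decide +kernel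
      rw [this]
      exact hO
  have hboth2 : (∀ o ∈ dodecads, ∃ u ∈ W, support₂ u = o) := by
    apply hDod
    obtain ⟨u₁, hu₁, e₁⟩ := hboth _ hO₁
    obtain ⟨u₂, hu₂, e₂⟩ := hboth _ hO₂
    refine ⟨u₁ + u₂, W.add_mem hu₁ hu₂, ?_⟩
    rw [supp_add, e₁, e₂, ← setOf_xor, f11]
    exact hD₀
  apply le_antisymm hWC
  intro c hc
  have hcd : support₂ c ∈ supports (golayCode : Set (GolayPt → ZMod 2)) := ⟨c, hc, rfl⟩
  rcases Cfsg.Agent.Lib.LeechCount.cd_weight hcd with h | h | h | h | h
  · have : c = 0 := by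
      apply supp_inj
      rw [Finset.card_eq_zero.1 h]
      ext p
      simp [support₂]
    rw [this]
    exact W.zero_mem
  · obtain ⟨u, hu, e⟩ := hboth _ ⟨hcd, h⟩
    rwa [supp_inj u c e] at hu
  · obtain ⟨u, hu, e⟩ := hboth2 _ ⟨hcd, h⟩
    rwa [supp_inj u c e] at hu
  · have hcomp : (support₂ c)ᶜ ∈ octads := by
      refine ⟨Cfsg.Agent.LeechBasic.cd_compl hcd, ?_⟩
      rw [Finset.card_compl, h]
      rfl
    obtain ⟨u, hu, e⟩ := hboth _ hcomp
    have h2 : c = u + (fun _ => 1) := by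
      apply supp_inj
      rw [supp_add, hsuppOne, e]
      ext p
      simp [Finset.mem_symmDiff]
    rw [h2]
    exact W.add_mem hu h1
  · have : c = (fun _ => 1) := by
      apply supp_inj
      rw [hsuppOne]
      apply Finset.eq_univ_of_card
      rw [h]
      rfl
    rw [this]
    exact h1


end Cfsg.Agent.S5393
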