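import Cfsg.Statements.S5395
import Mathlib

set_option autoImplicit false
open Cfsg

namespace Cfsg.Agent.S5395

theorem card_hom_le {E : Type*} [Group E] [Finite E] (hcomm : commutator E = Subgroup.center E)
    (hcard : Nat.card (Subgroup.center E) = 2) :
    Nat.card (E →* Subgroup.center E) ≤ Nat.card (E ⧸ Subgroup.center E) := by
  haveI : Fact (Nat.Prime 2) := ⟨Nat.prime_two⟩
  have hr : Nat.card (rootsOfUnity 2 ℂ) = 2 := Complex.card_rootsOfUnity 2
  let e : Subgroup.center E ≃* rootsOfUnity 2 ℂ := mulEquivOfPrimeCardEq hcard hr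
  let χ : Subgroup.center E →* ℂˣ := (rootsOfUnity 2 ℂ).subtype.comp e.toMonoidHom
  have hχ : Function.Injective χ := (Subtype.val_injective).comp e.injective
  haveI : Finite (Abelianization E) := Quotient.finite _
  haveI : NeZero (Monoid.exponent (Abelianization E)) := ⟨Monoid.exponent_ne_zero_of_finite⟩
  have h1 : Nat.card (Abelianization E →* ℂˣ) = Nat.card (Abelianization E) :=
    CommGroup.card_monoidHom_of_hasEnoughRootsOfUnity (Abelianization E) ℂ
  have hinj : Function.Injective (fun f : E →* Subgroup.center E => Abelianization.lift (χ.comp f)) := by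
    intro f g h
    ext x
    have h2 := congrArg (fun F : Abelianization E →* ℂˣ => F (Abelianization.of x)) h
    simp only [Abelianization.lift_apply_of, MonoidHom.comp_apply] at h2
    rw [hχ h2]
  haveI : Finite (Abelianization E →* ℂˣ) := by
    have : Nat.card (Abelianization E →* ℂˣ) ≠ 0 := by
      rw [h1]
      exact Nat.card_pos.ne'
    exact (Nat.card_ne_zero.1 this).2
  have h2 := Nat.card_le_card_of_injective _ hinj
  rw [h1] at h2
  refine h2.trans (le_of_eq ?_)
  show Nat.card (E ⧸ commutator E) = _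
  rw [hcomm]


/-- For a finite extraspecial 2-group E, an automorphism of E that induces the identity on E modulo its centre is inner (so these automorphisms form exactly the inner automorphism group, an elementary abelian 2-group of order |E|/2). -/
theorem result {E : Type*} [Group E] [Finite E] (hE : Cfsg.IsExtraspecial 2 E) (φ : E ≃* E) (hφ : ∀ x : E, φ x * x⁻¹ ∈ Subgroup.center E) : ∃ g : E, ∀ x : E, φ x = g * x * g⁻¹ := by
  classical
  haveI : Fact (Nat.Prime 2) := ⟨Nat.prime_two⟩
  obtain ⟨⟨-, -, hcomm⟩, hcard⟩ := hE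
  set Z : Subgroup E := Subgroup.center E with hZ
  have hcentral : ∀ z ∈ Z, ∀ x : E, z * x = x * z := fun z hz x =>
    (Subgroup.mem_center_iff.1 hz x).symm
  have hcmem : ∀ g x : E, g * x * g⁻¹ * x⁻¹ ∈ Z := by
    intro g x
    rw [← hcomm]
    exact Subgroup.commutator_mem_commutator (Subgroup.mem_top g) (Subgroup.mem_top x)
  -- the homomorphism attached to an element
  let κ : E → (E →* Z) := fun g => MonoidHom.mk' (fun x => ⟨g * x * g⁻¹ * x⁻¹, hcmem g x⟩) (by
    intro x y
    apply Subtype.ext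
    show g * (x * y) * g⁻¹ * (x * y)⁻¹ = (g * x * g⁻¹ * x⁻¹) * (g * y * g⁻¹ * y⁻¹)
    have h := hcentral _ (hcmem g y) x
    calc g * (x * y) * g⁻¹ * (x * y)⁻¹ = g * x * g⁻¹ * x⁻¹ * (x * (g * y * g⁻¹ * y⁻¹)) * x⁻¹ := by group
      _ = g * x * g⁻¹ * x⁻¹ * ((g * y * g⁻¹ * y⁻¹) * x) * x⁻¹ := by rw [h]
      _ = (g * x * g⁻¹ * x⁻¹) * (g * y * g⁻¹ * y⁻¹) := by group)
  have hκ : ∀ g x, ((κ g x : Z) : E) = g * x * g⁻¹ * x⁻¹ := fun g x => rfl
  -- injectivity on cosets
  let ψ : E ⧸ Z → (E →* Z) := fun c => κ c.out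
  have hψ : Function.Injective ψ := by
    intro c c' h
    have h1 : ∀ x : E, (c.out : E) * x * (c.out : E)⁻¹ * x⁻¹ = (c'.out : E) * x * (c'.out : E)⁻¹ * x⁻¹ := by
      intro x
      have := congrArg (fun f : E →* Z => ((f x : Z) : E)) h
      exact this
    have h2 : (c.out : E)⁻¹ * c'.out ∈ Z := by
      refine Subgroup.mem_center_iff.2 ?_
      intro x
      have h3 := mul_right_cancel (h1 x)
      have h4 : x = (c.out : E)⁻¹ * ((c.out : E) * x * (c.out : E)⁻¹) * (c.out : E) := by group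
      calc x * ((c.out : E)⁻¹ * c'.out) = (c.out : E)⁻¹ * ((c.out : E) * x * (c.out : E)⁻¹) * c'.out := by group
        _ = (c.out : E)⁻¹ * ((c'.out : E) * x * (c'.out : E)⁻¹) * c'.out := by rw [h3]
        _ = (c.out : E)⁻¹ * c'.out * x := by group
    have h3 := (QuotientGroup.eq (s := Z)).2 h2
    rwa [QuotientGroup.out_eq', QuotientGroup.out_eq'] at h3
  -- upper bound for the number of homomorphisms
  have hbound : Nat.card (E →* Z) ≤ Nat.card (E ⧸ Z) := by
    exact card_hom_le hcomm hcard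
  have hsurj : Function.Surjective ψ := by
    have : Finite (E →* Z) := Finite.of_injective (fun f : E →* Z => (f : E → Z)) DFunLike.coe_injective
    exact (Function.Injective.bijective_of_nat_card_le hψ hbound).2
  let f : E →* Z := MonoidHom.mk' (fun x => ⟨φ x * x⁻¹, hφ x⟩) (by
    intro x y
    apply Subtype.ext
    show φ (x * y) * (x * y)⁻¹ = (φ x * x⁻¹) * (φ y * y⁻¹)
    have h := hcentral _ (hφ y) x
    rw [map_mul]
    calc φ x * φ y * (x * y)⁻¹ = φ x * x⁻¹ * (x * (φ y * y⁻¹)) * x⁻¹ := by group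
      _ = φ x * x⁻¹ * ((φ y * y⁻¹) * x) * x⁻¹ := by rw [h]
      _ = (φ x * x⁻¹) * (φ y * y⁻¹) := by group)
  obtain ⟨c, hc⟩ := hsurj f
  refine ⟨c.out, fun x => ?_⟩
  have := congrArg (fun f : E →* Z => ((f x : Z) : E)) hc
  have h1 : (c.out : E) * x * (c.out : E)⁻¹ * x⁻¹ = φ x * x⁻¹ := this
  exact (mul_right_cancel h1).symm


end Cfsg.Agent.S5395
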