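import Cfsg.Statements.S5420
import Mathlib
import Cfsg.Agent.Lib.H1Core

set_option autoImplicit false
open Cfsg

namespace Cfsg.Agent.S5420


/-- Let Q be an extraspecial 2-subgroup of the finite group G whose centralizer in G is its centre Z and which is normal in the centralizer of Z. If Z lies in the largest normal 2-subgroup of G, then Q is a large extraspecial 2-subgroup of G: it normalizes no non-trivial subgroup of G of odd order. -/
theorem result {G : Type*} [Group G] [Finite G] (Q : Subgroup G) (hL1 : Cfsg.IsExtraspecial 2 ↥Q) (hL2 : Subgroup.centralizer (Q : Set G) = ((Subgroup.center ↥Q).map Q.subtype)) (hL3 : Subgroup.centralizer (((Subgroup.center ↥Q).map Q.subtype) : Set G) ≤ Subgroup.normalizer (Q : Set G)) (hZ : ((Subgroup.center ↥Q).map Q.subtype) ≤ Cfsg.pCore 2 G) : Cfsg.IsLargeExtraspecial Q := by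
  refine ⟨hL1, hL2, hL3, ?_⟩
  intro K hK hQK
  haveI : Fact (Nat.Prime 2) := ⟨Nat.prime_two⟩
  set Z : Subgroup G := (Subgroup.center Q).map Q.subtype with hZdef
  set R : Subgroup G := Cfsg.pCore 2 G with hR
  have hRp : IsPGroup 2 R := Cfsg.Agent.Lib.H1Core.pCore_isPGroup 2
  haveI hRn : R.Normal := Cfsg.Agent.Lib.H1Core.pCore_normal 2 G
  have hdisj : ∀ A B : Subgroup G, Odd (Nat.card A) → IsPGroup 2 B → A ⊓ B = ⊥ := by
    intro A B hA hB
    rw [Subgroup.eq_bot_iff_forall]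
    rintro x ⟨hxA, hxB⟩
    obtain ⟨k, hk⟩ := hB ⟨x, hxB⟩
    have hk' : x ^ 2 ^ k = 1 := congrArg Subtype.val hk
    have h1 : x ^ Nat.card A = 1 := by
      have := pow_card_eq_one' (x := (⟨x, hxA⟩ : A))
      exact congrArg Subtype.val this
    have hco : Nat.Coprime (2 ^ k) (Nat.card A) := Nat.Coprime.pow_left _ ((Nat.coprime_two_left).2 hA)
    have := pow_gcd_eq_one.2 ⟨hk', h1⟩
    rwa [hco.gcd_eq_one, pow_one] at this
  have hZQ : Z ≤ Q := by
    rintro _ ⟨z, -, rfl⟩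
    exact z.2
  -- K centralizes Z
  have hKZ : ∀ k ∈ K, ∀ z ∈ Z, k * z = z * k := by
    intro k hk z hz
    have hzR := hZ hz
    have hzN := hQK (hZQ hz)
    have h1 : k * z * k⁻¹ * z⁻¹ ∈ R := by
      exact R.mul_mem (hRn.conj_mem z hzR k) (R.inv_mem hzR)
    have h2 : k * z * k⁻¹ * z⁻¹ ∈ K := by
      have h3 : z * k⁻¹ * z⁻¹ ∈ K := (Subgroup.mem_normalizer_iff.1 hzN _).1 (K.inv_mem hk)
      have e : k * z * k⁻¹ * z⁻¹ = k * (z * k⁻¹ * z⁻¹) := by group
      rw [e]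
      exact K.mul_mem hk h3
    have h3 : k * z * k⁻¹ * z⁻¹ = 1 := by
      have := hdisj K R hK hRp
      have h4 : k * z * k⁻¹ * z⁻¹ ∈ K ⊓ R := ⟨h2, h1⟩
      rw [this] at h4
      exact h4
    have := mul_inv_eq_one.1 h3
    rw [mul_inv_eq_iff_eq_mul] at this
    exact this
  have hKN : K ≤ Subgroup.normalizer (Q : Set G) := by
    intro k hk
    apply hL3
    rw [Subgroup.mem_centralizer_iff]
    intro z hz
    exact (hKZ k hk z hz).symm
  -- K centralizes Q
  have hKQ : K ≤ Subgroup.centralizer (Q : Set G) := by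
    intro k hk
    rw [Subgroup.mem_centralizer_iff]
    intro q hq
    have hq' : q ∈ Q := hq
    have hqN := hQK hq'
    have h1 : q * k⁻¹ * q⁻¹ ∈ K := (Subgroup.mem_normalizer_iff.1 hqN _).1 (K.inv_mem hk)
    have h2 : k * q * k⁻¹ ∈ Q := (Subgroup.mem_normalizer_iff.1 (hKN hk) _).1 hq'
    have hQp : IsPGroup 2 Q := hL1.1.1
    have h3 : k * (q * k⁻¹ * q⁻¹) = 1 := by
      have h4 : k * (q * k⁻¹ * q⁻¹) ∈ K ⊓ Q := by
        refine ⟨K.mul_mem hk h1, ?_⟩
        have e : k * (q * k⁻¹ * q⁻¹) = k * q * k⁻¹ * q⁻¹ := by group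
        rw [e]
        exact Q.mul_mem h2 (Q.inv_mem hq')
      rw [hdisj K Q hK hQp] at h4
      exact h4
    have e : q * k⁻¹ * q⁻¹ = k⁻¹ := eq_inv_of_mul_eq_one_right h3
    have : q * k⁻¹ = k⁻¹ * q := mul_inv_eq_iff_eq_mul.1 e
    symm
    calc k * q = k * (q * k⁻¹) * k := by simp [mul_assoc]
      _ = k * (k⁻¹ * q) * k := by rw [this]
      _ = q * k := by simp
  rw [hL2] at hKQ
  have hpZ : IsPGroup 2 Z := by
    apply IsPGroup.to_le hL1.1.1 hZQ
  rw [Subgroup.eq_bot_iff_forall]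
  intro x hx
  have h1 : x ∈ K ⊓ Z := ⟨hx, hKQ hx⟩
  rw [hdisj K Z hK hpZ] at h1
  exact h1


end Cfsg.Agent.S5420
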