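import Cfsg.Statements.S5421
import Mathlib
import Cfsg.Agent.Lib.H1Core

set_option autoImplicit false
open Cfsg

namespace Cfsg.Agent.S5421


section
open scoped commutatorElement
variable {G : Type*} [Group G] [Finite G]

theorem inverts (K : Subgroup G) (t : G) (ht : t * t = 1) (hn : ∀ k ∈ K, t * k * t⁻¹ ∈ K)
    (hfix : ∀ k ∈ K, t * k * t⁻¹ = k → k = 1) : ∀ k ∈ K, t * k * t⁻¹ = k⁻¹ := by
  classical
  let f : K → K := fun x => ⟨(x : G)⁻¹ * (t * x * t⁻¹), K.mul_mem (K.inv_mem x.2) (hn x x.2)⟩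
  have hinj : Function.Injective f := by
    intro x y hxy
    have h1 : (x : G)⁻¹ * (t * x * t⁻¹) = (y : G)⁻¹ * (t * y * t⁻¹) := congrArg Subtype.val hxy
    have h2 : t * ((y : G) * (x : G)⁻¹) * t⁻¹ = (y : G) * (x : G)⁻¹ := by
      have h3 : t * (x : G) * t⁻¹ = (x : G) * ((y : G)⁻¹ * (t * y * t⁻¹)) := by
        rw [← h1]; group
      have h4 : t * ((y : G) * (x : G)⁻¹) * t⁻¹ = (t * y * t⁻¹) * (t * (x : G) * t⁻¹)⁻¹ := by group
      rw [h4, h3]
      group
    have h3 := hfix _ (K.mul_mem y.2 (K.inv_mem x.2)) h2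
    exact Subtype.ext (mul_inv_eq_one.1 h3).symm
  have hsurj := Finite.surjective_of_injective hinj
  intro k hk
  obtain ⟨x, hx⟩ := hsurj ⟨k, hk⟩
  have hk' : k = (x : G)⁻¹ * (t * x * t⁻¹) := (congrArg Subtype.val hx).symm
  have ht' : t⁻¹ = t := inv_eq_of_mul_eq_one_left ht
  rw [hk', ht']
  have h5 : t * ((x : G)⁻¹ * (t * x * t)) * t = t * (x : G)⁻¹ * t * x * (t * t) := by group
  rw [h5, ht]
  have h6 : ((x : G)⁻¹ * (t * x * t))⁻¹ = t⁻¹ * (x : G)⁻¹ * t⁻¹ * x := by group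
  rw [h6, ht']
  group

theorem eq_one_of (K : Subgroup G) (hodd : Odd (Nat.card K)) (x : G) (hx : x ∈ K) (k : ℕ)
    (hk : x ^ (2 ^ k) = 1) : x = 1 := by
  have h1 : orderOf x ∣ 2 ^ k := orderOf_dvd_of_pow_eq_one hk
  have h2 : orderOf x ∣ Nat.card K := by
    have := orderOf_dvd_natCard (⟨x, hx⟩ : K)
    rwa [Subgroup.orderOf_mk] at this
  have h3 : Nat.Coprime (2 ^ k) (Nat.card K) :=
    Nat.Coprime.pow_left k (Nat.coprime_two_left.2 hodd)
  have h4 : orderOf x = 1 := Nat.Coprime.eq_one_of_dvd (Nat.Coprime.coprime_dvd_left h1 h3) h2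
  exact orderOf_eq_one_iff.1 h4

end

/-- Let Q be an extraspecial 2-subgroup of the finite group G whose centralizer in G is its centre Z and which is normal in the centralizer of Z. If some involution b of Q outside Z has Z inside the largest normal 2-subgroup of the centralizer of b, then Q is a large extraspecial 2-subgroup of G. -/
theorem result {G : Type*} [Group G] [Finite G] (Q : Subgroup G) (hL1 : Cfsg.IsExtraspecial 2 ↥Q) (hL2 : Subgroup.centralizer (Q : Set G) = ((Subgroup.center ↥Q).map Q.subtype)) (hL3 : Subgroup.centralizer (((Subgroup.center ↥Q).map Q.subtype) : Set G) ≤ Subgroup.normalizer (Q : Set G)) (b : G) (hbQ : b ∈ Q) (hbZ : b ∉ ((Subgroup.center ↥Q).map Q.subtype)) (hb : orderOf b = 2) (hZ : ((Subgroup.center ↥Q).map Q.subtype) ≤ (Cfsg.pCore 2 ↥(Subgroup.centralizer ({b} : Set G))).map (Subgroup.centralizer ({b} : Set G)).subtype) : Cfsg.IsLargeExtraspecial Q := by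
  classical
  refine ⟨hL1, hL2, hL3, ?_⟩
  intro K hKodd hQK
  have hQ2 : IsPGroup 2 Q := hL1.1.1
  obtain ⟨z₀, hz₀, huniq⟩ := (Nat.card_eq_two_iff' (1 : Subgroup.center Q)).1 hL1.2
  let z : G := ((z₀ : Q) : G)
  have hz1 : z ≠ 1 := fun h => hz₀ (Subtype.ext (Subtype.ext h))
  have hzQ : z ∈ Q := (z₀ : Q).2
  have hzZ : ∀ u : Subgroup.center Q, u = 1 ∨ u = z₀ := by
    intro u
    by_cases hu : u = 1
    · exact Or.inl hu
    · exact Or.inr (huniq u hu)
  have hz2' : z₀ * z₀ = 1 := by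
    rcases hzZ (z₀ * z₀) with h | h
    · exact h
    · exfalso
      apply hz₀
      have := mul_eq_left.1 h
      exact this
  have hzz : z * z = 1 := by
    have := congrArg (fun u : Subgroup.center Q => ((u : Q) : G)) hz2'
    exact this
  have hzc : ∀ y ∈ Q, y * z = z * y := by
    intro y hy
    have := (Subgroup.mem_center_iff.1 z₀.2) ⟨y, hy⟩
    exact congrArg Subtype.val this
  have hdisj : ∀ x ∈ K, x ∈ Q → x = 1 := by
    intro x hxK hxQ
    obtain ⟨k, hk⟩ := hQ2 ⟨x, hxQ⟩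
    exact eq_one_of K hKodd x hxK k (congrArg Subtype.val hk)
  have hnK : ∀ y ∈ Q, ∀ k ∈ K, y * k * y⁻¹ ∈ K := by
    intro y hy k hk
    exact ((Subgroup.mem_normalizer_iff).1 (hQK hy) k).1 hk
  -- fixed points of `z`
  have hC1 : ∀ x ∈ K, z * x * z⁻¹ = x → x = 1 := by
    intro x hxK hx
    have hxz : z * x = x * z := mul_inv_eq_iff_eq_mul.1 hx
    have hxC : x ∈ Subgroup.centralizer (((Subgroup.center ↥Q).map Q.subtype : Subgroup G) : Set G) := by
      rw [Subgroup.mem_centralizer_iff]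
      rintro _ ⟨u, _, rfl⟩
      show ((u : Q) : G) * x = x * ((u : Q) : G)
      rcases hzZ ⟨u, ‹_›⟩ with h | h
      · have : ((u : Q) : G) = 1 := by
          have := congrArg (fun u : Subgroup.center Q => ((u : Q) : G)) h
          exact this
        rw [this, one_mul, mul_one]
      · have : ((u : Q) : G) = z := by
          have := congrArg (fun u : Subgroup.center Q => ((u : Q) : G)) h
          exact this
        rw [this, hxz]
    have hxN := hL3 hxC
    have hxQc : x ∈ Subgroup.centralizer (Q : Set G) := by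
      rw [Subgroup.mem_centralizer_iff]
      intro y hy
      have h1 : x * y * x⁻¹ ∈ Q := ((Subgroup.mem_normalizer_iff).1 hxN y).1 hy
      have h2 : x * y * x⁻¹ * y⁻¹ ∈ Q := Q.mul_mem h1 (Q.inv_mem hy)
      have h3 : x * y * x⁻¹ * y⁻¹ ∈ K := by
        have h4 : x * y * x⁻¹ * y⁻¹ = x * (y * x⁻¹ * y⁻¹) := by group
        rw [h4]
        exact K.mul_mem hxK (hnK y hy _ (K.inv_mem hxK))
      have h5 := hdisj _ h3 h2
      have h6 : x * y * x⁻¹ = y := mul_inv_eq_one.1 h5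
      exact (mul_inv_eq_iff_eq_mul.1 h6).symm
    rw [hL2] at hxQc
    obtain ⟨u, _, hu⟩ := hxQc
    have hxQ : x ∈ Q := by
      rw [← hu]; exact (u : Q).2
    exact hdisj x hxK hxQ
  -- fixed points of `b`
  have hC2 : ∀ x ∈ K, b * x * b⁻¹ = x → x = 1 := by
    intro x hxK hx
    have hxb : b * x = x * b := mul_inv_eq_iff_eq_mul.1 hx
    apply hC1 x hxK
    let C := Subgroup.centralizer ({b} : Set G)
    have hxC : x ∈ C := by
      rw [Subgroup.mem_centralizer_singleton_iff]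
      exact hxb.symm
    have hzP : z ∈ (Cfsg.pCore 2 ↥C).map C.subtype := hZ ⟨_, z₀.2, rfl⟩
    obtain ⟨z', hz'P, hz'⟩ := hzP
    have hz'' : (z' : G) = z := hz'
    haveI : (Cfsg.pCore 2 ↥C).Normal := inferInstance
    have h1 : (⟨x, hxC⟩ : C) * z' * (⟨x, hxC⟩ : C)⁻¹ * z'⁻¹ ∈ Cfsg.pCore 2 ↥C :=
      Subgroup.mul_mem _ (Subgroup.Normal.conj_mem inferInstance z' hz'P _) (Subgroup.inv_mem _ hz'P)
    have hp2 : IsPGroup 2 (Cfsg.pCore 2 ↥C) := Cfsg.Agent.Lib.H1Core.pCore_isPGroup 2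
    obtain ⟨k, hk⟩ := hp2 ⟨_, h1⟩
    have hk' : (x * z * x⁻¹ * z⁻¹) ^ (2 ^ k) = 1 := by
      have := congrArg (fun u : Cfsg.pCore 2 ↥C => ((u : C) : G)) hk
      simp only [SubmonoidClass.coe_pow] at this
      have h2 : (((⟨x, hxC⟩ : C) * z' * (⟨x, hxC⟩ : C)⁻¹ * z'⁻¹ : C) : G) = x * z * x⁻¹ * z⁻¹ := by
        simp [hz'']
      rw [h2] at this
      exact this
    have hmemK : x * z * x⁻¹ * z⁻¹ ∈ K := by
      have h4 : x * z * x⁻¹ * z⁻¹ = x * (z * x⁻¹ * z⁻¹) := by group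
      rw [h4]
      exact K.mul_mem hxK (hnK z hzQ _ (K.inv_mem hxK))
    have h5 := eq_one_of K hKodd _ hmemK k hk'
    have h6 : x * z * x⁻¹ = z := mul_inv_eq_one.1 h5
    have h7 : x * z = z * x := mul_inv_eq_iff_eq_mul.1 h6
    rw [← h7]
    group
  have hbb : b * b = 1 := by
    rw [← pow_two, ← hb]
    exact pow_orderOf_eq_one b
  have hzinv := inverts K z hzz (hnK z hzQ) hC1
  have hbinv := inverts K b hbb (hnK b hbQ) hC2
  -- a noncommuting partner of `b`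
  obtain ⟨c, hcQ, hcb⟩ : ∃ c ∈ Q, c * b ≠ b * c := by
    by_contra hcon
    push Not at hcon
    apply hbZ
    refine ⟨⟨b, hbQ⟩, ?_, rfl⟩
    show _ ∈ Subgroup.center Q
    rw [Subgroup.mem_center_iff]
    intro y
    exact Subtype.ext (hcon y y.2)
  have hcomm : c * b * c⁻¹ * b⁻¹ = z := by
    have h1 : (⟨c, hcQ⟩ : Q) * (⟨b, hbQ⟩ : Q) * (⟨c, hcQ⟩ : Q)⁻¹ * (⟨b, hbQ⟩ : Q)⁻¹ ∈ commutator Q :=
      Subgroup.commutator_mem_commutator (Subgroup.mem_top _) (Subgroup.mem_top _)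
    rw [hL1.1.2.2] at h1
    rcases hzZ ⟨_, h1⟩ with h | h
    · exfalso
      apply hcb
      have h2 := congrArg (fun u : Subgroup.center Q => ((u : Q) : G)) h
      have h3 : c * b * c⁻¹ * b⁻¹ = 1 := h2
      have h4 := mul_inv_eq_one.1 h3
      exact mul_inv_eq_iff_eq_mul.1 h4
    · have h2 := congrArg (fun u : Subgroup.center Q => ((u : Q) : G)) h
      exact h2
  have hcb' : c * b * c⁻¹ = z * b := mul_inv_eq_iff_eq_mul.1 hcomm
  rw [eq_bot_iff]
  intro k hk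
  rw [Subgroup.mem_bot]
  have hA : (z * b) * k * (z * b)⁻¹ = k := by
    have h1 : (z * b) * k * (z * b)⁻¹ = z * (b * k * b⁻¹) * z⁻¹ := by group
    rw [h1, hbinv k hk]
    have h2 : z * k⁻¹ * z⁻¹ = (z * k * z⁻¹)⁻¹ := by group
    rw [h2, hzinv k hk, inv_inv]
  have hB : (z * b) * k * (z * b)⁻¹ = k⁻¹ := by
    rw [← hcb']
    have h1 : (c * b * c⁻¹) * k * (c * b * c⁻¹)⁻¹ = c * (b * (c⁻¹ * k * c) * b⁻¹) * c⁻¹ := by group
    have h2 : c⁻¹ * k * c ∈ K := by
      have := hnK c⁻¹ (Q.inv_mem hcQ) k hk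
      rwa [inv_inv] at this
    rw [h1, hbinv _ h2]
    group
  have hkk : k ^ (2 ^ 1) = 1 := by
    have h3 : k = k⁻¹ := hA.symm.trans hB
    rw [pow_one, pow_two]
    nth_rewrite 1 [h3]
    exact inv_mul_cancel k
  exact eq_one_of K hKodd k hk 1 hkk


end Cfsg.Agent.S5421
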