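import Cfsg.Statements.S5433
import Mathlib

set_option autoImplicit false
open Cfsg

namespace Cfsg.Agent.S5433


/-- Let Q be a large extraspecial 2-subgroup of the finite group G (extraspecial; centralizer equal to its centre; normal in the centralizer of its centre; normalizing no non-trivial subgroup of odd order), and L a normal subgroup of G containing Q. Then G is the product of L and the normalizer of Q. -/
theorem result {G : Type*} [Group G] [Finite G] (Q : Subgroup G) (hQ : Cfsg.IsLargeExtraspecial Q) (L : Subgroup G) [L.Normal] (hQL : Q ≤ L) : L ⊔ Subgroup.normalizer (Q : Set G) = ⊤ := by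
  obtain ⟨hQe, hC, hN, -⟩ := hQ
  haveI : Fact (Nat.Prime 2) := ⟨Nat.prime_two⟩
  have hQp : IsPGroup 2 Q := hQe.1.1
  have hQL' : IsPGroup 2 (Q.subgroupOf L) := by
    have : IsPGroup 2 ((Q.subgroupOf L).map L.subtype) := by
      rw [Subgroup.subgroupOf_map_subtype]
      exact hQp.to_le inf_le_left
    exact (this.comap_of_injective L.subtype L.subtype_injective).to_le (by
      intro x hx
      exact ⟨x, hx, rfl⟩)
  obtain ⟨T, hT⟩ := hQL'.exists_le_sylow
  have hfr := Sylow.normalizer_sup_eq_top T
  set T' : Subgroup G := (T : Subgroup L).map L.subtype with hT'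
  have hQT' : Q ≤ T' := by
    intro q hq
    exact ⟨⟨q, hQL hq⟩, hT (by exact hq), rfl⟩
  have hpT' : IsPGroup 2 T' := T.isPGroup'.map L.subtype
  -- the central element
  obtain ⟨c, hc, huniq⟩ := (Nat.card_eq_two_iff' (1 : Subgroup.center Q)).1 hQe.2
  set z : G := ((c : Q) : G) with hz
  have hz1 : z ≠ 1 := by
    intro h
    apply hc
    exact Subtype.ext (Subtype.ext h)
  set Zm : Subgroup G := (Subgroup.center Q).map Q.subtype with hZm
  have hZ2 : ∀ w ∈ Zm, w = 1 ∨ w = z := by
    rintro _ ⟨w, hw, rfl⟩
    by_cases h : (⟨w, hw⟩ : Subgroup.center Q) = 1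
    · left
      have := congrArg (fun a : Subgroup.center Q => ((a : Q) : G)) h
      exact this
    · right
      have := huniq _ h
      have := congrArg (fun a : Subgroup.center Q => ((a : Q) : G)) this
      exact this
  have hzZ : z ∈ Zm := ⟨c, c.2, rfl⟩
  have hcent : ∀ u ∈ T', (∀ v ∈ T', u * v = v * u) → u ∈ Zm := by
    intro u hu hcomm
    rw [← hC, Subgroup.mem_centralizer_iff]
    intro q hq
    exact (hcomm q (hQT' hq)).symm
  haveI hnt : Nontrivial T' := by
    refine ⟨⟨⟨z, hQT' (c : Q).2⟩, 1, ?_⟩⟩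
    intro h
    exact hz1 (congrArg Subtype.val h)
  haveI := hpT'.center_nontrivial
  obtain ⟨x, hx⟩ := exists_ne (1 : Subgroup.center T')
  have hx1 : ((x : T') : G) ≠ 1 := by
    intro h
    exact hx (Subtype.ext (Subtype.ext h))
  have hxc : ∀ v ∈ T', ((x : T') : G) * v = v * ((x : T') : G) := by
    intro v hv
    have := (Subgroup.mem_center_iff.1 x.2) ⟨v, hv⟩
    exact (congrArg Subtype.val this).symm
  have hxz : ((x : T') : G) = z := by
    rcases hZ2 _ (hcent _ (x : T').2 hxc) with h | h
    · exact absurd h hx1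
    · exact h
  have hzT : z ∈ T' := hQT' (c : Q).2
  have hzc : ∀ v ∈ T', z * v = v * z := by
    rw [← hxz]
    exact hxc
  have hNle : Subgroup.normalizer (T' : Set G) ≤ Subgroup.normalizer (Q : Set G) := by
    intro g hg
    have hg' := Subgroup.mem_normalizer_iff.1 hg
    have h1 : g * z * g⁻¹ ∈ T' := (hg' z).1 hzT
    have h2 : ∀ v ∈ T', (g * z * g⁻¹) * v = v * (g * z * g⁻¹) := by
      intro v hv
      have hv' : g⁻¹ * v * g ∈ T' := by
        have := (hg' (g⁻¹ * v * g)).2 (by
          have e : g * (g⁻¹ * v * g) * g⁻¹ = v := by group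
          rwa [e])
        exact this
      have h3 := hzc _ hv'
      calc (g * z * g⁻¹) * v = g * (z * (g⁻¹ * v * g)) * g⁻¹ := by group
        _ = g * ((g⁻¹ * v * g) * z) * g⁻¹ := by rw [h3]
        _ = v * (g * z * g⁻¹) := by group
    have h3 : g * z * g⁻¹ = z := by
      rcases hZ2 _ (hcent _ h1 h2) with h | h
      · exfalso
        apply hz1
        have : z = g⁻¹ * (g * z * g⁻¹) * g := by group
        rw [this, h]
        group
      · exact h
    apply hN
    rw [Subgroup.mem_centralizer_iff]
    intro w hw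
    rcases hZ2 w hw with h | h
    · rw [h]; simp
    · rw [h]
      exact (mul_inv_eq_iff_eq_mul.1 h3).symm
  rw [eq_top_iff, ← hfr, sup_comm]
  exact sup_le_sup le_rfl hNle


end Cfsg.Agent.S5433
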