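import Cfsg.Statements.S5434
import Mathlib
import Cfsg.Agent.S5421
import Cfsg.Agent.Lib.H1Cop
import Cfsg.Agent.Lib.PGrp
import Cfsg.Agent.Lib.PGrp2
import Cfsg.Agent.Lib.H1Trace

set_option autoImplicit false
open Cfsg

namespace Cfsg.Agent.S5434


open scoped commutatorElement
open Cfsg.Agent.Lib.H1Cop

/-- A subgroup of an extraspecial group that is non-abelian and has a commuting complement factor is extraspecial. -/
theorem lem_L {G : Type*} [Group G] [Finite G] (Q P T : Subgroup G) (hE : IsExtraspecial 2 ↥Q)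
    (hC : Subgroup.centralizer (Q : Set G) = (Subgroup.center ↥Q).map Q.subtype) (hPQ : P ≤ Q)
    (hPT : P ⊔ T = Q) (hcomm : ∀ x ∈ P, ∀ y ∈ T, x * y = y * x) (hna : ¬ IsMulCommutative P) :
    IsExtraspecial 2 ↥P := by
  classical
  haveI : Fact (Nat.Prime 2) := ⟨Nat.prime_two⟩
  have hQ2 : IsPGroup 2 Q := hE.1.1
  have hP2 : IsPGroup 2 P := hQ2.to_le hPQ
  obtain ⟨z₀, hz₀, huniq⟩ := (Nat.card_eq_two_iff' (1 : Subgroup.center Q)).1 hE.2
  let z : G := ((z₀ : Q) : G)
  have hz1 : z ≠ 1 := fun h => hz₀ (Subtype.ext (Subtype.ext h))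
  have hzQ : z ∈ Q := (z₀ : Q).2
  have hzZ : ∀ u : Subgroup.center Q, u = 1 ∨ u = z₀ := by
    intro u
    by_cases hu : u = 1
    · exact Or.inl hu
    · exact Or.inr (huniq u hu)
  have hcen : ∀ x : Q, x ∈ Subgroup.center Q → (x : G) = 1 ∨ (x : G) = z := by
    intro x hx
    rcases hzZ ⟨x, hx⟩ with h | h
    · left
      exact congrArg (fun u : Subgroup.center Q => ((u : Q) : G)) h
    · right
      exact congrArg (fun u : Subgroup.center Q => ((u : Q) : G)) h
  have hzc : ∀ y ∈ Q, z * y = y * z := by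
    intro y hy
    have := (Subgroup.mem_center_iff.1 z₀.2) ⟨y, hy⟩
    exact (congrArg Subtype.val this).symm
  have hF1 : ∀ x ∈ Q, ∀ y ∈ Q, x * y * x⁻¹ * y⁻¹ = 1 ∨ x * y * x⁻¹ * y⁻¹ = z := by
    intro x hx y hy
    have h1 : (⟨x, hx⟩ : Q) * (⟨y, hy⟩ : Q) * (⟨x, hx⟩ : Q)⁻¹ * (⟨y, hy⟩ : Q)⁻¹ ∈ commutator Q :=
      Subgroup.commutator_mem_commutator (Subgroup.mem_top _) (Subgroup.mem_top _)
    rw [hE.1.2.2] at h1
    exact hcen _ h1
  have hF2 : ∀ x ∈ Q, x ^ 2 = 1 ∨ x ^ 2 = z := by
    intro x hx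
    have h1 := Cfsg.Agent.Lib.PGrp.pow_mem_frattini hQ2 (⟨x, hx⟩ : Q)
    rw [hE.1.2.1] at h1
    exact hcen _ h1
  obtain ⟨u, v, huv⟩ : ∃ u v : P, u * v ≠ v * u := by
    by_contra hcon
    push Not at hcon
    exact hna ⟨⟨hcon⟩⟩
  have hzP : z ∈ P := by
    rcases hF1 u (hPQ u.2) v (hPQ v.2) with h | h
    · exfalso
      apply huv
      have h2 := mul_inv_eq_one.1 h
      exact Subtype.ext (mul_inv_eq_iff_eq_mul.1 h2)
    · rw [← h]
      exact P.mul_mem (P.mul_mem (P.mul_mem u.2 v.2) (P.inv_mem u.2)) (P.inv_mem v.2)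
  let zP : P := ⟨z, hzP⟩
  have hzP1 : zP ≠ 1 := fun h => hz1 (congrArg Subtype.val h)
  have hcent : ∀ w : P, w ∈ Subgroup.center P ↔ w = 1 ∨ w = zP := by
    intro w
    constructor
    · intro hw
      have hw' : (w : G) ∈ Subgroup.centralizer (Q : Set G) := by
        rw [Subgroup.mem_centralizer_iff]
        intro y hy
        have hle : P ⊔ T ≤ Subgroup.centralizer ({(w : G)} : Set G) := by
          refine sup_le ?_ ?_
          · intro p hp
            rw [Subgroup.mem_centralizer_singleton_iff]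
            have := (Subgroup.mem_center_iff.1 hw) ⟨p, hp⟩
            exact congrArg Subtype.val this
          · intro t ht
            rw [Subgroup.mem_centralizer_singleton_iff]
            exact (hcomm _ w.2 t ht).symm
        rw [hPT] at hle
        have := hle hy
        rw [Subgroup.mem_centralizer_singleton_iff] at this
        exact this
      rw [hC] at hw'
      obtain ⟨x, hx, hxe⟩ := hw'
      rcases hcen x hx with h | h
      · left
        apply Subtype.ext
        rw [← hxe]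
        exact h
      · right
        apply Subtype.ext
        rw [← hxe]
        exact h
    · rintro (rfl | rfl)
      · exact Subgroup.one_mem _
      · rw [Subgroup.mem_center_iff]
        intro y
        apply Subtype.ext
        exact (hzc y (hPQ y.2)).symm
  have hcomL : commutator P ≤ Subgroup.center P := by
    show ⁅(⊤ : Subgroup P), ⊤⁆ ≤ _
    rw [Subgroup.commutator_le]
    intro a _ b _
    rw [hcent]
    rcases hF1 a (hPQ a.2) b (hPQ b.2) with h | h
    · left
      exact Subtype.ext h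
    · right
      exact Subtype.ext h
  have hcomG : Subgroup.center P ≤ commutator P := by
    intro w hw
    rcases (hcent w).1 hw with rfl | rfl
    · exact Subgroup.one_mem _
    · have h1 : u * v * u⁻¹ * v⁻¹ ∈ commutator P :=
        Subgroup.commutator_mem_commutator (Subgroup.mem_top _) (Subgroup.mem_top _)
      have h2 : u * v * u⁻¹ * v⁻¹ = zP := by
        apply Subtype.ext
        rcases hF1 u (hPQ u.2) v (hPQ v.2) with h | h
        · exfalso
          apply huv
          have h2 := mul_inv_eq_one.1 h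
          exact Subtype.ext (mul_inv_eq_iff_eq_mul.1 h2)
        · exact h
      rwa [h2] at h1
  have hcE : commutator P = Subgroup.center P := le_antisymm hcomL hcomG
  have hfr : frattini P = Subgroup.center P := by
    apply le_antisymm
    · apply Cfsg.Agent.Lib.PGrp.frattini_le_of hP2 _ hcomL
      intro x
      rw [hcent]
      rcases hF2 x (hPQ x.2) with h | h
      · left
        exact Subtype.ext h
      · right
        exact Subtype.ext h
    · rw [← hcE]
      exact Cfsg.Agent.Lib.H1Trace.commutator_le_frattini_of_pgroup hP2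
  refine ⟨⟨hP2, hfr, hcE⟩, ?_⟩
  rw [Nat.card_eq_two_iff]
  refine ⟨1, ⟨zP, (hcent _).2 (Or.inr rfl)⟩, fun h => hzP1 (congrArg Subtype.val h).symm, ?_⟩
  ext w
  simp only [Set.mem_insert_iff, Set.mem_singleton_iff, Set.mem_univ, iff_true]
  rcases (hcent w.1).1 w.2 with h | h
  · left
    exact Subtype.ext h
  · right
    exact Subtype.ext h

/-- Let Q be a large extraspecial 2-subgroup of the finite group G (extraspecial; centralizer equal to its centre; normal in the centralizer of its centre; normalizing no non-trivial subgroup of odd order), and A a non-trivial subgroup of odd order of the normalizer of Q. Then Q is the central product of the centralizer of A in Q and the commutator subgroup [Q, A] (they generate Q and commute elementwise), [Q, A] is extraspecial, and the centralizer of A in Q is either the centre of Q or extraspecial. -/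
theorem result {G : Type*} [Group G] [Finite G] (Q : Subgroup G) (hQ : Cfsg.IsLargeExtraspecial Q) (A : Subgroup G) (hA : A ≤ Subgroup.normalizer (Q : Set G)) (hAodd : Odd (Nat.card ↥A)) (hA1 : A ≠ ⊥) : (Q ⊓ Subgroup.centralizer (A : Set G)) ⊔ ⁅Q, A⁆ = Q ∧ (∀ x ∈ Q ⊓ Subgroup.centralizer (A : Set G), ∀ y ∈ ⁅Q, A⁆, x * y = y * x) ∧ Cfsg.IsExtraspecial 2 ↥⁅Q, A⁆ ∧ (Q ⊓ Subgroup.centralizer (A : Set G) = ((Subgroup.center ↥Q).map Q.subtype) ∨ Cfsg.IsExtraspecial 2 ↥(Q ⊓ Subgroup.centralizer (A : Set G))) := by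
  classical
  haveI : Fact (Nat.Prime 2) := ⟨Nat.prime_two⟩
  obtain ⟨hE, hC, hN, hL⟩ := hQ
  have hQ2 : IsPGroup 2 Q := hE.1.1
  haveI : Group.IsNilpotent Q := hQ2.isNilpotent
  have hcop : (Nat.card A).Coprime (Nat.card Q) := by
    obtain ⟨k, hk⟩ := IsPGroup.iff_card.1 hQ2
    rw [hk]
    exact Nat.Coprime.pow_right k (Nat.coprime_two_right.2 hAodd)
  have hsup : ⁅Q, A⁆ ⊔ (Q ⊓ Subgroup.centralizer (A : Set G)) = Q :=
    commutator_sup_centralizer hA hcop (Or.inr inferInstance)
  have hRQ : ⁅Q, A⁆ ≤ Q := commutator_le_left hA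
  obtain ⟨z₀, hz₀, huniq⟩ := (Nat.card_eq_two_iff' (1 : Subgroup.center Q)).1 hE.2
  let z : G := ((z₀ : Q) : G)
  have hz1 : z ≠ 1 := fun h => hz₀ (Subtype.ext (Subtype.ext h))
  have hzQ : z ∈ Q := (z₀ : Q).2
  have hzZ : ∀ u : Subgroup.center Q, u = 1 ∨ u = z₀ := by
    intro u
    by_cases hu : u = 1
    · exact Or.inl hu
    · exact Or.inr (huniq u hu)
  have hcen : ∀ x : Q, x ∈ Subgroup.center Q → (x : G) = 1 ∨ (x : G) = z := by
    intro x hx
    rcases hzZ ⟨x, hx⟩ with h | h
    · left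
      exact congrArg (fun u : Subgroup.center Q => ((u : Q) : G)) h
    · right
      exact congrArg (fun u : Subgroup.center Q => ((u : Q) : G)) h
  have hzc : ∀ y ∈ Q, z * y = y * z := by
    intro y hy
    have := (Subgroup.mem_center_iff.1 z₀.2) ⟨y, hy⟩
    exact (congrArg Subtype.val this).symm
  have hF1 : ∀ x ∈ Q, ∀ y ∈ Q, x * y * x⁻¹ * y⁻¹ = 1 ∨ x * y * x⁻¹ * y⁻¹ = z := by
    intro x hx y hy
    have h1 : (⟨x, hx⟩ : Q) * (⟨y, hy⟩ : Q) * (⟨x, hx⟩ : Q)⁻¹ * (⟨y, hy⟩ : Q)⁻¹ ∈ commutator Q :=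
      Subgroup.commutator_mem_commutator (Subgroup.mem_top _) (Subgroup.mem_top _)
    rw [hE.1.2.2] at h1
    exact hcen _ h1
  -- `A` fixes `z`
  have hAz : ∀ a ∈ A, a * z * a⁻¹ = z := by
    intro a ha
    have hnQ := Subgroup.mem_normalizer_iff.1 (hA ha)
    have h1 : a * z * a⁻¹ ∈ Q := (hnQ z).1 hzQ
    have h2 : (⟨a * z * a⁻¹, h1⟩ : Q) ∈ Subgroup.center Q := by
      rw [Subgroup.mem_center_iff]
      intro y
      apply Subtype.ext
      show (y : G) * (a * z * a⁻¹) = a * z * a⁻¹ * y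
      have h3 : a⁻¹ * y * a ∈ Q := by
        rw [hnQ]
        have : a * (a⁻¹ * y * a) * a⁻¹ = y := by group
        rw [this]
        exact y.2
      have h4 := hzc _ h3
      calc (y : G) * (a * z * a⁻¹) = a * ((a⁻¹ * y * a) * z) * a⁻¹ := by group
        _ = a * (z * (a⁻¹ * y * a)) * a⁻¹ := by rw [h4]
        _ = _ := by group
    rcases hcen _ h2 with h | h
    · exfalso
      have h5 : a * z * a⁻¹ = 1 := h
      apply hz1
      have h6 := mul_inv_eq_one.1 h5
      exact mul_eq_left.1 h6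
    · exact h
  have hAzc : ∀ a ∈ A, a * z = z * a := fun a ha => mul_inv_eq_iff_eq_mul.1 (hAz a ha)
  have hZC : ∀ x ∈ (Subgroup.center ↥Q).map Q.subtype, x ∈ Q ⊓ Subgroup.centralizer (A : Set G) := by
    rintro _ ⟨x, hx, rfl⟩
    refine ⟨x.2, ?_⟩
    show (x : G) ∈ Subgroup.centralizer (A : Set G)
    rw [Subgroup.mem_centralizer_iff]
    intro a ha
    rcases hcen x hx with h | h
    · show a * (x : G) = (x : G) * a
      rw [h, mul_one, one_mul]
    · show a * (x : G) = (x : G) * a
      rw [h]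
      exact hAzc a ha
  -- the two factors commute
  have hcomm : ∀ x ∈ Q ⊓ Subgroup.centralizer (A : Set G), ∀ y ∈ ⁅Q, A⁆, x * y = y * x := by
    intro x hx y hy
    have hxQ : x ∈ Q := hx.1
    have hxA : ∀ a ∈ A, a * x = x * a := fun a ha => (Subgroup.mem_centralizer_iff.1 hx.2) a ha
    have hle : ⁅Q, A⁆ ≤ Subgroup.centralizer ({x} : Set G) := by
      rw [Subgroup.commutator_le]
      intro q hq a ha
      rw [Subgroup.mem_centralizer_singleton_iff, commutatorElement_def]
      symm
      have hqa : a * q⁻¹ * a⁻¹ ∈ Q := ((Subgroup.mem_normalizer_iff).1 (hA ha) _).1 (Q.inv_mem hq)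
      rcases hF1 x hxQ q hq with h | h
      · have hxq : x * q = q * x := by
          have h2 := mul_inv_eq_one.1 h
          exact mul_inv_eq_iff_eq_mul.1 h2
        have hxq' : x * q⁻¹ = q⁻¹ * x := by
          have := (Commute.inv_right (show Commute x q from hxq)).eq
          exact this
        calc x * (q * a * q⁻¹ * a⁻¹) = (x * q) * a * q⁻¹ * a⁻¹ := by group
          _ = q * (x * a) * q⁻¹ * a⁻¹ := by rw [hxq]; group
          _ = q * a * (x * q⁻¹) * a⁻¹ := by rw [← hxA a ha]; group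
          _ = q * a * q⁻¹ * (x * a⁻¹) := by rw [hxq']; group
          _ = q * a * q⁻¹ * (a⁻¹ * x) := by rw [(Commute.inv_left (show Commute a x from hxA a ha)).eq]
          _ = _ := by group
      · have hxq : x * q = z * q * x := by
          have h2 : x * q * x⁻¹ = z * q := mul_inv_eq_iff_eq_mul.1 h
          exact mul_inv_eq_iff_eq_mul.1 h2
        have hzi : z⁻¹ * q⁻¹ = q⁻¹ * z⁻¹ := (Commute.inv_inv (show Commute z q from hzc q hq)).eq
        have hxq' : x * q⁻¹ = q⁻¹ * z⁻¹ * x := by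
          have h2 : x * q⁻¹ * x⁻¹ = q⁻¹ * z⁻¹ := by
            have h3 : x * q * x⁻¹ = z * q := mul_inv_eq_iff_eq_mul.1 h
            have h4 : x * q⁻¹ * x⁻¹ = (x * q * x⁻¹)⁻¹ := by group
            rw [h4, h3]
            group
          exact mul_inv_eq_iff_eq_mul.1 h2
        have hazi : a * z⁻¹ = z⁻¹ * a := (Commute.inv_right (show Commute a z from hAzc a ha)).eq
        calc x * (q * a * q⁻¹ * a⁻¹) = (x * q) * a * q⁻¹ * a⁻¹ := by group
          _ = z * q * (x * a) * q⁻¹ * a⁻¹ := by rw [hxq]; group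
          _ = z * q * a * (x * q⁻¹) * a⁻¹ := by rw [← hxA a ha]; group
          _ = z * q * a * (q⁻¹ * z⁻¹ * x) * a⁻¹ := by rw [hxq']
          _ = z * q * a * (z⁻¹ * q⁻¹ * x) * a⁻¹ := by rw [hzi]
          _ = z * q * (a * z⁻¹) * q⁻¹ * (x * a⁻¹) := by group
          _ = z * q * (z⁻¹ * a) * q⁻¹ * (a⁻¹ * x) := by
              rw [hazi, (Commute.inv_left (show Commute a x from hxA a ha)).eq]
          _ = z * (q * z⁻¹) * (a * q⁻¹ * a⁻¹) * x := by group
          _ = z * (z⁻¹ * q) * (a * q⁻¹ * a⁻¹) * x := by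
              rw [(Commute.inv_left (show Commute z q from hzc q hq)).symm.eq]
          _ = _ := by group
    have := hle hy
    rw [Subgroup.mem_centralizer_singleton_iff] at this
    exact this.symm
  have hcent_of : ∀ x ∈ Q, (∀ y ∈ Q ⊓ Subgroup.centralizer (A : Set G), y * x = x * y) →
      (∀ y ∈ ⁅Q, A⁆, y * x = x * y) → x ∈ (Subgroup.center ↥Q).map Q.subtype := by
    intro x _ h1 h2
    have hle : ⁅Q, A⁆ ⊔ (Q ⊓ Subgroup.centralizer (A : Set G)) ≤ Subgroup.centralizer ({x} : Set G) := by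
      refine sup_le ?_ ?_
      · intro y hy
        rw [Subgroup.mem_centralizer_singleton_iff]
        exact h2 y hy
      · intro y hy
        rw [Subgroup.mem_centralizer_singleton_iff]
        exact h1 y hy
    rw [hsup] at hle
    rw [← hC, Subgroup.mem_centralizer_iff]
    intro y hy
    have := hle hy
    rw [Subgroup.mem_centralizer_singleton_iff] at this
    exact this
  -- `[Q, A]` is not abelian
  have hRna : ¬ IsMulCommutative (⁅Q, A⁆ : Subgroup G) := by
    intro hab
    apply hA1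
    have hRZ : ⁅Q, A⁆ ≤ (Subgroup.center ↥Q).map Q.subtype := by
      intro y hy
      apply hcent_of y (hRQ hy)
      · intro x hx
        exact (hcomm x hx y hy)
      · intro x hx
        exact congrArg Subtype.val (hab.is_comm.comm ⟨x, hx⟩ ⟨y, hy⟩)
    have hRC : ⁅Q, A⁆ ≤ Q ⊓ Subgroup.centralizer (A : Set G) := hRZ.trans (fun x hx => hZC x hx)
    have hQC : Q ≤ Q ⊓ Subgroup.centralizer (A : Set G) := by
      have h1 : ⁅Q, A⁆ ⊔ (Q ⊓ Subgroup.centralizer (A : Set G)) ≤ Q ⊓ Subgroup.centralizer (A : Set G) :=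
        sup_le hRC le_rfl
      rwa [hsup] at h1
    rw [eq_bot_iff]
    intro a ha
    rw [Subgroup.mem_bot]
    have haC : a ∈ Subgroup.centralizer (Q : Set G) := by
      rw [Subgroup.mem_centralizer_iff]
      intro y hy
      exact ((Subgroup.mem_centralizer_iff.1 (hQC hy).2) a ha).symm
    rw [hC] at haC
    obtain ⟨x, _, hx⟩ := haC
    obtain ⟨k, hk⟩ := hQ2 x
    have hk' : a ^ 2 ^ k = 1 := by
      rw [← hx]
      exact congrArg Subtype.val hk
    exact Cfsg.Agent.S5421.eq_one_of A hAodd a ha k hk'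
  refine ⟨by rw [sup_comm]; exact hsup, hcomm, ?_, ?_⟩
  · exact lem_L Q ⁅Q, A⁆ (Q ⊓ Subgroup.centralizer (A : Set G)) hE hC hRQ hsup
      (fun x hx y hy => (hcomm y hy x hx).symm) hRna
  · by_cases hab : IsMulCommutative ↥(Q ⊓ Subgroup.centralizer (A : Set G))
    · left
      apply le_antisymm
      · intro x hx
        apply hcent_of x hx.1
        · intro y hy
          exact congrArg Subtype.val (hab.is_comm.comm ⟨y, hy⟩ ⟨x, hx⟩)
        · intro y hy
          exact (hcomm x hx y hy).symm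
      · exact fun x hx => hZC x hx
    · right
      exact lem_L Q (Q ⊓ Subgroup.centralizer (A : Set G)) ⁅Q, A⁆ hE hC inf_le_left
        (by rw [sup_comm]; exact hsup) hcomm hab


end Cfsg.Agent.S5434
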