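import Cfsg.Statements.S5436
import Mathlib
import Cfsg.Agent.S5421
import Cfsg.Agent.S1265
import Cfsg.Agent.Lib.H1Frat

set_option autoImplicit false
open Cfsg

namespace Cfsg.Agent.S5436


open Cfsg.Agent.S5421
open scoped commutatorElement

/-- Let z be an involution of the finite group G with centralizer H whose generalized Fitting subgroup Q is extraspecial of width at least 2 (order 2^(2w+1), w ≥ 2); suppose some conjugate of z other than z lies in Q, H/Q is a non-abelian simple group, H acts irreducibly by conjugation on Q modulo the subgroup generated by z (the only H-invariant subgroups of Q containing z are that subgroup and Q), and Q is not the subgroup generated by the conjugates of z lying in H. Then G is simple. -/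
theorem result {G : Type*} [Group G] [Finite G] (z : G) (hz : orderOf z = 2) (Q : Subgroup (Subgroup.centralizer ({z} : Set G))) [Q.Normal] (hF : Cfsg.generalizedFittingSubgroup ↥(Subgroup.centralizer ({z} : Set G)) = Q) (hQ : Cfsg.IsExtraspecial 2 ↥Q) (w : ℕ) (hw : 2 ≤ w) (hcard : Nat.card ↥Q = 2 ^ (2 * w + 1)) (hnwc : ∃ g : G, (∃ hq : g * z * g⁻¹ ∈ Subgroup.centralizer ({z} : Set G), (⟨g * z * g⁻¹, hq⟩ : Subgroup.centralizer ({z} : Set G)) ∈ Q) ∧ g * z * g⁻¹ ≠ z) (hsimp : IsSimpleGroup (↥(Subgroup.centralizer ({z} : Set G)) ⧸ Q)) (hna : ¬ IsMulCommutative (↥(Subgroup.centralizer ({z} : Set G)) ⧸ Q)) (hirr : ∀ W : Subgroup (Subgroup.centralizer ({z} : Set G)), W.Normal → W ≤ Q → (W = Q ∨ ∀ x ∈ W, (x : G) ∈ Subgroup.zpowers z)) (hwcl : Subgroup.closure {x : Subgroup.centralizer ({z} : Set G) | IsConj z (x : G)} ≠ Q) : IsSimpleGroup G := by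
  classical
  have hz1 : z ≠ 1 := by
    intro h
    rw [h, orderOf_one] at hz
    omega
  have hzz : z * z = 1 := by
    rw [← pow_two, ← hz]
    exact pow_orderOf_eq_one z
  have hzinv : z⁻¹ = z := inv_eq_of_mul_eq_one_left hzz
  have hQ2 : IsPGroup 2 Q := hQ.1.1
  have hzC : z ∈ Subgroup.centralizer ({z} : Set G) := by
    rw [Subgroup.mem_centralizer_singleton_iff]
  let zC : Subgroup.centralizer ({z} : Set G) := ⟨z, hzC⟩
  have hcentG : ∀ x : Subgroup.centralizer ({z} : Set G), (x : G) * z = z * x := by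
    intro x
    exact (Subgroup.mem_centralizer_singleton_iff).1 x.2
  have hcentC : ∀ x : Subgroup.centralizer ({z} : Set G), x * zC = zC * x := by
    intro x
    exact Subtype.ext (hcentG x)
  have hCQ : ∀ x : Subgroup.centralizer ({z} : Set G), (∀ y ∈ Q, x * y = y * x) → x ∈ Q := by
    intro x hx
    have h1 := Cfsg.Agent.S1265.result (G := Subgroup.centralizer ({z} : Set G))
    rw [hF] at h1
    apply h1
    rw [Subgroup.mem_centralizer_iff]
    intro y hy
    exact (hx y hy).symm
  have hzQ : zC ∈ Q := hCQ zC (fun y _ => (hcentC y).symm)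
  have hZQ : ∀ x : Subgroup.centralizer ({z} : Set G), x ∈ Q → (∀ y ∈ Q, x * y = y * x) →
      x = 1 ∨ x = zC := by
    intro x hx hc
    by_cases hx1 : x = 1
    · exact Or.inl hx1
    right
    let z₀ : Subgroup.center Q := ⟨⟨zC, hzQ⟩, by
      show _ ∈ Subgroup.center Q
      rw [Subgroup.mem_center_iff]
      intro y
      exact Subtype.ext (hcentC y)⟩
    let x₀ : Subgroup.center Q := ⟨⟨x, hx⟩, by
      show _ ∈ Subgroup.center Q
      rw [Subgroup.mem_center_iff]
      intro y
      exact Subtype.ext (hc y y.2).symm⟩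
    have hz₀ : z₀ ≠ 1 := fun h => hz1 (congrArg (fun u : Subgroup.center Q => ((u : Q) : G)) h)
    have hx₀ : x₀ ≠ 1 := fun h => hx1 (congrArg (fun u : Subgroup.center Q => u.1.1) h)
    obtain ⟨w, _, huniq⟩ := (Nat.card_eq_two_iff' (1 : Subgroup.center Q)).1 hQ.2
    have h3 : x₀ = z₀ := (huniq x₀ hx₀).trans (huniq z₀ hz₀).symm
    exact congrArg (fun u : Subgroup.center Q => u.1.1) h3
  have hzp : ∀ x ∈ Subgroup.zpowers z, x = 1 ∨ x = z := by
    intro x hx
    obtain ⟨k, rfl⟩ := Subgroup.mem_zpowers_iff.1 hx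
    rcases Int.even_or_odd' k with ⟨m, rfl | rfl⟩
    · left
      rw [zpow_mul, show z ^ (2 : ℤ) = 1 by
        rw [zpow_ofNat, pow_two, hzz], one_zpow]
    · right
      rw [zpow_add, zpow_mul, show z ^ (2 : ℤ) = 1 by
        rw [zpow_ofNat, pow_two, hzz], one_zpow, one_mul, zpow_one]
  obtain ⟨g, ⟨hq, hq'⟩, hgne⟩ := hnwc
  let zp : G := g * z * g⁻¹
  let zpC : Subgroup.centralizer ({z} : Set G) := ⟨zp, hq⟩
  have hzp1 : zp ≠ 1 := by
    intro h
    have h2 : g * z * g⁻¹ = 1 := h
    apply hz1
    have h3 := mul_inv_eq_one.1 h2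
    exact mul_eq_left.1 h3
  have hzpnot : zp ∉ Subgroup.zpowers z := by
    intro h
    rcases hzp _ h with h2 | h2
    · exact hzp1 h2
    · exact hgne h2
  have hzpzp : zp * zp = 1 := by
    show g * z * g⁻¹ * (g * z * g⁻¹) = 1
    have : g * z * g⁻¹ * (g * z * g⁻¹) = g * (z * z) * g⁻¹ := by group
    rw [this, hzz]
    group
  -- a noncommuting partner of `zp`
  obtain ⟨y, hyQ, hy⟩ : ∃ y ∈ Q, zpC * y ≠ y * zpC := by
    by_contra hcon
    push Not at hcon
    rcases hZQ zpC hq' hcon with h | h
    · exact hzp1 (congrArg Subtype.val h)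
    · exact hgne (congrArg Subtype.val h)
  have hcomm : (y : G) * zp * (y : G)⁻¹ = z * zp := by
    have h1 : (⟨y, hyQ⟩ : Q) * (⟨zpC, hq'⟩ : Q) * (⟨y, hyQ⟩ : Q)⁻¹ * (⟨zpC, hq'⟩ : Q)⁻¹ ∈ commutator Q :=
      Subgroup.commutator_mem_commutator (Subgroup.mem_top _) (Subgroup.mem_top _)
    rw [hQ.1.2.2] at h1
    have hmemQ : y * zpC * y⁻¹ * zpC⁻¹ ∈ Q :=
      Q.mul_mem (Q.mul_mem (Q.mul_mem hyQ hq') (Q.inv_mem hyQ)) (Q.inv_mem hq')
    have hcentral : ∀ u ∈ Q, y * zpC * y⁻¹ * zpC⁻¹ * u = u * (y * zpC * y⁻¹ * zpC⁻¹) := by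
      intro u hu
      have := (Subgroup.mem_center_iff.1 h1) ⟨u, hu⟩
      exact (congrArg Subtype.val this).symm
    rcases hZQ _ hmemQ hcentral with h | h
    · exfalso
      apply hy
      have h4 := mul_inv_eq_one.1 h
      exact (mul_inv_eq_iff_eq_mul.1 h4).symm
    · have h4 := mul_inv_eq_iff_eq_mul.1 h
      exact congrArg Subtype.val h4
  refine { exists_pair_ne := ⟨z, 1, hz1⟩, eq_bot_or_eq_top_of_normal := ?_ }
  intro N hN
  haveI hW₀n : (N.comap (Subgroup.centralizer ({z} : Set G)).subtype).Normal := hN.comap _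
  by_cases hzN : z ∈ N
  · right
    have hz'N : zp ∈ N := hN.conj_mem z hzN g
    have hWn : ((N.comap (Subgroup.centralizer ({z} : Set G)).subtype) ⊓ Q).Normal :=
      Subgroup.normal_inf_normal _ _
    have hQN : ∀ x ∈ Q, ((x : Subgroup.centralizer ({z} : Set G)) : G) ∈ N := by
      rcases hirr _ hWn inf_le_right with h | h
      · intro x hx
        rw [← h] at hx
        exact hx.1
      · exfalso
        exact hzpnot (h zpC ⟨hz'N, hq'⟩)
    have hIn : ((N.comap (Subgroup.centralizer ({z} : Set G)).subtype).map (QuotientGroup.mk' Q)).Normal :=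
      hW₀n.map _ (QuotientGroup.mk'_surjective Q)
    rcases hsimp.eq_bot_or_eq_top_of_normal _ hIn with hI | hI
    · exfalso
      have hW₀Q : ∀ x : Subgroup.centralizer ({z} : Set G), (x : G) ∈ N → x ∈ Q := by
        intro x hx
        have h1 : QuotientGroup.mk' Q x ∈ (N.comap (Subgroup.centralizer ({z} : Set G)).subtype).map (QuotientGroup.mk' Q) :=
          ⟨x, hx, rfl⟩
        rw [hI, Subgroup.mem_bot] at h1
        exact (QuotientGroup.eq_one_iff x).1 h1
      have hCln : (Subgroup.closure {x : Subgroup.centralizer ({z} : Set G) | IsConj z (x : G)}).Normal := by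
        refine ⟨fun n hn c => ?_⟩
        induction hn using Subgroup.closure_induction with
        | mem x hx =>
          apply Subgroup.subset_closure
          show IsConj z ((c * x * c⁻¹ : Subgroup.centralizer ({z} : Set G)) : G)
          have : ((c * x * c⁻¹ : Subgroup.centralizer ({z} : Set G)) : G) = (c : G) * x * (c : G)⁻¹ := rfl
          rw [this]
          exact (show IsConj z (x : G) from hx).trans (isConj_iff.2 ⟨c, rfl⟩)
        | one =>
          rw [mul_one, mul_inv_cancel]
          exact Subgroup.one_mem _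
        | mul a b _ _ ha hb =>
          have : c * (a * b) * c⁻¹ = (c * a * c⁻¹) * (c * b * c⁻¹) := by group
          rw [this]
          exact Subgroup.mul_mem _ ha hb
        | inv a _ ha =>
          have : c * a⁻¹ * c⁻¹ = (c * a * c⁻¹)⁻¹ := by group
          rw [this]
          exact Subgroup.inv_mem _ ha
      have hClle : Subgroup.closure {x : Subgroup.centralizer ({z} : Set G) | IsConj z (x : G)} ≤ Q := by
        rw [Subgroup.closure_le]
        intro x hx
        apply hW₀Q
        obtain ⟨c, hc⟩ := isConj_iff.1 (show IsConj z (x : G) from hx)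
        rw [← hc]
        exact hN.conj_mem z hzN c
      rcases hirr _ hCln hClle with h | h
      · exact hwcl h
      · exact hzpnot (h zpC (Subgroup.subset_closure (isConj_iff.2 ⟨g, rfl⟩)))
    · have hCN : ∀ x : Subgroup.centralizer ({z} : Set G), (x : G) ∈ N := by
        intro x
        have h1 : QuotientGroup.mk' Q x ∈ (N.comap (Subgroup.centralizer ({z} : Set G)).subtype).map (QuotientGroup.mk' Q) := by
          rw [hI]; trivial
        obtain ⟨w, hw, hwe⟩ := h1
        have h2 : w⁻¹ * x ∈ Q := QuotientGroup.eq.1 hwe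
        have h3 := hQN _ h2
        have h4 : (w : G) ∈ N := hw
        have h5 : (x : G) = (w : G) * ((w⁻¹ * x : Subgroup.centralizer ({z} : Set G)) : G) := by
          simp
        rw [h5]
        exact N.mul_mem h4 h3
      have hQ'p : IsPGroup 2 (Q.map (Subgroup.centralizer ({z} : Set G)).subtype) := hQ2.map _
      haveI : Fact (Nat.Prime 2) := ⟨Nat.prime_two⟩
      obtain ⟨T, hT⟩ := hQ'p.exists_le_sylow
      have hQT : ∀ x ∈ Q, ((x : Subgroup.centralizer ({z} : Set G)) : G) ∈ (T : Subgroup G) :=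
        fun x hx => hT ⟨x, hx, rfl⟩
      have hzT : z ∈ (T : Subgroup G) := hQT zC hzQ
      have hcent : ∀ u ∈ (T : Subgroup G), (∀ v ∈ (T : Subgroup G), u * v = v * u) → u = 1 ∨ u = z := by
        intro u hu huc
        have huC : u ∈ Subgroup.centralizer ({z} : Set G) := by
          rw [Subgroup.mem_centralizer_singleton_iff]
          exact huc z hzT
        have h1 : ∀ y ∈ Q, (⟨u, huC⟩ : Subgroup.centralizer ({z} : Set G)) * y = y * ⟨u, huC⟩ :=
          fun y hy => Subtype.ext (huc _ (hQT y hy))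
        rcases hZQ _ (hCQ _ h1) h1 with h | h
        · exact Or.inl (congrArg Subtype.val h)
        · exact Or.inr (congrArg Subtype.val h)
      have hzcent : ∀ v ∈ (T : Subgroup G), z * v = v * z := by
        haveI : Nontrivial (T : Subgroup G) :=
          ⟨⟨⟨z, hzT⟩, 1, fun h => hz1 (congrArg Subtype.val h)⟩⟩
        haveI := T.isPGroup'.center_nontrivial
        obtain ⟨u, hu⟩ := exists_ne (1 : Subgroup.center (T : Subgroup G))
        have hu' : ∀ v ∈ (T : Subgroup G), ((u : (T : Subgroup G)) : G) * v = v * u := by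
          intro v hv
          have := (Subgroup.mem_center_iff.1 u.2) ⟨v, hv⟩
          exact (congrArg Subtype.val this).symm
        rcases hcent _ (u : (T : Subgroup G)).2 hu' with h | h
        · exfalso
          apply hu
          exact Subtype.ext (Subtype.ext h)
        · rw [← h]
          exact hu'
      have hTN : (T : Subgroup G) ≤ N := by
        intro v hv
        have hvC : v ∈ Subgroup.centralizer ({z} : Set G) := by
          rw [Subgroup.mem_centralizer_singleton_iff]
          exact (hzcent v hv).symm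
        exact hCN ⟨v, hvC⟩
      have hnormC : Subgroup.normalizer ((T : Subgroup G) : Set G) ≤ N := by
        intro g' hg'
        have h1 : g' * z * g'⁻¹ ∈ (T : Subgroup G) := ((Subgroup.mem_normalizer_iff).1 hg' z).1 hzT
        have h2 : ∀ v ∈ (T : Subgroup G), g' * z * g'⁻¹ * v = v * (g' * z * g'⁻¹) := by
          intro v hv
          have h3 : g'⁻¹ * v * g' ∈ (T : Subgroup G) := by
            rw [(Subgroup.mem_normalizer_iff).1 hg']
            have : g' * (g'⁻¹ * v * g') * g'⁻¹ = v := by group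
            rw [this]
            exact hv
          have h4 := hzcent _ h3
          have h5 : g' * z * g'⁻¹ * v = g' * (z * (g'⁻¹ * v * g')) * g'⁻¹ := by group
          have h6 : v * (g' * z * g'⁻¹) = g' * ((g'⁻¹ * v * g') * z) * g'⁻¹ := by group
          rw [h5, h6, h4]
        have hg'C : g' ∈ Subgroup.centralizer ({z} : Set G) := by
          rw [Subgroup.mem_centralizer_singleton_iff]
          rcases hcent _ h1 h2 with h | h
          · exfalso
            apply hz1
            have h3 := mul_inv_eq_one.1 h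
            exact mul_eq_left.1 h3
          · exact (mul_inv_eq_iff_eq_mul.1 h)
        exact hCN ⟨g', hg'C⟩
      haveI := hN
      have h3 := Sylow.normalizer_sup_eq_top' T hTN
      exact top_le_iff.1 (h3.symm.le.trans (sup_le hnormC le_rfl))
  · left
    -- `N` meets the centraliser trivially
    have hNQ : ∀ x : Subgroup.centralizer ({z} : Set G), (x : G) ∈ N → x ∈ Q → x = 1 := by
      intro x hxN hxQ
      by_contra hx1
      haveI : (((N.comap (Subgroup.centralizer ({z} : Set G)).subtype) ⊓ Q).subgroupOf Q).Normal := by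
        haveI : ((N.comap (Subgroup.centralizer ({z} : Set G)).subtype) ⊓ Q).Normal :=
          Subgroup.normal_inf_normal _ _
        exact Subgroup.Normal.subgroupOf inferInstance _
      haveI : Group.IsNilpotent Q := hQ2.isNilpotent
      have hV : (((N.comap (Subgroup.centralizer ({z} : Set G)).subtype) ⊓ Q).subgroupOf Q) ≠ ⊥ := by
        intro h
        have h1 : (⟨x, hxQ⟩ : Q) ∈ ((N.comap (Subgroup.centralizer ({z} : Set G)).subtype) ⊓ Q).subgroupOf Q :=
          Subgroup.mem_subgroupOf.2 ⟨hxN, hxQ⟩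
        rw [h, Subgroup.mem_bot] at h1
        exact hx1 (congrArg Subtype.val h1)
      have h2 := Cfsg.Agent.Lib.H1Frat.normal_inf_center_ne_bot _ hV
      obtain ⟨⟨v, hv⟩, hv1⟩ := (Subgroup.ne_bot_iff_exists_ne_one).1 h2
      have hvN : ((v : Subgroup.centralizer ({z} : Set G)) : G) ∈ N := (Subgroup.mem_subgroupOf.1 hv.1).1
      have hvc : ∀ y ∈ Q, (v : Subgroup.centralizer ({z} : Set G)) * y = y * v := by
        intro y hy
        have := (Subgroup.mem_center_iff.1 hv.2) ⟨y, hy⟩
        exact (congrArg Subtype.val this).symm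
      rcases hZQ v v.2 hvc with h | h
      · exact hv1 (Subtype.ext (Subtype.ext h))
      · apply hzN
        have h3 : ((v : Subgroup.centralizer ({z} : Set G)) : G) = z := congrArg Subtype.val h
        rwa [← h3]
    have hNC : ∀ x : Subgroup.centralizer ({z} : Set G), (x : G) ∈ N → x = 1 := by
      intro x hxN
      apply hNQ x hxN
      apply hCQ x
      intro y hy
      have h1 : x * y * x⁻¹ * y⁻¹ ∈ Q :=
        Q.mul_mem (Subgroup.Normal.conj_mem inferInstance y hy x) (Q.inv_mem hy)
      have h2 : ((x * y * x⁻¹ * y⁻¹ : Subgroup.centralizer ({z} : Set G)) : G) ∈ N := by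
        have h4 : ((x * y * x⁻¹ * y⁻¹ : Subgroup.centralizer ({z} : Set G)) : G) =
            (x : G) * ((y : G) * (x : G)⁻¹ * (y : G)⁻¹) := by
          show (x : G) * y * (x : G)⁻¹ * (y : G)⁻¹ = _
          group
        rw [h4]
        exact N.mul_mem hxN (hN.conj_mem _ (N.inv_mem hxN) y)
      have h3 := hNQ _ h2 h1
      have h5 := mul_inv_eq_one.1 h3
      exact mul_inv_eq_iff_eq_mul.1 h5
    have hfz : ∀ k ∈ N, z * k * z⁻¹ = k → k = 1 := by
      intro k hk h
      have hkC : k ∈ Subgroup.centralizer ({z} : Set G) := by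
        rw [Subgroup.mem_centralizer_singleton_iff]
        exact (mul_inv_eq_iff_eq_mul.1 h).symm
      exact congrArg Subtype.val (hNC ⟨k, hkC⟩ hk)
    have hfzp : ∀ k ∈ N, zp * k * zp⁻¹ = k → k = 1 := by
      intro k hk h
      have hk' : g⁻¹ * k * g ∈ N := by
        have := hN.conj_mem k hk g⁻¹
        rwa [inv_inv] at this
      have h1 : z * (g⁻¹ * k * g) * z⁻¹ = g⁻¹ * k * g := by
        have h2 : zp * k * zp⁻¹ = g * (z * (g⁻¹ * k * g) * z⁻¹) * g⁻¹ := by
          show g * z * g⁻¹ * k * (g * z * g⁻¹)⁻¹ = _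
          group
        have h3 : g * (z * (g⁻¹ * k * g) * z⁻¹) * g⁻¹ = k := h2.symm.trans h
        calc z * (g⁻¹ * k * g) * z⁻¹ = g⁻¹ * (g * (z * (g⁻¹ * k * g) * z⁻¹) * g⁻¹) * g := by group
          _ = g⁻¹ * k * g := by rw [h3]
      have h3 := hfz _ hk' h1
      calc k = g * (g⁻¹ * k * g) * g⁻¹ := by group
        _ = 1 := by rw [h3]; group
    have hiz := inverts N z hzz (fun k hk => hN.conj_mem k hk z) hfz
    have hizp := inverts N zp hzpzp (fun k hk => hN.conj_mem k hk zp) hfzp
    rw [eq_bot_iff]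
    intro k hk
    rw [Subgroup.mem_bot]
    apply hfz k hk
    have hA : (z * zp) * k * (z * zp)⁻¹ = k := by
      have h1 : (z * zp) * k * (z * zp)⁻¹ = z * (zp * k * zp⁻¹) * z⁻¹ := by group
      rw [h1, hizp k hk]
      have h2 : z * k⁻¹ * z⁻¹ = (z * k * z⁻¹)⁻¹ := by group
      rw [h2, hiz k hk, inv_inv]
    have hB : (z * zp) * k * (z * zp)⁻¹ = k⁻¹ := by
      rw [← hcomm]
      have h1 : ((y : G) * zp * (y : G)⁻¹) * k * ((y : G) * zp * (y : G)⁻¹)⁻¹ =
          (y : G) * (zp * ((y : G)⁻¹ * k * (y : G)) * zp⁻¹) * (y : G)⁻¹ := by group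
      have h2 : (y : G)⁻¹ * k * (y : G) ∈ N := by
        have := hN.conj_mem k hk (y : G)⁻¹
        rwa [inv_inv] at this
      rw [h1, hizp _ h2]
      group
    rw [hiz k hk, ← hB, hA]


end Cfsg.Agent.S5436
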