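import Cfsg.Statements.S5437
import Mathlib

set_option autoImplicit false
open Cfsg

namespace Cfsg.Agent.S5437


/-- Let I be a set of involutions of the finite group G closed under conjugation, and H a subgroup of G. The following are equivalent: (1) for every member x of I lying in H, the conjugates of x lying in H form a single H-class and the centralizer of x lies in H; (2) for every g outside H, no member of I lies in both H and g H g⁻¹; (3) every member of I lying in H fixes exactly one coset in the action of G on the cosets of H. -/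
theorem result {G : Type*} [Group G] [Finite G] (I : Set G) (hI : ∀ x ∈ I, orderOf x = 2) (hIc : ∀ g : G, ∀ x ∈ I, g * x * g⁻¹ ∈ I) (H : Subgroup G) : ((∀ x ∈ I, x ∈ H → (∀ g : G, g * x * g⁻¹ ∈ H → ∃ h ∈ H, h * x * h⁻¹ = g * x * g⁻¹) ∧ Subgroup.centralizer ({x} : Set G) ≤ H) ↔ (∀ g : G, g ∉ H → ∀ x ∈ I, ¬ (x ∈ H ∧ x ∈ (H : Subgroup G).map (MulAut.conj g).toMonoidHom))) ∧ ((∀ g : G, g ∉ H → ∀ x ∈ I, ¬ (x ∈ H ∧ x ∈ (H : Subgroup G).map (MulAut.conj g).toMonoidHom)) ↔ ∀ x ∈ I, x ∈ H → ∃! c : G ⧸ H, x • c = c) := by
  constructor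
  · constructor
    · intro h g hg x hxI ⟨hxH, hxg⟩
      obtain ⟨y, hy, rfl⟩ := hxg
      have hy' : ((MulAut.conj g).toMonoidHom y) = g * y * g⁻¹ := rfl
      rw [hy'] at hxH
      have hyI : y ∈ I := by
        have := hIc g⁻¹ _ hxI
        have e : g⁻¹ * ((MulAut.conj g).toMonoidHom y) * g⁻¹⁻¹ = y := by rw [hy']; group
        rwa [e] at this
      obtain ⟨h1, h2⟩ := h y hyI hy
      obtain ⟨k, hk, hke⟩ := h1 g hxH
      have hc : k⁻¹ * g ∈ Subgroup.centralizer ({y} : Set G) := by
        rw [Subgroup.mem_centralizer_iff]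
        intro u hu
        have hu' : u = y := hu
        rw [hu']
        have : y * (k⁻¹ * g) = (k⁻¹ * g) * y := by
          have e : g * y = k * y * k⁻¹ * g := by
            rw [hke]; group
          calc y * (k⁻¹ * g) = k⁻¹ * (k * y * k⁻¹ * g) := by group
            _ = k⁻¹ * (g * y) := by rw [e]
            _ = (k⁻¹ * g) * y := by group
        exact this
      have := H.mul_mem hk (h2 hc)
      apply hg
      simpa using this
    · intro h x hxI hxH
      constructor
      · intro g hg
        by_cases hgH : g ∈ H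
        · exact ⟨g, hgH, rfl⟩
        · exact absurd ⟨hg, ⟨x, hxH, rfl⟩⟩ (h g hgH _ (hIc g x hxI))
      · intro g hg
        by_contra hgH
        have hcomm : g * x * g⁻¹ = x := by
          have := (Subgroup.mem_centralizer_iff.1 hg) x rfl
          rw [← this]; group
        apply h g hgH x hxI
        refine ⟨hxH, ⟨x, hxH, hcomm⟩⟩
  · constructor
    · intro h x hxI hxH
      refine ⟨((1 : G) : G ⧸ H), ?_, ?_⟩
      · show ((x * 1 : G) : G ⧸ H) = ((1 : G) : G ⧸ H)
        rw [QuotientGroup.eq]
        simpa using H.inv_mem hxH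
      · intro c hc
        obtain ⟨g, rfl⟩ := QuotientGroup.mk_surjective c
        have hc' : ((x * g : G) : G ⧸ H) = (g : G ⧸ H) := hc
        rw [QuotientGroup.eq] at hc'
        have h1 : g⁻¹ * x⁻¹ * g ∈ H := by
          simpa [mul_assoc] using hc'
        have h2 : g⁻¹ * x * g ∈ H := by
          have := H.inv_mem h1
          simpa [mul_assoc] using this
        by_contra hne
        have hgH : g ∉ H := by
          intro hg
          apply hne
          show (g : G ⧸ H) = ((1 : G) : G ⧸ H)
          rw [QuotientGroup.eq]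
          simpa using H.inv_mem hg
        apply h g hgH x hxI
        refine ⟨hxH, ⟨g⁻¹ * x * g, h2, ?_⟩⟩
        show g * (g⁻¹ * x * g) * g⁻¹ = x
        group
    · intro h g hg x hxI ⟨hxH, hxg⟩
      obtain ⟨y, hy, hye⟩ := hxg
      have hye' : g * y * g⁻¹ = x := hye
      obtain ⟨c, -, huniq⟩ := h x hxI hxH
      have h1 : ((1 : G) : G ⧸ H) = c := by
        apply huniq
        show ((x * 1 : G) : G ⧸ H) = ((1 : G) : G ⧸ H)
        rw [QuotientGroup.eq]
        simpa using H.inv_mem hxH
      have h2 : (g : G ⧸ H) = c := by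
        apply huniq
        show ((x * g : G) : G ⧸ H) = (g : G ⧸ H)
        rw [QuotientGroup.eq]
        have e : (x * g)⁻¹ * g = g⁻¹ * x⁻¹ * g := by group
        rw [e, ← hye']
        have e2 : g⁻¹ * (g * y * g⁻¹)⁻¹ * g = y⁻¹ := by group
        rw [e2]
        exact H.inv_mem hy
      rw [← h1] at h2
      apply hg
      rw [QuotientGroup.eq] at h2
      simpa using H.inv_mem h2


end Cfsg.Agent.S5437
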