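import Cfsg.Statements.S5438
import Mathlib
import Cfsg.Agent.Lib.Dih

set_option autoImplicit false
open Cfsg

namespace Cfsg.Agent.S5438

open Cfsg.Agent.Lib.Dih

/-- Let z be a 2-central involution of the finite group G (an involution central in some Sylow 2-subgroup) and H a subgroup containing z such that the coset H is the only coset of H fixed by z (in the action of G on the cosets of H). Then H has odd index in G, and for every 2-element x of H the conjugates of x lying in H form a single H-class. -/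
theorem result {G : Type*} [Group G] [Finite G] (z : G) (hz : Cfsg.IsTwoCentralInvolution z) (H : Subgroup G) (hzH : z ∈ H) (hfix : ∀ g : G, g⁻¹ * z * g ∈ H → g ∈ H) : Odd H.index ∧ ∀ x ∈ H, (∃ k : ℕ, orderOf x = 2 ^ k) → ∀ g : G, g * x * g⁻¹ ∈ H → ∃ h ∈ H, h * x * h⁻¹ = g * x * g⁻¹ := by
  obtain ⟨hz2, P, hzP, hPz⟩ := hz
  haveI : Fact (Nat.Prime 2) := ⟨Nat.prime_two⟩
  have hPH : (P : Subgroup G) ≤ H := by
    intro u hu
    apply hfix
    have : u⁻¹ * z * u = z := by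
      have := hPz u hu
      calc u⁻¹ * z * u = u⁻¹ * (z * u) := by group
        _ = u⁻¹ * (u * z) := by rw [this]
        _ = z := by group
    rw [this]
    exact hzH
  have hzinH : ∀ g : G, g⁻¹ * z * g ∈ (P : Subgroup G) → g ∈ H := fun g hg => hfix g (hPH hg)
  refine ⟨?_, ?_⟩
  · rw [← Nat.not_even_iff_odd, even_iff_two_dvd]
    intro h
    exact P.not_dvd_index (h.trans (Subgroup.index_dvd_of_le hPH))
  intro x hx hxo g hg
  -- elements of 2-power order of `H` are conjugate in `H` into `P`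
  have hintoP : ∀ w ∈ H, (∃ k : ℕ, w ^ 2 ^ k = 1) → ∃ a ∈ H, a⁻¹ * w * a ∈ (P : Subgroup G) := by
    rintro w hw ⟨k, hk⟩
    have hw' : (⟨w, hw⟩ : H) ^ 2 ^ k = 1 := Subtype.ext hk
    obtain ⟨Q, hQ⟩ := exists_mem_sylow (⟨w, hw⟩ : H) hw'
    obtain ⟨a, ha⟩ := exists_conj_sylow (P.subtype hPH) Q
    refine ⟨a, a.2, ?_⟩
    have := (ha _).1 hQ
    rw [Sylow.coe_subtype, Subgroup.mem_subgroupOf] at this
    exact this
  obtain ⟨k₀, hk₀⟩ := hxo
  have hx2 : x ^ 2 ^ k₀ = 1 := by rw [← hk₀, pow_orderOf_eq_one]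
  have hy2 : (g * x * g⁻¹) ^ 2 ^ k₀ = 1 := by rw [conj_pow, hx2]; group
  obtain ⟨a, haH, hxa⟩ := hintoP x hx ⟨k₀, hx2⟩
  obtain ⟨b, hbH, hyb⟩ := hintoP _ hg ⟨k₀, hy2⟩
  set x₁ := a⁻¹ * x * a with hx₁
  set y₁ := b⁻¹ * (g * x * g⁻¹) * b with hy₁
  set k := b⁻¹ * g * a with hk
  have hkx : k * x₁ * k⁻¹ = y₁ := by
    rw [hx₁, hy₁, hk]; group
  set C : Subgroup G := Subgroup.centralizer ({y₁} : Set G) with hC
  have hmemC : ∀ w, w ∈ C ↔ y₁ * w = w * y₁ := by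
    intro w
    rw [hC, Subgroup.mem_centralizer_iff]
    constructor
    · intro h
      exact h y₁ rfl
    · intro h u hu
      have hu' : u = y₁ := hu
      rw [hu']
      exact h
  have hcx : x₁ * z = z * x₁ := hPz _ hxa
  have hcy : y₁ * z = z * y₁ := hPz _ hyb
  have hzC : z ∈ C := (hmemC z).2 hcy
  have hz'C : k * z * k⁻¹ ∈ C := by
    rw [hmemC, ← hkx]
    calc k * x₁ * k⁻¹ * (k * z * k⁻¹) = k * (x₁ * z) * k⁻¹ := by group
      _ = k * (z * x₁) * k⁻¹ := by rw [hcx]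
      _ = k * z * k⁻¹ * (k * x₁ * k⁻¹) := by group
  have hzz : z ^ 2 ^ 1 = 1 := by
    rw [pow_one, ← hz2, pow_orderOf_eq_one]
  have hz'2 : (k * z * k⁻¹) ^ 2 ^ 1 = 1 := by
    rw [conj_pow, hzz]; group
  obtain ⟨R₁, hR₁⟩ := exists_mem_sylow (⟨_, hz'C⟩ : C) (k := 1) (Subtype.ext hz'2)
  obtain ⟨R₂, hR₂⟩ := exists_mem_sylow (⟨_, hzC⟩ : C) (k := 1) (Subtype.ext hzz)
  obtain ⟨c, hc⟩ := exists_conj_sylow R₁ R₂
  have hc1 := (hc _).1 hR₂
  -- a Sylow subgroup of the whole group containing `R₁`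
  have hpR : IsPGroup 2 ((R₁ : Subgroup C).map C.subtype) := R₁.isPGroup'.map C.subtype
  obtain ⟨P₁, hP₁⟩ := hpR.exists_le_sylow
  obtain ⟨u, hu⟩ := exists_conj_sylow P P₁
  have h1 : (c : G)⁻¹ * z * (c : G) ∈ (P₁ : Subgroup G) := hP₁ ⟨_, hc1, rfl⟩
  have h2 : k * z * k⁻¹ ∈ (P₁ : Subgroup G) := hP₁ ⟨_, hR₁, rfl⟩
  have h3 := (hu _).1 h1
  have h4 := (hu _).1 h2
  have hg₁ : (c : G) * u ∈ H := by
    apply hzinH
    have e : ((c : G) * u)⁻¹ * z * ((c : G) * u) = u⁻¹ * ((c : G)⁻¹ * z * (c : G)) * u := by group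
    rwa [e]
  have hg₂ : k⁻¹ * u ∈ H := by
    apply hzinH
    have e : (k⁻¹ * u)⁻¹ * z * (k⁻¹ * u) = u⁻¹ * (k * z * k⁻¹) * u := by group
    rwa [e]
  have hck : (c : G) * k ∈ H := by
    have := H.mul_mem hg₁ (H.inv_mem hg₂)
    have e : (c : G) * u * (k⁻¹ * u)⁻¹ = (c : G) * k := by group
    rwa [e] at this
  have hcomm : (c : G) * y₁ = y₁ * (c : G) := ((hmemC _).1 c.2).symm
  refine ⟨b * ((c : G) * k) * a⁻¹, H.mul_mem (H.mul_mem hbH hck) (H.inv_mem haH), ?_⟩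
  have e1 : (c : G) * k * x₁ * ((c : G) * k)⁻¹ = y₁ := by
    calc (c : G) * k * x₁ * ((c : G) * k)⁻¹ = (c : G) * (k * x₁ * k⁻¹) * (c : G)⁻¹ := by group
      _ = (c : G) * y₁ * (c : G)⁻¹ := by rw [hkx]
      _ = y₁ := by rw [hcomm]; group
  calc b * ((c : G) * k) * a⁻¹ * x * (b * ((c : G) * k) * a⁻¹)⁻¹
      = b * ((c : G) * k * (a⁻¹ * x * a) * ((c : G) * k)⁻¹) * b⁻¹ := by group
    _ = b * y₁ * b⁻¹ := by rw [← hx₁, e1]
    _ = g * x * g⁻¹ := by rw [hy₁]; group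


end Cfsg.Agent.S5438
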