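import Cfsg.Statements.S5439
import Mathlib
import Cfsg.Agent.Lib.Dih

set_option autoImplicit false
open Cfsg

namespace Cfsg.Agent.S5439

open Cfsg.Agent.Lib.Dih

/-- Let I and J be two different conjugacy classes of involutions of the finite group G and H a subgroup such that every member of I ∪ J fixes exactly one coset in the action on the cosets of H, and such that for every a in I ∩ H and every b in (I ∪ J) ∩ H different from a and commuting with it, the centralizer of a b lies in H. Then H = G. -/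
theorem result {G : Type*} [Group G] [Finite G] (I J : Set G) (a₀ b₀ : G) (ha₀ : orderOf a₀ = 2) (hb₀ : orderOf b₀ = 2) (hI : I = {x | IsConj a₀ x}) (hJ : J = {x | IsConj b₀ x}) (hIJ : I ≠ J) (H : Subgroup G) (hfix : ∀ x ∈ I ∪ J, ∃! c : G ⧸ H, x • c = c) (hcent : ∀ a ∈ I, a ∈ H → ∀ b ∈ I ∪ J, b ∈ H → a ≠ b → a * b = b * a → Subgroup.centralizer ({a * b} : Set G) ≤ H) : H = ⊤ := by
  subst hI hJ
  set I : Set G := {x | IsConj a₀ x} with hIdef
  set J : Set G := {x | IsConj b₀ x} with hJdef
  have hconj' : ∀ {x y g : G}, IsConj x y → IsConj x (g * y * g⁻¹) := fun {x y g} h =>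
    h.trans (isConj_iff.2 ⟨g, rfl⟩)
  have hInv : ∀ x ∈ I ∪ J, x * x = 1 := by
    rintro x (hx | hx)
    · obtain ⟨c, rfl⟩ := isConj_iff.1 hx
      have := sq_of_order ha₀
      calc c * a₀ * c⁻¹ * (c * a₀ * c⁻¹) = c * (a₀ * a₀) * c⁻¹ := by group
        _ = 1 := by rw [this]; group
    · obtain ⟨c, rfl⟩ := isConj_iff.1 hx
      have := sq_of_order hb₀
      calc c * b₀ * c⁻¹ * (c * b₀ * c⁻¹) = c * (b₀ * b₀) * c⁻¹ := by group
        _ = 1 := by rw [this]; group
  have hUc : ∀ g : G, ∀ d ∈ I ∪ J, g * d * g⁻¹ ∈ I ∪ J := by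
    rintro g d (hd | hd)
    · exact Or.inl (hconj' hd)
    · exact Or.inr (hconj' hd)
  have hfixH : ∀ x ∈ I ∪ J, x ∈ H → ∀ g : G, (x • (g : G ⧸ H) = (g : G ⧸ H)) → g ∈ H := by
    intro x hx hxH g hg
    obtain ⟨c, -, huniq⟩ := hfix x hx
    have h1 : ((1 : G) : G ⧸ H) = c := by
      apply huniq
      show ((x * 1 : G) : G ⧸ H) = ((1 : G) : G ⧸ H)
      rw [QuotientGroup.eq]
      simpa using H.inv_mem hxH
    have h2 := huniq _ hg
    rw [← h1] at h2
    rw [QuotientGroup.eq] at h2
    simpa using H.inv_mem h2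
  -- a member of `I` lying in `H`
  obtain ⟨a, haI, haH⟩ : ∃ a ∈ I, a ∈ H := by
    obtain ⟨c, hc, -⟩ := hfix a₀ (Or.inl (IsConj.refl a₀))
    obtain ⟨g, rfl⟩ := QuotientGroup.mk_surjective c
    refine ⟨g⁻¹ * a₀ * g, ?_, ?_⟩
    · have := hconj' (g := g⁻¹) (IsConj.refl a₀)
      rw [inv_inv] at this
      exact this
    · have hc' : ((a₀ * g : G) : G ⧸ H) = (g : G ⧸ H) := hc
      rw [QuotientGroup.eq] at hc'
      have := H.inv_mem hc'
      simpa [mul_assoc] using this
  have ha2 := hInv a (Or.inl haI)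
  have hnc : ∀ b ∈ J, ¬ IsConj a b := by
    intro b hb hab
    apply hIJ
    have h1 : IsConj a₀ b := IsConj.trans haI hab
    have h2 : IsConj a₀ b₀ := h1.trans (IsConj.symm hb)
    ext x
    exact ⟨fun hx => IsConj.trans (IsConj.symm h2) hx, fun hx => IsConj.trans h2 hx⟩
  -- all of `J` lies in `H`
  have hJH : ∀ b ∈ J, b ∈ H := by
    intro b hb
    have hb2 := hInv b (Or.inr hb)
    have heven : ¬ Odd (orderOf (a * b)) := by
      intro ho
      obtain ⟨g, hg⟩ := exists_conj_of_odd ha2 hb2 ho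
      exact hnc b hb (isConj_iff.2 ⟨g, hg⟩)
    obtain ⟨m, hm⟩ := Nat.not_odd_iff_even.1 heven
    have hpos : 0 < orderOf (a * b) := orderOf_pos _
    have hm0 : 0 < m := by omega
    set t := (a * b) ^ m with ht
    have ht2 : t * t = 1 := by
      rw [ht, ← pow_add, ← hm, pow_orderOf_eq_one]
    have ht1 : t ≠ 1 := by
      intro h1
      have := orderOf_le_of_pow_eq_one hm0 h1
      omega
    have hat : a * t * a = t := by
      rw [ht, dinv ha2 hb2, ← ht, inv_of_sq ht2]
    have hbt : b * t * b = t := by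
      rw [ht, dinv' ha2 hb2, ← ht, inv_of_sq ht2]
    have hcat : a * t = t * a := by
      calc a * t = a * t * a * a := by rw [mul_assoc _ a a, ha2, mul_one]
        _ = t * a := by rw [hat]
    have hcbt : b * t = t * b := by
      calc b * t = b * t * b * b := by rw [mul_assoc _ b b, hb2, mul_one]
        _ = t * b := by rw [hbt]
    have hU : a * t ∈ I ∪ J := dih_mem hUc (Or.inl haI) (Or.inr hb) ha2 hb2 m
    have hne : a ≠ a * t := by
      intro he
      exact ht1 (mul_eq_left.1 he.symm)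
    have hcomm : a * (a * t) = (a * t) * a := by
      rw [mul_assoc a t a, ← hcat, ← mul_assoc]
    have hatH : a * t ∈ H := by
      -- `a * t` fixes the coset `H` because `a` does
      by_contra hn
      have h0 : a • ((a * t : G) : G ⧸ H) = ((a * t : G) : G ⧸ H) := by
        show ((a * (a * t) : G) : G ⧸ H) = ((a * t : G) : G ⧸ H)
        rw [hcomm, QuotientGroup.eq]
        have e : (a * t * a)⁻¹ * (a * t) = a⁻¹ := by group
        rw [e]
        exact H.inv_mem haH
      exact hn (hfixH a (Or.inl haI) haH _ h0)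
    have hC := hcent a haI haH (a * t) hU hatH hne hcomm
    have htt : a * (a * t) = t := by rw [← mul_assoc, ha2, one_mul]
    rw [htt] at hC
    apply hC
    rw [Subgroup.mem_centralizer_iff]
    rintro _ rfl
    exact hcbt.symm
  rw [eq_top_iff]
  intro g _
  -- `b₀` fixes all cosets
  obtain ⟨c, -, huniq⟩ := hfix b₀ (Or.inr (IsConj.refl b₀))
  have hall : ∀ g : G, (g : G ⧸ H) = c := by
    intro g
    apply huniq
    show ((b₀ * g : G) : G ⧸ H) = (g : G ⧸ H)
    rw [QuotientGroup.eq]
    have hb : g⁻¹ * b₀ * g ∈ J := by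
      have := hconj' (g := g⁻¹) (IsConj.refl b₀)
      rw [inv_inv] at this
      exact this
    have := H.inv_mem (hJH _ hb)
    simpa [mul_assoc] using this
  have h1 := hall g
  have h2 := hall 1
  rw [← h2, QuotientGroup.eq] at h1
  simpa using H.inv_mem h1


end Cfsg.Agent.S5439
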