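import Cfsg.Statements.S5459
import Mathlib

set_option autoImplicit false
open Cfsg

namespace Cfsg.Agent.S5459


section
variable {G : Type*} [Group G]

theorem comm1 (y a c : G) (h1 : Commute y a) (h2 : Commute y c) :
    (y⁻¹ * a) * c * (y⁻¹ * a)⁻¹ * c⁻¹ = a * c * a⁻¹ * c⁻¹ := by
  have h3 : Commute y (a * c * a⁻¹) := (h1.mul_right h2).mul_right h1.inv_right
  have h4 : y⁻¹ * (a * c * a⁻¹) * y = a * c * a⁻¹ := by
    rw [mul_assoc, ← h3.eq]
    group
  calc y⁻¹ * a * c * (y⁻¹ * a)⁻¹ * c⁻¹ = (y⁻¹ * (a * c * a⁻¹) * y) * c⁻¹ := by group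
    _ = a * c * a⁻¹ * c⁻¹ := by rw [h4]

/-- conjugation on a conjugacy class -/
def cnj (d g : G) (x : conjugatesOf d) : conjugatesOf d :=
  ⟨g * x.1 * g⁻¹, by
    have hx : IsConj d x.1 := x.2
    exact hx.trans (isConj_iff.2 ⟨g, rfl⟩)⟩

/-- conjugation as a graph homomorphism -/
def cnjHom (d g : G) : Cfsg.commutingGraph (conjugatesOf d) →g Cfsg.commutingGraph (conjugatesOf d) where
  toFun := cnj d g
  map_rel' := by
    intro a b hab
    rw [Cfsg.commutingGraph, SimpleGraph.fromRel_adj] at hab ⊢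
    obtain ⟨h1, h2⟩ := hab
    refine ⟨?_, ?_⟩
    · intro h
      apply h1
      have h3 : g * a.1 * g⁻¹ = g * b.1 * g⁻¹ := congrArg Subtype.val h
      apply Subtype.ext
      simpa using h3
    · have key : ∀ x y : G, Commute x y → Commute (g * x * g⁻¹) (g * y * g⁻¹) := by
        intro x y h
        show g * x * g⁻¹ * (g * y * g⁻¹) = g * y * g⁻¹ * (g * x * g⁻¹)
        calc g * x * g⁻¹ * (g * y * g⁻¹) = g * (x * y) * g⁻¹ := by group
          _ = g * (y * x) * g⁻¹ := by rw [h.eq]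
          _ = g * y * g⁻¹ * (g * x * g⁻¹) := by group
      rcases h2 with h2 | h2
      · exact Or.inl (key _ _ h2)
      · exact Or.inr (key _ _ h2)

end

/-- Let G be a finite group with a quasisimple normal subgroup L and an involution d such that G is generated by L and d, the centre of L has odd order, and d inverts every element of the centre of L. If the commuting graph on the conjugacy class of the image of d in G modulo the centre of L is connected, then the commuting graph on the conjugacy class of d is connected. -/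
theorem result {G : Type*} [Group G] [Finite G] (L : Subgroup G) [L.Normal] (hL : Cfsg.IsQuasisimple ↥L) (d : G) (hd : orderOf d = 2) (hgen : L ⊔ Subgroup.zpowers d = ⊤) (hodd : Odd (Nat.card ↥(Subgroup.center ↥L))) (hinv : ∀ c ∈ (Subgroup.center ↥L).map L.subtype, d * c * d⁻¹ = c⁻¹) [hn : ((Subgroup.center ↥L).map L.subtype).Normal] (hconn : (Cfsg.commutingGraph (conjugatesOf (QuotientGroup.mk d : G ⧸ (Subgroup.center ↥L).map L.subtype))).Connected) : (Cfsg.commutingGraph (conjugatesOf d)).Connected := by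
  classical
  obtain ⟨Z, hZdef⟩ : ∃ Z, Z = (Subgroup.center ↥L).map L.subtype := ⟨_, rfl⟩
  have hdd : d * d = 1 := by
    rw [← pow_two, ← hd]
    exact pow_orderOf_eq_one d
  have hdinv : d⁻¹ = d := inv_eq_of_mul_eq_one_left hdd
  have hZL : ∀ c ∈ (Subgroup.center ↥L).map L.subtype, c ∈ L := by
    rintro _ ⟨u, -, rfl⟩
    exact u.2
  have hZc : ∀ c ∈ (Subgroup.center ↥L).map L.subtype, ∀ a ∈ L, c * a = a * c := by
    rintro _ ⟨u, hu, rfl⟩ a ha
    have := (Subgroup.mem_center_iff.1 hu) ⟨a, ha⟩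
    exact (congrArg Subtype.val this).symm
  have hsqrt : ∀ c ∈ (Subgroup.center ↥L).map L.subtype, ∃ y ∈ (Subgroup.center ↥L).map L.subtype, y * y = c := by
    rintro _ ⟨u, hu, rfl⟩
    obtain ⟨k, hk⟩ := hodd
    let u' : Subgroup.center ↥L := ⟨u, hu⟩
    have h1 : u' ^ (k + 1) * u' ^ (k + 1) = u' := by
      rw [← pow_add]
      have h2 : k + 1 + (k + 1) = Nat.card ↥(Subgroup.center ↥L) + 1 := by omega
      rw [h2, pow_succ, pow_card_eq_one', one_mul]
    refine ⟨((u' ^ (k + 1) : Subgroup.center ↥L) : ↥L), ⟨_, (u' ^ (k + 1)).2, rfl⟩, ?_⟩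
    exact congrArg (fun v : Subgroup.center ↥L => ((v : ↥L) : G)) h1
  -- members of the class
  have hcl : ∀ x ∈ conjugatesOf d, ∃ g, x = g * d * g⁻¹ := by
    intro x hx
    obtain ⟨g, hg⟩ := isConj_iff.1 (show IsConj d x from hx)
    exact ⟨g, hg.symm⟩
  have hinvx : ∀ x ∈ conjugatesOf d, ∀ c ∈ (Subgroup.center ↥L).map L.subtype, x * c * x⁻¹ = c⁻¹ := by
    intro x hx c hc
    obtain ⟨g, rfl⟩ := hcl x hx
    have h1 : g⁻¹ * c * g ∈ (Subgroup.center ↥L).map L.subtype := by
      have := hn.conj_mem c hc g⁻¹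
      rwa [inv_inv] at this
    have h2 := hinv _ h1
    calc g * d * g⁻¹ * c * (g * d * g⁻¹)⁻¹ = g * (d * (g⁻¹ * c * g) * d⁻¹) * g⁻¹ := by group
      _ = g * (g⁻¹ * c * g)⁻¹ * g⁻¹ := by rw [h2]
      _ = c⁻¹ := by group
  have hsq : ∀ x ∈ conjugatesOf d, x * x = 1 := by
    intro x hx
    obtain ⟨g, rfl⟩ := hcl x hx
    calc g * d * g⁻¹ * (g * d * g⁻¹) = g * (d * d) * g⁻¹ := by group
      _ = 1 := by rw [hdd]; group
  -- products with central elements stay in the class
  have hfib : ∀ x ∈ conjugatesOf d, ∀ c ∈ (Subgroup.center ↥L).map L.subtype, ∃ y ∈ (Subgroup.center ↥L).map L.subtype, y⁻¹ * x * y = x * c := by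
    intro x hx c hc
    obtain ⟨y, hy, rfl⟩ := hsqrt c hc
    refine ⟨y, hy, ?_⟩
    have h1 := hinvx x hx y hy
    have h2 : x⁻¹ = x := inv_eq_of_mul_eq_one_left (hsq x hx)
    rw [h2] at h1
    have h3 : x * y = y⁻¹ * x := by
      calc x * y = (x * y * x) * x := by rw [mul_assoc _ x x, hsq x hx, mul_one]
        _ = y⁻¹ * x := by rw [h1]
    calc y⁻¹ * x * y = (x * y) * y := by rw [h3]
      _ = x * (y * y) := by group
  -- base point
  let d₀ : conjugatesOf d := ⟨d, IsConj.refl d⟩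
  let dbar : G ⧸ (Subgroup.center ↥L).map L.subtype := QuotientGroup.mk d
  -- lifting
  have hlift : ∀ x : conjugatesOf dbar, ∃ e : conjugatesOf d, (QuotientGroup.mk e.1 : G ⧸ (Subgroup.center ↥L).map L.subtype) = x.1 ∧
      (Cfsg.commutingGraph (conjugatesOf d)).Reachable d₀ e := by
    intro x
    let x₀ : conjugatesOf dbar := ⟨dbar, IsConj.refl dbar⟩
    have h1 := hconn.preconnected x₀ x
    rw [SimpleGraph.reachable_iff_reflTransGen] at h1
    induction h1 with
    | refl => exact ⟨d₀, rfl, SimpleGraph.Reachable.refl _⟩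
    | @tail b c _ hadj ih =>
      obtain ⟨e, he, hre⟩ := ih
      rw [Cfsg.commutingGraph, SimpleGraph.fromRel_adj] at hadj
      obtain ⟨hne, hcomm⟩ := hadj
      -- a lift of `c`
      obtain ⟨gq, hgq⟩ := isConj_iff.1 (show IsConj dbar c.1 from c.2)
      obtain ⟨g, rfl⟩ := QuotientGroup.mk_surjective gq
      obtain ⟨f, hf⟩ : ∃ f, f = g * d * g⁻¹ := ⟨_, rfl⟩
      have hfD : f ∈ conjugatesOf d := hf ▸ isConj_iff.2 ⟨g, rfl⟩
      have hfc : (QuotientGroup.mk f : G ⧸ (Subgroup.center ↥L).map L.subtype) = c.1 := by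
        rw [← hgq, hf]
        rfl
      have hcm : (QuotientGroup.mk e.1 : G ⧸ (Subgroup.center ↥L).map L.subtype) * QuotientGroup.mk f = QuotientGroup.mk f * QuotientGroup.mk e.1 := by
        rw [he, hfc]
        rcases hcomm with h | h
        · exact h
        · exact h.symm
      obtain ⟨c₀, hc₀⟩ : ∃ c₀, c₀ = f⁻¹ * e.1 * f * (e.1)⁻¹ := ⟨_, rfl⟩
      have hc₀Z : c₀ ∈ (Subgroup.center ↥L).map L.subtype := by
        rw [← QuotientGroup.eq_one_iff, hc₀]
        simp only [QuotientGroup.mk_mul, QuotientGroup.mk_inv]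
        rw [mul_assoc _ (QuotientGroup.mk e.1) _, hcm]
        group
      obtain ⟨r, hrZ, hr⟩ := hsqrt c₀ hc₀Z
      obtain ⟨y, hyZ, hy⟩ := hfib f hfD r hrZ
      have hf'D : f * r ∈ conjugatesOf d := by
        rw [← hy]
        have h2 : IsConj f (y⁻¹ * f * y) := isConj_iff.2 ⟨y⁻¹, by simp⟩
        exact (show IsConj d f from hfD).trans h2
      have hf'mk : (QuotientGroup.mk (f * r) : G ⧸ (Subgroup.center ↥L).map L.subtype) = c.1 := by
        rw [QuotientGroup.mk_mul, (QuotientGroup.eq_one_iff r).2 hrZ, mul_one, hfc]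
      have hinvr := hinvx e.1 e.2 r hrZ
      have hcomm' : Commute e.1 (f * r) := by
        have h3 : e.1 * f * (e.1)⁻¹ = f * c₀ := by
          rw [hc₀]
          group
        have h4 : e.1 * (f * r) * (e.1)⁻¹ = f * r := by
          calc e.1 * (f * r) * (e.1)⁻¹ = (e.1 * f * (e.1)⁻¹) * (e.1 * r * (e.1)⁻¹) := by group
            _ = f * c₀ * r⁻¹ := by rw [h3, hinvr]
            _ = f * (r * r) * r⁻¹ := by rw [hr]
            _ = f * r := by group
        show e.1 * (f * r) = f * r * e.1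
        calc e.1 * (f * r) = (e.1 * (f * r) * (e.1)⁻¹) * e.1 := by group
          _ = f * r * e.1 := by rw [h4]
      refine ⟨⟨f * r, hf'D⟩, hf'mk, hre.trans (SimpleGraph.Adj.reachable ?_)⟩
      rw [Cfsg.commutingGraph, SimpleGraph.fromRel_adj]
      refine ⟨?_, Or.inl hcomm'⟩
      intro h
      apply hne
      apply Subtype.ext
      rw [← he, ← hf'mk]
      exact congrArg (fun v : conjugatesOf d => (QuotientGroup.mk v.1 : G ⧸ (Subgroup.center ↥L).map L.subtype)) h
  -- the stabiliser of the component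
  let S : Subgroup G :=
    { carrier := {g | (Cfsg.commutingGraph (conjugatesOf d)).Reachable d₀ (cnj d g d₀)}
      one_mem' := by
        have : cnj d 1 d₀ = d₀ := by
          apply Subtype.ext
          simp [cnj]
        show (Cfsg.commutingGraph (conjugatesOf d)).Reachable d₀ (cnj d 1 d₀)
        rw [this]
      mul_mem' := by
        intro a b ha hb
        have h1 := hb.map (cnjHom d a)
        have h2 : cnj d (a * b) d₀ = cnjHom d a (cnj d b d₀) := by
          apply Subtype.ext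
          show (a * b) * d * (a * b)⁻¹ = a * (b * d * b⁻¹) * a⁻¹
          group
        show (Cfsg.commutingGraph (conjugatesOf d)).Reachable d₀ (cnj d (a * b) d₀)
        rw [h2]
        exact SimpleGraph.Reachable.trans ha h1
      inv_mem' := by
        intro a ha
        have h1 := SimpleGraph.Reachable.map (cnjHom d a⁻¹) ha
        have h2 : cnjHom d a⁻¹ (cnj d a d₀) = d₀ := by
          apply Subtype.ext
          show a⁻¹ * (a * d * a⁻¹) * a⁻¹⁻¹ = d
          group
        rw [h2] at h1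
        exact h1.symm }
  have hSmem : ∀ g, g ∈ S ↔ (Cfsg.commutingGraph (conjugatesOf d)).Reachable d₀ (cnj d g d₀) := fun g => Iff.rfl
  -- every element is a central element times an element of `S`
  have hdec : ∀ g : G, ∃ y ∈ (Subgroup.center ↥L).map L.subtype, y⁻¹ * g ∈ S := by
    intro g
    have hx : g * d * g⁻¹ ∈ conjugatesOf d := isConj_iff.2 ⟨g, rfl⟩
    have hxq : (QuotientGroup.mk (g * d * g⁻¹) : G ⧸ (Subgroup.center ↥L).map L.subtype) ∈ conjugatesOf dbar :=
      isConj_iff.2 ⟨QuotientGroup.mk g, rfl⟩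
    obtain ⟨e, he, hre⟩ := hlift ⟨_, hxq⟩
    have hc : (g * d * g⁻¹)⁻¹ * e.1 ∈ (Subgroup.center ↥L).map L.subtype := by
      exact (QuotientGroup.eq).1 he.symm
    obtain ⟨y, hy, hye⟩ := hfib _ hx _ hc
    refine ⟨y, hy, ?_⟩
    rw [hSmem]
    have h1 : cnj d (y⁻¹ * g) d₀ = e := by
      apply Subtype.ext
      show (y⁻¹ * g) * d * (y⁻¹ * g)⁻¹ = e.1
      calc (y⁻¹ * g) * d * (y⁻¹ * g)⁻¹ = y⁻¹ * (g * d * g⁻¹) * y := by group
        _ = (g * d * g⁻¹) * ((g * d * g⁻¹)⁻¹ * e.1) := hye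
        _ = e.1 := by group
    rw [h1]
    exact hre
  have hperf : commutator ↥L = ⊤ := hL.1.commutator_eq_top
  have hLS : L ≤ S := by
    have h1 : commutator ↥L ≤ S.subgroupOf L := by
      rw [commutator_def, Subgroup.commutator_le]
      intro a _ b _
      rw [Subgroup.mem_subgroupOf]
      obtain ⟨y₁, hy₁, h₁⟩ := hdec a
      obtain ⟨y₂, hy₂, h₂⟩ := hdec b
      have hc₁ : ∀ t ∈ L, y₁ * t = t * y₁ := hZc y₁ hy₁
      have hc₂ : ∀ t ∈ L, y₂ * t = t * y₂ := hZc y₂ hy₂
      have hy₁L := hZL y₁ hy₁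
      have hy₂L := hZL y₂ hy₂
      have e1 : (a : G) * (b : G) * (a : G)⁻¹ * (b : G)⁻¹ =
          (y₁⁻¹ * (a : G)) * (y₂⁻¹ * (b : G)) * (y₁⁻¹ * (a : G))⁻¹ * (y₂⁻¹ * (b : G))⁻¹ := by
        have h1 : Commute y₁ (a : G) := hc₁ _ a.2
        have h2 : Commute y₁ (b : G) := hc₁ _ b.2
        have h3 : Commute y₂ (a : G) := hc₂ _ a.2
        have h4 : Commute y₂ (b : G) := hc₂ _ b.2
        have h5 : Commute y₁ y₂ := hc₁ _ hy₂L
        have h6 : Commute y₁ (y₂⁻¹ * (b : G)) := h5.inv_right.mul_right h2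
        rw [comm1 y₁ _ _ h1 h6]
        have h7 := comm1 y₂ _ _ h4 h3
        have h8 : (a : G) * (y₂⁻¹ * (b : G)) * (a : G)⁻¹ * (y₂⁻¹ * (b : G))⁻¹ =
            ((y₂⁻¹ * (b : G)) * (a : G) * (y₂⁻¹ * (b : G))⁻¹ * (a : G)⁻¹)⁻¹ := by group
        rw [h8, h7]
        group
      rw [commutatorElement_def]
      simp only [Subgroup.coe_mul, Subgroup.coe_inv]
      rw [e1]
      exact S.mul_mem (S.mul_mem (S.mul_mem h₁ h₂) (S.inv_mem h₁)) (S.inv_mem h₂)
    rw [hperf] at h1
    intro l hl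
    have := h1 (Subgroup.mem_top (⟨l, hl⟩ : ↥L))
    exact Subgroup.mem_subgroupOf.1 this
  have hdS : d ∈ S := by
    rw [hSmem]
    have : cnj d d d₀ = d₀ := by
      apply Subtype.ext
      show d * d * d⁻¹ = d
      group
    rw [this]
  have hStop : S = ⊤ := by
    rw [eq_top_iff, ← hgen]
    refine sup_le hLS ?_
    rw [Subgroup.zpowers_le]
    exact hdS
  have hall : ∀ x : conjugatesOf d, (Cfsg.commutingGraph (conjugatesOf d)).Reachable d₀ x := by
    intro x
    obtain ⟨g, hg⟩ := hcl x.1 x.2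
    have h1 : g ∈ S := by
      rw [hStop]
      exact Subgroup.mem_top g
    have h2 : cnj d g d₀ = x := Subtype.ext hg.symm
    rw [← h2]
    exact h1
  haveI : Nonempty (conjugatesOf d) := ⟨d₀⟩
  exact ⟨fun a b => (hall a).symm.trans (hall b)⟩


end Cfsg.Agent.S5459
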