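import Cfsg.Statements.S5545
import Mathlib

set_option autoImplicit false
open Cfsg

namespace Cfsg.Agent.S5545


open Cfsg.Axial

section
variable {V : Type*} [AddCommGroup V] [Module ℝ V]

theorem eigen_map (mul : V →ₗ[ℝ] V →ₗ[ℝ] V) (σ : V ≃ₗ[ℝ] V)
    (hσ : ∀ u v : V, σ (mul u v) = mul (σ u) (σ v)) (a : V) (c : ℝ) :
    eigen mul (σ a) c = (eigen mul a c).map (σ : V →ₗ[ℝ] V) := by
  ext x
  simp only [eigen, Submodule.mem_map, Module.End.mem_eigenspace_iff]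
  constructor
  · intro hx
    refine ⟨σ.symm x, ?_, by simp⟩
    apply σ.injective
    rw [hσ, map_smul]
    simpa using hx
  · rintro ⟨y, hy, rfl⟩
    have h1 := congrArg σ hy
    rw [hσ, map_smul] at h1
    exact h1

theorem eigenSum_map (mul : V →ₗ[ℝ] V →ₗ[ℝ] V) (σ : V ≃ₗ[ℝ] V)
    (hσ : ∀ u v : V, σ (mul u v) = mul (σ u) (σ v)) (a : V) (S : Set ℝ) :
    eigenSum mul (σ a) S = (eigenSum mul a S).map (σ : V →ₗ[ℝ] V) := by
  simp only [eigenSum, Submodule.map_iSup, eigen_map mul σ hσ]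

/-- transport of a Majorana pair along a commuting automorphism. -/
theorem pair_map (mul : V →ₗ[ℝ] V →ₗ[ℝ] V) (B : LinearMap.BilinForm ℝ V) (μ σ : V ≃ₗ[ℝ] V) (a : V)
    (hσ : ∀ u v : V, σ (mul u v) = mul (σ u) (σ v)) (hc : ∀ x, μ (σ x) = σ (μ x))
    (h : IsMajoranaPair mul B μ a) : IsMajoranaPair mul B μ (σ a) := by
  obtain ⟨h1, h2, ⟨⟨ha0, hid, htop, hfus⟩, heig⟩, hmiy1, hmiy2⟩ := h
  refine ⟨h1, h2, ⟨⟨?_, ?_, ?_, ?_⟩, ?_⟩, ?_, ?_⟩
  · intro h0
    apply ha0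
    apply σ.injective
    rw [h0, map_zero]
  · rw [← hσ, hid]
  · rw [eigenSum_map mul σ hσ, htop, Submodule.map_top]
    exact LinearEquiv.range σ
  · intro c hcS d hdS u hu v hv
    rw [eigen_map mul σ hσ] at hu hv
    obtain ⟨u', hu', rfl⟩ := hu
    obtain ⟨v', hv', rfl⟩ := hv
    rw [eigenSum_map mul σ hσ]
    refine ⟨mul u' v', hfus c hcS d hdS u' hu' v' hv', ?_⟩
    exact hσ u' v'
  · rw [eigen_map mul σ hσ, heig, Submodule.map_span, Set.image_singleton]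
    rfl
  · intro v hv
    rw [eigenSum_map mul σ hσ] at hv
    obtain ⟨v', hv', rfl⟩ := hv
    have := hmiy1 v' hv'
    show μ (σ v') = σ v'
    rw [hc]
    congr 1
  · intro v hv
    rw [eigen_map mul σ hσ] at hv
    obtain ⟨v', hv', rfl⟩ := hv
    have := hmiy2 v' hv'
    show μ (σ v') = - σ v'
    rw [hc]
    have h3 : μ v' = - v' := this
    rw [h3, map_neg]

/-- decomposition of a `μ`-fixed vector with respect to the axis. -/
theorem dec (mul : V →ₗ[ℝ] V →ₗ[ℝ] V) (B : LinearMap.BilinForm ℝ V) (hV : IsMajoranaAmbient mul B) (μ : V ≃ₗ[ℝ] V) (a b : V)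
    (h : IsMajoranaPair mul B μ a) (hn : B a a = 1) (hb : μ b = b) :
    ∃ x₀ x₁ : V, b = (B a b) • a + x₀ + x₁ ∧ mul a x₀ = 0 ∧ mul a x₁ = (1 / 4 : ℝ) • x₁ := by
  obtain ⟨hcomm, hsym, hpos, hassoc, -⟩ := hV
  obtain ⟨h1, h2, ⟨⟨ha0, hid, htop, hfus⟩, heig⟩, hmiy1, hmiy2⟩ := h
  have hb' : b ∈ eigenSum mul a majoranaSpectrum := by rw [htop]; trivial
  simp only [eigenSum, majoranaSpectrum, iSup_insert, iSup_singleton, Submodule.mem_sup] at hb'
  obtain ⟨y₁, hy₁, z₁, ⟨y₀, hy₀, z₂, ⟨yq, hyq, yt, hyt, rfl⟩, rfl⟩, rfl⟩ := hb'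
  rw [heig, Submodule.mem_span_singleton] at hy₁
  obtain ⟨t, rfl⟩ := hy₁
  have hmem : ∀ c : ℝ, (c = 1 ∨ c = 0 ∨ c = 1 / 4) → ∀ v ∈ eigen mul a c, μ v = v := by
    intro c hc v hv
    apply hmiy1
    have : eigen mul a c ≤ eigenSum mul a {1, 0, 1 / 4} :=
      le_iSup₂_of_le c (by simpa using hc) le_rfl
    exact this hv
  have hfix1 : μ (t • a) = t • a := by
    apply hmem 1 (Or.inl rfl)
    rw [heig]
    exact Submodule.smul_mem _ _ (Submodule.mem_span_singleton_self a)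
  have hfix0 := hmem 0 (Or.inr (Or.inl rfl)) y₀ hy₀
  have hfixq := hmem (1 / 4) (Or.inr (Or.inr rfl)) yq hyq
  have hfixt : μ yt = - yt := hmiy2 yt hyt
  have hyt0 : yt = 0 := by
    rw [map_add, map_add, map_add, hfix1, hfix0, hfixq, hfixt] at hb
    have h3 : (2 : ℝ) • yt = 0 := by
      linear_combination (norm := module) -hb
    simpa using h3
  subst hyt0
  have hy₀' : mul a y₀ = 0 := by
    have := Module.End.mem_eigenspace_iff.1 hy₀
    simpa using this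
  have hyq' : mul a yq = (1 / 4 : ℝ) • yq := Module.End.mem_eigenspace_iff.1 hyq
  have hB0 : B a y₀ = 0 := by
    have h3 := hassoc a a y₀
    rw [hid, hy₀', map_zero] at h3
    exact h3.symm
  have hBq : B a yq = 0 := by
    have h3 := hassoc a a yq
    rw [hid, hyq', map_smul, smul_eq_mul] at h3
    linarith
  have ht : B a (t • a + (y₀ + (yq + 0))) = t := by
    simp only [map_add, map_smul, smul_eq_mul, hn, hB0, hBq, map_zero]
    ring
  refine ⟨y₀, yq, ?_, hy₀', hyq'⟩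
  rw [ht]
  simp only [add_zero]
  rw [add_assoc]

/-- the product with the axis. -/
theorem mul_c (mul : V →ₗ[ℝ] V →ₗ[ℝ] V) (B : LinearMap.BilinForm ℝ V) (hV : IsMajoranaAmbient mul B) (μ : V ≃ₗ[ℝ] V) (a b : V)
    (h : IsMajoranaPair mul B μ a) (hn : B a a = 1) (hb : μ b = b) :
    mul a (mul a b) = ((3 / 4 : ℝ) * B a b) • a + (1 / 4 : ℝ) • mul a b := by
  obtain ⟨x₀, x₁, he, h0, h1⟩ := dec mul B hV μ a b h hn hb
  have hid : mul a a = a := h.2.2.1.1.2.1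
  have hc : mul a b = (B a b) • a + (1 / 4 : ℝ) • x₁ := by
    conv_lhs => rw [he]
    simp only [map_add, map_smul, hid, h0, h1, add_zero]
  rw [hc]
  simp only [map_add, map_smul, hid, h1]
  module

theorem key (mul : V →ₗ[ℝ] V →ₗ[ℝ] V) (B : LinearMap.BilinForm ℝ V) (hV : IsMajoranaAmbient mul B) (μ : V ≃ₗ[ℝ] V) (a b : V)
    (h : IsMajoranaPair mul B μ a) (hn : B a a = 1) (hb : μ b = b) (hbb : mul b b = b)
    (hbc : mul b (mul a b) = ((3 / 4 : ℝ) * B a b) • b + (1 / 4 : ℝ) • mul a b) :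
    (16 : ℝ) • mul (mul a b) (mul a b) = (3 * B a b) • b + (8 * (B a b) ^ 2 + 2 * B a b) • a + (4 * B a b - 1) • mul a b := by
  obtain ⟨x₀, x₁, he, h0, h1⟩ := dec mul B hV μ a b h hn hb
  have hcomm := hV.1
  obtain ⟨hm1, hm2, ⟨⟨ha0, hid, htop, hfus⟩, heig⟩, hmiy1, hmiy2⟩ := h
  set β := B a b with hβ
  have hc : mul a b = β • a + (1 / 4 : ℝ) • x₁ := by
    conv_lhs => rw [he]
    simp only [map_add, map_smul, hid, h0, h1, add_zero]
  have hac : mul a (mul a b) = ((3 / 4 : ℝ) * β) • a + (1 / 4 : ℝ) • mul a b := by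
    rw [hc]
    simp only [map_add, map_smul, hid, h1]
    module
  have h1x : x₁ = (4 : ℝ) • mul a b - (4 * β) • a := by
    rw [hc]
    module
  have h0x : x₀ = b + (3 * β) • a - (4 : ℝ) • mul a b := by
    have h3 : x₀ = b - β • a - x₁ := by
      rw [sub_sub, eq_sub_iff_add_eq, he]
      abel
    rw [h3, h1x]
    module
  -- fusion
  have hS0 : (0 : ℝ) ∈ majoranaSpectrum := by simp [majoranaSpectrum]
  have hSq : (1 / 4 : ℝ) ∈ majoranaSpectrum := by simp [majoranaSpectrum]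
  have hx0 : x₀ ∈ eigen mul a 0 := by
    apply Module.End.mem_eigenspace_iff.2
    simpa using h0
  have hx1 : x₁ ∈ eigen mul a (1 / 4) := Module.End.mem_eigenspace_iff.2 h1
  have f1 := hfus 0 hS0 (1 / 4) hSq x₀ hx0 x₁ hx1
  have f2 := hfus 0 hS0 0 hS0 x₀ hx0 x₀ hx0
  have f3 := hfus (1 / 4) hSq (1 / 4) hSq x₁ hx1 x₁ hx1
  have l1 : monsterLaw (1 / 4 : ℝ) (1 / 32) 0 (1 / 4) = {1 / 4} := by
    simp only [monsterLaw]
    norm_num
  have l2 : monsterLaw (1 / 4 : ℝ) (1 / 32) 0 0 = {0} := by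
    simp only [monsterLaw]
    norm_num
  have l3 : monsterLaw (1 / 4 : ℝ) (1 / 32) (1 / 4) (1 / 4) = {1, 0} := by
    simp only [monsterLaw]
    norm_num
  rw [l1] at f1
  rw [l2] at f2
  rw [l3] at f3
  simp only [eigenSum, iSup_insert, iSup_singleton, Submodule.mem_sup] at f1 f2 f3
  obtain ⟨y₁, hy₁, y₀, hy₀, hy⟩ := f3
  have hr : mul a (mul x₀ x₁) = (1 / 4 : ℝ) • mul x₀ x₁ := Module.End.mem_eigenspace_iff.1 f1
  have hw : mul a (mul x₀ x₀) = 0 := by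
    have := Module.End.mem_eigenspace_iff.1 f2
    simpa using this
  have hy₁' : mul a y₁ = y₁ := by
    have := Module.End.mem_eigenspace_iff.1 hy₁
    simpa using this
  have hy₀' : mul a y₀ = 0 := by
    have := Module.End.mem_eigenspace_iff.1 hy₀
    simpa using this
  -- the square of `b`
  have hsq : mul b b = (β ^ 2) • a + (β / 2) • x₁ + mul x₀ x₀ + (2 : ℝ) • mul x₀ x₁ + (y₁ + y₀) := by
    have e1 : mul b b = mul (β • a + x₀ + x₁) (β • a + x₀ + x₁) := by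
      rw [← he]
    rw [e1]
    simp only [map_add, map_smul, LinearMap.add_apply, LinearMap.smul_apply, hid, h0, h1]
    rw [hcomm x₀ a, hcomm x₁ a, hcomm x₁ x₀, h0, h1, hy]
    simp only [smul_zero, add_zero, zero_add]
    module
  set r := mul x₀ x₁ with hrdef
  set w := mul x₀ x₀ with hwdef
  have hP : ((β ^ 2 - β) • a + y₁) + (w + y₀ - x₀) + ((β / 2 - 1) • x₁ + (2 : ℝ) • r) = 0 := by
    have h3 : (β ^ 2) • a + (β / 2) • x₁ + w + (2 : ℝ) • r + (y₁ + y₀) = β • a + x₀ + x₁ := by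
      rw [← hsq, hbb]
      exact he
    linear_combination (norm := module) h3
  have hL1 := congrArg (mul a) hP
  simp only [map_add, map_sub, map_smul, hid, hy₁', hw, hy₀', h0, h1, hr, map_zero] at hL1
  have hL2 := congrArg (mul a) hL1
  simp only [map_add, map_sub, map_smul, hid, hy₁', hw, hy₀', h0, h1, hr, map_zero, smul_zero, add_zero, zero_add, sub_zero] at hL2
  have hPq : (β / 2 - 1) • x₁ + (2 : ℝ) • r = 0 := by
    have h5 : (3 / 16 : ℝ) • ((β / 2 - 1) • x₁ + (2 : ℝ) • r) = 0 := by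
      linear_combination (norm := module) hL1 - hL2
    have h6 := (smul_eq_zero.1 h5).resolve_left (by norm_num)
    exact h6
  -- express `r`
  have hca : mul (mul a b) a = mul a (mul a b) := hcomm _ _
  have hba : mul b a = mul a b := hcomm _ _
  have hcb : mul (mul a b) b = mul b (mul a b) := hcomm _ _
  have hrx : r = (3 * β) • b + (1 + 3 * β) • mul a b + (9 * β ^ 2) • a - (16 : ℝ) • mul (mul a b) (mul a b) := by
    rw [hrdef, h0x, h1x]
    simp only [map_add, map_sub, map_smul, LinearMap.add_apply, LinearMap.sub_apply, LinearMap.smul_apply, hid, hba, hca, hcb, hbc, hac]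
    module
  rw [hrx, h1x] at hPq
  have h7 : (2 : ℝ) • ((16 : ℝ) • mul (mul a b) (mul a b) - ((3 * β) • b + (8 * β ^ 2 + 2 * β) • a + (4 * β - 1) • mul a b)) = 0 := by
    linear_combination (norm := module) -hPq
  have h8 := (smul_eq_zero.1 h7).resolve_left (by norm_num)
  exact sub_eq_zero.1 h8

end

/-- Let V be a finite-dimensional real vector space with a commutative bilinear product and a positive-definite symmetric bilinear form that associates with the product and satisfies the Norton inequality (the Majorana setting of the definitions). Let μ₀, μ₁ be commuting Majorana involutions with distinct axial vectors a₀ ≠ a₁ of squared length 1, each involution having no other axial vector. Then either a₀ and a₁ are orthogonal with a₀ ∘ a₁ = 0 (type 2B), or their inner product is 1/8 and, with a₂ = a₀ + a₁ − 8 a₀ ∘ a₁, the vector a₂ is an idempotent and a₀ ∘ a₂ = (1/8)(a₀ + a₂ − a₁), a₁ ∘ a₂ = (1/8)(a₁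 + a₂ − a₀) (type 2A: the three idempotents span a subalgebra with aᵢ ∘ aⱼ = (1/8)(aᵢ + aⱼ − aₖ)). -/
theorem result {V : Type*} [AddCommGroup V] [Module ℝ V] [FiniteDimensional ℝ V] (mul : V →ₗ[ℝ] V →ₗ[ℝ] V) (B : LinearMap.BilinForm ℝ V) (hV : Cfsg.Axial.IsMajoranaAmbient mul B) (μ₀ μ₁ : V ≃ₗ[ℝ] V) (a₀ a₁ : V) (h₀ : Cfsg.Axial.IsMajoranaPair mul B μ₀ a₀) (h₁ : Cfsg.Axial.IsMajoranaPair mul B μ₁ a₁) (hu₀ : ∀ a : V, Cfsg.Axial.IsMajoranaPair mul B μ₀ a → a = a₀) (hu₁ : ∀ a : V, Cfsg.Axial.IsMajoranaPair mul B μ₁ a → a = a₁) (hn₀ : B a₀ a₀ = 1) (hn₁ : B a₁ a₁ = 1) (hc : μ₀ * μ₁ = μ₁ * μ₀) (hne : a₀ ≠ a₁) : (B a₀ a₁ = 0 ∧ mul a₀ a₁ = 0) ∨ (B a₀ a₁ = 1 / 8 ∧ mul (a₀ + a₁ - (8 : ℝ) • mul a₀ a₁) (a₀ + a₁ - (8 : ℝ) • mul a₀ a₁) = a₀ + a₁ - (8 : ℝ) • mul a₀ a₁ ∧ mul a₀ (a₀ + a₁ - (8 : ℝ) • mul a₀ a₁) = (1 / 8 : ℝ) • (a₀ + (a₀ + a₁ - (8 : ℝ) • mul a₀ a₁) - a₁) ∧ mul a₁ (a₀ + a₁ - (8 : ℝ) • mul a₀ a₁) = (1 / 8 :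 ℝ) • (a₁ + (a₀ + a₁ - (8 : ℝ) • mul a₀ a₁) - a₀)) := by
  classical
  have hcomm := hV.1
  have hsym := hV.2.1
  have hpos := hV.2.2.1
  have hassoc := hV.2.2.2.1
  have hc0 : ∀ x, μ₀ (μ₁ x) = μ₁ (μ₀ x) := fun x => LinearEquiv.congr_fun hc x
  have hfix₀ : μ₁ a₀ = a₀ := hu₀ _ (pair_map mul B μ₀ μ₁ a₀ h₁.1 hc0 h₀)
  have hfix₁ : μ₀ a₁ = a₁ := hu₁ _ (pair_map mul B μ₁ μ₀ a₁ h₀.1 (fun x => (hc0 x).symm) h₁)
  have hid₀ : mul a₀ a₀ = a₀ := h₀.2.2.1.1.2.1
  have hid₁ : mul a₁ a₁ = a₁ := h₁.2.2.1.1.2.1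
  have hβ : B a₁ a₀ = B a₀ a₁ := hsym _ _
  have hcc : mul a₁ a₀ = mul a₀ a₁ := hcomm _ _
  have hac := mul_c mul B hV μ₀ a₀ a₁ h₀ hn₀ hfix₁
  have hbc : mul a₁ (mul a₀ a₁) = ((3 / 4 : ℝ) * B a₀ a₁) • a₁ + (1 / 4 : ℝ) • mul a₀ a₁ := by
    have := mul_c mul B hV μ₁ a₁ a₀ h₁ hn₁ hfix₀
    rwa [hβ, hcc] at this
  have k1 := key mul B hV μ₀ a₀ a₁ h₀ hn₀ hfix₁ hid₁ hbc
  have k2 := key mul B hV μ₁ a₁ a₀ h₁ hn₁ hfix₀ hid₀ (by rw [hcc, hβ]; exact hac)
  rw [hβ, hcc] at k2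
  set β := B a₀ a₁ with hβdef
  set c := mul a₀ a₁ with hcdef
  have hdiff : (β - 8 * β ^ 2) • (a₁ - a₀) = 0 := by
    linear_combination (norm := module) k2 - k1
  have hne' : a₁ - a₀ ≠ 0 := sub_ne_zero.2 hne.symm
  have hbeta : β - 8 * β ^ 2 = 0 := (smul_eq_zero.1 hdiff).resolve_right hne'
  have hcases : β = 0 ∨ β = 1 / 8 := by
    have h3 : β * (1 - 8 * β) = 0 := by linarith
    rcases mul_eq_zero.1 h3 with h | h
    · exact Or.inl h
    · right; linarith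
  rcases hcases with h0 | h8
  · left
    refine ⟨h0, ?_⟩
    obtain ⟨x₀, x₁, he, hx0, hx1⟩ := dec mul B hV μ₀ a₀ a₁ h₀ hn₀ hfix₁
    rw [← hβdef, h0, zero_smul, zero_add] at he
    have hB0 : B a₀ x₀ = 0 := by
      have h3 := hassoc a₀ a₀ x₀
      rw [hid₀, hx0, map_zero] at h3
      exact h3.symm
    have hB1 : B a₀ x₁ = 0 := by
      have h3 := hassoc a₀ a₀ x₁
      rw [hid₀, hx1, map_smul, smul_eq_mul] at h3
      linarith
    have hB01 : B x₀ x₁ = 0 := by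
      have h3 := hassoc x₀ a₀ x₁
      rw [hx1, hcomm x₀ a₀, hx0, map_smul, smul_eq_mul, map_zero, LinearMap.zero_apply] at h3
      linarith
    have hc' : c = (1 / 4 : ℝ) • x₁ := by
      rw [hcdef, he]
      simp only [map_add, hx0, hx1, zero_add]
    have hbb : B a₁ c = 0 := by
      have h3 := hassoc a₁ a₁ a₀
      rw [hid₁, hcc] at h3
      rw [h3]
      exact (hsym _ _).trans h0 |> fun h => by rw [hsym]; exact h0
    have hq : B x₁ x₁ = 0 := by
      rw [hc', he] at hbb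
      simp only [map_add, map_smul, LinearMap.add_apply, smul_eq_mul, hB01] at hbb
      linarith
    have hx10 : x₁ = 0 := by
      by_contra hne0
      have := hpos x₁ hne0
      linarith
    rw [hc', hx10, smul_zero]
  · right
    refine ⟨h8, ?_, ?_, ?_⟩
    · rw [h8] at k1 hac hbc
      simp only [map_add, map_sub, map_smul, LinearMap.add_apply, LinearMap.sub_apply, LinearMap.smul_apply, hid₀, hid₁, hcc, ← hcdef, hac, hbc]
      have hca : mul c a₀ = ((3 / 4 : ℝ) * (1 / 8)) • a₀ + (1 / 4 : ℝ) • c := by rw [hcomm]; exact hac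
      have hcb : mul c a₁ = ((3 / 4 : ℝ) * (1 / 8)) • a₁ + (1 / 4 : ℝ) • c := by rw [hcomm]; exact hbc
      rw [hca, hcb]
      linear_combination (norm := module) (4 : ℝ) • k1
    · rw [h8] at hac
      simp only [map_add, map_sub, map_smul, hid₀, ← hcdef, hac]
      module
    · rw [h8] at hbc
      simp only [map_add, map_sub, map_smul, hid₁, hcc, ← hcdef, hbc]
      module


end Cfsg.Agent.S5545
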