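import Cfsg.Statements.S5553
import Mathlib
import Cfsg.Agent.Lib.LeechBasic
import Cfsg.Agent.Lib.GolayCode

set_option autoImplicit false
open Cfsg

namespace Cfsg.Agent.S5553


open Cfsg.Agent.LeechBasic

abbrev LL : Type := ↥leechLattice

theorem parity (x : GolayPt → ℤ) (hx : x ∈ leechLattice) (i : GolayPt) : (x i - x none) % 2 = 0 := by
  obtain ⟨m, h2, -, -⟩ := mem_lattice.1 hx
  have h3 := h2 i
  have h4 := h2 none
  unfold Int.ModEq at h3 h4
  omega

/-- the value of the class map at a coordinate -/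
def evalE (x : GolayPt → ℤ) (i : GolayPt) : ZMod 2 := (((x i - x none) / 2 + x none : ℤ) : ZMod 2)

theorem evalE_add (x y : GolayPt → ℤ) (hx : x ∈ leechLattice) (hy : y ∈ leechLattice) (i : GolayPt) :
    evalE (x + y) i = evalE x i + evalE y i := by
  unfold evalE
  obtain ⟨p, hp⟩ : ∃ p, x i - x none = 2 * p := ⟨(x i - x none) / 2, by have := parity x hx i; omega⟩
  obtain ⟨q, hq⟩ : ∃ q, y i - y none = 2 * q := ⟨(y i - y none) / 2, by have := parity y hy i; omega⟩
  have h3 : (x + y) i - (x + y) none = 2 * (p + q) := by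
    simp only [Pi.add_apply]
    linarith
  rw [h3, hp, hq, Int.mul_ediv_cancel_left _ (by norm_num), Int.mul_ediv_cancel_left _ (by norm_num),
    Int.mul_ediv_cancel_left _ (by norm_num)]
  simp only [Pi.add_apply]
  push_cast
  ring

/-- the class map -/
def classE : LL →+ (GolayPt → ZMod 2) where
  toFun x := evalE x.1
  map_zero' := by
    ext i
    simp [evalE]
  map_add' x y := by
    ext i
    exact evalE_add x.1 y.1 x.2 y.2 i

theorem classE_apply (x : LL) (i : GolayPt) : classE x i = evalE x.1 i := rfl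

theorem cast_two_dvd (a : ℤ) : ((a : ℤ) : ZMod 2) = 0 ↔ a % 2 = 0 := by
  rw [ZMod.intCast_zmod_eq_zero_iff_dvd a 2]
  push_cast
  omega

theorem classE_mem (x : LL) : classE x ∈ golayCode := by
  obtain ⟨m, h2, -, hk⟩ := mem_lattice.1 x.2
  obtain ⟨u, hu, hsu⟩ := hk (x.1 none + 2)
  have key : classE x = u + (((x.1 none : ℤ) : ZMod 2)) • (fun _ => (1 : ZMod 2)) := by
    ext i
    rw [classE_apply]
    have hp := parity x.1 x.2 i
    have h3 : u i = (((x.1 i - x.1 none) / 2 : ℤ) : ZMod 2) := by
      have h4 : u i ≠ 0 ↔ x.1 i ≡ x.1 none + 2 [ZMOD 4] := by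
        have h5 := Finset.ext_iff.1 hsu i
        simpa [support₂] using h5
      have h6 : (((x.1 i - x.1 none) / 2 : ℤ) : ZMod 2) ≠ 0 ↔ x.1 i ≡ x.1 none + 2 [ZMOD 4] := by
        rw [Ne, cast_two_dvd]
        unfold Int.ModEq
        omega
      have h7 : ∀ a b : ZMod 2, (a ≠ 0 ↔ b ≠ 0) → a = b := by decide
      exact h7 _ _ (h4.trans h6.symm)
    unfold evalE
    simp only [Pi.add_apply, Pi.smul_apply, smul_eq_mul, mul_one]
    rw [h3]
    push_cast
    rfl
  rw [key]
  refine Submodule.add_mem _ hu (Submodule.smul_mem _ _ ?_)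
  exact Submodule.subset_span (Set.mem_union_right _ rfl)

/-- lift of a binary word to 0-1 integers -/
def liftI (c : GolayPt → ZMod 2) (i : GolayPt) : ℤ := ((c i).val : ℤ)

theorem liftI_cast (c : GolayPt → ZMod 2) (i : GolayPt) : ((liftI c i : ℤ) : ZMod 2) = c i := by
  unfold liftI
  simp

theorem liftI_cases (c : GolayPt → ZMod 2) (i : GolayPt) :
    (c i = 0 ∧ liftI c i = 0) ∨ (c i = 1 ∧ liftI c i = 1) := by
  unfold liftI
  have : ∀ a : ZMod 2, (a = 0 ∧ ((a.val : ℕ) : ℤ) = 0) ∨ (a = 1 ∧ ((a.val : ℕ) : ℤ) = 1) := by decide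
  exact this _

theorem even_mem (c : GolayPt → ZMod 2) (hc : c ∈ golayCode) :
    (fun i => 2 * liftI c i) ∈ leechLattice := by
  rw [mem_lattice]
  have hA : Cd (support₂ c) := ⟨c, hc, rfl⟩
  refine mk _ 0 (support₂ c) hA ?_ ?_
  · intro i
    unfold ind
    rcases liftI_cases c i with ⟨h1, h2⟩ | ⟨h1, h2⟩
    · simp [support₂, h1, h2, Int.ModEq]
    · simp [support₂, h1, h2, Int.ModEq]
  · have h4 := cd_card hA
    have hsum : ∑ i, (2 * liftI c i) = 2 * ((support₂ c).card : ℤ) := by
      have h5 : ∀ i, liftI c i = if i ∈ support₂ c then 1 else 0 := by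
        intro i
        rcases liftI_cases c i with ⟨h1, h2⟩ | ⟨h1, h2⟩ <;> simp [support₂, h1, h2]
      have h6 : ∑ i, liftI c i = ((support₂ c).card : ℤ) := by
        simp only [h5]
        rw [Finset.sum_boole]
        simp
      rw [← Finset.mul_sum, h6]
    rw [hsum]
    unfold Int.ModEq
    omega

/-- the odd vector with coordinates -3 at infinity and 1 elsewhere -/
def yZero (i : GolayPt) : ℤ := if i = none then -3 else 1

theorem yZero_mem : yZero ∈ leechLattice := by
  rw [mem_lattice]
  refine mk _ 1 ∅ cd_empty ?_ ?_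
  · intro i
    unfold yZero ind
    by_cases h : i = none <;> simp [h, Int.ModEq]
  · decide

theorem exists_lift (c : GolayPt → ZMod 2) (hc : c ∈ golayCode) : ∃ x : LL, classE x = c := by
  by_cases h0 : c none = 0
  · refine ⟨⟨_, even_mem c hc⟩, ?_⟩
    ext i
    rw [classE_apply]
    unfold evalE
    simp only
    have h1 : liftI c none = 0 := by
      rcases liftI_cases c none with ⟨h1, h2⟩ | ⟨h1, h2⟩
      · exact h2
      · rw [h1] at h0
        exact absurd h0 (by decide)
    rw [h1]
    simp only [mul_zero, sub_zero, add_zero]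
    rw [Int.mul_ediv_cancel_left _ (by norm_num), liftI_cast]
  · have h1 : c none = 1 := by
      have : ∀ a : ZMod 2, a ≠ 0 → a = 1 := by decide
      exact this _ h0
    have hone : (fun _ => (1 : ZMod 2)) ∈ golayCode :=
      Submodule.subset_span (Set.mem_union_right _ rfl)
    obtain ⟨d, hddef⟩ : ∃ d : GolayPt → ZMod 2, d = c + (fun _ => (1 : ZMod 2)) := ⟨_, rfl⟩
    have hd : d ∈ golayCode := by
      rw [hddef]
      exact Submodule.add_mem _ hc hone
    have hd0 : d none = 0 := by
      rw [hddef]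
      simp only [Pi.add_apply, h1]
      decide
    have hl : liftI d none = 0 := by
      rcases liftI_cases d none with ⟨h1, h2⟩ | ⟨h1, h2⟩
      · exact h2
      · rw [h1] at hd0
        exact absurd hd0 (by decide)
    refine ⟨⟨_, even_mem d hd⟩ + ⟨yZero, yZero_mem⟩, ?_⟩
    rw [map_add]
    ext i
    rw [Pi.add_apply, classE_apply, classE_apply]
    unfold evalE
    simp only
    rw [hl]
    simp only [mul_zero, sub_zero, add_zero]
    rw [Int.mul_ediv_cancel_left _ (by norm_num), liftI_cast, hddef]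
    have h5 : (((yZero i - yZero none) / 2 + yZero none : ℤ) : ZMod 2) = 1 := by
      unfold yZero
      by_cases h : i = none
      · simp only [h]
        decide
      · simp only [h, if_false, if_true]
        decide
    rw [h5]
    simp only [Pi.add_apply]
    have : ∀ a : ZMod 2, a + 1 + 1 = a := by decide
    exact this _

theorem ker_facts (x : LL) (h : classE x = 0) :
    (x.1 none) % 2 = 0 ∧ (∀ i, (x.1 i - x.1 none) % 4 = 0) ∧ (∑ i, x.1 i) % 8 = 0 := by
  have h0 : (x.1 none) % 2 = 0 := by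
    have h1 := congrFun h none
    rw [classE_apply] at h1
    unfold evalE at h1
    simp only [sub_self, Int.zero_ediv, zero_add, Pi.zero_apply] at h1
    exact (cast_two_dvd _).1 h1
  refine ⟨h0, ?_, ?_⟩
  · intro i
    have h1 := congrFun h i
    rw [classE_apply] at h1
    unfold evalE at h1
    have h2 := (cast_two_dvd _).1 h1
    have := parity x.1 x.2 i
    omega
  · obtain ⟨m, h2, hs, -⟩ := mem_lattice.1 x.2
    have h3 := h2 none
    unfold Int.ModEq at h3 hs
    omega

theorem norm_of (x : GolayPt → ℤ) (h0 : (x none) % 2 = 0) (h1 : ∀ i, (x i - x none) % 4 = 0)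
    (h2 : (∑ i, x i) % 8 = 0) : (32 : ℤ) ∣ sqNorm x := by
  unfold sqNorm
  by_cases h4 : x none % 4 = 0
  · have hp : ∀ i, (32 : ℤ) ∣ x i ^ 2 - 4 * x i := by
      intro i
      have := h1 i
      obtain ⟨b, hb⟩ : ∃ b, x i = 4 * b := ⟨x i / 4, by omega⟩
      obtain ⟨t, ht⟩ := Int.even_mul_pred_self b
      rw [hb]
      exact ⟨t, by linear_combination 16 * ht⟩
    have h5 : ∑ i, x i ^ 2 = ∑ i, (x i ^ 2 - 4 * x i) + 4 * ∑ i, x i := by
      rw [Finset.mul_sum, ← Finset.sum_add_distrib]
      exact Finset.sum_congr rfl fun i _ => by ring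
    rw [h5]
    refine dvd_add (Finset.dvd_sum fun i _ => hp i) ?_
    omega
  · have hp : ∀ i, (32 : ℤ) ∣ x i ^ 2 - 4 := by
      intro i
      have := h1 i
      obtain ⟨b, hb⟩ : ∃ b, x i = 4 * b + 2 := ⟨x i / 4, by omega⟩
      obtain ⟨t, ht⟩ := Int.even_mul_succ_self b
      rw [hb]
      exact ⟨t, by linear_combination 16 * ht⟩
    have h5 : ∑ i, x i ^ 2 = ∑ i, (x i ^ 2 - 4) + 96 := by
      rw [Finset.sum_sub_distrib]
      simp
    rw [h5]
    refine dvd_add (Finset.dvd_sum fun i _ => hp i) (by norm_num)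


/-- The Leech lattice of the definitions has an additive subgroup A containing twice the lattice, of index 2^12 in the lattice, all of whose vectors have squared length divisible by 32: the invariant quadratic form 'squared length over 16 modulo 2' on the lattice modulo twice the lattice (a 24-dimensional space over the field with two elements) vanishes on a 12-dimensional subspace, so it is of plus type. -/
theorem result : ∃ A : AddSubgroup (Cfsg.GolayPt → ℤ), A ≤ Cfsg.leechLattice ∧ (∀ v ∈ Cfsg.leechLattice, (2 : ℤ) • v ∈ A) ∧ (A.addSubgroupOf Cfsg.leechLattice).index = 2 ^ 12 ∧ ∀ v ∈ A, (32 : ℤ) ∣ Cfsg.sqNorm v := by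
  refine ⟨classE.ker.map leechLattice.subtype, ?_, ?_, ?_, ?_⟩
  · rintro _ ⟨x, -, rfl⟩
    exact x.2
  · intro v hv
    refine ⟨⟨(2 : ℤ) • v, zsmul_mem hv 2⟩, ?_, rfl⟩
    show classE _ = 0
    have h3 : (⟨(2 : ℤ) • v, zsmul_mem hv 2⟩ : LL) = (⟨v, hv⟩ : LL) + (⟨v, hv⟩ : LL) := by
      apply Subtype.ext
      show (2 : ℤ) • v = v + v
      rw [two_zsmul]
    rw [h3, map_add]
    ext i
    have : ∀ a : ZMod 2, a + a = 0 := by decide
    exact this _
  · have h3 : (classE.ker.map leechLattice.subtype).addSubgroupOf leechLattice = classE.ker := by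
      apply AddSubgroup.comap_map_eq_self_of_injective
      exact Subtype.val_injective
    rw [h3, AddSubgroup.index_ker]
    have hr : Nat.card classE.range = Nat.card golayCode := by
      refine Nat.card_congr (Equiv.subtypeEquivRight ?_)
      intro c
      constructor
      · rintro ⟨x, rfl⟩
        exact classE_mem x
      · intro hc
        obtain ⟨x, hx⟩ := exists_lift c hc
        exact ⟨x, hx⟩
    rw [hr, Cfsg.Agent.Lib.GolayCode.golayCode_natCard]
    norm_num
  · rintro _ ⟨x, hx, rfl⟩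
    obtain ⟨h0, h1, h2⟩ := ker_facts x hx
    exact norm_of x.1 h0 h1 h2


end Cfsg.Agent.S5553
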