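import Cfsg.Statements.S5594
import Mathlib
import Cfsg.Agent.Lib.LeechAut
import Cfsg.Agent.Lib.GolayFacts

set_option autoImplicit false
open Cfsg

namespace Cfsg.Agent.S5594


open Cfsg.Agent.LeechBasic Cfsg.Agent.Lib.LeechAut

theorem qr_split : ∀ i : GolayPt, (qrWord 0 i ≠ 0 ↔ ¬ qrWord 0 (projInv.symm i) ≠ 0) := by
  decide +kernel

theorem proj_sq : ∀ i : GolayPt, projInv.symm (projInv.symm i) = i := by
  decide +kernel

/-- The automorphism group of the Leech lattice contains the negation map, and the subgroup of order 2 it generates has no complement: the automorphism group is a non-split extension of its quotient by that subgroup (it is not the direct product of a group of order 2 with the first Conway group). -/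
theorem result :
    ∃ n : ↥Cfsg.Co0, (∀ v : ↥Cfsg.leechLattice, ((n • v : ↥Cfsg.leechLattice) : Cfsg.GolayPt → ℤ) = -(v : Cfsg.GolayPt → ℤ)) ∧
    ∀ K : Subgroup ↥Cfsg.Co0, ¬ (Subgroup.zpowers n).IsComplement' K := by
  classical
  have hcd : Cd Finset.univ := cd_univ
  let n : Co0 := monoEl (one_mem M24) hcd
  have hn : ∀ v : LL, (((n : Equiv.Perm LL) v : LL) : GolayPt → ℤ) = -(v : GolayPt → ℤ) := by
    intro v
    rw [monoEl_apply]
    funext i
    simp [signedPerm]
    rfl
  refine ⟨n, hn, ?_⟩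
  intro K hK
  have hnn : n * n = 1 := by
    apply Subtype.ext
    apply Equiv.ext
    intro v
    apply Subtype.ext
    show (((n : Equiv.Perm LL) ((n : Equiv.Perm LL) v) : LL) : GolayPt → ℤ) = (v : GolayPt → ℤ)
    rw [hn, hn, neg_neg]
  have hcomm : ∀ g : Co0, n * g = g * n := by
    intro g
    apply Subtype.ext
    apply Equiv.ext
    intro v
    apply Subtype.ext
    show (((n : Equiv.Perm LL) ((g : Equiv.Perm LL) v) : LL) : GolayPt → ℤ) = (((g : Equiv.Perm LL) ((n : Equiv.Perm LL) v) : LL) : GolayPt → ℤ)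
    rw [hn]
    have h1 : (n : Equiv.Perm LL) v = -v := Subtype.ext (hn v)
    rw [h1]
    have h2 : (g : Equiv.Perm LL) (-v) = -((g : Equiv.Perm LL) v) := by
      have h3 := co_add g v (-v)
      rw [add_neg_cancel] at h3
      have h4 : (g : Equiv.Perm LL) 0 = 0 := by
        have h5 := co_add g 0 0
        rw [add_zero] at h5
        exact left_eq_add.1 h5
      rw [h4] at h3
      exact (neg_eq_of_add_eq_zero_right h3.symm).symm
    rw [h2]
    rfl
  have hc : Cd (support₂ (qrWord 0)) :=
    ⟨qrWord 0, Submodule.subset_span (Or.inl ⟨0, rfl⟩), rfl⟩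
  let g : Co0 := monoEl Cfsg.Agent.Lib.GolayFacts.gW_mem hc
  have hgg : g * g = n := by
    apply Subtype.ext
    apply Equiv.ext
    intro v
    apply Subtype.ext
    show (((g : Equiv.Perm LL) ((g : Equiv.Perm LL) v) : LL) : GolayPt → ℤ) = (((n : Equiv.Perm LL) v : LL) : GolayPt → ℤ)
    rw [hn, monoEl_apply, monoEl_apply]
    funext i
    have h1 := qr_split i
    have h2 := proj_sq i
    have hs : ∀ j : GolayPt, j ∈ support₂ (qrWord 0) ↔ qrWord 0 j ≠ 0 := by
      intro j
      simp [support₂]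
    simp only [signedPerm, hs, h2, Pi.neg_apply]
    by_cases h3 : qrWord 0 i ≠ 0
    · have h4 := h1.1 h3
      rw [if_pos h3, if_neg h4]
    · have h4 : qrWord 0 (projInv.symm i) ≠ 0 := not_not.1 (fun h5 => h3 (h1.2 h5))
      rw [if_neg h3, if_pos h4]
  -- the decomposition of `g`
  obtain ⟨⟨a, k⟩, hak⟩ := hK.2 g
  have hak' : (a : Co0) * (k : Co0) = g := hak
  have hkk : (k : Co0) * (k : Co0) = n := by
    obtain ⟨j, hj⟩ := Subgroup.mem_zpowers_iff.1 a.2
    have haa : (a : Co0) * (a : Co0) = 1 ∧ ∀ x : Co0, (a : Co0) * x = x * (a : Co0) := by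
      rw [← hj]
      obtain ⟨m, rfl | rfl⟩ := Int.even_or_odd' j
      · rw [zpow_mul, zpow_two, hnn, one_zpow]
        simp
      · rw [zpow_add, zpow_mul, zpow_two, hnn, one_zpow, one_mul, zpow_one]
        exact ⟨hnn, hcomm⟩
    rw [← hgg, ← hak']
    calc (k : Co0) * k = ((a : Co0) * a) * ((k : Co0) * k) := by rw [haa.1, one_mul]
      _ = (a : Co0) * ((a : Co0) * k) * k := by group
      _ = (a : Co0) * (k * (a : Co0)) * k := by rw [haa.2 k]
      _ = (a : Co0) * k * ((a : Co0) * k) := by group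
  have hnK : n ∈ K := by
    rw [← hkk]
    exact K.mul_mem k.2 k.2
  have hdisj := hK.disjoint
  have h1 : n = 1 := (Subgroup.disjoint_def.1 hdisj) (Subgroup.mem_zpowers n) hnK
  -- a non-zero vector
  have h2 := hn (sv none 8 (Or.inl rfl))
  rw [h1] at h2
  have h3 := congrFun h2 none
  simp [sv] at h3


end Cfsg.Agent.S5594
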