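import Cfsg.Statements.S5609
import Mathlib
import Cfsg.Agent.S0352
import Cfsg.Agent.Lib.GolayOctad

set_option autoImplicit false
open scoped Pointwise
open Cfsg

namespace Cfsg.Agent.S5609


open Cfsg.Agent.Lib.GolayBasic Cfsg.Agent.Lib.GolayCode Cfsg.Agent.Lib.GolayPerm Cfsg.Agent.Lib.GolayOrder
open Cfsg.Agent.Lib.GolayFacts Cfsg.Agent.Lib.GolayCount Cfsg.Agent.Lib.GolayOctad
open scoped Pointwise

theorem oct_of {m : ℕ} (hm : InCode m) (h8 : pc m = 8) : setOf m ∈ octads := by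
  refine ⟨(mem_supports_iff).2 ⟨m, hm, rfl⟩, ?_⟩
  rw [card_setOf, h8]

theorem disj_iff (a b : Finset GolayPt) : Disjoint a b ↔ (a ∩ b).card = 0 := by
  rw [Finset.card_eq_zero, Finset.disjoint_iff_inter_eq_empty]

theorem facts : (InCode 6554826 ∧ pc 6554826 = 8) ∧ (InCode 1256224 ∧ pc 1256224 = 8) ∧
    (InCode 3277413 ∧ pc 3277413 = 8) ∧ (InCode 8077824 ∧ pc 8077824 = 8) ∧ (InCode 307594 ∧ pc 307594 = 8) ∧
    pc (5279 &&& 6554826) = 4 ∧ pc (5279 &&& 3277413) = 2 ∧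
    pc (1256224 &&& 5279) = 0 ∧ pc (1256224 &&& 6554826) = 0 ∧
    pc (8077824 &&& 5279) = 0 ∧ pc (307594 &&& 3277413) = 0 ∧ pc (8077824 &&& 307594) = 0 := by
  decide +kernel

theorem none2 : allBelow (fun i => !(Nat.beq (pc (Nat.land (octAt i) 5279)) 0 && Nat.beq (pc (Nat.land (octAt i) 3277413)) 0)) 759 = true := by
  decide +kernel

theorem reduce {o a A : Finset GolayPt} (ho : o ∈ octads) (ha : a ∈ octads) (hA : A ∈ octads)
    (h : (o ∩ a).card = (setOf O0 ∩ A).card) : ∃ k ∈ M24, k • o = setOf O0 ∧ k • a = A := by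
  obtain ⟨w, hw, rfl⟩ := exists_smul_O0 ho
  have ha' := M24_smul_octad (M24.inv_mem hw) ha
  have h1 : (setOf O0 ∩ w⁻¹ • a).card = (setOf O0 ∩ A).card := by
    rw [← h]
    have h2 := card_smul_inter w⁻¹ (w • setOf O0) a
    rwa [inv_smul_smul] at h2
  obtain ⟨g, hg, hgA⟩ := octad_orbit ha' hA h1
  refine ⟨g * w⁻¹, M24.mul_mem hg.1 (M24.inv_mem hw), ?_, ?_⟩
  · rw [mul_smul, inv_smul_smul]
    exact hg.2
  · rw [mul_smul]
    exact hgA

theorem f4 {o a : Finset GolayPt} (ho : o ∈ octads) (ha : a ∈ octads) (h : (o ∩ a).card = 4) :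
    ∃ X ∈ octads, Disjoint X o ∧ Disjoint X a := by
  obtain ⟨⟨a1, a2⟩, ⟨b1, b2⟩, -, -, -, c1, -, c3, c4, -, -, -⟩ := facts
  obtain ⟨k, hk, e1, e2⟩ := reduce ho ha (oct_of a1 a2) (by rw [h, card_setOf_inter]; exact c1.symm)
  have hX := M24_smul_octad (M24.inv_mem hk) (oct_of b1 b2)
  refine ⟨k⁻¹ • setOf 1256224, hX, ?_, ?_⟩
  · rw [disj_iff, ← card_smul_inter k, smul_inv_smul, e1, card_setOf_inter]
    exact c3
  · rw [disj_iff, ← card_smul_inter k, smul_inv_smul, e2, card_setOf_inter]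
    exact c4

theorem f2b {o a : Finset GolayPt} (ho : o ∈ octads) (ha : a ∈ octads) (h : (o ∩ a).card = 2) :
    ∃ X ∈ octads, ∃ Y ∈ octads, Disjoint X o ∧ Disjoint X Y ∧ Disjoint Y a := by
  obtain ⟨-, -, ⟨a1, a2⟩, ⟨b1, b2⟩, ⟨d1, d2⟩, -, c2, -, -, c5, c6, c7⟩ := facts
  obtain ⟨k, hk, e1, e2⟩ := reduce ho ha (oct_of a1 a2) (by rw [h, card_setOf_inter]; exact c2.symm)
  refine ⟨k⁻¹ • setOf 8077824, M24_smul_octad (M24.inv_mem hk) (oct_of b1 b2),
    k⁻¹ • setOf 307594, M24_smul_octad (M24.inv_mem hk) (oct_of d1 d2), ?_, ?_, ?_⟩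
  · rw [disj_iff, ← card_smul_inter k, smul_inv_smul, e1, card_setOf_inter]
    exact c5
  · rw [disj_iff, ← card_smul_inter k, smul_inv_smul, smul_inv_smul, card_setOf_inter]
    exact c7
  · rw [disj_iff, ← card_smul_inter k, smul_inv_smul, e2, card_setOf_inter]
    exact c6

theorem f2a {o a : Finset GolayPt} (ho : o ∈ octads) (ha : a ∈ octads) (h : (o ∩ a).card = 2)
    {X : Finset GolayPt} (hX : X ∈ octads) (h1 : Disjoint X o) (h2 : Disjoint X a) : False := by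
  obtain ⟨-, -, ⟨a1, a2⟩, -, -, -, c2, -, -, -, -, -⟩ := facts
  obtain ⟨k, hk, e1, e2⟩ := reduce ho ha (oct_of a1 a2) (by rw [h, card_setOf_inter]; exact c2.symm)
  have hX' := M24_smul_octad hk hX
  obtain ⟨i, hi, e⟩ := mem_octads_iff.1 hX'
  have h3 := allBelow_spec none2 i hi
  have h4 : (k • X ∩ k • o).card = 0 := by
    rw [card_smul_inter]
    exact (disj_iff _ _).1 h1
  have h5 : (k • X ∩ k • a).card = 0 := by
    rw [card_smul_inter]
    exact (disj_iff _ _).1 h2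
  rw [e, e1, card_setOf_inter] at h4
  rw [e, e2, card_setOf_inter] at h5
  have h6 : pc (Nat.land (octAt i) 5279) = 0 := h4
  have h7 : pc (Nat.land (octAt i) 3277413) = 0 := h5
  rw [h6, h7] at h3
  exact absurd h3 (by decide)

theorem walk2 {V : Type*} (G : SimpleGraph V) (hconn : G.Connected) (p q : V) (h : G.dist p q = 2) :
    ∃ X, G.Adj p X ∧ G.Adj X q := by
  obtain ⟨w, hw⟩ := hconn.exists_walk_length_eq_dist p q
  rw [h] at hw
  cases w with
  | nil => simp at hw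
  | cons h1 w' =>
    cases w' with
    | nil => simp at hw
    | cons h2 w'' =>
      cases w'' with
      | nil => exact ⟨_, h1, h2⟩
      | cons h3 w3 =>
        simp at hw

/-- In the graph on the 759 octads of the length-24 code in which two octads are adjacent when they are disjoint, the graph is connected (of diameter 3) and two distinct octads are at distance 1, 2 or 3 exactly when they meet in 0, 4 or 2 points respectively. -/
theorem result (o o' : Finset Cfsg.GolayPt) (ho : o ∈ Cfsg.octads) (ho' : o' ∈ Cfsg.octads) (hne : o ≠ o') : (Cfsg.blockGraph Cfsg.octads).Connected ∧ ((Cfsg.blockGraph Cfsg.octads).dist ⟨o, ho⟩ ⟨o', ho'⟩ = 1 ↔ (o ∩ o').card = 0) ∧ ((Cfsg.blockGraph Cfsg.octads).dist ⟨o, ho⟩ ⟨o', ho'⟩ = 2 ↔ (o ∩ o').card = 4) ∧ ((Cfsg.blockGraph Cfsg.octads).dist ⟨o, ho⟩ ⟨o', ho'⟩ = 3 ↔ (o ∩ o').card = 2) := by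
  classical
  have hadj : ∀ x y : octads, (blockGraph octads).Adj x y ↔ Disjoint x.1 y.1 := by
    intro x y
    rw [blockGraph, SimpleGraph.fromRel_adj]
    constructor
    · rintro ⟨-, h | h⟩
      · exact h
      · exact h.symm
    · intro h
      refine ⟨?_, Or.inl h⟩
      intro e
      rw [e] at h
      have h2 : y.1 = ∅ := Finset.disjoint_self_iff_empty _ |>.1 h
      have h3 : y.1.card = 8 := y.2.2
      rw [h2] at h3
      simp at h3
  have hcases : ∀ x y : octads, x ≠ y → (x.1 ∩ y.1).card = 0 ∨ (x.1 ∩ y.1).card = 2 ∨ (x.1 ∩ y.1).card = 4 := by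
    intro x y hxy
    exact Cfsg.Agent.S0352.result (by decide) steiner x.2 y.2 (fun h => hxy (Subtype.ext h))
  have hreach : ∀ p q : octads, (blockGraph octads).Reachable p q := by
    intro p q
    by_cases hpq : p = q
    · rw [hpq]
    rcases hcases p q hpq with h | h | h
    · exact SimpleGraph.Adj.reachable ((hadj p q).2 ((disj_iff _ _).2 h))
    · obtain ⟨X, hX, Y, hY, h1, h2, h3⟩ := f2b p.2 q.2 h
      have a1 : (blockGraph octads).Adj p ⟨X, hX⟩ := (hadj _ _).2 h1.symm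
      have a2 : (blockGraph octads).Adj ⟨X, hX⟩ ⟨Y, hY⟩ := (hadj _ _).2 h2
      have a3 : (blockGraph octads).Adj ⟨Y, hY⟩ q := (hadj _ _).2 h3
      exact (a1.reachable.trans a2.reachable).trans a3.reachable
    · obtain ⟨X, hX, h1, h2⟩ := f4 p.2 q.2 h
      have a1 : (blockGraph octads).Adj p ⟨X, hX⟩ := (hadj _ _).2 h1.symm
      have a2 : (blockGraph octads).Adj ⟨X, hX⟩ q := (hadj _ _).2 h2
      exact a1.reachable.trans a2.reachable
  haveI : Nonempty octads := ⟨⟨o, ho⟩⟩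
  have hconn : (blockGraph octads).Connected := ⟨hreach⟩
  have hne' : (⟨o, ho⟩ : octads) ≠ ⟨o', ho'⟩ := fun h => hne (congrArg Subtype.val h)
  have hpos : 0 < (blockGraph octads).dist ⟨o, ho⟩ ⟨o', ho'⟩ := hconn.pos_dist_of_ne hne'
  have h1 : (blockGraph octads).dist ⟨o, ho⟩ ⟨o', ho'⟩ = 1 ↔ (o ∩ o').card = 0 := by
    rw [SimpleGraph.dist_eq_one_iff_adj, hadj, disj_iff]
  have h4 : (o ∩ o').card = 4 → (blockGraph octads).dist ⟨o, ho⟩ ⟨o', ho'⟩ = 2 := by
    intro h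
    obtain ⟨X, hX, e1, e2⟩ := f4 ho ho' h
    have a1 : (blockGraph octads).Adj ⟨o, ho⟩ ⟨X, hX⟩ := (hadj _ _).2 e1.symm
    have a2 : (blockGraph octads).Adj ⟨X, hX⟩ ⟨o', ho'⟩ := (hadj _ _).2 e2
    have h5 := SimpleGraph.dist_le (SimpleGraph.Walk.cons a1 (SimpleGraph.Walk.cons a2 SimpleGraph.Walk.nil))
    simp only [SimpleGraph.Walk.length_cons, SimpleGraph.Walk.length_nil] at h5
    have h6 : (blockGraph octads).dist ⟨o, ho⟩ ⟨o', ho'⟩ ≠ 1 := fun e => by
      have := h1.1 e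
      omega
    omega
  have h2no : (o ∩ o').card = 2 → (blockGraph octads).dist ⟨o, ho⟩ ⟨o', ho'⟩ ≠ 2 := by
    intro h e
    obtain ⟨X, a1, a2⟩ := walk2 _ hconn _ _ e
    exact f2a ho ho' h X.2 ((hadj _ _).1 a1).symm ((hadj _ _).1 a2)
  have h3 : (o ∩ o').card = 2 → (blockGraph octads).dist ⟨o, ho⟩ ⟨o', ho'⟩ = 3 := by
    intro h
    obtain ⟨X, hX, Y, hY, e1, e2, e3⟩ := f2b ho ho' h
    have a1 : (blockGraph octads).Adj ⟨o, ho⟩ ⟨X, hX⟩ := (hadj _ _).2 e1.symm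
    have a2 : (blockGraph octads).Adj ⟨X, hX⟩ ⟨Y, hY⟩ := (hadj _ _).2 e2
    have a3 : (blockGraph octads).Adj ⟨Y, hY⟩ ⟨o', ho'⟩ := (hadj _ _).2 e3
    have h5 := SimpleGraph.dist_le (SimpleGraph.Walk.cons a1 (SimpleGraph.Walk.cons a2 (SimpleGraph.Walk.cons a3 SimpleGraph.Walk.nil)))
    simp only [SimpleGraph.Walk.length_cons, SimpleGraph.Walk.length_nil] at h5
    have h6 : (blockGraph octads).dist ⟨o, ho⟩ ⟨o', ho'⟩ ≠ 1 := fun e => by
      have := h1.1 e
      omega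
    have h7 := h2no h
    omega
  have hc := hcases ⟨o, ho⟩ ⟨o', ho'⟩ hne'
  simp only at hc
  refine ⟨hconn, h1, ⟨?_, h4⟩, ⟨?_, h3⟩⟩
  · intro e
    rcases hc with h | h | h
    · have := h1.2 h
      omega
    · exact absurd e (h2no h)
    · exact h
  · intro e
    rcases hc with h | h | h
    · have := h1.2 h
      omega
    · exact h
    · have := h4 h
      omega


end Cfsg.Agent.S5609
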