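import Cfsg.Statements.S5613
import Mathlib
import Cfsg.Agent.Lib.GolayOctad

set_option autoImplicit false
open scoped Pointwise
open Cfsg

namespace Cfsg.Agent.S5613


open Cfsg.Agent.Lib.GolayBasic Cfsg.Agent.Lib.GolayCode Cfsg.Agent.Lib.GolayPerm Cfsg.Agent.Lib.GolayOrder
open Cfsg.Agent.Lib.GolayFacts Cfsg.Agent.Lib.GolayCount Cfsg.Agent.Lib.GolayOctad Cfsg.Agent.Lib.GolayTools
open scoped Pointwise

theorem key {o a : Finset GolayPt} (ho : o ∈ octads) (ha : a ∈ octads) {t : ℕ} (ht : t = 0 ∨ t = 2 ∨ t = 4)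
    (hat : (o ∩ a).card = t) :
    Nat.card ↥(HO o) = cOct t * Nat.card ↥(MulAction.stabilizer M24 o ⊓ MulAction.stabilizer M24 a) := by
  classical
  have hF : (octF.filter (fun b => (o ∩ b).card = t)).card = cOct t := by
    have h1 := octad_count_t ho (t := t) (by omega)
    rw [← h1, ← Set.ncard_coe_finset]
    congr 1
    ext b
    simp [mem_octF]
  have h2 := card_eq_mul_of_orbit' (G := Equiv.Perm GolayPt) (HO o) a (octF.filter (fun b => (o ∩ b).card = t))
    (fun g hg => by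
      rw [Finset.mem_filter]
      refine ⟨mem_octF.2 (M24_smul_octad hg.1 ha), ?_⟩
      have h3 := card_smul_inter g o a
      have h4 : g • o = o := hg.2
      rw [h4] at h3
      rw [h3, hat])
    (fun y hy => by
      rw [Finset.mem_filter] at hy
      obtain ⟨g, hg, h1, h2⟩ := octad_orbit' ho ha (mem_octF.1 hy.1) (by rw [hat, hy.2])
      exact ⟨g, ⟨hg, h1⟩, h2⟩)
  have h7 : Nat.card ↥((HO o) ⊓ MulAction.stabilizer (Equiv.Perm GolayPt) a : Subgroup (Equiv.Perm GolayPt)) =
      Nat.card ↥(MulAction.stabilizer M24 o ⊓ MulAction.stabilizer M24 a) :=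
    Nat.card_congr
      { toFun := fun g => ⟨⟨g.1, g.2.1.1⟩, g.2.1.2, g.2.2⟩
        invFun := fun g => ⟨g.1.1, ⟨g.1.2, g.2.1⟩, g.2.2⟩
        left_inv := fun g => rfl
        right_inv := fun g => rfl }
  rw [h2, hF, h7]

/-- In the group of the length-24 code, the joint stabiliser of two octads has order 10752, 1152 or 720 according as the octads meet in 0, 4 or 2 points. -/
theorem result (o o' : Finset Cfsg.GolayPt) (ho : o ∈ Cfsg.octads) (ho' : o' ∈ Cfsg.octads) : ((o ∩ o').card = 0 → Nat.card ↥(MulAction.stabilizer Cfsg.M24 o ⊓ MulAction.stabilizer Cfsg.M24 o') = 10752) ∧ ((o ∩ o').card = 4 → Nat.card ↥(MulAction.stabilizer Cfsg.M24 o ⊓ MulAction.stabilizer Cfsg.M24 o') = 1152) ∧ ((o ∩ o').card = 2 → Nat.card ↥(MulAction.stabilizer Cfsg.M24 o ⊓ MulAction.stabilizer Cfsg.M24 o') = 720) := by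
  have h0 := card_HO ho
  refine ⟨fun h => ?_, fun h => ?_, fun h => ?_⟩
  · have h1 := key ho ho' (t := 0) (Or.inl rfl) h
    rw [h0, show cOct 0 = 30 from rfl] at h1
    omega
  · have h1 := key ho ho' (t := 4) (Or.inr (Or.inr rfl)) h
    rw [h0, show cOct 4 = 280 from rfl] at h1
    omega
  · have h1 := key ho ho' (t := 2) (Or.inr (Or.inl rfl)) h
    rw [h0, show cOct 2 = 448 from rfl] at h1
    omega


end Cfsg.Agent.S5613
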