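import Cfsg.Statements.S5625
import Mathlib

set_option autoImplicit false
open Cfsg

namespace Cfsg.Agent.S5625


section
variable {α : Type*} [Fintype α] [DecidableEq α]

/-- number of blocks containing `T` -/
def NN (F : Finset (Finset α)) (T : Finset α) : ℕ := (F.filter (fun b => T ⊆ b)).card

theorem double_count (F : Finset (Finset α)) (hF : ∀ b ∈ F, b.card = 8) (T : Finset α) (hT : T.card ≤ 8) :
    (8 - T.card) * NN F T = ∑ x ∈ Tᶜ, NN F (insert x T) := by
  classical
  have h := Finset.sum_card_bipartiteAbove_eq_sum_card_bipartiteBelow (s := Tᶜ) (t := F.filter (fun b => T ⊆ b))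
    (fun x b => x ∈ b)
  have h1 : ∀ x ∈ Tᶜ, (Finset.bipartiteAbove (fun x b => x ∈ b) (F.filter (fun b => T ⊆ b)) x).card = NN F (insert x T) := by
    intro x _
    unfold NN Finset.bipartiteAbove
    congr 1
    ext b
    simp only [Finset.mem_filter, Finset.insert_subset_iff]
    tauto
  have h2 : ∀ b ∈ F.filter (fun b => T ⊆ b), (Finset.bipartiteBelow (fun x b => x ∈ b) Tᶜ b).card = 8 - T.card := by
    intro b hb
    obtain ⟨hbF, hTb⟩ := Finset.mem_filter.1 hb
    have e : Finset.bipartiteBelow (fun x b => x ∈ b) Tᶜ b = b \ T := by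
      unfold Finset.bipartiteBelow
      ext x
      simp [and_comm]
    rw [e, Finset.card_sdiff_of_subset hTb, hF b hbF]
  rw [Finset.sum_congr rfl h1, Finset.sum_congr rfl h2] at h
  rw [h, Finset.sum_const, smul_eq_mul]
  unfold NN
  ring

theorem step_count (F : Finset (Finset α)) (hF : ∀ b ∈ F, b.card = 8) (hα : Fintype.card α = 24) {k v : ℕ} (hk : k ≤ 8)
    (h : ∀ T : Finset α, T.card = k + 1 → NN F T = v) (T : Finset α) (hT : T.card = k) :
    (8 - k) * NN F T = (24 - k) * v := by
  have := double_count F hF T (by omega)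
  rw [hT] at this
  rw [this]
  have h1 : ∀ x ∈ Tᶜ, NN F (insert x T) = v := by
    intro x hx
    apply h
    rw [Finset.card_insert_of_notMem (Finset.mem_compl.1 hx), hT]
  rw [Finset.sum_congr rfl h1, Finset.sum_const, smul_eq_mul, Finset.card_compl, hα, hT]

end


/-- In any Steiner system S(5, 8, 24) and for any set Y of three points, the blocks meeting Y in exactly 3, 2, 1 and 0 points number 21, 168, 360 and 210 respectively (so there are 759 blocks in all). -/
theorem result (α : Type*) [Fintype α] [DecidableEq α] (hα : Fintype.card α = 24) (B : Set (Finset α)) (hB : Cfsg.IsSteinerSystem 5 8 B) (Y : Finset α) (hY : Y.card = 3) : {b : Finset α | b ∈ B ∧ (b ∩ Y).card = 3}.ncard = 21 ∧ {b : Finset α | b ∈ B ∧ (b ∩ Y).card = 2}.ncard = 168 ∧ {b : Finset α | b ∈ B ∧ (b ∩ Y).card = 1}.ncard = 360 ∧ {b : Finset α | b ∈ B ∧ (b ∩ Y).card = 0}.ncard = 210 := by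
  classical
  set F : Finset (Finset α) := Finset.univ.filter (fun b => b ∈ B) with hFdef
  have hFmem : ∀ b, b ∈ F ↔ b ∈ B := fun b => by simp [hFdef]
  have hF8 : ∀ b ∈ F, b.card = 8 := fun b hb => hB.1 b ((hFmem b).1 hb)
  have h5 : ∀ T : Finset α, T.card = 4 + 1 → NN F T = 1 := by
    intro T hT
    obtain ⟨b, ⟨hb, hTb⟩, huniq⟩ := hB.2 T hT
    unfold NN
    rw [Finset.card_eq_one]
    refine ⟨b, ?_⟩
    ext c
    simp only [Finset.mem_filter, Finset.mem_singleton, hFmem]
    constructor
    · rintro ⟨h1, h2⟩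
      exact huniq c ⟨h1, h2⟩
    · rintro rfl
      exact ⟨hb, hTb⟩
  have h4 : ∀ T : Finset α, T.card = 3 + 1 → NN F T = 5 := by
    intro T hT
    have := step_count F hF8 hα (k := 4) (by norm_num) h5 T hT
    omega
  have h3 : ∀ T : Finset α, T.card = 2 + 1 → NN F T = 21 := by
    intro T hT
    have := step_count F hF8 hα (k := 3) (by norm_num) h4 T hT
    omega
  have h2 : ∀ T : Finset α, T.card = 1 + 1 → NN F T = 77 := by
    intro T hT
    have := step_count F hF8 hα (k := 2) (by norm_num) h3 T hT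
    omega
  have h1 : ∀ T : Finset α, T.card = 0 + 1 → NN F T = 253 := by
    intro T hT
    have := step_count F hF8 hα (k := 1) (by norm_num) h2 T hT
    omega
  have h0 : NN F ∅ = 759 := by
    have := step_count F hF8 hα (k := 0) (by norm_num) h1 ∅ rfl
    omega
  obtain ⟨y1, y2, y3, h12, h13, h23, rfl⟩ := Finset.card_eq_three.1 hY
  have hset : ∀ k : ℕ, {b : Finset α | b ∈ B ∧ (b ∩ {y1, y2, y3}).card = k}.ncard = (F.filter (fun b => (b ∩ {y1, y2, y3}).card = k)).card := by
    intro k
    rw [← Set.ncard_coe_finset]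
    congr 1
    ext b
    simp [hFmem]
  simp only [hset]
  have hcard : ∀ b : Finset α, (b ∩ {y1, y2, y3}).card = (if y1 ∈ b then 1 else 0) + (if y2 ∈ b then 1 else 0) + (if y3 ∈ b then 1 else 0) := by
    intro b
    by_cases a1 : y1 ∈ b <;> by_cases a2 : y2 ∈ b <;> by_cases a3 : y3 ∈ b <;>
      simp [Finset.inter_insert_of_mem, Finset.inter_insert_of_notMem, a1, a2, a3, h12, h13, h23, Finset.inter_singleton_of_mem, Finset.inter_singleton_of_notMem]
  have eY : NN F {y1, y2, y3} = 21 := h3 _ hY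
  have e12 : NN F {y1, y2} = 77 := h2 _ (Finset.card_pair h12)
  have e13 : NN F {y1, y3} = 77 := h2 _ (Finset.card_pair h13)
  have e23 : NN F {y2, y3} = 77 := h2 _ (Finset.card_pair h23)
  have e1 : NN F {y1} = 253 := h1 _ (Finset.card_singleton _)
  have e2 : NN F {y2} = 253 := h1 _ (Finset.card_singleton _)
  have e3 : NN F {y3} = 253 := h1 _ (Finset.card_singleton _)
  set E3 := (F.filter (fun b => (b ∩ {y1, y2, y3}).card = 3)).card with hE3
  set E2 := (F.filter (fun b => (b ∩ {y1, y2, y3}).card = 2)).card with hE2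
  set E1 := (F.filter (fun b => (b ∩ {y1, y2, y3}).card = 1)).card with hE1
  set E0 := (F.filter (fun b => (b ∩ {y1, y2, y3}).card = 0)).card with hE0
  have r3 : E3 = NN F {y1, y2, y3} := by
    rw [hE3]
    unfold NN
    congr 1
    ext b
    simp only [Finset.mem_filter, hcard, Finset.insert_subset_iff, Finset.singleton_subset_iff]
    by_cases a1 : y1 ∈ b <;> by_cases a2 : y2 ∈ b <;> by_cases a3 : y3 ∈ b <;> simp [a1, a2, a3]
  have r2 : 3 * E3 + E2 = NN F {y1, y2} + NN F {y1, y3} + NN F {y2, y3} := by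
    rw [hE3, hE2]
    unfold NN
    simp only [Finset.card_filter, Finset.mul_sum, ← Finset.sum_add_distrib]
    apply Finset.sum_congr rfl
    intro b _
    simp only [hcard, Finset.insert_subset_iff, Finset.singleton_subset_iff]
    by_cases a1 : y1 ∈ b <;> by_cases a2 : y2 ∈ b <;> by_cases a3 : y3 ∈ b <;> simp [a1, a2, a3]
  have r1 : 3 * E3 + 2 * E2 + E1 = NN F {y1} + NN F {y2} + NN F {y3} := by
    rw [hE3, hE2, hE1]
    unfold NN
    simp only [Finset.card_filter, Finset.mul_sum, ← Finset.sum_add_distrib]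
    apply Finset.sum_congr rfl
    intro b _
    simp only [hcard, Finset.singleton_subset_iff]
    by_cases a1 : y1 ∈ b <;> by_cases a2 : y2 ∈ b <;> by_cases a3 : y3 ∈ b <;> simp [a1, a2, a3]
  have r0 : E3 + E2 + E1 + E0 = NN F ∅ := by
    rw [hE3, hE2, hE1, hE0]
    unfold NN
    simp only [Finset.card_filter, ← Finset.sum_add_distrib]
    apply Finset.sum_congr rfl
    intro b _
    simp only [hcard, Finset.empty_subset, if_true]
    by_cases a1 : y1 ∈ b <;> by_cases a2 : y2 ∈ b <;> by_cases a3 : y3 ∈ b <;> simp [a1, a2, a3]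
  omega


end Cfsg.Agent.S5625
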