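import Cfsg.Statements.S5632
import Cfsg.Agent.Lib.SLStab

set_option autoImplicit false
open Cfsg

namespace Cfsg.Agent.S5632

open Matrix Cfsg.Geo Cfsg.Agent.Lib.TvGL Cfsg.Agent.Lib.FormVec Cfsg.Agent.Lib.SLStab

/-- For a finite field F and subspaces 0 < W < U of F^n with dim W + dim U = n, the elements of SL_n(F) stabilising both W and U form a subgroup that is not maximal in SL_n(F): some subgroup lies strictly between it and SL_n(F). -/
theorem result {F : Type*} [Field F] [Fintype F] (n : ℕ) (W U : Submodule F (Fin n → F)) (hW0 : W ≠ ⊥) (hWU : W < U) (hdim : Module.finrank F W + Module.finrank F U = n) : ∃ K : Subgroup (Matrix.GeneralLinearGroup (Fin n) F), Cfsg.Geo.subspaceStabilizer W ⊓ Cfsg.Geo.subspaceStabilizer U ⊓ Cfsg.Geo.specialLinear (Fin n) F < K ∧ K < Cfsg.Geo.specialLinear (Fin n) F := by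
  classical
  have hU1 : U ≠ ⊤ := by
    rintro rfl
    have h1 : Module.finrank F (⊤ : Submodule F (Fin n → F)) = n := by simp
    have h2 : Module.finrank F W = 0 := by omega
    exact hW0 (Submodule.finrank_eq_zero.mp h2)
  have hW1 : W ≠ ⊤ := fun h => hU1 (top_le_iff.mp (h ▸ hWU.le))
  refine ⟨subspaceStabilizer W ⊓ specialLinear (Fin n) F, ?_, (maximal W hW0 hW1).1⟩
  obtain ⟨a, haU, haW⟩ := SetLike.exists_of_lt hWU
  obtain ⟨y, hy⟩ : ∃ y, y ∉ U := by
    by_contra hcon
    push Not at hcon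
    exact hU1 (Submodule.eq_top_iff'.mpr hcon)
  have hsep : a ∉ W ⊔ Submodule.span F {y} := by
    intro h
    obtain ⟨p, hp, b, hb, e⟩ := Submodule.mem_sup.mp h
    obtain ⟨c, rfl⟩ := Submodule.mem_span_singleton.mp hb
    by_cases hc : c = 0
    · rw [hc, zero_smul, add_zero] at e
      exact haW (e ▸ hp)
    · apply hy
      have h1 : c • y = a - p := by rw [← e]; abel
      have h2 : c • y ∈ U := by
        rw [h1]
        exact U.sub_mem haU (hWU.le hp)
      have := U.smul_mem c⁻¹ h2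
      rwa [smul_smul, inv_mul_cancel₀ hc, one_smul] at this
  obtain ⟨φ, h1, h2⟩ := exists_sep _ hsep
  have hyφ : φ ⬝ᵥ y = 0 := h2 y (Submodule.mem_sup_right (Submodule.mem_span_singleton_self y))
  have hWφ : ∀ w ∈ W, φ ⬝ᵥ w = 0 := fun w hw => h2 w (Submodule.mem_sup_left hw)
  refine lt_of_le_not_ge (fun g hg => ⟨hg.1.1, hg.2⟩) ?_
  intro hle
  have hmem := hle (⟨tv_mem_stab_right W hWφ _, tv_mem_SL _ _ _⟩ : tv y φ hyφ ∈ subspaceStabilizer W ⊓ specialLinear (Fin n) F)
  have h3 := ((mem_stab_iff U _).mp hmem.1.2 a).mp haU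
  rw [tv_mulVec, h1, one_smul] at h3
  apply hy
  have := U.sub_mem h3 haU
  simpa using this

end Cfsg.Agent.S5632
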