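import Cfsg.Statements.S5633
import Cfsg.Agent.Lib.SLStab

set_option autoImplicit false
open Cfsg

namespace Cfsg.Agent.S5633

open Matrix Cfsg.Geo Cfsg.Agent.Lib.TvGL Cfsg.Agent.Lib.FormVec Cfsg.Agent.Lib.SLStab

/-- For a finite field F and complementary non-zero subspaces W ⊕ U = F^n with dim W < dim U, the elements of SL_n(F) stabilising both W and U form a subgroup that is not maximal in SL_n(F): some subgroup lies strictly between it and SL_n(F). -/
theorem result {F : Type*} [Field F] [Fintype F] (n : ℕ) (W U : Submodule F (Fin n → F)) (hW0 : W ≠ ⊥) (hWU : W ⊓ U = ⊥) (hWU' : W ⊔ U = ⊤) (hdim : Module.finrank F W < Module.finrank F U) : ∃ K : Subgroup (Matrix.GeneralLinearGroup (Fin n) F), Cfsg.Geo.subspaceStabilizer W ⊓ Cfsg.Geo.subspaceStabilizer U ⊓ Cfsg.Geo.specialLinear (Fin n) F < K ∧ K < Cfsg.Geo.specialLinear (Fin n) F := by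
  classical
  have hU0 : U ≠ ⊥ := by
    rintro rfl
    simp at hdim
  have hW1 : W ≠ ⊤ := by
    rintro rfl
    apply hU0
    simpa using hWU
  refine ⟨subspaceStabilizer W ⊓ specialLinear (Fin n) F, ?_, (maximal W hW0 hW1).1⟩
  obtain ⟨a, haU, ha0⟩ := Submodule.exists_mem_ne_zero_of_ne_bot hU0
  obtain ⟨y, hyW, hy0⟩ := Submodule.exists_mem_ne_zero_of_ne_bot hW0
  have hy : y ∉ U := by
    intro h
    have : y ∈ W ⊓ U := ⟨hyW, h⟩
    rw [hWU] at this
    exact hy0 (by simpa using this)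
  have hsep : a ∉ Submodule.span F {y} := by
    intro h
    obtain ⟨c, hc⟩ := Submodule.mem_span_singleton.mp h
    have hc0 : c ≠ 0 := by
      rintro rfl
      rw [zero_smul] at hc
      exact ha0 hc.symm
    have h2 := U.smul_mem c⁻¹ haU
    rw [← hc, smul_smul, inv_mul_cancel₀ hc0, one_smul] at h2
    exact hy h2
  obtain ⟨φ, h1, h2⟩ := exists_dot_sep hsep
  refine lt_of_le_not_ge (fun g hg => ⟨hg.1.1, hg.2⟩) ?_
  intro hle
  have hmem := hle (⟨tv_mem_stab_left W hyW _, tv_mem_SL _ _ _⟩ : tv y φ h2 ∈ subspaceStabilizer W ⊓ specialLinear (Fin n) F)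
  have h3 := ((mem_stab_iff U _).mp hmem.1.2 a).mp haU
  rw [tv_mulVec, h1, one_smul] at h3
  apply hy
  have := U.sub_mem h3 haU
  simpa using this

end Cfsg.Agent.S5633
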