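import Cfsg.Statements.S5635
import Cfsg.Agent.Lib.DecompOver

set_option autoImplicit false
open Cfsg

namespace Cfsg.Agent.S5635

/-- For a finite field F with q elements and n ≥ 13, let D be a decomposition of F^n into t ≥ 2 independent subspaces of equal dimension m spanning F^n, where m = 1 and q ≤ 4, or m = 2 and q = 2. Then the elements of SL_n(F) permuting the members of D form a subgroup that is not maximal: some subgroup lies strictly between it and SL_n(F). -/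
theorem result {F : Type*} [Field F] [Fintype F] (n : ℕ) (hn : 13 ≤ n) {t : ℕ} (m : ℕ) (D : Fin t → Submodule F (Fin n → F)) (hD : Cfsg.Geo.IsMDecomposition m D) (h : (m = 1 ∧ Fintype.card F ≤ 4) ∨ (m = 2 ∧ Fintype.card F = 2)) : ∃ K : Subgroup (Matrix.GeneralLinearGroup (Fin n) F), Cfsg.Geo.decompositionStabilizer D ⊓ Cfsg.Geo.specialLinear (Fin n) F < K ∧ K < Cfsg.Geo.specialLinear (Fin n) F := by
  classical
  obtain ⟨b, hmem, hzero⟩ := Cfsg.Agent.Lib.DecompOver.exists_basis hD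
  have hcard : t * m = n := by
    have := Module.finrank_eq_card_basis b
    simp only [Module.finrank_fintype_fun_eq_card, Fintype.card_fin, Fintype.card_sigma, Finset.sum_const, Finset.card_univ, smul_eq_mul] at this
    exact this.symm
  have hcast : ((Fintype.card F : ℕ) : F) = 0 := FiniteField.cast_card_eq_zero F
  have hpow : ∀ a : F, a ≠ 0 → a ^ (Fintype.card F - 1) = 1 := fun a ha => FiniteField.pow_card_sub_one_eq_one a ha
  have hone : 1 < Fintype.card F := Fintype.one_lt_card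
  have hwit : ∀ {m : ℕ} (b : Module.Basis (Σ _ : Fin t, Fin m) F (Fin n → F)) {i₀ i₁ : Fin t} (hi : i₀ ≠ i₁) (j j' : Fin m),
      ∃ h : 1 + b.coord ⟨i₁, j⟩ (b ⟨i₀, j'⟩) ≠ 0, ((Cfsg.Agent.Lib.DecompOver.tvU (b.coord ⟨i₁, j⟩) (b ⟨i₀, j'⟩) h : GL (Fin n) F) : Matrix (Fin n) (Fin n) F).det = 1 := by
    intro m b i₀ i₁ hi j j'
    have h0 : b.coord ⟨i₁, j⟩ (b ⟨i₀, j'⟩) = 0 := by
      rw [Cfsg.Agent.Lib.DecompOver.coord_self, if_neg]
      intro h
      exact hi (congrArg Sigma.fst h)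
    refine ⟨by rw [h0, add_zero]; exact one_ne_zero, ?_⟩
    rw [Cfsg.Agent.Lib.DecompOver.tvU_det, h0, add_zero]
  rcases h with ⟨rfl, hq⟩ | ⟨rfl, hq⟩
  · have ht : 5 ≤ t := by omega
    let i₀ : Fin t := ⟨0, by omega⟩
    let i₁ : Fin t := ⟨1, by omega⟩
    let i₂ : Fin t := ⟨2, by omega⟩
    let i₃ : Fin t := ⟨3, by omega⟩
    let i₄ : Fin t := ⟨4, by omega⟩
    have h01 : i₀ ≠ i₁ := by simp [i₀, i₁, Fin.ext_iff]
    have h02 : i₀ ≠ i₂ := by simp [i₀, i₂, Fin.ext_iff]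
    have h03 : i₀ ≠ i₃ := by simp [i₀, i₃, Fin.ext_iff]
    have h04 : i₀ ≠ i₄ := by simp [i₀, i₄, Fin.ext_iff]
    have h12 : i₁ ≠ i₂ := by simp [i₁, i₂, Fin.ext_iff]
    have h13 : i₁ ≠ i₃ := by simp [i₁, i₃, Fin.ext_iff]
    have h14 : i₁ ≠ i₄ := by simp [i₁, i₄, Fin.ext_iff]
    have h23 : i₂ ≠ i₃ := by simp [i₂, i₃, Fin.ext_iff]
    have h24 : i₂ ≠ i₄ := by simp [i₂, i₄, Fin.ext_iff]
    have h34 : i₃ ≠ i₄ := by simp [i₃, i₄, Fin.ext_iff]
    obtain ⟨hh, hdet⟩ := hwit b h01 0 0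
    have hnot := Cfsg.Agent.Lib.DecompOver.tv_not_mem b h01 0 0 hh
    have hex : ∃ g : GL (Fin n) F, (g : Matrix (Fin n) (Fin n) F).det = 1 ∧ g ∈ Cfsg.isometryGroup F (Cfsg.Agent.Lib.DecompOver.phi b) ∧
        b.coord ⟨i₁, 0⟩ ((g : Matrix (Fin n) (Fin n) F).mulVec (b ⟨i₀, 0⟩)) ≠ 0 ∧ b.coord ⟨i₂, 0⟩ ((g : Matrix (Fin n) (Fin n) F).mulVec (b ⟨i₀, 0⟩)) ≠ 0 := by
      have hc : Fintype.card F = 2 ∨ Fintype.card F = 3 ∨ Fintype.card F = 4 := by omega
      rcases hc with hc | hc | hc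
      · rw [hc] at hcast hpow
        refine Cfsg.Agent.Lib.DecompOver.case_char2 b (by exact_mod_cast hcast) (by simp) (fun a ha => ?_) h01 h02 h03 h12 h13 h23
        have := hpow a ha
        simp only [Nat.add_one_sub_one, pow_one] at this
        rw [this, one_pow]
      · rw [hc] at hcast hpow
        exact Cfsg.Agent.Lib.DecompOver.case_three b (by exact_mod_cast hcast) (by simp) (fun a ha => hpow a ha) h01 h02 h03 h04 h12 h13 h14 h23 h24 h34
      · rw [hc] at hcast hpow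
        have h4 : (2 : F) * 2 = 0 := by
          have : ((4 : ℕ) : F) = 2 * 2 := by norm_num
          rw [← this]
          exact hcast
        have h2 : (2 : F) = 0 := by
          rcases mul_self_eq_zero.1 h4 with h
          exact h
        exact Cfsg.Agent.Lib.DecompOver.case_char2 b h2 (by simp) (fun a ha => hpow a ha) h01 h02 h03 h12 h13 h23
    obtain ⟨g, hg1, hg2, hg3, hg4⟩ := hex
    exact Cfsg.Agent.Lib.DecompOver.finish b hmem hzero hg1 hg2
      (Cfsg.Agent.Lib.DecompOver.not_mem_stab b hzero ⟨i₀, 0⟩ h12 hmem hg3 hg4) hdet hnot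
  · have ht : 3 ≤ t := by omega
    let i₀ : Fin t := ⟨0, by omega⟩
    let i₁ : Fin t := ⟨1, by omega⟩
    let i₂ : Fin t := ⟨2, by omega⟩
    have h01 : i₀ ≠ i₁ := by simp [i₀, i₁, Fin.ext_iff]
    have h02 : i₀ ≠ i₂ := by simp [i₀, i₂, Fin.ext_iff]
    have h12 : i₁ ≠ i₂ := by simp [i₁, i₂, Fin.ext_iff]
    obtain ⟨hh, hdet⟩ := hwit b h01 0 0
    have hnot := Cfsg.Agent.Lib.DecompOver.tv_not_mem b h01 0 0 hh
    rw [hq] at hcast
    have hF : ∀ a : F, a = 0 ∨ a = 1 := by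
      intro a
      by_cases ha : a = 0
      · exact Or.inl ha
      · right
        have := hpow a ha
        rw [hq] at this
        simpa using this
    obtain ⟨g, hg1, hg2, hg3, hg4⟩ := Cfsg.Agent.Lib.DecompOver.case_two b (by exact_mod_cast hcast) hF h01 h02 h12
    exact Cfsg.Agent.Lib.DecompOver.finish b hmem hzero hg1 hg2
      (Cfsg.Agent.Lib.DecompOver.not_mem_stab b hzero ⟨i₀, 1⟩ h12 hmem hg3 hg4) hdet hnot

end Cfsg.Agent.S5635
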