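import Cfsg.Statements.S5645
import Cfsg.Agent.Lib.SpGL

set_option autoImplicit false
open Cfsg

namespace Cfsg.Agent.S5645

open Matrix Cfsg.Geo Cfsg.Agent.Lib.SympBasic Cfsg.Agent.Lib.FormVec Cfsg.Agent.Lib.SpGL
open scoped MatrixGroups

variable {F : Type*} [Field F] {m : ℕ}

local notation "f" => Cfsg.sympForm m F
local notation "V" => (Fin m ⊕ Fin m → F)
local notation "GG" => GL (Fin m ⊕ Fin m) F
local notation "MM" => Matrix (Fin m ⊕ Fin m) (Fin m ⊕ Fin m) F

theorem mem_stab_iff (W : Submodule F V) (g : GG) :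
    g ∈ subspaceStabilizer W ↔ ∀ v, v ∈ W ↔ (g : MM) *ᵥ v ∈ W := Iff.rfl

/-- transvections in the perp stabilise `W`. -/
theorem stv_mem_stab (W : Submodule F V) {v : V} (hv : ∀ w ∈ W, f w v = 0) (c : F) :
    stv v c ∈ subspaceStabilizer W := by
  rw [mem_stab_iff]
  intro x
  rw [stv_mulVec]
  constructor
  · intro hx
    rw [hv x hx]
    simpa using hx
  · intro hx
    have h0 := hv _ hx
    rw [sympForm_add_left, sympForm_smul_left, sympForm_self, mul_zero, add_zero] at h0
    rw [h0] at hx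
    simpa using hx

theorem isom_fix_mem_stab (W : Submodule F V) (h : V ≃ₗ[F] V) (hfix : ∀ x ∈ W, h x = x) :
    glOf h ∈ subspaceStabilizer W := by
  rw [mem_stab_iff]
  intro v
  rw [glOf_mulVec]
  constructor
  · intro hv
    rw [hfix v hv]
    exact hv
  · intro hv
    have := hfix _ hv
    have e := h.injective this
    rw [← e]
    exact hv

/-- Formula for `τ`. -/
noncomputable def tau (a b : V) : GG := stv (a + b) 1 * stv a (-1) * stv b (-1)

theorem tau_mem (a b : V) : tau a b ∈ Cfsg.spGL m F :=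
  (Cfsg.spGL m F).mul_mem ((Cfsg.spGL m F).mul_mem (stv_mem _ _) (stv_mem _ _)) (stv_mem _ _)

theorem tau_mulVec {a b : V} (hab : f a b = 0) (x : V) :
    ((tau a b : GG) : MM) *ᵥ x = x + f x a • b + f x b • a := by
  have hba : f b a = 0 := by rw [sympForm_skew, hab, neg_zero]
  rw [tau, Units.val_mul, Units.val_mul, ← Matrix.mulVec_mulVec, ← Matrix.mulVec_mulVec, stv_mulVec, stv_mulVec, stv_mulVec]
  simp only [sympForm_add_left, sympForm_add_right, sympForm_smul_left, sympForm_self, hab, hba, smul_add, add_smul, mul_zero, zero_mul, add_zero, zero_add, smul_eq_mul]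
  ext i
  simp only [Pi.add_apply, Pi.smul_apply, smul_eq_mul]
  ring

theorem tau_mem_stab (W : Submodule F V) (hW : IsTotallySingularFor (Cfsg.sympForm m F) W) {a b : V} (ha : a ∈ W)
    (hab : f a b = 0) : tau a b ∈ subspaceStabilizer W := by
  have hba : f b a = 0 := by rw [sympForm_skew, hab, neg_zero]
  rw [mem_stab_iff]
  intro x
  rw [tau_mulVec hab]
  constructor
  · intro hx
    rw [hW x hx a ha]
    simp only [zero_smul, add_zero]
    exact W.add_mem hx (W.smul_mem _ ha)
  · intro hx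
    have h0 := hW _ hx a ha
    simp only [sympForm_add_left, sympForm_smul_left, sympForm_self, hba, mul_zero, add_zero] at h0
    rw [h0] at hx
    simp only [zero_smul, add_zero] at hx
    have := W.sub_mem hx (W.smul_mem (f x b) ha)
    simpa using this

/-- For a finite field F and m ≥ 7, in the symplectic group Sp_2m(F) of the standard alternating form on F^(2m) (as a subgroup of GL_2m(F)), the stabiliser of any non-zero subspace on which the form vanishes identically is a maximal subgroup. -/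
theorem result {F : Type*} [Field F] [Fintype F] (m : ℕ) (hm : 7 ≤ m) (W : Submodule F (Fin m ⊕ Fin m → F)) (hW0 : W ≠ ⊥) (hW : Cfsg.Geo.IsTotallySingularFor (Cfsg.sympForm m F) W) : Cfsg.Geo.IsMaximalIn (Cfsg.spGL m F) (Cfsg.Geo.subspaceStabilizer W ⊓ Cfsg.spGL m F) := by
  classical
  set St := subspaceStabilizer W ⊓ Cfsg.spGL m F with hSt
  have hWperp : ∀ a ∈ W, ∀ w ∈ W, Cfsg.sympForm m F w a = 0 := fun a ha w hw => hW w hw a ha
  have hstv : ∀ v : Fin m ⊕ Fin m → F, (∀ w ∈ W, Cfsg.sympForm m F w v = 0) → ∀ c, stv v c ∈ St :=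
    fun v hv c => Subgroup.mem_inf.mpr ⟨stv_mem_stab W hv c, stv_mem v c⟩
  constructor
  · refine lt_of_le_of_ne inf_le_right ?_
    intro heq
    obtain ⟨w₀, hw₀, hw₀0⟩ := Submodule.exists_mem_ne_zero_of_ne_bot hW0
    obtain ⟨x, hx⟩ := exists_form_eq hw₀0 (1 : F)
    have hm' : stv x (1 : F) ∈ St := by rw [heq]; exact stv_mem _ _
    have h1 := (mem_stab_iff W _).mp hm'.1 w₀
    rw [stv_mulVec, hx] at h1
    have h2 := h1.mp hw₀
    have h3 : x ∈ W := by
      have := W.sub_mem h2 hw₀
      simpa using this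
    have := hW w₀ hw₀ x h3
    rw [hx] at this
    exact one_ne_zero this
  · intro M hSM hMK
    by_cases hMS : M = St
    · exact Or.inl hMS
    right
    obtain ⟨g₀, hg₀M, hg₀S⟩ : ∃ g ∈ M, g ∉ St := by
      by_contra hcon
      push Not at hcon
      exact hMS (le_antisymm hcon hSM)
    have hisom : ∀ h : (Fin m ⊕ Fin m → F) ≃ₗ[F] (Fin m ⊕ Fin m → F), (∀ u v, Cfsg.sympForm m F (h u) (h v) = Cfsg.sympForm m F u v) →
        (∀ x ∈ W, h x = x) → glOf h ∈ M := fun h hi hfix =>
      hSM (Subgroup.mem_inf.mpr ⟨isom_fix_mem_stab W h hfix, glOf_mem_spGL h hi⟩)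
    -- a vector moved out of `W`
    obtain ⟨g, hgM, w, hw, hgw⟩ : ∃ g ∈ M, ∃ w ∈ W, ((g : GL (Fin m ⊕ Fin m) F) : Matrix (Fin m ⊕ Fin m) (Fin m ⊕ Fin m) F) *ᵥ w ∉ W := by
      have hg₀ : g₀ ∉ subspaceStabilizer W := fun h => hg₀S (Subgroup.mem_inf.mpr ⟨h, hMK hg₀M⟩)
      rw [mem_stab_iff] at hg₀
      push Not at hg₀
      obtain ⟨v, hv⟩ := hg₀
      rcases hv with ⟨h1, h2⟩ | ⟨h1, h2⟩
      · exact ⟨g₀, hg₀M, v, h1, h2⟩
      · refine ⟨g₀⁻¹, M.inv_mem hg₀M, _, h2, ?_⟩
        rw [inv_mulVec_mulVec]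
        exact h1
    have hgSp := hMK hgM
    -- Step 1
    obtain ⟨g₁, hg₁M, w₁, hw₁, hx⟩ : ∃ g₁ ∈ M, ∃ w₁ ∈ W, ¬ ∀ a ∈ W, Cfsg.sympForm m F a (((g₁ : GL (Fin m ⊕ Fin m) F) : Matrix (Fin m ⊕ Fin m) (Fin m ⊕ Fin m) F) *ᵥ w₁) = 0 := by
      by_cases hperp : ∀ a ∈ W, Cfsg.sympForm m F a (((g : GL (Fin m ⊕ Fin m) F) : Matrix (Fin m ⊕ Fin m) (Fin m ⊕ Fin m) F) *ᵥ w) = 0
      · set y := ((g : GL (Fin m ⊕ Fin m) F) : Matrix (Fin m ⊕ Fin m) (Fin m ⊕ Fin m) F) *ᵥ w with hy
        have hz : ∃ z : Fin m ⊕ Fin m → F, (∀ a ∈ W, Cfsg.sympForm m F a z = 0) ∧ z ∉ W ∧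
            ¬ ∀ a ∈ W, Cfsg.sympForm m F a (((g⁻¹ : GL (Fin m ⊕ Fin m) F) : Matrix (Fin m ⊕ Fin m) (Fin m ⊕ Fin m) F) *ᵥ z) = 0 := by
          by_contra hcon
          push Not at hcon
          have hinv : ∀ y', y' ∉ W → (∀ a ∈ W, Cfsg.sympForm m F a y' = 0) → ∀ a ∈ W, Cfsg.sympForm m F a (((g⁻¹ : GL (Fin m ⊕ Fin m) F) : Matrix (Fin m ⊕ Fin m) (Fin m ⊕ Fin m) F) *ᵥ y') = 0 :=
            fun y' h1 h2 => hcon y' h2 h1
          apply hgw
          apply perp_perp
          intro u hu
          rw [sympForm_skew, hy, sp_inv_form hgSp, neg_eq_zero]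
          by_cases huW : u ∈ W
          · have h1 : u + y ∉ W := fun h => hgw (by simpa using W.sub_mem h huW)
            have h2 : ∀ a ∈ W, Cfsg.sympForm m F a (u + y) = 0 := by
              intro a ha
              rw [sympForm_add_right, hu a ha, hperp a ha, add_zero]
            have h3 := hinv _ h1 h2 w hw
            rw [Matrix.mulVec_add, sympForm_add_right, hy, inv_mulVec_mulVec, sympForm_self, add_zero] at h3
            exact h3
          · exact hinv u huW hu w hw
        obtain ⟨z, hz1, hz2, hz3⟩ := hz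
        obtain ⟨h, hi, hfix, hyz⟩ := witt_step W hgw hz2 (by
          intro a ha
          rw [hperp a ha, hz1 a ha])
        refine ⟨g⁻¹ * glOf h * g, M.mul_mem (M.mul_mem (M.inv_mem hgM) (hisom h hi hfix)) hgM, w, hw, ?_⟩
        rw [Units.val_mul, Units.val_mul, ← Matrix.mulVec_mulVec, ← Matrix.mulVec_mulVec, glOf_mulVec, hyz]
        exact hz3
      · exact ⟨g, hgM, w, hw, hperp⟩
    set x := ((g₁ : GL (Fin m ⊕ Fin m) F) : Matrix (Fin m ⊕ Fin m) (Fin m ⊕ Fin m) F) *ᵥ w₁ with hxdef
    have hxS : ∀ c, stv x c ∈ M := by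
      intro c
      rw [hxdef, ← conj_stv (hMK hg₁M)]
      exact M.mul_mem (M.mul_mem hg₁M (hSM (hstv _ (hWperp _ hw₁) c))) (M.inv_mem hg₁M)
    -- Lemma A
    have lemA : ∀ x₁ x₂ : Fin m ⊕ Fin m → F, (∀ c, stv x₁ c ∈ M) → x₁ ∉ W → x₂ ∉ W →
        (∀ a ∈ W, Cfsg.sympForm m F a x₁ = Cfsg.sympForm m F a x₂) → ∀ c, stv x₂ c ∈ M := by
      intro x₁ x₂ h1 h2 h3 h4 c
      obtain ⟨h, hi, hfix, hxy⟩ := witt_step W h2 h3 h4
      rw [← hxy, ← conj_stv_glOf h hi]
      exact M.mul_mem (M.mul_mem (hisom h hi hfix) (h1 c)) (M.inv_mem (hisom h hi hfix))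
    have hperpW : ∀ y : Fin m ⊕ Fin m → F, (¬ ∀ a ∈ W, Cfsg.sympForm m F a y = 0) → y ∉ W := by
      intro y hy hyW
      exact hy (fun a ha => hW a ha y hyW)
    have hxW := hperpW x hx
    -- Step 3
    have hall : ∀ x' : Fin m ⊕ Fin m → F, (¬ ∀ a ∈ W, Cfsg.sympForm m F a x' = 0) → ∀ c, stv x' c ∈ M := by
      intro x' hx'
      have hx'W := hperpW x' hx'
      by_cases hex : ∃ a ∈ W, Cfsg.sympForm m F a x = Cfsg.sympForm m F a x' ∧ Cfsg.sympForm m F a x ≠ 0
      · obtain ⟨a, ha, ha1, ha2⟩ := hex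
        have hxa : Cfsg.sympForm m F x a ≠ 0 := by
          rw [sympForm_skew]; exact neg_ne_zero.mpr ha2
        set b : Fin m ⊕ Fin m → F := (Cfsg.sympForm m F x a)⁻¹ • (x' - x) with hb
        have hab : Cfsg.sympForm m F a b = 0 := by
          rw [hb, sympForm_smul_right, sub_eq_add_neg, sympForm_add_right]
          have : Cfsg.sympForm m F a (-x) = - Cfsg.sympForm m F a x := by
            have := sympForm_smul_right (-1 : F) x a
            simpa using this
          rw [this, ← ha1]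
          ring
        have hτ : tau a b ∈ M := hSM (Subgroup.mem_inf.mpr ⟨tau_mem_stab W hW ha hab, tau_mem a b⟩)
        set x₁ := ((tau a b : GL (Fin m ⊕ Fin m) F) : Matrix (Fin m ⊕ Fin m) (Fin m ⊕ Fin m) F) *ᵥ x with hx₁
        have hx₁e : x₁ = x' + Cfsg.sympForm m F x b • a := by
          have e : Cfsg.sympForm m F x a • b = x' - x := by
            rw [hb, smul_smul, mul_inv_cancel₀ hxa, one_smul]
          rw [hx₁, tau_mulVec hab, e]
          abel
        have hx₁S : ∀ c, stv x₁ c ∈ M := by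
          intro c
          rw [hx₁, ← conj_stv (tau_mem a b)]
          exact M.mul_mem (M.mul_mem hτ (hxS c)) (M.inv_mem hτ)
        have hx₁W : x₁ ∉ W := by
          intro h
          apply hx'W
          have := W.sub_mem h (W.smul_mem (Cfsg.sympForm m F x b) ha)
          rw [hx₁e] at this
          simpa using this
        refine lemA x₁ x' hx₁S hx₁W hx'W ?_
        intro a' ha'
        rw [hx₁e, sympForm_add_right, sympForm_smul_right, hW a' ha' a ha, mul_zero, add_zero]
      · -- proportional case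
        push Not at hex
        have hx2 := hx
        push Not at hx2
        obtain ⟨a₀', ha₀', ha₀'0⟩ := hx2
        obtain ⟨a₀, ha₀, ha₀1⟩ : ∃ a₀ ∈ W, Cfsg.sympForm m F a₀ x = 1 :=
          ⟨(Cfsg.sympForm m F a₀' x)⁻¹ • a₀', W.smul_mem _ ha₀', by
            rw [sympForm_smul_left, inv_mul_cancel₀ ha₀'0]⟩
        set lam := Cfsg.sympForm m F a₀ x' with hlam
        have hprop : ∀ a ∈ W, Cfsg.sympForm m F a x' = lam * Cfsg.sympForm m F a x := by
          intro a ha
          set s := Cfsg.sympForm m F a x with hs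
          set d := a + (-s) • a₀ with hd
          have hdW : d ∈ W := W.add_mem ha (W.smul_mem _ ha₀)
          have hdx : Cfsg.sympForm m F d x = 0 := by
            rw [hd, sympForm_add_left, sympForm_smul_left, ha₀1, ← hs]; ring
          have hdx' : Cfsg.sympForm m F d x' = 0 := by
            by_contra hr
            set r := Cfsg.sympForm m F d x' with hrd
            set t := (1 - lam) / r with ht
            have e1 : Cfsg.sympForm m F (a₀ + t • d) x = 1 := by
              rw [sympForm_add_left, sympForm_smul_left, ha₀1, hdx]; ring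
            have e2 : Cfsg.sympForm m F (a₀ + t • d) x' = 1 := by
              rw [sympForm_add_left, sympForm_smul_left, ← hlam, ← hrd, ht]
              field_simp
              ring
            have := hex (a₀ + t • d) (W.add_mem ha₀ (W.smul_mem _ hdW)) (by rw [e1, e2])
            rw [e1] at this
            exact one_ne_zero this
          have e3 : Cfsg.sympForm m F a x' = Cfsg.sympForm m F d x' + s * lam := by
            rw [hd, sympForm_add_left, sympForm_smul_left, ← hlam]; ring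
          rw [e3, hdx']; ring
        have hlam0 : lam ≠ 0 := by
          intro h0
          apply hx'
          intro a ha
          rw [hprop a ha, h0, zero_mul]
        intro c
        have hS1 : ∀ c, stv (lam • x) c ∈ M := by
          intro c
          rw [stv_smul]
          exact hxS _
        have hlx : lam • x ∉ W := by
          intro h
          apply hxW
          have := W.smul_mem lam⁻¹ h
          rwa [smul_smul, inv_mul_cancel₀ hlam0, one_smul] at this
        refine lemA (lam • x) x' hS1 hlx hx'W ?_ c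
        intro a ha
        rw [sympForm_smul_right, hprop a ha]
    apply eq_spGL_of_stv_mem hMK
    intro v c
    by_cases hv : ∀ a ∈ W, Cfsg.sympForm m F a v = 0
    · exact hSM (hstv v hv c)
    · exact hall v hv c

end Cfsg.Agent.S5645
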