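import Cfsg.Statements.S5646
import Cfsg.Agent.Lib.SpStab

set_option autoImplicit false
open Cfsg

namespace Cfsg.Agent.S5646

open Matrix Cfsg.Geo Cfsg.Agent.Lib.SympBasic Cfsg.Agent.Lib.FormVec Cfsg.Agent.Lib.SpGL Cfsg.Agent.Lib.SpStab
open scoped MatrixGroups

/-- For a finite field F and m ≥ 7, in the symplectic group Sp_2m(F) of the standard alternating form on F^(2m), the stabiliser of any non-zero subspace W on which the form is non-degenerate and with dim W < m is a maximal subgroup. -/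
theorem result {F : Type*} [Field F] [Fintype F] (m : ℕ) (hm : 7 ≤ m) (W : Submodule F (Fin m ⊕ Fin m → F)) (hW0 : W ≠ ⊥) (hW : Cfsg.Geo.IsNondegenerateOn (Cfsg.sympForm m F) W) (hdim : Module.finrank F W < m) : Cfsg.Geo.IsMaximalIn (Cfsg.spGL m F) (Cfsg.Geo.subspaceStabilizer W ⊓ Cfsg.spGL m F) := by
  classical
  let f := Cfsg.sympForm m F
  set St := subspaceStabilizer W ⊓ Cfsg.spGL m F with hSt
  let B := toB (symp_bilinear (m := m) (F := F))
  have hB : B.Nondegenerate := toB_nondeg symp_bilinear symp_nondeg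
  let Wp := B.orthogonal W
  have hmemp : ∀ x, x ∈ Wp ↔ ∀ a ∈ W, f a x = 0 := fun x => LinearMap.BilinForm.mem_orthogonal_iff
  have hdisj : ∀ x, x ∈ W → x ∈ Wp → x = 0 := by
    intro x hx hxp
    by_contra h0
    obtain ⟨y, hy, hyx⟩ := (hW x hx h0).1
    exact hyx ((hmemp x).mp hxp y hy)
  have hcompl : IsCompl W Wp := by
    have hR : B.IsRefl := symp_B_alt.isRefl
    refine LinearMap.BilinForm.isCompl_orthogonal_of_restrict_nondegenerate hR ?_
    refine LinearMap.BilinForm.nondegenerate_restrict_of_disjoint_orthogonal B hR ?_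
    rw [Submodule.disjoint_def]
    exact hdisj
  have hdecomp : ∀ x, ∃ x₁ ∈ W, ∃ x₂ ∈ Wp, x = x₁ + x₂ := by
    intro x
    have : x ∈ W ⊔ Wp := by rw [hcompl.sup_eq_top]; trivial
    obtain ⟨x₁, h1, x₂, h2, e⟩ := Submodule.mem_sup.mp this
    exact ⟨x₁, h1, x₂, h2, e.symm⟩
  have hfinrank : Module.finrank F Wp = 2 * m - Module.finrank F W := by
    have := LinearMap.BilinForm.finrank_orthogonal hB W
    rw [this]
    simp [two_mul]
  have hpp : ∀ a ∈ Wp, ∀ b ∈ W, f a b = 0 := by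
    intro a ha b hb
    show Cfsg.sympForm m F a b = 0
    rw [sympForm_skew]
    have := (hmemp a).mp ha b hb
    show - Cfsg.sympForm m F b a = 0
    rw [show Cfsg.sympForm m F b a = 0 from this, neg_zero]
  have hstv : ∀ (v : Fin m ⊕ Fin m → F), (v ∈ W ∨ v ∈ Wp) → ∀ c, stv v c ∈ St := by
    rintro v (hv | hv) c
    · exact Subgroup.mem_inf.mpr ⟨stv_mem_stab_of_mem W hv c, stv_mem v c⟩
    · exact Subgroup.mem_inf.mpr ⟨stv_mem_stab W ((hmemp v).mp hv) c, stv_mem v c⟩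
  have hWpne : Wp ≠ ⊥ := by
    intro h
    rw [h, finrank_bot] at hfinrank
    omega
  constructor
  · refine lt_of_le_of_ne inf_le_right ?_
    intro heq
    obtain ⟨a, ha, ha0⟩ := Submodule.exists_mem_ne_zero_of_ne_bot hW0
    obtain ⟨b, hb, hb0⟩ := Submodule.exists_mem_ne_zero_of_ne_bot hWpne
    obtain ⟨w₀, hw₀, hw₀a⟩ := (hW a ha ha0).1
    have hm' : stv (a + b) (1 : F) ∈ St := by rw [heq]; exact stv_mem _ _
    have h1 := (mem_stab_iff W _).mp hm'.1 w₀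
    rw [stv_mulVec, one_mul, sympForm_add_right, show Cfsg.sympForm m F w₀ b = 0 from (hmemp b).mp hb w₀ hw₀, add_zero] at h1
    have h2 := h1.mp hw₀
    have h3 : a + b ∈ W := by
      have := W.smul_mem (Cfsg.sympForm m F w₀ a)⁻¹ (W.sub_mem h2 hw₀)
      rw [add_sub_cancel_left, smul_smul, inv_mul_cancel₀ hw₀a, one_smul] at this
      exact this
    have h4 : b ∈ W := by
      have := W.sub_mem h3 ha
      simpa using this
    exact hb0 (hdisj b h4 hb)
  · intro M hSM hMK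
    by_cases hMS : M = St
    · exact Or.inl hMS
    right
    obtain ⟨g₀, hg₀M, hg₀S⟩ : ∃ g ∈ M, g ∉ St := by
      by_contra hcon
      push Not at hcon
      exact hMS (le_antisymm hcon hSM)
    have hisom : ∀ h : (Fin m ⊕ Fin m → F) ≃ₗ[F] (Fin m ⊕ Fin m → F), (∀ u v, Cfsg.sympForm m F (h u) (h v) = Cfsg.sympForm m F u v) →
        (∀ x ∈ W, h x = x) → glOf h ∈ M := fun h hi hfix =>
      hSM (Subgroup.mem_inf.mpr ⟨isom_fix_mem_stab W h hfix, glOf_mem_spGL h hi⟩)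
    have hisom' : ∀ h : (Fin m ⊕ Fin m → F) ≃ₗ[F] (Fin m ⊕ Fin m → F), (∀ u v, Cfsg.sympForm m F (h u) (h v) = Cfsg.sympForm m F u v) →
        (∀ x ∈ Wp, h x = x) → glOf h ∈ M := fun h hi hfix =>
      hSM (Subgroup.mem_inf.mpr ⟨isom_fix_perp_mem_stab W h hi (fun u hu => hfix u ((hmemp u).mpr hu)), glOf_mem_spGL h hi⟩)
    obtain ⟨g, hgM, w, hw, hgw⟩ : ∃ g ∈ M, ∃ w ∈ W, ((g : GL (Fin m ⊕ Fin m) F) : Matrix (Fin m ⊕ Fin m) (Fin m ⊕ Fin m) F) *ᵥ w ∉ W := by
      have hg₀ : g₀ ∉ subspaceStabilizer W := fun h => hg₀S (Subgroup.mem_inf.mpr ⟨h, hMK hg₀M⟩)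
      rw [mem_stab_iff] at hg₀
      push Not at hg₀
      obtain ⟨v, hv⟩ := hg₀
      rcases hv with ⟨h1, h2⟩ | ⟨h1, h2⟩
      · exact ⟨g₀, hg₀M, v, h1, h2⟩
      · refine ⟨g₀⁻¹, M.inv_mem hg₀M, _, h2, ?_⟩
        rw [inv_mulVec_mulVec]
        exact h1
    have hgSp := hMK hgM
    -- Step 1
    obtain ⟨g₁, hg₁M, w₁, hw₁, hx1, hx2⟩ : ∃ g₁ ∈ M, ∃ w₁ ∈ W,
        ((g₁ : GL (Fin m ⊕ Fin m) F) : Matrix (Fin m ⊕ Fin m) (Fin m ⊕ Fin m) F) *ᵥ w₁ ∉ W ∧
        ((g₁ : GL (Fin m ⊕ Fin m) F) : Matrix (Fin m ⊕ Fin m) (Fin m ⊕ Fin m) F) *ᵥ w₁ ∉ Wp := by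
      by_cases hperp : ((g : GL (Fin m ⊕ Fin m) F) : Matrix (Fin m ⊕ Fin m) (Fin m ⊕ Fin m) F) *ᵥ w ∈ Wp
      · set y := ((g : GL (Fin m ⊕ Fin m) F) : Matrix (Fin m ⊕ Fin m) (Fin m ⊕ Fin m) F) *ᵥ w with hy
        have hz : ∃ z ∈ Wp, ((g⁻¹ : GL (Fin m ⊕ Fin m) F) : Matrix (Fin m ⊕ Fin m) (Fin m ⊕ Fin m) F) *ᵥ z ∉ W ∧
            ((g⁻¹ : GL (Fin m ⊕ Fin m) F) : Matrix (Fin m ⊕ Fin m) (Fin m ⊕ Fin m) F) *ᵥ z ∉ Wp := by
          by_contra hcon
          push Not at hcon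
          by_cases hA : ∀ z ∈ Wp, ((g⁻¹ : GL (Fin m ⊕ Fin m) F) : Matrix (Fin m ⊕ Fin m) (Fin m ⊕ Fin m) F) *ᵥ z ∈ W
          · -- dimension contradiction
            let L : Wp →ₗ[F] W :=
              { toFun := fun z => ⟨((g⁻¹ : GL (Fin m ⊕ Fin m) F) : Matrix (Fin m ⊕ Fin m) (Fin m ⊕ Fin m) F) *ᵥ z, hA z z.2⟩
                map_add' := fun a b => Subtype.ext (by
                  show ((g⁻¹ : GL (Fin m ⊕ Fin m) F) : Matrix (Fin m ⊕ Fin m) (Fin m ⊕ Fin m) F) *ᵥ ((a : Fin m ⊕ Fin m → F) + (b : Fin m ⊕ Fin m → F)) = ((g⁻¹ : GL (Fin m ⊕ Fin m) F) : Matrix (Fin m ⊕ Fin m) (Fin m ⊕ Fin m) F) *ᵥ (a : Fin m ⊕ Fin m → F) + ((g⁻¹ : GL (Fin m ⊕ Fin m) F) : Matrix (Fin m ⊕ Fin m) (Fin m ⊕ Fin m) F) *ᵥ (b : Fin m ⊕ Fin m → F)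
                  exact Matrix.mulVec_add _ _ _)
                map_smul' := fun c a => Subtype.ext (by
                  show ((g⁻¹ : GL (Fin m ⊕ Fin m) F) : Matrix (Fin m ⊕ Fin m) (Fin m ⊕ Fin m) F) *ᵥ (c • (a : Fin m ⊕ Fin m → F)) = c • (((g⁻¹ : GL (Fin m ⊕ Fin m) F) : Matrix (Fin m ⊕ Fin m) (Fin m ⊕ Fin m) F) *ᵥ (a : Fin m ⊕ Fin m → F))
                  exact Matrix.mulVec_smul _ _ _) }
            have hL : Function.Injective L := by
              intro a b hab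
              have := congrArg Subtype.val hab
              have e : ((g : GL (Fin m ⊕ Fin m) F) : Matrix (Fin m ⊕ Fin m) (Fin m ⊕ Fin m) F) *ᵥ (((g⁻¹ : GL (Fin m ⊕ Fin m) F) : Matrix (Fin m ⊕ Fin m) (Fin m ⊕ Fin m) F) *ᵥ (a : Fin m ⊕ Fin m → F)) = ((g : GL (Fin m ⊕ Fin m) F) : Matrix (Fin m ⊕ Fin m) (Fin m ⊕ Fin m) F) *ᵥ (((g⁻¹ : GL (Fin m ⊕ Fin m) F) : Matrix (Fin m ⊕ Fin m) (Fin m ⊕ Fin m) F) *ᵥ (b : Fin m ⊕ Fin m → F)) := congrArg _ this
              rw [mulVec_inv_mulVec, mulVec_inv_mulVec] at e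
              exact Subtype.ext e
            have := LinearMap.finrank_le_finrank_of_injective hL
            omega
          · push Not at hA
            obtain ⟨z₁, hz₁, hz₁W⟩ := hA
            have hB' : ∀ z ∈ Wp, ((g⁻¹ : GL (Fin m ⊕ Fin m) F) : Matrix (Fin m ⊕ Fin m) (Fin m ⊕ Fin m) F) *ᵥ z ∈ Wp := by
              intro z₂ hz₂
              by_contra hz₂p
              have h1 := hcon z₁ hz₁ hz₁W
              have h2 : ((g⁻¹ : GL (Fin m ⊕ Fin m) F) : Matrix (Fin m ⊕ Fin m) (Fin m ⊕ Fin m) F) *ᵥ z₂ ∈ W := by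
                by_contra h
                exact hz₂p (hcon z₂ hz₂ h)
              by_cases h3 : ((g⁻¹ : GL (Fin m ⊕ Fin m) F) : Matrix (Fin m ⊕ Fin m) (Fin m ⊕ Fin m) F) *ᵥ (z₁ + z₂) ∈ W
              · rw [Matrix.mulVec_add] at h3
                apply hz₁W
                have := W.sub_mem h3 h2
                simpa using this
              · have h4 := hcon _ (Wp.add_mem hz₁ hz₂) h3
                rw [Matrix.mulVec_add] at h4
                apply hz₂p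
                have := Wp.sub_mem h4 h1
                simpa using this
            apply hgw
            apply perp_perp
            intro u hu
            rw [sympForm_skew, hy, sp_inv_form hgSp, neg_eq_zero]
            exact (hmemp _).mp (hB' u ((hmemp u).mpr hu)) w hw
        obtain ⟨z, hz1, hz2, hz3⟩ := hz
        have hzW : z ∉ W := by
          intro hzW
          have hz0 := hdisj z hzW hz1
          apply hz2
          rw [hz0, Matrix.mulVec_zero]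
          exact W.zero_mem
        obtain ⟨h, hi, hfix, hyz⟩ := witt_step W hgw hzW (by
          intro a ha
          rw [show Cfsg.sympForm m F a y = 0 from (hmemp y).mp hperp a ha, show Cfsg.sympForm m F a z = 0 from (hmemp z).mp hz1 a ha])
        refine ⟨g⁻¹ * glOf h * g, M.mul_mem (M.mul_mem (M.inv_mem hgM) (hisom h hi hfix)) hgM, w, hw, ?_, ?_⟩
        · rw [Units.val_mul, Units.val_mul, ← Matrix.mulVec_mulVec, ← Matrix.mulVec_mulVec, glOf_mulVec, hyz]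
          exact hz2
        · rw [Units.val_mul, Units.val_mul, ← Matrix.mulVec_mulVec, ← Matrix.mulVec_mulVec, glOf_mulVec, hyz]
          exact hz3
      · exact ⟨g, hgM, w, hw, hgw, hperp⟩
    set x := ((g₁ : GL (Fin m ⊕ Fin m) F) : Matrix (Fin m ⊕ Fin m) (Fin m ⊕ Fin m) F) *ᵥ w₁ with hxdef
    have hxS : ∀ c, stv x c ∈ M := by
      intro c
      rw [hxdef, ← conj_stv (hMK hg₁M)]
      exact M.mul_mem (M.mul_mem hg₁M (hSM (hstv _ (Or.inl hw₁) c))) (M.inv_mem hg₁M)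
    -- Step 3
    have hall : ∀ x' : Fin m ⊕ Fin m → F, x' ∉ W → x' ∉ Wp → ∀ c, stv x' c ∈ M := by
      intro x' hx'1 hx'2 c
      obtain ⟨a, ha, b, hb, hab⟩ := hdecomp x
      obtain ⟨a', ha', b', hb', hab'⟩ := hdecomp x'
      have ha0 : a ∉ Wp := by
        intro h
        have := hdisj a ha h
        rw [this, zero_add] at hab
        exact hx2 (hab ▸ hb)
      have hb0 : b ∉ W := by
        intro h
        have := hdisj b h hb
        rw [this, add_zero] at hab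
        exact hx1 (hab ▸ ha)
      have ha'0 : a' ∉ Wp := by
        intro h
        have := hdisj a' ha' h
        rw [this, zero_add] at hab'
        exact hx'2 (hab' ▸ hb')
      have hb'0 : b' ∉ W := by
        intro h
        have := hdisj b' h hb'
        rw [this, add_zero] at hab'
        exact hx'1 (hab' ▸ ha')
      obtain ⟨h₂, hi₂, hfix₂, hbb⟩ := witt_step W hb0 hb'0 (by
        intro a₁ ha₁
        rw [show Cfsg.sympForm m F a₁ b = 0 from (hmemp b).mp hb a₁ ha₁, show Cfsg.sympForm m F a₁ b' = 0 from (hmemp b').mp hb' a₁ ha₁])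
      obtain ⟨h₁, hi₁, hfix₁, haa⟩ := witt_step Wp ha0 ha'0 (by
        intro a₁ ha₁
        rw [show Cfsg.sympForm m F a₁ a = 0 from hpp a₁ ha₁ a ha, show Cfsg.sympForm m F a₁ a' = 0 from hpp a₁ ha₁ a' ha'])
      have e : h₁ (h₂ x) = x' := by
        rw [hab, map_add, map_add, hfix₂ a ha, hbb, haa, hfix₁ b' hb', hab']
      have s1 : stv (h₂ x) c ∈ M := by
        rw [← conj_stv_glOf h₂ hi₂]
        exact M.mul_mem (M.mul_mem (hisom h₂ hi₂ hfix₂) (hxS c)) (M.inv_mem (hisom h₂ hi₂ hfix₂))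
      rw [← e, ← conj_stv_glOf h₁ hi₁]
      exact M.mul_mem (M.mul_mem (hisom' h₁ hi₁ hfix₁) s1) (M.inv_mem (hisom' h₁ hi₁ hfix₁))
    apply eq_spGL_of_stv_mem hMK
    intro v c
    by_cases hv1 : v ∈ W
    · exact hSM (hstv v (Or.inl hv1) c)
    by_cases hv2 : v ∈ Wp
    · exact hSM (hstv v (Or.inr hv2) c)
    exact hall v hv1 hv2 c

end Cfsg.Agent.S5646
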