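import Cfsg.Statements.S5652
import Cfsg.Agent.Lib.SpStab
import Cfsg.Agent.Lib.WittQuad

set_option autoImplicit false
open Cfsg

namespace Cfsg.Agent.S5652

open Matrix Cfsg.Geo Cfsg.Agent.Lib.SympBasic Cfsg.Agent.Lib.FormVec Cfsg.Agent.Lib.SpGL Cfsg.Agent.Lib.SpStab
open scoped MatrixGroups

/-- For a finite field F of characteristic two and m ≥ 7, let Q be a non-degenerate quadratic form on F^(2m) whose polar form is the standard alternating form. Then the elements of Sp_2m(F) that are similarities of Q (they are exactly the isometries of Q) form a maximal subgroup of Sp_2m(F). -/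
theorem result {F : Type*} [Field F] [Fintype F] (m : ℕ) (hm : 7 ≤ m) (heven : ¬ Odd (Fintype.card F)) (Q : (Fin m ⊕ Fin m → F) → F) (hQ : Cfsg.Geo.IsNondegenerateQuadraticForm Q) (hpol : ∀ u v, QuadraticMap.polar Q u v = Cfsg.sympForm m F u v) : Cfsg.Geo.IsMaximalIn (Cfsg.spGL m F) (Cfsg.Geo.quadSimilarityGroup Q ⊓ Cfsg.spGL m F) := by
  classical
  have h2 : (2 : F) = 0 := by
    have hp : ringChar F = 2 := FiniteField.even_card_iff_char_two.mpr (Nat.even_iff.mp (Nat.not_odd_iff_even.mp heven))
    haveI : CharP F 2 := hp ▸ ringChar.charP F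
    exact CharTwo.two_eq_zero
  have hneg : ∀ a : F, -a = a := by
    intro a
    linear_combination (-a) * h2
  have hsq : ∀ a : F, ∃ b : F, b ^ 2 = a := by
    intro a
    have hp : ringChar F = 2 := FiniteField.even_card_iff_char_two.mpr (Nat.even_iff.mp (Nat.not_odd_iff_even.mp heven))
    obtain ⟨b, hb⟩ := FiniteField.isSquare_of_char_two hp a
    exact ⟨b, by rw [hb]; ring⟩
  have hadd : ∀ x y, Q (x + y) = Q x + Q y + Cfsg.sympForm m F x y := by
    intro x y
    rw [← hpol, QuadraticMap.polar]
    ring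
  have hzero : Q 0 = 0 := by
    have := hQ.smul 0 0
    simpa using this
  have hB : (toB (symp_bilinear (m := m) (F := F))).Nondegenerate := toB_nondeg symp_bilinear symp_nondeg
  -- key lemma
  have key : ∀ w z : Fin m ⊕ Fin m → F, ∃ e, Cfsg.sympForm m F e w = 0 ∧ Cfsg.sympForm m F e z = 0 ∧ Q e ≠ 0 := by
    intro w z
    by_contra hcon
    push Not at hcon
    let B := toB (symp_bilinear (m := m) (F := F))
    let X : Submodule F (Fin m ⊕ Fin m → F) := Submodule.span F {w, z}
    let W := B.orthogonal X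
    have hmemW : ∀ x, x ∈ W ↔ ∀ a ∈ X, Cfsg.sympForm m F a x = 0 := fun x => LinearMap.BilinForm.mem_orthogonal_iff
    have hXdim : Module.finrank F X ≤ 2 := by
      have h1 := finrank_span_finset_le_card (R := F) ({w, z} : Finset (Fin m ⊕ Fin m → F))
      have h2 : ({w, z} : Finset (Fin m ⊕ Fin m → F)).card ≤ 2 := Finset.card_le_two
      rw [Finset.coe_insert, Finset.coe_singleton] at h1
      exact h1.trans h2
    have hWdim : Module.finrank F W = 2 * m - Module.finrank F X := by
      have := LinearMap.BilinForm.finrank_orthogonal hB X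
      rw [this]
      simp [two_mul]
    have hQW : ∀ e ∈ W, Q e = 0 := by
      intro e he
      have hskew : ∀ u v, Cfsg.sympForm m F u v = 0 → Cfsg.sympForm m F v u = 0 := by
        intro u v h
        rw [sympForm_skew, h, neg_zero]
      have h1 : Cfsg.sympForm m F e w = 0 := hskew _ _ ((hmemW e).mp he w (Submodule.subset_span (by simp)))
      have h2 : Cfsg.sympForm m F e z = 0 := hskew _ _ ((hmemW e).mp he z (Submodule.subset_span (by simp)))
      exact hcon e h1 h2
    have hWW : W ≤ B.orthogonal W := by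
      intro a ha
      rw [LinearMap.BilinForm.mem_orthogonal_iff]
      intro b hb
      show Cfsg.sympForm m F b a = 0
      have := hadd b a
      rw [hQW b hb, hQW a ha, hQW _ (W.add_mem hb ha)] at this
      linear_combination -this
    have hW2 : Module.finrank F (B.orthogonal W) = 2 * m - Module.finrank F W := by
      have := LinearMap.BilinForm.finrank_orthogonal hB W
      rw [this]
      simp [two_mul]
    have := Submodule.finrank_mono hWW
    omega
  -- value lemma
  have value : ∀ w : Fin m ⊕ Fin m → F, w ≠ 0 → ∀ t, ∃ v, Q v = 1 ∧ Cfsg.sympForm m F v w = t := by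
    intro w hw t
    obtain ⟨z₀, hz₀⟩ := exists_form_eq hw (-t)
    have hz₀' : Cfsg.sympForm m F z₀ w = t := by
      rw [sympForm_skew, hz₀, neg_neg]
    obtain ⟨e, he1, he2, he3⟩ := key w z₀
    obtain ⟨α, hα⟩ := hsq ((1 - Q z₀) / Q e)
    refine ⟨z₀ + α • e, ?_, ?_⟩
    · rw [hadd, hQ.smul, hα, sympForm_smul_right, sympForm_skew, he2]
      field_simp
      ring
    · rw [sympForm_add_left, sympForm_smul_left, he1, hz₀']
      ring
  -- isometry lemma
  have hisom : ∀ g, g ∈ quadSimilarityGroup Q ⊓ Cfsg.spGL m F → ∀ v, Q (((g : GL (Fin m ⊕ Fin m) F) : Matrix (Fin m ⊕ Fin m) (Fin m ⊕ Fin m) F) *ᵥ v) = Q v := by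
    rintro g ⟨⟨c, hc⟩, hg⟩ v
    have hc1 : (c : F) = 1 := by
      let a : Fin m ⊕ Fin m → F := Pi.single (Sum.inl ⟨0, by omega⟩) 1
      let b : Fin m ⊕ Fin m → F := Pi.single (Sum.inr ⟨0, by omega⟩) 1
      have hab : Cfsg.sympForm m F a b = 1 := by
        simp [a, b, sympForm_apply, Pi.single_apply]
        exact hneg 1
      have h1 := hc (a + b)
      rw [Matrix.mulVec_add, hadd, hc a, hc b, hadd] at h1
      have h3 := (mem_spGL_iff g).mp hg a b
      rw [h3, hab] at h1
      linear_combination -h1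
    rw [hc, hc1, one_mul]
  have hTQ : ∀ x, Q x = 1 → stv x 1 ∈ quadSimilarityGroup Q ⊓ Cfsg.spGL m F := by
    intro x hx
    refine ⟨⟨1, fun v => ?_⟩, stv_mem x 1⟩
    rw [stv_mulVec, hadd, hQ.smul, hx, sympForm_smul_right, Units.val_one, one_mul, one_mul]
    linear_combination (Cfsg.sympForm m F v x) ^ 2 * h2
  constructor
  · refine lt_of_le_of_ne inf_le_right ?_
    intro heq
    have hall : ∀ u : Fin m ⊕ Fin m → F, u ≠ 0 → Q u = 1 := by
      intro u hu
      obtain ⟨y, hy⟩ := exists_form_eq hu (-1)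
      have hy' : Cfsg.sympForm m F y u = 1 := by
        rw [sympForm_skew, hy, neg_neg]
      have h1 : stv u 1 ∈ quadSimilarityGroup Q ⊓ Cfsg.spGL m F := by
        rw [heq]; exact stv_mem u 1
      have h3 := hisom _ h1 y
      rw [stv_mulVec, hadd, hQ.smul, hy', sympForm_smul_right, hy'] at h3
      simp only [one_mul, one_pow] at h3
      linear_combination h3 - h2
    let a : Fin m ⊕ Fin m → F := Pi.single (Sum.inl ⟨0, by omega⟩) 1
    let b : Fin m ⊕ Fin m → F := Pi.single (Sum.inl ⟨1, by omega⟩) 1
    have hab : Cfsg.sympForm m F a b = 0 := by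
      simp [a, b, sympForm_apply, Pi.single_apply]
    have ha : a ≠ 0 := by
      intro h
      have := congrFun h (Sum.inl ⟨0, by omega⟩)
      simp [a] at this
    have hb : b ≠ 0 := by
      intro h
      have := congrFun h (Sum.inl ⟨1, by omega⟩)
      simp [b] at this
    have hab0 : a + b ≠ 0 := by
      intro h
      have := congrFun h (Sum.inl ⟨0, by omega⟩)
      simp [a, b, Pi.single_apply] at this
    have h1 := hall _ hab0
    rw [hadd, hall a ha, hall b hb, hab] at h1
    have : (1 : F) = 0 := by linear_combination -h1 + h2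
    exact one_ne_zero this
  · intro M hSM hMK
    by_cases hMS : M = quadSimilarityGroup Q ⊓ Cfsg.spGL m F
    · exact Or.inl hMS
    right
    obtain ⟨g₀, hg₀M, hg₀S⟩ : ∃ g ∈ M, g ∉ quadSimilarityGroup Q ⊓ Cfsg.spGL m F := by
      by_contra hcon
      push Not at hcon
      exact hMS (le_antisymm hcon hSM)
    -- step 1
    obtain ⟨g, hgM, u, hu, hgu⟩ : ∃ g ∈ M, ∃ u, Q u = 1 ∧ Q (((g : GL (Fin m ⊕ Fin m) F) : Matrix (Fin m ⊕ Fin m) (Fin m ⊕ Fin m) F) *ᵥ u) ≠ 1 := by
      by_contra hcon
      push Not at hcon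
      have hpres := hcon g₀ hg₀M
      apply hg₀S
      have hgSp := hMK hg₀M
      refine ⟨⟨1, fun x => ?_⟩, hgSp⟩
      rw [Units.val_one, one_mul]
      by_cases hQx : Q x = 0
      · by_cases hx : x = 0
        · rw [hx, Matrix.mulVec_zero]
        obtain ⟨v, hv1, hv2⟩ := value x hx 0
        have e1 : Q (x + v) = 1 := by
          rw [hadd, hQx, hv1, sympForm_skew, hv2]
          ring
        have e2 := hpres _ e1
        rw [Matrix.mulVec_add, hadd, hpres _ hv1, (mem_spGL_iff g₀).mp hgSp, sympForm_skew, hv2] at e2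
        rw [hQx]
        linear_combination e2
      · obtain ⟨a, ha⟩ := hsq (1 / Q x)
        have ha0 : a ≠ 0 := by
          rintro rfl
          rw [show (0 : F) ^ 2 = 0 by ring] at ha
          have := div_ne_zero (one_ne_zero (α := F)) hQx
          exact this ha.symm
        have e1 : Q (a • x) = 1 := by
          rw [hQ.smul, ha]
          field_simp
        have e2 := hpres _ e1
        rw [Matrix.mulVec_smul, hQ.smul, ha] at e2
        field_simp at e2
        exact e2
    have hgSp := hMK hgM
    set w := ((g : GL (Fin m ⊕ Fin m) F) : Matrix (Fin m ⊕ Fin m) (Fin m ⊕ Fin m) F) *ᵥ u with hw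
    have hu0 : u ≠ 0 := by
      rintro rfl
      rw [hzero] at hu
      exact zero_ne_one hu
    have hw0 : w ≠ 0 := by
      intro h
      apply hu0
      have := inv_mulVec_mulVec g u
      rw [← hw, h, Matrix.mulVec_zero] at this
      exact this.symm
    have hTM : ∀ x, Q x = 1 → stv x 1 ∈ M := fun x hx => hSM (hTQ x hx)
    have hTw : stv w 1 ∈ M := by
      rw [hw, ← conj_stv hgSp]
      exact M.mul_mem (M.mul_mem hgM (hTM u hu)) (M.inv_mem hgM)
    -- all values
    have hvals : ∀ d : F, ∃ x, x ≠ 0 ∧ Q x = d ∧ stv x 1 ∈ M := by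
      intro d
      have hc1 : Q w + 1 ≠ 0 := by
        intro h
        apply hgu
        linear_combination h - h2
      obtain ⟨t, ht⟩ := hsq ((d + 1) / (Q w + 1))
      obtain ⟨v, hv1, hv2⟩ := value w hw0 t
      have hx : ((stv w 1 : GL (Fin m ⊕ Fin m) F) : Matrix (Fin m ⊕ Fin m) (Fin m ⊕ Fin m) F) *ᵥ v = v + t • w := by
        rw [stv_mulVec, one_mul, hv2]
      refine ⟨v + t • w, ?_, ?_, ?_⟩
      · intro h
        have h3 : Cfsg.sympForm m F (v + t • w) w = 0 := by rw [h]; simp [sympForm_apply]
        rw [sympForm_add_left, sympForm_smul_left, sympForm_self, hv2] at h3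
        have ht0 : t = 0 := by linear_combination h3
        rw [ht0, zero_smul, add_zero] at h
        rw [h, hzero] at hv1
        exact zero_ne_one hv1
      · rw [hadd, hQ.smul, hv1, sympForm_smul_right, hv2]
        have ht' : t ^ 2 * (Q w + 1) = d + 1 := by
          rw [ht]
          field_simp
        linear_combination ht' + h2
      · rw [← hx, ← conj_stv (hMK hTw)]
        exact M.mul_mem (M.mul_mem hTw (hTM v hv1)) (M.inv_mem hTw)
    let Q' : QuadraticForm F (Fin m ⊕ Fin m → F) := QuadraticMap.ofPolar Q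
      (fun a x => by rw [hQ.smul]; ring)
      (fun x y z => hQ.polar_bilinear.add_left x y z)
      (fun a x y => hQ.polar_bilinear.smul_left a x y)
    have hQ' : ∀ x, Q' x = Q x := fun x => rfl
    have hN : (QuadraticMap.polarBilin Q').Nondegenerate := by
      have hpol' : ∀ x y, QuadraticMap.polarBilin Q' x y = Cfsg.sympForm m F x y := by
        intro x y
        rw [← hpol]
        rfl
      have : QuadraticMap.polarBilin Q' = toB (symp_bilinear (m := m) (F := F)) := by
        ext x y
        exact hpol' _ _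
      rw [this]
      exact hB
    have hall : ∀ y, stv y 1 ∈ M := by
      intro y
      by_cases hy : y = 0
      · have := stv_smul (0 : Fin m ⊕ Fin m → F) (0 : F) 1
        rw [zero_smul, show (0 : F) ^ 2 * 1 = 0 by ring, stv_zero] at this
        rw [hy, this]
        exact M.one_mem
      obtain ⟨x, hx0, hxd, hxM⟩ := hvals (Q y)
      have hx1 : x ∉ (⊥ : Submodule F (Fin m ⊕ Fin m → F)) := by simpa using hx0
      have hy1 : y ∉ (⊥ : Submodule F (Fin m ⊕ Fin m → F)) := by simpa using hy
      obtain ⟨h, hh1, -, hh3⟩ := Cfsg.Agent.Lib.WittQuad.step Q' hN ⊥ x y hx1 hy1 (by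
        intro a b p q hp hq
        rw [Submodule.mem_bot] at hp
        rw [hp, zero_add, zero_add, hQ', hQ', hQ.smul, hQ.smul, hxd])
      have hi : ∀ p q, Cfsg.sympForm m F (h p) (h q) = Cfsg.sympForm m F p q := by
        intro p q
        rw [← hpol, ← hpol]
        exact Cfsg.Agent.Lib.WittQuad.polar_of_isom Q' h (map_add h) hh1 p q
      have hgh : glOf h ∈ quadSimilarityGroup Q ⊓ Cfsg.spGL m F := by
        refine ⟨⟨1, fun v => ?_⟩, glOf_mem_spGL h hi⟩
        rw [glOf_mulVec, Units.val_one, one_mul]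
        exact hh1 v
      rw [← hh3, ← conj_stv_glOf h hi]
      exact M.mul_mem (M.mul_mem (hSM hgh) hxM) (M.inv_mem (hSM hgh))
    apply eq_spGL_of_stv_mem hMK
    intro v c
    obtain ⟨b, hb⟩ := hsq c
    have := stv_smul v b 1
    rw [mul_one, hb] at this
    rw [← this]
    exact hall _

end Cfsg.Agent.S5652
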