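import Cfsg.Statements.S5648
import Cfsg.Agent.Lib.SpDecomp
import Cfsg.Agent.S5652

set_option autoImplicit false
open Cfsg

namespace Cfsg.Agent.S5648

open Matrix Cfsg.Geo Cfsg.Agent.Lib.SympBasic Cfsg.Agent.Lib.FormVec Cfsg.Agent.Lib.SpGL Cfsg.Agent.Lib.SpStab Cfsg.Agent.Lib.SpDecomp
open scoped MatrixGroups

/-- Over the field with 2 elements and for m ≥ 7, let D be a decomposition of F^(2m) into t pairwise orthogonal non-degenerate 2-dimensional subspaces for the standard alternating form (t = m ≥ 2). Then the elements of Sp_2m(2) permuting the members of D form a subgroup that is not maximal: some subgroup lies strictly between it and Sp_2m(2). -/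
theorem result {F : Type*} [Field F] [Fintype F] (m : ℕ) (hm : 7 ≤ m) (hq : Fintype.card F = 2) {t : ℕ} (D : Fin t → Submodule F (Fin m ⊕ Fin m → F)) (hD : Cfsg.Geo.IsNondegenerateMDecomposition (Cfsg.sympForm m F) 2 D) : ∃ K : Subgroup (Matrix.GeneralLinearGroup (Fin m ⊕ Fin m) F), Cfsg.Geo.decompositionStabilizer D ⊓ Cfsg.spGL m F < K ∧ K < Cfsg.spGL m F := by
  classical
  have hcard : ∀ c : F, c = 0 ∨ c = 1 := by
    intro c
    by_contra hcon
    push Not at hcon
    have : ({0, 1, c} : Finset F).card = 3 := by
      rw [Finset.card_insert_of_notMem, Finset.card_insert_of_notMem, Finset.card_singleton]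
      · simpa using hcon.2.symm
      · simp only [Finset.mem_insert, Finset.mem_singleton, not_or]
        exact ⟨zero_ne_one, hcon.1.symm⟩
    have h2 := Finset.card_le_univ ({0, 1, c} : Finset F)
    omega
  have h2 : (2 : F) = 0 := by
    rcases hcard 2 with h | h
    · exact h
    · have : (1 : F) = 0 := by linear_combination h
      exact absurd this one_ne_zero
  -- the local form
  let q : (Fin m ⊕ Fin m → F) → F := fun v => if v = 0 then 0 else 1
  let Q : (Fin m ⊕ Fin m → F) → F := fun x => ∑ i, q (P hD i x)
  have hf1 : ∀ {i : Fin t} {a b : Fin m ⊕ Fin m → F}, a ∈ D i → b ∈ D i → a ≠ 0 → b ≠ 0 → a ≠ b → Cfsg.sympForm m F a b = 1 := by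
    intro i a b ha hb ha0 hb0 hab
    have hind : b ∉ Submodule.span F {a} := by
      intro hc
      obtain ⟨c, hc⟩ := Submodule.mem_span_singleton.mp hc
      rcases hcard c with rfl | rfl
      · rw [zero_smul] at hc
        exact hb0 hc.symm
      · rw [one_smul] at hc
        exact hab hc
    have hspan : ∀ x ∈ D i, ∃ α β : F, x = α • a + β • b := by
      intro x hx
      by_cases hxs : x ∈ Submodule.span F {a, b}
      · obtain ⟨α, β, e⟩ := Submodule.mem_span_pair.mp hxs
        exact ⟨α, β, e.symm⟩
      · exfalso
        -- dimension: three independent vectors in a plane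
        have hle : Submodule.span F {a, b} ≤ D i := by
          rw [Submodule.span_le]
          rintro _ (rfl | rfl)
          · exact ha
          · exact hb
        have hlt : Submodule.span F {a, b} < D i := lt_of_le_of_ne hle (by
          intro he
          exact hxs (he ▸ hx))
        have h1 := Submodule.finrank_lt_finrank_of_lt hlt
        rw [hD.decomp.finrank_eq i] at h1
        have hdim : Module.finrank F (Submodule.span F {a, b}) = 2 := by
          have hli : LinearIndependent F ![a, b] := by
            rw [LinearIndependent.pair_iff]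
            intro s r hsr
            by_cases hr : r = 0
            · rw [hr, zero_smul, add_zero] at hsr
              exact ⟨(smul_eq_zero.mp hsr).resolve_right ha0, hr⟩
            · exfalso
              apply hind
              rw [Submodule.mem_span_singleton]
              refine ⟨-(r⁻¹ * s), ?_⟩
              have : r • b = -(s • a) := by
                rw [eq_neg_iff_add_eq_zero, add_comm]
                exact hsr
              have h3 := congrArg (fun z => r⁻¹ • z) this
              simp only [smul_smul, inv_mul_cancel₀ hr, one_smul, smul_neg] at h3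
              rw [h3, neg_smul]
          have h4 := finrank_span_eq_card hli
          have e : Set.range ![a, b] = {a, b} := by
            ext z
            simp [Matrix.range_cons, Matrix.range_empty, Set.union_empty, or_comm]
          rw [e] at h4
          simpa using h4
        omega
    have hne : Cfsg.sympForm m F a b ≠ 0 := by
      intro h0
      obtain ⟨x, hx, hxa⟩ := (hD.nondegenerate i a ha ha0).2
      obtain ⟨α, β, rfl⟩ := hspan x hx
      apply hxa
      rw [sympForm_add_right, sympForm_smul_right, sympForm_smul_right, sympForm_self, h0]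
      ring
    exact (hcard _).resolve_left hne
  have hlocal : ∀ {i : Fin t} {a b : Fin m ⊕ Fin m → F}, a ∈ D i → b ∈ D i → q (a + b) = q a + q b + Cfsg.sympForm m F a b := by
    intro i a b ha hb
    by_cases ha0 : a = 0
    · subst ha0
      simp [q, sympForm_apply]
    by_cases hb0 : b = 0
    · subst hb0
      simp [q, sympForm_apply]
    by_cases hab : a = b
    · subst hab
      have h3 : a + a = 0 := by
        rw [← two_smul F a, h2, zero_smul]
      rw [h3, sympForm_self]
      simp only [q, ha0, if_true, if_false]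
      linear_combination -h2
    · have hab' : a + b ≠ 0 := by
        intro h
        apply hab
        have : a = -b := eq_neg_of_add_eq_zero_left h
        rw [this, show -b = b by
          have h4 : (-1 : F) = 1 := by linear_combination -h2
          rw [← one_smul F b, ← neg_smul, h4]]
      rw [hf1 ha hb ha0 hb0 hab]
      simp only [q, ha0, hb0, hab', if_false]
      linear_combination -h2
  have hpolQ : ∀ u v, QuadraticMap.polar Q u v = Cfsg.sympForm m F u v := by
    intro u v
    have e1 : Q (u + v) = ∑ i, (q (P hD i u) + q (P hD i v) + Cfsg.sympForm m F (P hD i u) (P hD i v)) := by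
      refine Finset.sum_congr rfl fun i _ => ?_
      rw [map_add, hlocal (P_mem hD i u) (P_mem hD i v)]
    have e2 : Cfsg.sympForm m F u v = ∑ i, Cfsg.sympForm m F (P hD i u) (P hD i v) := by
      conv_lhs => rw [← sum_P hD u]
      have : ∀ S : Finset (Fin t), Cfsg.sympForm m F (∑ i ∈ S, P hD i u) v = ∑ i ∈ S, Cfsg.sympForm m F (P hD i u) (P hD i v) := by
        intro S
        induction S using Finset.induction_on with
        | empty => simp [sympForm_apply]
        | insert a S ha ih =>
          rw [Finset.sum_insert ha, Finset.sum_insert ha, sympForm_add_left, ih, form_P hD (P_mem hD a u)]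
      exact this _
    rw [QuadraticMap.polar, e1, e2, Finset.sum_add_distrib, Finset.sum_add_distrib]
    show _ + _ - ∑ i, q (P hD i u) - ∑ i, q (P hD i v) = _
    ring
  have hQ : IsNondegenerateQuadraticForm Q := by
    refine ⟨?_, ?_, ?_⟩
    · intro c v
      rcases hcard c with rfl | rfl
      · have : Q 0 = 0 := by simp [Q, q]
        simpa using this
      · simp
    · have : QuadraticMap.polar Q = Cfsg.sympForm m F := by
        funext u v
        exact hpolQ u v
      rw [this]
      exact symp_bilinear
    · have : QuadraticMap.polar Q = Cfsg.sympForm m F := by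
        funext u v
        exact hpolQ u v
      rw [this]
      exact symp_nondeg
  have heven : ¬ Odd (Fintype.card F) := by
    rw [hq]
    decide
  have hmax := Cfsg.Agent.S5652.result m hm heven Q hQ hpolQ
  refine ⟨quadSimilarityGroup Q ⊓ Cfsg.spGL m F, ?_, hmax.1⟩
  have ht := hD.decomp.two_le
  have hinjmv : ∀ (g : GL (Fin m ⊕ Fin m) F) {a b : Fin m ⊕ Fin m → F}, (g : Matrix (Fin m ⊕ Fin m) (Fin m ⊕ Fin m) F) *ᵥ a = (g : Matrix (Fin m ⊕ Fin m) (Fin m ⊕ Fin m) F) *ᵥ b → a = b := by
    intro g a b h
    have := congrArg (fun z => ((g⁻¹ : GL (Fin m ⊕ Fin m) F) : Matrix (Fin m ⊕ Fin m) (Fin m ⊕ Fin m) F) *ᵥ z) h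
    simpa only [inv_mulVec_mulVec] using this
  -- the stabiliser preserves `Q`
  have hle : decompositionStabilizer D ⊓ Cfsg.spGL m F ≤ quadSimilarityGroup Q ⊓ Cfsg.spGL m F := by
    rintro g ⟨⟨σ, hσ⟩, hg⟩
    refine ⟨⟨1, fun v => ?_⟩, hg⟩
    rw [Units.val_one, one_mul]
    have hmap : ∀ i, ∀ x ∈ D i, (g : Matrix (Fin m ⊕ Fin m) (Fin m ⊕ Fin m) F) *ᵥ x ∈ D (σ i) := by
      intro i x hx
      rw [← hσ i]
      exact ⟨x, hx, rfl⟩
    have hP : ∀ i x, P hD (σ i) ((g : Matrix (Fin m ⊕ Fin m) (Fin m ⊕ Fin m) F) *ᵥ x) = (g : Matrix (Fin m ⊕ Fin m) (Fin m ⊕ Fin m) F) *ᵥ (P hD i x) := by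
      intro i x
      conv_lhs => rw [← sum_P hD x]
      have : ∀ S : Finset (Fin t), (g : Matrix (Fin m ⊕ Fin m) (Fin m ⊕ Fin m) F) *ᵥ (∑ j ∈ S, P hD j x) = ∑ j ∈ S, (g : Matrix (Fin m ⊕ Fin m) (Fin m ⊕ Fin m) F) *ᵥ (P hD j x) := by
        intro S
        induction S using Finset.induction_on with
        | empty => simp
        | insert a S ha ih => rw [Finset.sum_insert ha, Finset.sum_insert ha, Matrix.mulVec_add, ih]
      rw [this, map_sum, Finset.sum_eq_single i]
      · exact P_self hD (hmap i _ (P_mem hD i x))
      · intro j _ hj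
        exact P_other hD (hmap j _ (P_mem hD j x)) (fun h => hj (σ.injective h))
      · simp
    show ∑ i, q (P hD i _) = ∑ i, q (P hD i v)
    rw [← Equiv.sum_comp σ]
    refine Finset.sum_congr rfl fun i _ => ?_
    rw [hP]
    simp only [q]
    have : (g : Matrix (Fin m ⊕ Fin m) (Fin m ⊕ Fin m) F) *ᵥ (P hD i v) = 0 ↔ P hD i v = 0 := by
      constructor
      · intro h0
        apply hinjmv g
        rw [h0, Matrix.mulVec_zero]
      · intro h0
        rw [h0, Matrix.mulVec_zero]
    simp only [this]
  refine lt_of_le_of_ne hle ?_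
  intro heq
  -- a vector of support three
  let i0 : Fin t := ⟨0, by omega⟩
  have htm : 3 ≤ t := by
    -- the dimension count
    have hsum : Module.finrank F (Fin m ⊕ Fin m → F) ≤ t * 2 := by
      let T : (Fin m ⊕ Fin m → F) →ₗ[F] (∀ i, D i) :=
        LinearMap.pi (fun i => (P hD i).codRestrict (D i) (P_mem hD i))
      have hT : Function.Injective T := by
        rw [← LinearMap.ker_eq_bot, LinearMap.ker_eq_bot']
        intro x hx
        rw [← sum_P hD x]
        refine Finset.sum_eq_zero fun i _ => ?_
        have := congrFun hx i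
        exact congrArg Subtype.val this
      have h5 := LinearMap.finrank_le_finrank_of_injective hT
      have h7 : Module.finrank F (∀ i, D i) = ∑ i : Fin t, Module.finrank F (D i) := Module.finrank_pi_fintype F
      have h6 : ∑ i : Fin t, Module.finrank F (D i) = t * 2 := by
        rw [Finset.sum_congr rfl fun i _ => hD.decomp.finrank_eq i]
        simp
      omega
    have hdim : Module.finrank F (Fin m ⊕ Fin m → F) = m + m := by simp
    omega
  let i1 : Fin t := ⟨1, by omega⟩
  let i2 : Fin t := ⟨2, by omega⟩
  have h01 : i0 ≠ i1 := by simp [i0, i1, Fin.ext_iff]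
  have h02 : i0 ≠ i2 := by simp [i0, i2, Fin.ext_iff]
  have h12 : i1 ≠ i2 := by simp [i1, i2, Fin.ext_iff]
  obtain ⟨a, ha, ha0⟩ := exists_ne hD i0
  obtain ⟨b, hb, hb0⟩ := exists_ne hD i1
  obtain ⟨c, hc, hc0⟩ := exists_ne hD i2
  have hPa : ∀ i, P hD i (a + b + c) = P hD i a + P hD i b + P hD i c := fun i => by rw [map_add, map_add]
  have hQabc : Q (a + b + c) = 1 := by
    show ∑ i, q (P hD i (a + b + c)) = 1
    have hP0 : P hD i0 (a + b + c) = a := by
      rw [hPa, P_self hD ha, P_other hD hb h01.symm, P_other hD hc h02.symm]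
      simp
    have hP1 : P hD i1 (a + b + c) = b := by
      rw [hPa, P_other hD ha h01, P_self hD hb, P_other hD hc h12.symm]
      simp
    have hP2 : P hD i2 (a + b + c) = c := by
      rw [hPa, P_other hD ha h02, P_other hD hb h12, P_self hD hc]
      simp
    have hPo : ∀ i, i ≠ i0 → i ≠ i1 → i ≠ i2 → P hD i (a + b + c) = 0 := by
      intro i h0 h1' h2'
      rw [hPa, P_other hD ha h0.symm, P_other hD hb h1'.symm, P_other hD hc h2'.symm]
      simp
    have hsub : (Finset.univ.filter (fun i => q (P hD i (a + b + c)) ≠ 0)) = {i0, i1, i2} := by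
      ext i
      simp only [Finset.mem_filter, Finset.mem_univ, true_and, Finset.mem_insert, Finset.mem_singleton]
      constructor
      · intro hi
        by_contra hcon
        push Not at hcon
        apply hi
        rw [hPo i hcon.1 hcon.2.1 hcon.2.2]
        simp [q]
      · rintro (rfl | rfl | rfl)
        · rw [hP0]
          simp [q, ha0]
        · rw [hP1]
          simp [q, hb0]
        · rw [hP2]
          simp [q, hc0]
    rw [← Finset.sum_filter_ne_zero (s := Finset.univ), hsub]
    rw [Finset.sum_insert (by simp [h01, h02]), Finset.sum_insert (by simp [h12]), Finset.sum_singleton]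
    rw [hP0, hP1, hP2]
    simp only [q, ha0, hb0, hc0, if_false]
    linear_combination h2
  -- the transvection
  have hmem : stv (a + b + c) (1 : F) ∈ quadSimilarityGroup Q ⊓ Cfsg.spGL m F := by
    refine ⟨⟨1, fun v => ?_⟩, stv_mem _ _⟩
    rw [stv_mulVec, Units.val_one, one_mul, one_mul]
    have hadd : ∀ x y, Q (x + y) = Q x + Q y + Cfsg.sympForm m F x y := by
      intro x y
      rw [← hpolQ, QuadraticMap.polar]
      ring
    rw [hadd, hQ.smul, hQabc, sympForm_smul_right]
    linear_combination (Cfsg.sympForm m F v (a + b + c)) ^ 2 * h2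
  rw [← heq] at hmem
  obtain ⟨σ, hσ⟩ := hmem.1
  obtain ⟨w, hw, hwa⟩ := exists_pair hD ha ha0
  have h1 : ((stv (a + b + c) (1 : F) : GL (Fin m ⊕ Fin m) F) : Matrix (Fin m ⊕ Fin m) (Fin m ⊕ Fin m) F) *ᵥ w ∈ D (σ i0) := by
    rw [← hσ i0]
    exact ⟨w, hw, rfl⟩
  have e : ((stv (a + b + c) (1 : F) : GL (Fin m ⊕ Fin m) F) : Matrix (Fin m ⊕ Fin m) (Fin m ⊕ Fin m) F) *ᵥ w = w + (a + b + c) := by
    rw [stv_mulVec, sympForm_add_right, sympForm_add_right, hwa, hD.orthogonal i0 i1 h01 w hw b hb, hD.orthogonal i0 i2 h02 w hw c hc]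
    simp
  rw [e] at h1
  have hP1 : P hD i1 (w + (a + b + c)) = b := by
    rw [map_add, map_add, map_add, P_other hD hw h01, P_other hD ha h01, P_self hD hb, P_other hD hc h12.symm]
    simp
  have hP2 : P hD i2 (w + (a + b + c)) = c := by
    rw [map_add, map_add, map_add, P_other hD hw h02, P_other hD ha h02, P_other hD hb h12, P_self hD hc]
    simp
  by_cases hj : σ i0 = i1
  · rw [hj] at h1
    exact hc0 (by rw [← hP2]; exact P_other hD h1 h12)
  · exact hb0 (by rw [← hP1]; exact P_other hD h1 hj)

end Cfsg.Agent.S5648
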