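import Cfsg.Statements.S5667
import Mathlib
import Cfsg.Agent.Lib.TensFrame3
import Cfsg.Agent.Lib.SpGL

set_option autoImplicit false
open Cfsg

namespace Cfsg.Agent.S5667


open Matrix Kronecker Cfsg.Geo Cfsg.Agent.Lib.TensForm Cfsg.Agent.Lib.TensFrame3 Cfsg.Agent.Lib.SpGL Cfsg.Agent.Lib.SympBasic
open scoped MatrixGroups

/-- `y ↦ P(y ⊗ w)`. -/
def Jr {F : Type*} [Field F] {ι : Type} [Fintype ι] [DecidableEq ι] {n₁ n₂ : ℕ} (e : ι ≃ Fin n₁ × Fin n₂) (P : GL ι F) (w : Fin n₂ → F) :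
    (Fin n₁ → F) →ₗ[F] (ι → F) where
  toFun y := iota e P (tens y w)
  map_add' y y' := by rw [tens_add_left, map_add]
  map_smul' c y := by rw [tens_smul_left, map_smul]; rfl

theorem Jr_apply {F : Type*} [Field F] {ι : Type} [Fintype ι] [DecidableEq ι] {n₁ n₂ : ℕ} (e : ι ≃ Fin n₁ × Fin n₂) (P : GL ι F)
    (w : Fin n₂ → F) (y : Fin n₁ → F) : Jr e P w y = iota e P (tens y w) := rfl


/-- Over the field with 3 elements and for m ≥ 7, suppose the standard alternating form on F^(2m) is similar, through P and e, to the tensor product of a non-degenerate symplectic form f₁ on F^(n₁) and a non-degenerate symmetric bilinear form f₂ on F^3. Then the elements of Sp_2m(3) in the stabiliser of this tensor decomposition form a subgroup that is not maximal: some subgroup lies strictly between it and Sp_2m(3). -/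
theorem result {F : Type*} [Field F] [Fintype F] (m : ℕ) (hm : 7 ≤ m) (hq : Fintype.card F = 3) (n₁ : ℕ) (e : (Fin m ⊕ Fin m) ≃ Fin n₁ × Fin 3) (P : Matrix.GeneralLinearGroup (Fin m ⊕ Fin m) F) (f₁ : (Fin n₁ → F) → (Fin n₁ → F) → F) (f₂ : (Fin 3 → F) → (Fin 3 → F) → F) (hf₁ : Cfsg.Geo.IsSymplecticForm f₁) (hf₂ : Cfsg.Geo.IsSymmetricForm f₂) (hT : Cfsg.Geo.IsTensorFormStructure id (Cfsg.sympForm m F) f₁ f₂ e P) : ∃ K : Subgroup (Matrix.GeneralLinearGroup (Fin m ⊕ Fin m) F), Cfsg.Geo.tensorProductSubgroup n₁ 3 e P ⊓ Cfsg.spGL m F < K ∧ K < Cfsg.spGL m F := by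
  classical
  have hnn : 2 * m = n₁ * 3 := by
    have := Fintype.card_congr e
    simp only [Fintype.card_sum, Fintype.card_fin, Fintype.card_prod] at this
    omega
  have hn₁ : 0 < n₁ := by omega
  obtain ⟨c, hc, hH⟩ := hT
  have TF : ∀ (w w' : Fin 3 → F) (y y' : Fin n₁ → F),
      Cfsg.sympForm m F (Jr e P w y) (Jr e P w' y') = c * (f₂ w w' * f₁ y y') := by
    intro w w' y y'
    have h1 := hH (tens y w) (tens y' w')
    rw [gram_tens (σ := id) (fun a b => rfl), ← form_eq (σ := id) f₁ hf₁.bilinear.add_left hf₁.bilinear.smul_left hf₁.bilinear.add_right hf₁.bilinear.smul_right,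
      ← form_eq (σ := id) f₂ hf₂.bilinear.add_left hf₂.bilinear.smul_left hf₂.bilinear.add_right hf₂.bilinear.smul_right] at h1
    rw [mul_comm (f₂ w w')]
    exact h1
  have hd : IsTensData (Jr e P) (Cfsg.sympForm m F) f₂ f₁ c :=
    ⟨hc, fun k w y => by rw [Jr_apply, Jr_apply, tens_smul_right, tens_smul_left], fun w w' y => by
      rw [Jr_apply, Jr_apply, Jr_apply, tens_add_right, map_add], TF,
      fun a a' u u' ha h => tens_prop' (iota_inj e P h) ha⟩
  obtain ⟨ε, w, hfr⟩ := exists_frame hq hf₂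
  have hε := hfr.ne
  have hw0 := hfr.diag
  have hoff := hfr.off
  have h01' : (0 : Fin 3) ≠ 1 := by decide
  have hw0ne : ∀ j, w j ≠ 0 := by
    intro j hj
    have h5 := hw0 j
    rw [hj] at h5
    have h6 := hf₂.bilinear.smul_left 0 0 0
    simp only [zero_smul, zero_mul] at h6
    rw [h6] at h5
    exact hε h5.symm
  let y₀ : Fin n₁ → F := Pi.single ⟨0, hn₁⟩ 1
  have hy₀ : y₀ ≠ 0 := by
    intro h
    have := congrFun h ⟨0, hn₁⟩
    simp [y₀] at this
  obtain ⟨⟨y₁, hy₁⟩, ⟨z₁, hz₁⟩⟩ := hf₁.nondegenerate y₀ hy₀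
  have hy₁ne : y₁ ≠ 0 := by
    rintro rfl
    apply hy₁
    have h6 := hf₁.bilinear.smul_left 0 0 y₀
    simpa using h6
  let D : Fin 3 → Submodule F (Fin m ⊕ Fin m → F) := fun j => LinearMap.range (Jr e P (w j))
  have hpair : ∀ j l, j ≠ l → ∀ x ∈ D j, ∀ u, Cfsg.sympForm m F x (Jr e P (w l) u) = 0 := by
    rintro j l hjl _ ⟨v, rfl⟩ u
    rw [TF, hoff j l hjl]
    simp
  let T : GL (Fin m ⊕ Fin m) F := stv (Jr e P (w 0) y₀) 1
  have hTsp : T ∈ Cfsg.spGL m F := stv_mem _ _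
  have hTstab : T ∈ decompositionStabilizer D := by
    apply stab_of_le
    intro j x hx
    rw [stv_mulVec]
    by_cases hj : j = 0
    · subst hj
      exact Submodule.add_mem _ hx (Submodule.smul_mem _ _ ⟨y₀, rfl⟩)
    · rw [hpair j 0 hj x hx, mul_zero, zero_smul, add_zero]
      exact hx
  have hκ : c * (ε * f₁ y₁ y₀) ≠ 0 := mul_ne_zero hc (mul_ne_zero hε hy₁)
  have hTnot : T ∉ tensorProductSubgroup n₁ 3 e P := by
    intro hmem
    obtain ⟨B, A, hAB⟩ := tensor_act e P T hmem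
    have hg : ∀ a y, (T : Matrix (Fin m ⊕ Fin m) (Fin m ⊕ Fin m) F) *ᵥ Jr e P a y = Jr e P ((A : Matrix (Fin 3) (Fin 3) F) *ᵥ a) ((B : Matrix (Fin n₁) (Fin n₁) F) *ᵥ y) := fun a y => hAB y a
    refine not_tens hd (hw0ne 0) (hw0ne 1) T A B hg (y := y₁) (y' := y₁ + (1 * (c * (ε * f₁ y₁ y₀))) • y₀) hy₁ne ?_ ?_ ?_
    · rw [stv_mulVec, TF, hoff 1 0 h01'.symm]
      simp
    · rw [stv_mulVec, TF, hw0, map_add, map_smul]
    · intro l h0
      have h5 := congrArg (fun v => f₁ v y₁) h0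
      simp only [hf₁.bilinear.add_left, hf₁.bilinear.smul_left, hf₁.alternating, mul_zero, add_zero] at h5
      rw [hf₁.skew y₀ y₁] at h5
      have h6 : c * (ε * f₁ y₁ y₀) * f₁ y₁ y₀ = 0 := by linear_combination -h5
      exact mul_ne_zero hκ hy₁ h6
  -- the second witness
  let T' : GL (Fin m ⊕ Fin m) F := stv (Jr e P (w 0 + w 1) y₀) 1
  have hT'sp : T' ∈ Cfsg.spGL m F := stv_mem _ _
  have h001 : f₂ (w 0) (w 0 + w 1) = ε := by
    rw [hf₂.bilinear.add_right, hw0, hoff 0 1 h01', add_zero]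
  have h011 : f₂ (w 0 + w 1) (w 1) = ε := by
    rw [hf₂.bilinear.add_left, hw0, hoff 0 1 h01', zero_add]
  have hT'not : T' ∉ decompositionStabilizer D := by
    rintro ⟨σ, hσ⟩
    have hx : (T' : Matrix (Fin m ⊕ Fin m) (Fin m ⊕ Fin m) F) *ᵥ Jr e P (w 0) y₁ ∈ D (σ 0) := by
      rw [← hσ 0]
      exact ⟨_, ⟨y₁, rfl⟩, rfl⟩
    rw [stv_mulVec, TF, h001, one_mul] at hx
    by_cases h0 : σ 0 = 0
    · rw [h0] at hx
      have h5 := hpair 0 1 h01' _ hx z₁
      rw [sympForm_add_left, sympForm_smul_left, TF, TF, hoff 0 1 h01', h011, zero_mul, mul_zero, zero_add] at h5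
      exact mul_ne_zero hκ (mul_ne_zero hc (mul_ne_zero hε hz₁)) h5
    · have h5 := hpair (σ 0) 0 h0 _ hx y₀
      rw [sympForm_add_left, sympForm_smul_left, TF, TF, hw0, hf₁.alternating, mul_zero, mul_zero, mul_zero, add_zero] at h5
      exact hκ h5
  have hle : ∀ g : GL (Fin m ⊕ Fin m) F, g ∈ tensorProductSubgroup n₁ 3 e P → g ∈ Cfsg.spGL m F → g ∈ decompositionStabilizer D := by
    intro g hgt hgS
    obtain ⟨B, A, hAB⟩ := tensor_act e P g hgt
    exact tens_stab hq hd hf₂ hfr (y₁ := y₁) (y₂ := y₀) hy₁ g A B (fun a y => hAB y a) hgS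
  refine ⟨decompositionStabilizer D ⊓ Cfsg.spGL m F, ?_, ?_⟩
  · rw [SetLike.lt_iff_le_and_exists]
    refine ⟨?_, T, ⟨hTstab, hTsp⟩, fun h => hTnot h.1⟩
    rintro g ⟨hgt, hgS⟩
    exact ⟨hle g hgt hgS, hgS⟩
  · rw [SetLike.lt_iff_le_and_exists]
    exact ⟨inf_le_right, T', hT'sp, fun h => hT'not h.1⟩

end Cfsg.Agent.S5667
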