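import Cfsg.Statements.S5671
import Mathlib
import Cfsg.Agent.Lib.TensForm
import Cfsg.Agent.Lib.UnitOver

set_option autoImplicit false
open Cfsg

namespace Cfsg.Agent.S5671


open Matrix Kronecker Cfsg.Geo Cfsg.Agent.Lib.TensForm Cfsg.Agent.Lib.UnitOver Cfsg.Agent.Lib.DecompOver
open scoped MatrixGroups

variable {F : Type*} [Field F] [Fintype F]

section forms
variable {m : ℕ} {f : (Fin m → F) → (Fin m → F) → F}

theorem add_right (hF : Fintype.card F = 4) (hf : IsUnitaryFormPow 2 f) (v x x' : Fin m → F) :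
    f v (x + x') = f v x + f v x' := by
  have h2 := two_zero hF
  rw [hf.herm v (x + x'), hf.add_left, add_sq, ← hf.herm, ← hf.herm]
  linear_combination (f x v * f x' v) * h2

theorem smul_right (hf : IsUnitaryFormPow 2 f) (c : F) (v x : Fin m → F) :
    f v (c • x) = c ^ 2 * f v x := by
  rw [hf.herm v (c • x), hf.smul_left, mul_pow, ← hf.herm]

theorem smul_right' (hf : IsUnitaryFormPow 2 f) (c : F) (v x : Fin m → F) :
    f v (c • x) = (fun x : F => x ^ 2) c * f v x := smul_right hf c v x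

theorem zero_left (hf : IsUnitaryFormPow 2 f) (v : Fin m → F) : f 0 v = 0 := by
  have := hf.smul_left 0 0 v
  simpa using this

theorem form_val (hF : Fintype.card F = 4) (hf : IsUnitaryFormPow 2 f) (x y : Fin m → F) :
    f x y = formOfGram (fun x : F => x ^ 2) (gramMatrix f) x y :=
  form_eq f hf.add_left hf.smul_left (add_right hF hf) (fun c v x => smul_right hf c v x) x y

theorem norm_cases (hf : IsUnitaryFormPow 2 f) (v : Fin m → F) : f v v = 0 ∨ f v v = 1 := by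
  have h := hf.herm v v
  have h3 : f v v * (f v v - 1) = 0 := by linear_combination (-1 : F) * h
  rcases mul_eq_zero.1 h3 with h4 | h4
  · exact Or.inl h4
  · exact Or.inr (sub_eq_zero.1 h4)

/-- A vector of non-zero norm (given a non-zero vector). -/
theorem exists_noniso (hF : Fintype.card F = 4) (hf : IsUnitaryFormPow 2 f) {w : Fin m → F} (hw : w ≠ 0) :
    ∃ v, f v v = 1 := by
  by_contra hc
  push Not at hc
  have hiso : ∀ v, f v v = 0 := fun v => (norm_cases hf v).resolve_right (hc v)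
  obtain ⟨⟨x, ha⟩, -⟩ := hf.nondegenerate w hw
  obtain ⟨ω, hω⟩ := exists_omega hF
  have h3 := hiso (x + (ω * f x w) • w)
  rw [hf.add_left, add_right hF hf, add_right hF hf, hf.smul_left, hf.smul_left, smul_right hf, smul_right hf,
    hiso x, hiso w] at h3
  have e1 : f w x = (f x w) ^ 2 := hf.herm w x
  rw [e1] at h3
  have h4 := cube hF ha
  have h5 : (1 : F) = 0 := by
    calc (1 : F) = (ω ^ 2 + ω) * (f x w) ^ 3 := by rw [hω, h4, one_mul]
      _ = 0 := by linear_combination h3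
  exact one_ne_zero h5

/-- An isotropic vector in dimension at least two. -/
theorem exists_iso (hF : Fintype.card F = 4) (hf : IsUnitaryFormPow 2 f) (hm : 2 ≤ m) :
    ∃ v, v ≠ 0 ∧ f v v = 0 := by
  by_contra hc
  push Not at hc
  have h2 := two_zero hF
  have hnorm : ∀ v, v ≠ 0 → f v v = 1 := fun v hv => (norm_cases hf v).resolve_left (hc v hv)
  obtain ⟨y₁, hy₁⟩ : ∃ y : Fin m → F, y ≠ 0 := by
    refine ⟨Pi.single ⟨0, by omega⟩ 1, ?_⟩
    intro h
    have := congrFun h ⟨0, by omega⟩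
    simp at this
  let L : (Fin m → F) →ₗ[F] F :=
    { toFun := fun x => f x y₁, map_add' := fun x y => hf.add_left x y y₁, map_smul' := fun c x => hf.smul_left c x y₁ }
  have hker : LinearMap.ker L ≠ ⊥ := by
    apply LinearMap.ker_ne_bot_of_finrank_lt
    rw [Module.finrank_self, Module.finrank_fintype_fun_eq_card, Fintype.card_fin]
    omega
  obtain ⟨y₂, hy₂, hy₂0⟩ := (Submodule.ne_bot_iff _).1 hker
  have h21 : f y₂ y₁ = 0 := hy₂
  have h12 : f y₁ y₂ = 0 := by rw [hf.herm, h21]; simp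
  by_cases hs : y₁ + y₂ = 0
  · have h3 : y₂ = -y₁ := by
      rw [eq_neg_iff_add_eq_zero, add_comm]
      exact hs
    have h4 := hnorm y₁ hy₁
    have h5 : f y₂ y₁ = - f y₁ y₁ := by
      have := hf.smul_left (-1) y₁ y₁
      rw [h3]
      simpa using this
    rw [h21, h4] at h5
    have : (1 : F) = 0 := by linear_combination h5
    exact one_ne_zero this
  · have h3 := hnorm _ hs
    rw [hf.add_left, add_right hF hf, add_right hF hf, h21, h12, hnorm y₁ hy₁, hnorm y₂ hy₂0] at h3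
    have : (1 : F) = 0 := by linear_combination h2 - h3
    exact one_ne_zero this

end forms

/-- orthonormal frames of the hermitian plane -/
theorem onb (hF : Fintype.card F = 4) {f : (Fin 2 → F) → (Fin 2 → F) → F} (hf : IsUnitaryFormPow 2 f) :
    ∃ w : Fin 2 → (Fin 2 → F), (∀ i, f (w i) (w i) = 1) ∧ (∀ i j, i ≠ j → f (w i) (w j) = 0) ∧
      ∀ v, f v v ≠ 0 → ∃ (j : Fin 2) (c : F), c ≠ 0 ∧ v = c • w j := by
  classical
  have h2 := two_zero hF
  have hne : (Pi.single 0 1 : Fin 2 → F) ≠ 0 := by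
    intro h
    have := congrFun h 0
    simp at this
  obtain ⟨w₀, h00⟩ := exists_noniso hF hf hne
  have hw₀ : w₀ ≠ 0 := by
    rintro rfl
    rw [zero_left hf] at h00
    exact zero_ne_one h00
  -- a vector outside the line of w₀
  obtain ⟨x, hx⟩ : ∃ x : Fin 2 → F, ∀ c : F, x ≠ c • w₀ := by
    by_contra hh
    push Not at hh
    obtain ⟨a, ha⟩ := hh (Pi.single 0 1)
    obtain ⟨b, hb⟩ := hh (Pi.single 1 1)
    have h1 := congrFun ha 0
    have h3 := congrFun ha 1
    have h4 := congrFun hb 0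
    have h5 := congrFun hb 1
    simp at h1 h3 h4 h5
    rcases h3 with h3 | h3
    · exact absurd (by simpa [h3] using h1) (one_ne_zero (α := F))
    · rcases h4 with h4 | h4
      · rw [h4] at h5
        simp at h5
      · rw [h4] at h1
        simp at h1
  let w₁ : Fin 2 → F := x - f x w₀ • w₀
  have hw₁ : w₁ ≠ 0 := by
    intro h
    exact hx (f x w₀) (sub_eq_zero.1 h)
  have h1add : ∀ (a b v : Fin 2 → F), f (a - b) v = f a v - f b v := by
    intro a b v
    have e : a - b = a + (-1 : F) • b := by simp [sub_eq_add_neg]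
    rw [e, hf.add_left, hf.smul_left]
    ring
  have h10 : f w₁ w₀ = 0 := by
    simp only [w₁]
    rw [h1add, hf.smul_left, h00]
    ring
  have h01 : f w₀ w₁ = 0 := by
    rw [hf.herm, h10]
    simp
  have hind : LinearIndependent F ![w₀, w₁] := by
    rw [LinearIndependent.pair_iff]
    intro s t h
    have h3 := congrArg (fun v => f v w₀) h
    simp only [hf.add_left, hf.smul_left, h00, h10, zero_left hf] at h3
    have hs : s = 0 := by simpa using h3
    subst hs
    simp only [zero_smul, zero_add] at h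
    exact ⟨rfl, (smul_eq_zero.1 h).resolve_right hw₁⟩
  have hspan := hind.span_eq_top_of_card_eq_finrank' (by simp)
  have hdec : ∀ v : Fin 2 → F, ∃ a b : F, v = a • w₀ + b • w₁ := by
    intro v
    have hv : v ∈ Submodule.span F (Set.range ![w₀, w₁]) := by
      rw [hspan]; trivial
    obtain ⟨c, hc⟩ := (Submodule.mem_span_range_iff_exists_fun F).1 hv
    refine ⟨c 0, c 1, ?_⟩
    rw [← hc, Fin.sum_univ_two]
    rfl
  have h11 : f w₁ w₁ = 1 := by
    refine (norm_cases hf w₁).resolve_left ?_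
    intro h
    obtain ⟨⟨z, hz⟩, -⟩ := hf.nondegenerate w₁ hw₁
    obtain ⟨a, b, rfl⟩ := hdec z
    apply hz
    rw [hf.add_left, hf.smul_left, hf.smul_left, h01, h]
    ring
  refine ⟨![w₀, w₁], ?_, ?_, ?_⟩
  · intro i
    fin_cases i
    · exact h00
    · exact h11
  · intro i j hij
    fin_cases i <;> fin_cases j
    · exact absurd rfl hij
    · exact h01
    · exact h10
    · exact absurd rfl hij
  · intro v hv
    obtain ⟨a, b, rfl⟩ := hdec v
    have e : f (a • w₀ + b • w₁) (a • w₀ + b • w₁) = a ^ 3 + b ^ 3 := by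
      simp only [hf.add_left, add_right hF hf, hf.smul_left, smul_right hf, h00, h11, h01, h10]
      ring
    rw [e] at hv
    by_cases ha : a = 0
    · subst ha
      have hb : b ≠ 0 := by
        rintro rfl
        simp at hv
      exact ⟨1, b, hb, by simp⟩
    · by_cases hb : b = 0
      · subst hb
        exact ⟨0, a, ha, by simp⟩
      · exfalso
        apply hv
        rw [cube hF ha, cube hF hb]
        linear_combination h2


/-- Let F be the field with 4 elements (q = 2) and n = 2 n₂ ≥ 13. Suppose the standard unitary form Σ u_i v_i² on F^n is similar, through P and e, to the tensor product of non-degenerate unitary forms f₁ on F^2 and f₂ on F^(n₂). Then the elements of SU_n(2) in the stabiliser of this tensor decomposition form a subgroup that is not maximal: some subgroup lies strictly between it and SU_n(2). -/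
theorem result {F : Type*} [Field F] [Fintype F] (n : ℕ) (hF : Fintype.card F = 4) (hn : 13 ≤ n) (n₂ : ℕ) (e : Fin n ≃ Fin 2 × Fin n₂) (P : Matrix.GeneralLinearGroup (Fin n) F) (f₁ : (Fin 2 → F) → (Fin 2 → F) → F) (f₂ : (Fin n₂ → F) → (Fin n₂ → F) → F) (hf₁ : Cfsg.Geo.IsUnitaryFormPow 2 f₁) (hf₂ : Cfsg.Geo.IsUnitaryFormPow 2 f₂) (hT : Cfsg.Geo.IsTensorFormStructure (fun x : F => x ^ 2) (Cfsg.hermForm n F 2) f₁ f₂ e P) : ∃ K : Subgroup (Matrix.GeneralLinearGroup (Fin n) F), Cfsg.Geo.tensorProductSubgroup 2 n₂ e P ⊓ (Cfsg.GU n F 2 ⊓ Cfsg.Geo.specialLinear (Fin n) F) < K ∧ K < (Cfsg.GU n F 2 ⊓ Cfsg.Geo.specialLinear (Fin n) F) := by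
  classical
  have h2F := two_zero hF
  have hF' := hF2 hF
  have hnn : n = 2 * n₂ := by
    have := Fintype.card_congr e
    simpa [Fintype.card_fin, Fintype.card_prod] using this
  have hn₂ : 2 ≤ n₂ := by omega
  obtain ⟨c, hc, hH⟩ := hT
  -- the tensor formula
  have TF : ∀ (w w' : Fin 2 → F) (y y' : Fin n₂ → F),
      hermForm n F 2 (Jl e P w y) (Jl e P w' y') = c * (f₁ w w' * f₂ y y') := by
    intro w w' y y'
    have h1 := hH (tens w y) (tens w' y')
    have h3 : hermForm n F 2 (Jl e P w y) (Jl e P w' y') = hermForm n F 2 (P.1 *ᵥ (tens w y ∘ e)) (P.1 *ᵥ (tens w' y' ∘ e)) := rfl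
    rw [h3, h1, gram_tens (fun a b => mul_pow a b 2), ← form_val hF hf₁, ← form_val hF hf₂]
  obtain ⟨w, hww, hw0, hwc⟩ := onb hF hf₁
  obtain ⟨y₀, hy₀, hy₀₀⟩ := exists_iso hF hf₂ hn₂
  obtain ⟨⟨y₁, hy₁⟩, -⟩ := hf₂.nondegenerate y₀ hy₀
  obtain ⟨-, ⟨z₁, hz₁⟩⟩ := hf₂.nondegenerate y₀ hy₀
  have h01' : (0 : Fin 2) ≠ 1 := by decide
  let D : Fin 2 → Submodule F (Fin n → F) := fun j => LinearMap.range (Jl e P (w j))
  have hD : ∀ j x, x ∈ D j ↔ ∃ y, Jl e P (w j) y = x := fun j x => LinearMap.mem_range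
  -- the transvection inside one block
  have hu : hermForm n F 2 (Jl e P (w 0) y₀) (Jl e P (w 0) y₀) = 0 := by
    rw [TF, hy₀₀, mul_zero, mul_zero]
  let T := Tu (Jl e P (w 0) y₀) hu
  have hTgu : T ∈ GU n F 2 := Tu_mem hF _ _
  have hTsl : T ∈ specialLinear (Fin n) F := (mem_SL _).2 (Tu_det _ _)
  have hT0 : ∀ y, (T : Matrix (Fin n) (Fin n) F) *ᵥ Jl e P (w 0) y = Jl e P (w 0) (y + (c * (f₁ (w 0) (w 0) * f₂ y y₀)) • y₀) := by
    intro y
    rw [Tu_mulVec, TF, map_add, map_smul]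
  have hT1 : ∀ y, (T : Matrix (Fin n) (Fin n) F) *ᵥ Jl e P (w 1) y = Jl e P (w 1) y := by
    intro y
    rw [Tu_mulVec, TF, hw0 1 0 h01'.symm]
    simp
  have hTstab : T ∈ decompositionStabilizer D := by
    refine ⟨1, fun j => ?_⟩
    have hle : ∀ x ∈ D j, (T : Matrix (Fin n) (Fin n) F) *ᵥ x ∈ D j := by
      intro x hx
      obtain ⟨y, rfl⟩ := (hD j x).1 hx
      fin_cases j
      · exact (hD _ _).2 ⟨_, (hT0 y).symm⟩
      · exact (hD _ _).2 ⟨y, (hT1 y).symm⟩
    apply le_antisymm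
    · rintro _ ⟨x, hx, rfl⟩
      exact hle x hx
    · intro x hx
      refine ⟨(T : Matrix (Fin n) (Fin n) F) *ᵥ x, hle x hx, ?_⟩
      rw [Matrix.toLin'_apply]
      exact Tu_invol hF _ _ x
  -- not a tensor
  have hTnot : T ∉ tensorProductSubgroup 2 n₂ e P := by
    intro hmem
    obtain ⟨A, B, hAB⟩ := tensor_act e P T hmem
    have h1 := hT1 y₁
    rw [Jl_apply, hAB] at h1
    have h1' := iota_inj e P h1
    have h3 := hT0 y₁
    rw [Jl_apply, hAB] at h3
    have h3' := iota_inj e P h3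
    have hw₀ne : w 0 ≠ 0 := by
      intro h
      have := hww 0
      rw [h, zero_left hf₁] at this
      exact zero_ne_one this
    have hw₁ne : w 1 ≠ 0 := by
      intro h
      have := hww 1
      rw [h, zero_left hf₁] at this
      exact zero_ne_one this
    obtain ⟨l₁, hl₁⟩ := tens_prop h1'.symm hw₁ne
    obtain ⟨l₂, hl₂⟩ := tens_prop h3'.symm hw₀ne
    have hκ : c * (f₁ (w 0) (w 0) * f₂ y₁ y₀) ≠ 0 := by
      rw [hww 0, one_mul]
      exact mul_ne_zero hc hy₁
    -- evaluate the form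
    have h4 := congrArg (fun v => f₂ v y₀) hl₂
    have h5 := congrArg (fun v => f₂ v y₀) hl₁
    simp only [hf₂.add_left, hf₂.smul_left, hy₀₀, mul_zero, add_zero] at h4 h5
    -- `f₂ y₁ y₀ = l₂ * f₂ (B y₁) y₀` and `f₂ y₁ y₀ = l₁ * f₂ (B y₁) y₀`
    have hl₁0 : l₁ ≠ 0 := by
      rintro rfl
      apply hy₁
      rw [h5, zero_mul]
    have hBy : (B : Matrix (Fin n₂) (Fin n₂) F) *ᵥ y₁ = l₁⁻¹ • y₁ := by
      rw [eq_inv_smul_iff₀ hl₁0]
      exact hl₁.symm
    rw [hBy, smul_smul] at hl₂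
    have h6 := congrArg (fun v => f₂ v y₀) hl₂
    simp only [hf₂.add_left, hf₂.smul_left, hy₀₀, mul_zero, add_zero] at h6
    have h7 : l₂ * l₁⁻¹ = 1 := mul_right_cancel₀ hy₁ (by rw [one_mul]; exact h6.symm)
    rw [h7, one_smul] at hl₂
    have h8 : (c * (f₁ (w 0) (w 0) * f₂ y₁ y₀)) • y₀ = 0 := by simpa using hl₂
    exact (smul_eq_zero.1 h8).elim hκ hy₀
  -- the mixing transvection
  have hu' : hermForm n F 2 (Jl e P (w 0 + w 1) y₀) (Jl e P (w 0 + w 1) y₀) = 0 := by
    rw [TF, hy₀₀, mul_zero, mul_zero]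
  let T' := Tu (Jl e P (w 0 + w 1) y₀) hu'
  have hT'gu : T' ∈ GU n F 2 := Tu_mem hF _ _
  have hT'sl : T' ∈ specialLinear (Fin n) F := (mem_SL _).2 (Tu_det _ _)
  have h001 : f₁ (w 0) (w 0 + w 1) = 1 := by
    rw [add_right hF hf₁, hww 0, hw0 0 1 h01', add_zero]
  have h011 : f₁ (w 0 + w 1) (w 1) = 1 := by
    rw [hf₁.add_left, hww 1, hw0 0 1 h01', zero_add]
  have h010 : f₁ (w 0 + w 1) (w 0) = 1 := by
    rw [hf₁.add_left, hww 0, hw0 1 0 h01'.symm, add_zero]
  have hT'not : T' ∉ decompositionStabilizer D := by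
    rintro ⟨σ, hσ⟩
    have hx : (T' : Matrix (Fin n) (Fin n) F) *ᵥ Jl e P (w 0) y₁ ∈ D (σ 0) := by
      rw [← hσ 0]
      exact ⟨_, (hD 0 _).2 ⟨y₁, rfl⟩, rfl⟩
    obtain ⟨y, hy⟩ := (hD _ _).1 hx
    rw [Tu_mulVec, TF, h001, one_mul] at hy
    have hcases : σ 0 = 0 ∨ σ 0 = 1 := by
      generalize σ 0 = k
      fin_cases k
      · exact Or.inl rfl
      · exact Or.inr rfl
    rcases hcases with h0 | h0
    · rw [h0] at hy
      have h3 := congrArg (fun v => hermForm n F 2 v (Jl e P (w 1) z₁)) hy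
      simp only [Cfsg.Agent.Lib.HermForm.hf_add_left, Cfsg.Agent.Lib.HermForm.hf_smul_left, TF, hw0 0 1 h01', h011] at h3
      simp only [zero_mul, mul_zero, zero_add, one_mul] at h3
      exact mul_ne_zero (mul_ne_zero hc hy₁) (mul_ne_zero hc hz₁) h3.symm
    · rw [h0] at hy
      have h3 := congrArg (fun v => hermForm n F 2 v (Jl e P (w 0) y₀)) hy
      simp only [Cfsg.Agent.Lib.HermForm.hf_add_left, Cfsg.Agent.Lib.HermForm.hf_smul_left, TF, hw0 1 0 h01'.symm, hww 0, h010, hy₀₀] at h3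
      simp only [zero_mul, mul_zero, add_zero, one_mul] at h3
      exact mul_ne_zero hc hy₁ h3.symm
  have hle : ∀ g : GL (Fin n) F, g ∈ tensorProductSubgroup 2 n₂ e P → g ∈ GU n F 2 → g ∈ decompositionStabilizer D := by
    intro g hgt hgu
    obtain ⟨A, B, hAB⟩ := tensor_act e P g hgt
    have hg' : ∀ a y, (g : Matrix (Fin n) (Fin n) F) *ᵥ Jl e P a y = Jl e P ((A : Matrix (Fin 2) (Fin 2) F) *ᵥ a) ((B : Matrix (Fin n₂) (Fin n₂) F) *ᵥ y) := hAB
    have hpres : ∀ a a' y y', f₁ ((A : Matrix (Fin 2) (Fin 2) F) *ᵥ a) ((A : Matrix (Fin 2) (Fin 2) F) *ᵥ a') * f₂ ((B : Matrix (Fin n₂) (Fin n₂) F) *ᵥ y) ((B : Matrix (Fin n₂) (Fin n₂) F) *ᵥ y') = f₁ a a' * f₂ y y' := by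
      intro a a' y y'
      have h1 : hermForm n F 2 ((g : Matrix (Fin n) (Fin n) F) *ᵥ Jl e P a y) ((g : Matrix (Fin n) (Fin n) F) *ᵥ Jl e P a' y') = hermForm n F 2 (Jl e P a y) (Jl e P a' y') := hgu _ _
      rw [hg', hg', TF, TF] at h1
      exact mul_left_cancel₀ hc h1
    have hnorm : ∀ j, f₁ ((A : Matrix (Fin 2) (Fin 2) F) *ᵥ w j) ((A : Matrix (Fin 2) (Fin 2) F) *ᵥ w j) ≠ 0 := by
      intro j h0
      have := hpres (w j) (w j) y₁ y₀
      rw [h0, zero_mul, hww j, one_mul] at this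
      exact hy₁ this.symm
    have hB : f₂ ((B : Matrix (Fin n₂) (Fin n₂) F) *ᵥ y₁) ((B : Matrix (Fin n₂) (Fin n₂) F) *ᵥ y₀) ≠ 0 := by
      intro h0
      have := hpres (w 0) (w 0) y₁ y₀
      rw [h0, mul_zero, hww, one_mul] at this
      exact hy₁ this.symm
    choose τ c' hc' hτ using fun j => hwc _ (hnorm j)
    have hτinj : Function.Injective τ := by
      intro i j hij
      by_contra hne
      have h1 := hpres (w i) (w j) y₁ y₀
      rw [hw0 i j hne, zero_mul, hτ i, hτ j, hf₁.smul_left, smul_right hf₁, hij, hww (τ j)] at h1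
      exact mul_ne_zero (mul_ne_zero (hc' i) (mul_ne_zero (pow_ne_zero _ (hc' j)) one_ne_zero)) hB h1
    let σ : Equiv.Perm (Fin 2) := Equiv.ofBijective τ (Finite.injective_iff_bijective.mp hτinj)
    refine ⟨σ, fun j => ?_⟩
    have hσ : σ j = τ j := rfl
    rw [hσ]
    apply le_antisymm
    · rintro _ ⟨x, hx, rfl⟩
      obtain ⟨y, rfl⟩ := (hD j x).1 hx
      change (g : Matrix (Fin n) (Fin n) F) *ᵥ _ ∈ _
      rw [hg', hτ j]
      refine (hD _ _).2 ⟨c' j • ((B : Matrix (Fin n₂) (Fin n₂) F) *ᵥ y), ?_⟩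
      rw [Jl_apply, Jl_apply, tens_smul_swap]
    · intro x hx
      obtain ⟨y, rfl⟩ := (hD _ x).1 hx
      refine ⟨Jl e P (w j) (((B⁻¹ : GL (Fin n₂) F) : Matrix (Fin n₂) (Fin n₂) F) *ᵥ ((c' j)⁻¹ • y)), (hD j _).2 ⟨_, rfl⟩, ?_⟩
      change (g : Matrix (Fin n) (Fin n) F) *ᵥ _ = _
      rw [hg', hτ j, Jl_apply, Jl_apply, tens_smul_swap, mulVec_mulVec]
      have h5 : (B : Matrix (Fin n₂) (Fin n₂) F) * ((B⁻¹ : GL (Fin n₂) F) : Matrix (Fin n₂) (Fin n₂) F) = 1 := by
        rw [← Units.val_mul, mul_inv_cancel, Units.val_one]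
      rw [h5, one_mulVec, smul_smul, mul_inv_cancel₀ (hc' j), one_smul]
  refine ⟨decompositionStabilizer D ⊓ (GU n F 2 ⊓ specialLinear (Fin n) F), ?_, ?_⟩
  · rw [SetLike.lt_iff_le_and_exists]
    refine ⟨?_, T, ⟨hTstab, hTgu, hTsl⟩, fun h => hTnot h.1⟩
    rintro g ⟨hgt, hgu, hgs⟩
    exact ⟨hle g hgt hgu, hgu, hgs⟩
  · rw [SetLike.lt_iff_le_and_exists]
    exact ⟨inf_le_right, T', ⟨hT'gu, hT'sl⟩, fun h => hT'not h.1⟩

end Cfsg.Agent.S5671
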