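import Cfsg.Statements.S5686
import Cfsg.Agent.Lib.OrthSwap

set_option autoImplicit false
open Cfsg

namespace Cfsg.Agent.S5686

open Matrix Cfsg.Geo Cfsg.Agent.Lib.FormVec Cfsg.Agent.Lib.OrthOmega Cfsg.Agent.Lib.OrthSub2 Cfsg.Agent.Lib.OrthE Cfsg.Agent.Lib.OrthMax Cfsg.Agent.Lib.OrthLocal Cfsg.Agent.Lib.OrthSwap Cfsg.Agent.Lib.OrthPair Cfsg.Agent.Lib.OrthFam

/-- Let F be a finite field with q elements, n ≥ 13 even, Q a non-degenerate quadratic form on F^n of plus type (some subspace of dimension n/2 is totally singular), and Ω the commutator subgroup of the isometry group of Q, viewed inside GL_n(F). The elements of Ω stabilising a subspace of dimension n/2 − 1 on which Q vanishes form a subgroup that is not maximal: some subgroup lies strictly between it and Ω. -/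
theorem result {F : Type*} [Field F] [Fintype F] {n : ℕ} (hn : 13 ≤ n) (heven : Even n) (Q : (Fin n → F) → F) (hQ : Cfsg.Geo.IsNondegenerateQuadraticForm Q) (hplus : Cfsg.Geo.IsPlusTypeOn Q ⊤) (W : Submodule F (Fin n → F)) (hW : Cfsg.Geo.IsTotallySingularQuad Q W) (hdim : 2 * (Module.finrank F W + 1) = n) : ∃ K : Subgroup (Matrix.GeneralLinearGroup (Fin n) F), Cfsg.Geo.subspaceStabilizer W ⊓ Cfsg.Geo.omegaGL Q < K ∧ K < Cfsg.Geo.omegaGL Q := by
  have hcard : Fintype.card (Fin n) = n := Fintype.card_fin n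
  have hn5 : 5 ≤ Fintype.card (Fin n) := by omega
  obtain ⟨U, -, hUts, hUdim⟩ := hplus
  rw [finrank_top] at hUdim
  have htop : Module.finrank F (Fin n → F) = n := by simp
  rw [htop] at hUdim
  have hUd : 2 * Module.finrank F U = Fintype.card (Fin n) := by omega
  have hUperp := ts_perp_eq hQ hUts hUd
  have hSdim := finrank_perp hQ (W ⊔ U)
  have h1 := Submodule.finrank_sup_add_finrank_inf_eq W U
  obtain ⟨c, hcS, hcn⟩ : ∃ c ∈ perp hQ (W ⊔ U), c ∉ W ⊓ U := by
    by_contra hcon
    have hle : perp hQ (W ⊔ U) ≤ W ⊓ U := fun x hx => by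
      by_contra hxn
      exact hcon ⟨x, hx, hxn⟩
    have := Submodule.finrank_mono hle
    omega
  have hcU : c ∈ U := by
    rw [← hUperp]
    exact perp_anti hQ le_sup_right hcS
  have hcW : c ∉ W := fun h => hcn ⟨h, hcU⟩
  have hcperp : c ∈ perp hQ W := perp_anti hQ le_sup_left hcS
  have hQc : Q c = 0 := hUts c hcU
  have hMts := ts_sup hQ hW hQc hcperp
  have hMdim := finrank_sup_span W hcW
  have hMd2 : 2 * Module.finrank F (W ⊔ Submodule.span F {c} : Submodule F (Fin n → F)) = Fintype.card (Fin n) := by omega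
  have hM0 : (W ⊔ Submodule.span F {c} : Submodule F (Fin n → F)) ≠ ⊥ := by
    intro h
    rw [h, finrank_bot] at hMdim
    omega
  have hmax := parab_maximal hQ (by omega) _ hM0 hMts (by
    intro U' _ h1 h2
    omega)
  refine ⟨subspaceStabilizer (W ⊔ Submodule.span F {c}) ⊓ omegaGL Q, ?_, hmax.1⟩
  refine lt_of_le_of_ne ?_ ?_
  · rintro g ⟨hgW, hg⟩
    refine ⟨?_, hg⟩
    have hpar := parity_omega hQ hn5 hg hMts hMd2
    have hWle : W ≤ ((W ⊔ Submodule.span F {c}) ⊓ gm g (W ⊔ Submodule.span F {c}) : Submodule F (Fin n → F)) := by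
      intro x hx
      refine ⟨Submodule.mem_sup_left hx, ?_⟩
      have h2 : ((g⁻¹ : Matrix.GeneralLinearGroup (Fin n) F) : Matrix (Fin n) (Fin n) F) *ᵥ x ∈ W := by
        rw [(mem_stab_iff W g).1 hgW, mulVec_inv_mulVec]
        exact hx
      refine ⟨_, Submodule.mem_sup_left h2, ?_⟩
      exact mulVec_inv_mulVec g x
    have h3 := Submodule.finrank_mono hWle
    have h4 := Submodule.finrank_mono (inf_le_left : ((W ⊔ Submodule.span F {c}) ⊓ gm g (W ⊔ Submodule.span F {c}) : Submodule F (Fin n → F)) ≤ (W ⊔ Submodule.span F {c} : Submodule F (Fin n → F)))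
    have heq : Module.finrank F ((W ⊔ Submodule.span F {c}) ⊓ gm g (W ⊔ Submodule.span F {c}) : Submodule F (Fin n → F)) = Module.finrank F (W ⊔ Submodule.span F {c} : Submodule F (Fin n → F)) := by
      rcases hpar with ⟨r, hr⟩
      omega
    have hle := Submodule.eq_of_le_of_finrank_eq inf_le_left heq
    have hle2 : (W ⊔ Submodule.span F {c} : Submodule F (Fin n → F)) ≤ gm g (W ⊔ Submodule.span F {c}) := inf_eq_left.1 hle
    have hgm := Submodule.eq_of_le_of_finrank_eq hle2 (finrank_gm g _).symm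
    refine mem_stab_of_le fun v hv => ?_
    rw [hgm]
    exact mulVec_mem_gm hv
  · intro heq
    have hW0 : W ≠ ⊥ := by
      intro h
      rw [h, finrank_bot] at hdim
      omega
    obtain ⟨z, hz, hz0⟩ := Submodule.exists_mem_ne_zero_of_ne_bot hW0
    have hzc : z ∉ Submodule.span F {c} := by
      intro h
      obtain ⟨a, rfl⟩ := Submodule.mem_span_singleton.mp h
      have ha : a ≠ 0 := by
        rintro rfl
        simp at hz0
      apply hcW
      have : c = a⁻¹ • (a • c) := by rw [smul_smul, inv_mul_cancel₀ ha, one_smul]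
      rw [this]
      exact W.smul_mem _ hz
    obtain ⟨u, hu1, hu0⟩ := exists_sep hQ _ hzc
    have huc : QuadraticMap.polar Q c u = 0 := by
      rw [B_comm hQ]
      exact hu0 c (Submodule.mem_span_singleton_self c)
    have hEM : E Q c u ∈ subspaceStabilizer (W ⊔ Submodule.span F {c}) ⊓ omegaGL Q := by
      refine ⟨mem_stab_of_le fun v hv => ?_, E_mem_comm hQ hn5 hQc huc⟩
      rw [E_mulVec hQ hQc huc, ts_perp hQ hMts hv (Submodule.mem_sup_right (Submodule.mem_span_singleton_self c))]
      have : v + (0 : F) • u - QuadraticMap.polar Q v u • c - (Q u * 0) • c = v - QuadraticMap.polar Q v u • c := by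
        module
      rw [this]
      exact Submodule.sub_mem _ hv (Submodule.smul_mem _ _ (Submodule.mem_sup_right (Submodule.mem_span_singleton_self c)))
    rw [← heq] at hEM
    have h5 := ((mem_stab_iff W _).1 hEM.1 z).1 hz
    rw [E_mulVec hQ hQc huc, B_comm hQ z u, hu1, ts_perp hQ hMts (Submodule.mem_sup_left hz) (Submodule.mem_sup_right (Submodule.mem_span_singleton_self c))] at h5
    apply hcW
    have h6 : c = z - (z + (0 : F) • u - (1 : F) • c - (Q u * 0) • c) := by module
    rw [h6]
    exact W.sub_mem hz h5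

end Cfsg.Agent.S5686
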