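import Cfsg.Statements.S5688
import Cfsg.Agent.Lib.OrthSub2

set_option autoImplicit false
open Cfsg

namespace Cfsg.Agent.S5688

open Cfsg.Agent.Lib.OrthOmega Cfsg.Agent.Lib.OrthSub2 Cfsg.Agent.Lib.OrthE

/-- Let F be a finite field with q elements, n ≥ 13 even, Q a non-degenerate quadratic form on F^n of plus type (some subspace of dimension n/2 is totally singular), and Ω the commutator subgroup of the isometry group of Q, viewed inside GL_n(F). Let W be a non-zero proper subspace with dim W ≠ n/2 on which the polar form of Q is non-degenerate. Exclude the case q ≤ 3 in which W, or its orthogonal complement, is a plane containing a line on which Q vanishes. Then the elements of Ω stabilising W form a maximal subgroup of Ω. -/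
theorem result {F : Type*} [Field F] [Fintype F] {n : ℕ} (hn : 13 ≤ n) (heven : Even n) (Q : (Fin n → F) → F) (hQ : Cfsg.Geo.IsNondegenerateQuadraticForm Q) (hplus : Cfsg.Geo.IsPlusTypeOn Q ⊤) (W : Submodule F (Fin n → F)) (hW0 : W ≠ ⊥) (hW1 : W ≠ ⊤) (hdim : 2 * Module.finrank F W ≠ n) (hW : Cfsg.Geo.IsNondegenerateOn (QuadraticMap.polar Q) W) (hex : ¬ (Fintype.card F ≤ 3 ∧ (∃ U : Submodule F (Fin n → F), Module.finrank F U = 2 ∧ Cfsg.Geo.IsNondegenerateOn (QuadraticMap.polar Q) U ∧ Cfsg.Geo.IsPlusTypeOn Q U ∧ (U = W ∨ (Cfsg.Geo.AreOrthogonalFor (QuadraticMap.polar Q) U W ∧ Module.finrank F U + Module.finrank F W = n))))) : Cfsg.Geo.IsMaximalIn (Cfsg.Geo.omegaGL Q) (Cfsg.Geo.subspaceStabilizer W ⊓ Cfsg.Geo.omegaGL Q) := by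
  have hsum := finrank_perp hQ W
  rw [Fintype.card_fin] at hsum
  refine sub_maximal hQ (by simp; omega) W hW hW0 hW1 (Or.inl (by omega)) ?_ ?_
  · rintro ⟨h1, h2, s, hs, hs0, hQs⟩
    exact hex ⟨h1, W, h2, hW, plus_of_sing hQ h2 hs hs0 hQs, Or.inl rfl⟩
  · rintro ⟨h1, h2, s, hs, hs0, hQs⟩
    refine hex ⟨h1, perp hQ W, h2, nondegOn_of_inf hQ (perp_inf hQ (nondeg_inf hQ hW)), plus_of_sing hQ h2 hs hs0 hQs, Or.inr ⟨?_, hsum⟩⟩
    intro u hu v hv
    rw [B_comm hQ]
    exact (mem_perp hQ).1 hu v hv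

end Cfsg.Agent.S5688
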