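import Cfsg.Statements.S5689
import Cfsg.Agent.Lib.OrthDouble

set_option autoImplicit false
open Cfsg

namespace Cfsg.Agent.S5689

open Matrix Cfsg.Geo Cfsg.Agent.Lib.OrthOmega Cfsg.Agent.Lib.OrthSub2 Cfsg.Agent.Lib.OrthE Cfsg.Agent.Lib.OrthMax Cfsg.Agent.Lib.OrthLocal Cfsg.Agent.Lib.OrthDouble

/-- Let F be a finite field with q elements, n ≥ 13 even, Q a non-degenerate quadratic form on F^n of minus type (no subspace of dimension n/2 is totally singular), and Ω the commutator subgroup of the isometry group of Q, viewed inside GL_n(F). Let W be a non-zero proper subspace on which the polar form of Q is non-degenerate, not of odd dimension n/2. Exclude the case q ≤ 3 in which W, or its orthogonal complement, is a plane containing a line on which Q vanishes. Then the elements of Ω stabilising W form a maximal subgroup of Ω. -/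
theorem result {F : Type*} [Field F] [Fintype F] {n : ℕ} (hn : 13 ≤ n) (heven : Even n) (Q : (Fin n → F) → F) (hQ : Cfsg.Geo.IsNondegenerateQuadraticForm Q) (hminus : ¬ Cfsg.Geo.IsPlusTypeOn Q ⊤) (W : Submodule F (Fin n → F)) (hW0 : W ≠ ⊥) (hW1 : W ≠ ⊤) (hdim : ¬ (2 * Module.finrank F W = n ∧ Odd (Module.finrank F W))) (hW : Cfsg.Geo.IsNondegenerateOn (QuadraticMap.polar Q) W) (hex : ¬ (Fintype.card F ≤ 3 ∧ (∃ U : Submodule F (Fin n → F), Module.finrank F U = 2 ∧ Cfsg.Geo.IsNondegenerateOn (QuadraticMap.polar Q) U ∧ Cfsg.Geo.IsPlusTypeOn Q U ∧ (U = W ∨ (Cfsg.Geo.AreOrthogonalFor (QuadraticMap.polar Q) U W ∧ Module.finrank F U + Module.finrank F W = n))))) : Cfsg.Geo.IsMaximalIn (Cfsg.Geo.omegaGL Q) (Cfsg.Geo.subspaceStabilizer W ⊓ Cfsg.Geo.omegaGL Q) := by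
  have hinf := nondeg_inf hQ hW
  have hsum := finrank_perp hQ W
  have hcard : Fintype.card (Fin n) = n := Fintype.card_fin n
  rw [hcard] at hsum
  refine sub_maximal hQ (by rw [hcard]; exact hn) W hW hW0 hW1 ?_ ?_ ?_
  · by_contra hcon
    rw [not_or, not_not, not_not] at hcon
    obtain ⟨h1, h2⟩ := hcon
    have hev : Even (Module.finrank F W) := by
      rw [← Nat.not_odd_iff_even]
      intro hodd
      exact hdim ⟨by omega, hodd⟩
    exact hminus (plus_of_isometric_perp hQ hinf h2 hev)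
  · rintro ⟨h1, h2, s, hs, hs0, hQs⟩
    exact hex ⟨h1, W, h2, hW, plus_of_sing hQ h2 hs hs0 hQs, Or.inl rfl⟩
  · rintro ⟨h1, h2, s, hs, hs0, hQs⟩
    have hperpinf : perp hQ W ⊓ perp hQ (perp hQ W) = ⊥ := by
      rw [perp_perp, inf_comm]
      exact hinf
    refine hex ⟨h1, perp hQ W, h2, nondegOn_of_inf hQ hperpinf, plus_of_sing hQ h2 hs hs0 hQs, Or.inr ⟨?_, by omega⟩⟩
    intro x hx y hy
    rw [B_comm hQ]
    exact (mem_perp hQ).1 hx y hy

end Cfsg.Agent.S5689
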