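import Cfsg.Statements.S5693
import Mathlib
import Cfsg.Agent.Lib.FrameO2b
import Cfsg.Agent.Lib.DecompOver

set_option autoImplicit false
open Cfsg

namespace Cfsg.Agent.S5693

/-- Let F be a finite field with q elements, n ≥ 13 even, Q a non-degenerate quadratic form on F^n of plus type (some subspace of dimension n/2 is totally singular), and Ω the commutator subgroup of the isometry group of Q, viewed inside GL_n(F). Let D be a decomposition of F^n into t ≥ 2 pairwise orthogonal, pairwise Q-isometric subspaces of equal dimension k on which the polar form is non-degenerate (with, for even k, all members of plus type or t even; for odd k, q odd and square discriminant), in one of the cases: k = 2 with q = 3; k = 2 with plus-type members and q ∈ {2, 4, 5}; k = 3 with q = 3; k = 4 with plus-type members and q = 2. Then the elements of Ω permuting the members of D form a subgroup that is not maximal: some subgroup lies strictly between it and Ω. -/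
theorem result {F : Type*} [Field F] [Fintype F] {n : ℕ} (hn : 13 ≤ n) (heven : Even n) (Q : (Fin n → F) → F) (hQ : Cfsg.Geo.IsNondegenerateQuadraticForm Q) (hplus : Cfsg.Geo.IsPlusTypeOn Q ⊤) {t : ℕ} (k : ℕ) (D : Fin t → Submodule F (Fin n → F)) (hD : Cfsg.Geo.IsOrthogonalMDecomposition Q k D) (hke : Even k → ((∀ i, Cfsg.Geo.IsPlusTypeOn Q (D i)) ∨ Even t)) (hko : Odd k → (Odd (Fintype.card F) ∧ Cfsg.Geo.HasSquareDiscriminant Q)) (hcase : ((k = 2 ∧ (Fintype.card F = 3 ∨ ((∀ i, Cfsg.Geo.IsPlusTypeOn Q (D i)) ∧ (Fintype.card F = 2 ∨ Fintype.card F = 4 ∨ Fintype.card F = 5)))) ∨ (k = 3 ∧ Fintype.card F = 3) ∨ (k = 4 ∧ Fintype.card F = 2 ∧ ∀ i, Cfsg.Geo.IsPlusTypeOn Q (D i)))) : ∃ K : Subgroup (Matrix.GeneralLinearGroup (Fin n) F), Cfsg.Geo.decompositionStabilizer D ⊓ Cfsg.Geo.omegaGL Q < K ∧ K < Cfsg.Geo.omegaGL Q := by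
  classical
  obtain ⟨b, -, -⟩ := Cfsg.Agent.Lib.DecompOver.exists_basis hD.decomp.decomp
  have hcard : t * k = n := by
    have := Module.finrank_eq_card_basis b
    simp only [Module.finrank_fintype_fun_eq_card, Fintype.card_sigma, Fintype.card_fin, Finset.sum_const, Finset.card_univ, smul_eq_mul] at this
    exact this.symm
  have hn2 : 2 ≤ Fintype.card (Fin n) := by simp only [Fintype.card_fin]; omega
  have hn1 : 1 ≤ Fintype.card (Fin n) := by simp only [Fintype.card_fin]; omega
  have hn4 : Fintype.card F ≠ 2 ∨ Fintype.card (Fin n) ≠ 4 := Or.inr (by simp only [Fintype.card_fin]; omega)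
  rcases hcase with ⟨rfl, h⟩ | ⟨rfl, h3⟩ | ⟨rfl, h2, hp⟩
  · rcases h with h3 | ⟨hp, h2 | h4 | h5⟩
    · by_cases hall : ∀ i, ¬ Cfsg.Geo.IsPlusTypeOn Q (D i)
      · exact Cfsg.Agent.Lib.Frame3.main2 hQ h3 hD hall (by omega) hn2
      · push Not at hall
        obtain ⟨i, hi⟩ := hall
        have hp : ∀ j, Cfsg.Geo.IsPlusTypeOn Q (D j) := by
          intro j
          obtain ⟨U, hUW, hUts, hUd⟩ := hi
          rw [hD.decomp.decomp.finrank_eq i] at hUd
          have hU0 : U ≠ ⊥ := by
            intro h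
            rw [h, finrank_bot] at hUd
            omega
          obtain ⟨s, hs, hs0⟩ := Submodule.exists_mem_ne_zero_of_ne_bot hU0
          obtain ⟨e, he⟩ := hD.isometric i j
          have hne : ((e ⟨s, hUW hs⟩ : D j) : Fin n → F) ≠ 0 := by
            intro h0
            have h1 : e ⟨s, hUW hs⟩ = 0 := Subtype.ext h0
            have h2 : (⟨s, hUW hs⟩ : D i) = 0 := by simpa using h1
            exact hs0 (congrArg Subtype.val h2)
          refine Cfsg.Agent.Lib.OrthSub2.plus_of_sing hQ (hD.decomp.decomp.finrank_eq j) (e ⟨s, hUW hs⟩).2 hne ?_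
          rw [he]
          exact hUts s hs
        refine Cfsg.Agent.Lib.FrameO2.plane_odd hQ (Cfsg.Agent.Lib.Frame3.two_ne h3) ?_ hD hp (by omega) hn2
        intro c hc
        have := Cfsg.Agent.Lib.Frame3.sq_one h3 hc
        calc c ^ 4 = (c ^ 2) ^ 2 := by ring
          _ = 1 := by rw [this]; ring
    · exact Cfsg.Agent.Lib.FrameO2b.char2_plane2 h2 hQ hn1 hn4 hD hp (by omega)
    · exact Cfsg.Agent.Lib.FrameO2b.char2_plane4 h4 hQ hn1 hn4 hD hp (by omega)
    · have h20 : (2 : F) ≠ 0 := by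
        intro h20
        have hc : ((Fintype.card F : ℕ) : F) = 0 := FiniteField.cast_card_eq_zero F
        rw [h5] at hc
        have h6 : (1 : F) = 0 := by
          have h7 : ((5 : ℕ) : F) = 5 := by norm_num
          rw [h7] at hc
          linear_combination hc - 2 * h20
        exact one_ne_zero h6
      refine Cfsg.Agent.Lib.FrameO2.plane_odd hQ h20 ?_ hD hp (by omega) hn2
      intro c hc
      have := FiniteField.pow_card_sub_one_eq_one c hc
      rwa [h5] at this
  · exact Cfsg.Agent.Lib.Frame3.main3 hQ h3 hD (by omega) hn2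
  · choose u₁ hu₁ u₂ hu₂ v₁ hv₁ v₂ hv₂ hQu₁ hQu₂ hQv₁ hQv₂ hu₁₂ hv₁₂ h11 h12 h21 h22 hc using fun i =>
      Cfsg.Agent.Lib.FrameO2b.four_block h2 hQ (hD.decomp.decomp.finrank_eq i) (hD.decomp.nondegenerate i) (hp i)
    exact Cfsg.Agent.Lib.FrameO2b.four_core h2 hQ hn1 hn4 (fun i j hij u hu v hv => hD.decomp.orthogonal i j hij u hu v hv)
      u₁ u₂ v₁ v₂ hu₁ hu₂ hv₁ hv₂ hQu₁ hQu₂ hQv₁ hQv₂ hu₁₂ hv₁₂ h11 h12 h21 h22 hc (by omega)

end Cfsg.Agent.S5693
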