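import Cfsg.Statements.S5697
import Cfsg.Agent.Lib.OrthSwap

set_option autoImplicit false
open Cfsg

namespace Cfsg.Agent.S5697

open Matrix Cfsg.Geo Cfsg.Agent.Lib.OrthOmega Cfsg.Agent.Lib.OrthSub2 Cfsg.Agent.Lib.OrthE Cfsg.Agent.Lib.OrthMax Cfsg.Agent.Lib.OrthLocal Cfsg.Agent.Lib.OrthSwap Cfsg.Agent.Lib.OrthPair

/-- Let F be a finite field with q elements, n ≥ 13 even, Q a non-degenerate quadratic form on F^n of plus type (some subspace of dimension n/2 is totally singular), and Ω the commutator subgroup of the isometry group of Q, viewed inside GL_n(F). Suppose n/2 is even and let D be a decomposition of F^n into two complementary subspaces of dimension n/2 on each of which Q vanishes. Then the elements of Ω preserving or interchanging the two subspaces form a maximal subgroup of Ω. -/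
theorem result {F : Type*} [Field F] [Fintype F] {n : ℕ} (hn : 13 ≤ n) (heven : Even n) (Q : (Fin n → F) → F) (hQ : Cfsg.Geo.IsNondegenerateQuadraticForm Q) (hplus : Cfsg.Geo.IsPlusTypeOn Q ⊤) (k : ℕ) (hk : 2 * k = n) (hke : Even k) (D : Fin 2 → Submodule F (Fin n → F)) (hD : Cfsg.Geo.IsMDecomposition k D) (hts : ∀ i, Cfsg.Geo.IsTotallySingularQuad Q (D i)) : Cfsg.Geo.IsMaximalIn (Cfsg.Geo.omegaGL Q) (Cfsg.Geo.decompositionStabilizer D ⊓ Cfsg.Geo.omegaGL Q) := by
  have hcard : Fintype.card (Fin n) = n := Fintype.card_fin n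
  have hn14 : 14 ≤ n := by
    obtain ⟨r, hr⟩ := heven
    omega
  have hn5 : 5 ≤ Fintype.card (Fin n) := by omega
  have hf0 := hD.finrank_eq 0
  have hf1 := hD.finrank_eq 1
  have hdisj := decomp_disjoint hD
  have hd₁ : 2 * Module.finrank F (D 0) = Fintype.card (Fin n) := by rw [hf0, hcard, hk]
  have hd₂ : 2 * Module.finrank F (D 1) = Fintype.card (Fin n) := by rw [hf1, hcard, hk]
  obtain ⟨s, hs, hs1, hs2⟩ := exists_swap hQ (hts 0) (hts 1) hd₁ hd₂ hdisj (by rw [hf0]; exact hke)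
  have hsΩ : s ∈ omegaGL Q := by
    rw [omega_eq hQ hn5]
    exact hs
  obtain ⟨t, ht, -, htH⟩ := exists_not_mem_decomp hQ hn5 hD hts (by rw [hcard, hk])
  refine pair_maximal hQ (hts 0) (hts 1) hd₁ hd₂ hdisj (by omega) _ inf_le_right ?_ ?_ hs1 hs2 ?_ ?_
  · intro a ha b hb hab
    refine ⟨decomp_mem_of_pres ?_ ?_, E_mem_comm hQ hn5 (hts 0 a ha) hab⟩
    · intro x hx
      rw [E_mulVec hQ (hts 0 a ha) hab, ts_perp hQ (hts 0) hx ha]
      have : x + (0 : F) • b - QuadraticMap.polar Q x b • a - (Q b * 0) • a = x - QuadraticMap.polar Q x b • a := by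
        module
      rw [this]
      exact (D 0).sub_mem hx ((D 0).smul_mem _ ha)
    · intro x hx
      rw [E_mulVec hQ (hts 0 a ha) hab, ts_perp hQ (hts 1) hx hb, hts 1 b hb]
      have : x + QuadraticMap.polar Q x a • b - (0 : F) • a - ((0 : F) * QuadraticMap.polar Q x a) • a = x + QuadraticMap.polar Q x a • b := by
        module
      rw [this]
      exact (D 1).add_mem hx ((D 1).smul_mem _ hb)
  · exact ⟨decomp_mem_of_swap (by rw [hf0, hf1]) hs1 hs2, hsΩ⟩
  · intro g hg hgH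
    by_contra hcon
    have hne : ∃ x ∈ D 0, x ≠ 0 := by
      refine Submodule.exists_mem_ne_zero_of_ne_bot ?_
      intro h
      rw [h, finrank_bot] at hf0
      omega
    have hne1 : ∃ x ∈ D 1, x ≠ 0 := by
      refine Submodule.exists_mem_ne_zero_of_ne_bot ?_
      intro h
      rw [h, finrank_bot] at hf1
      omega
    obtain ⟨x₀, hx₀, hx₀0⟩ := hne
    obtain ⟨x₁, hx₁, hx₁0⟩ := hne1
    have hdisj' : D 1 ⊓ D 0 = ⊥ := by rw [inf_comm]; exact hdisj
    have hcon1 : (¬ ∀ x ∈ D 0, (g : Matrix (Fin n) (Fin n) F) *ᵥ x ∈ D 0) → ∀ x ∈ D 0, (g : Matrix (Fin n) (Fin n) F) *ᵥ x ∈ D 1 := by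
      intro h
      by_contra h'
      exact hcon (Or.inl ⟨h, h'⟩)
    have hcon2 : (¬ ∀ x ∈ D 1, (g : Matrix (Fin n) (Fin n) F) *ᵥ x ∈ D 0) → ∀ x ∈ D 1, (g : Matrix (Fin n) (Fin n) F) *ᵥ x ∈ D 1 := by
      intro h
      by_contra h'
      exact hcon (Or.inr ⟨h, h'⟩)
    by_cases h00 : ∀ x ∈ D 0, (g : Matrix (Fin n) (Fin n) F) *ᵥ x ∈ D 0
    · by_cases h10 : ∀ x ∈ D 1, (g : Matrix (Fin n) (Fin n) F) *ᵥ x ∈ D 0
      · exact hx₁0 (not_both h00 h10 rfl hdisj hx₁)
      · exact hgH ⟨decomp_mem_of_pres h00 (hcon2 h10), hg⟩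
    · have h01 := hcon1 h00
      by_cases h10 : ∀ x ∈ D 1, (g : Matrix (Fin n) (Fin n) F) *ᵥ x ∈ D 0
      · exact hgH ⟨decomp_mem_of_swap (by rw [hf0, hf1]) h01 h10, hg⟩
      · exact hx₀0 (not_both (hcon2 h10) h01 rfl hdisj' hx₀)
  · exact ⟨t, ht, fun h => htH h.1⟩

end Cfsg.Agent.S5697
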