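import Cfsg.Statements.S5698
import Cfsg.Agent.Lib.OrthSwap

set_option autoImplicit false
open Cfsg

namespace Cfsg.Agent.S5698

open Matrix Cfsg.Geo Cfsg.Agent.Lib.OrthOmega Cfsg.Agent.Lib.OrthSub2 Cfsg.Agent.Lib.OrthE Cfsg.Agent.Lib.OrthMax Cfsg.Agent.Lib.OrthLocal Cfsg.Agent.Lib.OrthSwap Cfsg.Agent.Lib.OrthPair Cfsg.Agent.Lib.OrthFam

/-- Let F be a finite field with q elements, n ≥ 13 even, Q a non-degenerate quadratic form on F^n of plus type (some subspace of dimension n/2 is totally singular), and Ω the commutator subgroup of the isometry group of Q, viewed inside GL_n(F). Suppose n/2 is odd and let D be a decomposition of F^n into two complementary subspaces of dimension n/2 on each of which Q vanishes. Then the elements of Ω preserving or interchanging the two subspaces form a subgroup that is not maximal: some subgroup lies strictly between it and Ω. -/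
theorem result {F : Type*} [Field F] [Fintype F] {n : ℕ} (hn : 13 ≤ n) (heven : Even n) (Q : (Fin n → F) → F) (hQ : Cfsg.Geo.IsNondegenerateQuadraticForm Q) (hplus : Cfsg.Geo.IsPlusTypeOn Q ⊤) (k : ℕ) (hk : 2 * k = n) (hko : Odd k) (D : Fin 2 → Submodule F (Fin n → F)) (hD : Cfsg.Geo.IsMDecomposition k D) (hts : ∀ i, Cfsg.Geo.IsTotallySingularQuad Q (D i)) : ∃ K : Subgroup (Matrix.GeneralLinearGroup (Fin n) F), Cfsg.Geo.decompositionStabilizer D ⊓ Cfsg.Geo.omegaGL Q < K ∧ K < Cfsg.Geo.omegaGL Q := by
  have hcard : Fintype.card (Fin n) = n := Fintype.card_fin n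
  have hn5 : 5 ≤ Fintype.card (Fin n) := by omega
  have hf0 := hD.finrank_eq 0
  have hf1 := hD.finrank_eq 1
  have hdisj := decomp_disjoint hD
  have hd₁ : 2 * Module.finrank F (D 0) = Fintype.card (Fin n) := by rw [hf0, hcard, hk]
  have hne0 : D 0 ≠ ⊥ := by
    intro h
    rw [h, finrank_bot] at hf0
    omega
  obtain ⟨t, ht, htS, htH⟩ := exists_not_mem_decomp hQ hn5 hD hts (by rw [hcard, hk])
  refine ⟨subspaceStabilizer (D 0) ⊓ omegaGL Q, ?_, ?_⟩
  · refine lt_of_le_of_ne ?_ ?_
    · rintro g ⟨⟨σ, hσ⟩, hg⟩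
      refine ⟨?_, hg⟩
      by_cases h00 : σ 0 = 0
      · have hm := hσ 0
        rw [h00] at hm
        refine mem_stab_of_le fun v hv => ?_
        rw [← hm]
        exact ⟨v, hv, rfl⟩
      · exfalso
        have h1 : σ 0 = 1 := by
          have : ∀ x : Fin 2, x ≠ 0 → x = 1 := by decide
          exact this _ h00
        have hm : gm g (D 0) = D 1 := by
          have := hσ 0
          rw [h1] at this
          exact this
        have hpar := parity_omega hQ hn5 hg (hts 0) hd₁
        rw [hm, hdisj, finrank_bot, add_zero, hf0] at hpar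
        exact (Nat.not_even_iff_odd.mpr hko) hpar
    · intro heq
      have : t ∈ decompositionStabilizer D ⊓ omegaGL Q := by
        rw [heq]
        exact ⟨htS, ht⟩
      exact htH this.1
  · refine (parab_maximal hQ (by omega) (D 0) hne0 (hts 0) ?_).1
    intro U _ hU hU2
    omega

end Cfsg.Agent.S5698
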