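import Cfsg.Statements.S5699
import Cfsg.Agent.Lib.OrthSub2

set_option autoImplicit false
open Cfsg

namespace Cfsg.Agent.S5699

open Matrix Cfsg.Geo Cfsg.Agent.Lib.OrthOmega Cfsg.Agent.Lib.OrthSub2 Cfsg.Agent.Lib.OrthE Cfsg.Agent.Lib.OrthMax Cfsg.Agent.Lib.OrthLocal

/-- Let F be a finite field with q elements, n ≥ 13 even, Q a non-degenerate quadratic form on F^n (of either type), and Ω the commutator subgroup of the isometry group of Q, viewed inside GL_n(F). Let D be a decomposition of F^n into two orthogonal subspaces of odd dimension n/2 on which the polar form is non-degenerate and which are not Q-isometric to each other. Then the elements of Ω permuting (necessarily fixing) the two subspaces form a maximal subgroup of Ω. -/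
theorem result {F : Type*} [Field F] [Fintype F] {n : ℕ} (hn : 13 ≤ n) (heven : Even n) (Q : (Fin n → F) → F) (hQ : Cfsg.Geo.IsNondegenerateQuadraticForm Q) (k : ℕ) (hk : 2 * k = n) (hko : Odd k) (D : Fin 2 → Submodule F (Fin n → F)) (hD : Cfsg.Geo.IsNondegenerateMDecomposition (QuadraticMap.polar Q) k D) (hni : ¬ Cfsg.Geo.AreIsometricFor Q (D 0) (D 1)) : Cfsg.Geo.IsMaximalIn (Cfsg.Geo.omegaGL Q) (Cfsg.Geo.decompositionStabilizer D ⊓ Cfsg.Geo.omegaGL Q) := by
  have hW := hD.nondegenerate 0
  have hinf := nondeg_inf hQ hW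
  have hf0 : Module.finrank F (D 0) = k := hD.decomp.finrank_eq 0
  have hf1 : Module.finrank F (D 1) = k := hD.decomp.finrank_eq 1
  have hsum := finrank_perp hQ (D 0)
  rw [Fintype.card_fin] at hsum
  -- D 1 is the perp of D 0
  have hle : D 1 ≤ perp hQ (D 0) := fun x hx w hw => hD.orthogonal 0 1 (by decide) w hw x hx
  have hperp : D 1 = perp hQ (D 0) :=
    Submodule.eq_of_le_of_finrank_eq hle (by omega)
  have h00 : D 0 ≠ ⊥ := by
    intro h
    rw [h, finrank_bot] at hf0
    omega
  have h01 : D 0 ≠ ⊤ := by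
    intro h
    rw [h, finrank_top] at hf0
    simp at hf0
    omega
  have hmax := sub_maximal hQ (by simp; omega) (D 0) hW h00 h01 (Or.inr (by rwa [← hperp])) (by
    rintro ⟨-, h2, -⟩
    omega) (by
    rintro ⟨-, h2, -⟩
    omega)
  -- identify the subgroups
  have heq : decompositionStabilizer D ⊓ omegaGL Q = subspaceStabilizer (D 0) ⊓ omegaGL Q := by
    apply le_antisymm
    · rintro g ⟨⟨σ, hσ⟩, hg⟩
      refine ⟨?_, hg⟩
      have hgO := omega_le_O hg
      have hσ0 : σ 0 = 0 := by
        by_contra hne
        have h1 : σ 0 = 1 := by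
          have : ∀ x : Fin 2, x ≠ 0 → x = 1 := by decide
          exact this _ hne
        apply hni
        have hm := hσ 0
        rw [h1] at hm
        refine isometric_of_maps hgO (fun v hv => ?_) (by omega)
        rw [← hm]
        exact ⟨v, hv, rfl⟩
      have hm := hσ 0
      rw [hσ0] at hm
      refine mem_stab_of_le fun v hv => ?_
      rw [← hm]
      exact ⟨v, hv, rfl⟩
    · rintro g ⟨h1, hg⟩
      refine ⟨⟨1, fun i => ?_⟩, hg⟩
      show (D i).map (Matrix.toLin' (g : Matrix (Fin n) (Fin n) F)) = D i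
      have hmap : ∀ {W : Submodule F (Fin n → F)}, g ∈ subspaceStabilizer W → W.map (Matrix.toLin' (g : Matrix (Fin n) (Fin n) F)) = W := by
        intro W hgW
        have hle : W.map (Matrix.toLin' (g : Matrix (Fin n) (Fin n) F)) ≤ W := by
          rintro _ ⟨x, hx, rfl⟩
          exact ((mem_stab_iff W g).1 hgW x).1 hx
        refine Submodule.eq_of_le_of_finrank_eq hle ?_
        exact LinearEquiv.finrank_map_eq (glEquiv g) W
      have : ∀ i : Fin 2, i = 0 ∨ i = 1 := by decide
      rcases this i with rfl | rfl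
      · exact hmap h1
      · rw [hperp]
        exact hmap (stab_perp hQ (omega_le_O hg) h1)
  rw [heq]
  exact hmax

end Cfsg.Agent.S5699
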