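import Cfsg.Statements.S5944
-- import your own Cfsg.Agent.* helpers here

set_option autoImplicit false
open Cfsg

namespace Cfsg.Agent.S5944

/-- For n ≠ 4, every proper subgroup of the symmetric group S_n other than the alternating group A_n has index at least n. -/
theorem result (n : ℕ) (hn : n ≠ 4) (H : Subgroup (Equiv.Perm (Fin n))) (hH : H ≠ ⊤) (hA : H ≠ alternatingGroup (Fin n)) : n ≤ H.index := by
  classical
  by_contra hlt
  push Not at hlt
  have hidx : H.index ≠ 0 := Subgroup.index_ne_zero_of_finite
  have hone : H.index ≠ 1 := fun h1 => hH (Subgroup.index_eq_one.1 h1)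
  have hcard : Nat.card (Equiv.Perm (Fin n)) = n.factorial := by
    rw [Nat.card_eq_fintype_card, Fintype.card_perm, Fintype.card_fin]
  have final : alternatingGroup (Fin n) ≤ H → False := fun hle => by
    have hn2 : 2 ≤ n := by omega
    haveI : Nontrivial (Fin n) := Fin.nontrivial_iff_two_le.2 hn2
    have h2 : (alternatingGroup (Fin n)).index = 2 := alternatingGroup.index_eq_two
    have hdvd : H.index ∣ (alternatingGroup (Fin n)).index := Subgroup.index_dvd_of_le hle
    rw [h2] at hdvd
    have h3 : H.index = 2 := by
      have := Nat.le_of_dvd (by norm_num) hdvd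
      omega
    apply hA
    symm
    apply Subgroup.eq_of_le_of_card_ge hle
    have e1 := Subgroup.card_mul_index H
    have e2 := Subgroup.card_mul_index (alternatingGroup (Fin n))
    rw [h3] at e1
    rw [h2] at e2
    omega
  by_cases hk : H.index = 2
  · apply final
    haveI := Subgroup.normal_of_index_eq_two hk
    have hsq : ∀ g : Equiv.Perm (Fin n), g ^ 2 ∈ H := fun g => by
      have := Subgroup.pow_index_mem H g
      rwa [hk] at this
    rw [← Equiv.Perm.closure_three_cycles_eq_alternating, Subgroup.closure_le]
    intro c hc
    have hc3 : c ^ 3 = 1 := (Equiv.Perm.IsThreeCycle.orderOf hc) ▸ pow_orderOf_eq_one c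
    have e : c = (c ^ 2) ^ 2 := by
      rw [← pow_mul, show 2 * 2 = 3 + 1 by norm_num, pow_succ, hc3, one_mul]
    rw [e]
    exact hsq _
  · have h5 : 5 ≤ n := by omega
    apply final
    have hN : Nontrivial H.normalCore := by
      by_contra hb
      rw [not_nontrivial_iff_subsingleton] at hb
      have hb' : H.normalCore = ⊥ := Subgroup.eq_bot_of_subsingleton _
      rw [Subgroup.normalCore_eq_ker] at hb'
      have hinj : Function.Injective (MulAction.toPermHom (Equiv.Perm (Fin n)) (Equiv.Perm (Fin n) ⧸ H)) :=
        MonoidHom.ker_eq_bot_iff _ |>.1 hb'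
      have hle := Nat.card_le_card_of_injective _ hinj
      rw [hcard, Nat.card_perm] at hle
      have : (Nat.card (Equiv.Perm (Fin n) ⧸ H)) = H.index := rfl
      rw [this] at hle
      have hfac := (Nat.factorial_lt (by omega : 0 < H.index)).2 hlt
      omega
    have hle := Equiv.Perm.alternatingGroup_le_of_normal (α := Fin n) (N := H.normalCore) (by simpa using h5) hN
    exact hle.trans (Subgroup.normalCore_le H)


end Cfsg.Agent.S5944
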